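import Mathlib
import Cfsg.Agent.Lib.H03.MaxP
import Cfsg.Agent.Lib.H03.JordanN
import Cfsg.Agent.Lib.H13.Basic
import Cfsg.Agent.Lib.H01.Frobenius
import Cfsg.Agent.Lib.H06.FittingHall
import Cfsg.Agent.Lib.H06.Layer2
import Cfsg.Agent.Lib.H08.PCoreL

set_option autoImplicit false

namespace Cfsg.Agent.H03

open MulAction
open scoped Pointwise

/-- Dilatation lemma: a permutation of a linear space fixing two points and preserving each line
through any of its fixed points is the identity. -/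
theorem dilatation_fix {X : Type*} (L : Set (Set X)) (f : X → X)
    (hex : ∀ x y : X, x ≠ y → ∃ l ∈ L, x ∈ l ∧ y ∈ l)
    (huniq : ∀ l ∈ L, ∀ l' ∈ L, ∀ x y : X, x ≠ y → x ∈ l → y ∈ l → x ∈ l' → y ∈ l' → l = l')
    (hne : ∀ l ∈ L, ∃ z, z ∉ l)
    (hf : ∀ l ∈ L, ∀ z ∈ l, f z = z → ∀ w ∈ l, f w ∈ l)
    {x y : X} (hxy : x ≠ y) (hx : f x = x) (hy : f y = y) (z : X) : f z = z := by
  have step1 : ∀ u v w : X, u ≠ v → f u = u → f v = v → (∀ l ∈ L, u ∈ l → v ∈ l → w ∉ l) → f w = w := by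
    intro u v w huv hu hv hw
    by_contra hcon
    obtain ⟨l₀, hl₀, hul₀, hvl₀⟩ := hex u v huv
    have hwu : w ≠ u := by
      rintro rfl
      exact hw l₀ hl₀ hul₀ hvl₀ hul₀
    have hwv : w ≠ v := by
      rintro rfl
      exact hw l₀ hl₀ hul₀ hvl₀ hvl₀
    obtain ⟨l₁, hl₁, h1u, h1w⟩ := hex u w hwu.symm
    obtain ⟨l₂, hl₂, h2v, h2w⟩ := hex v w hwv.symm
    have h1f := hf l₁ hl₁ u h1u hu w h1w
    have h2f := hf l₂ hl₂ v h2v hv w h2w
    have heq := huniq l₁ hl₁ l₂ hl₂ w (f w) (Ne.symm hcon) h1w h1f h2w h2f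
    subst heq
    exact hw l₁ hl₁ h1u h2v h1w
  obtain ⟨l₀, hl₀, hxl, hyl⟩ := hex x y hxy
  obtain ⟨z₀, hz₀⟩ := hne l₀ hl₀
  have hoff : ∀ w, w ∉ l₀ → f w = w := by
    intro w hw
    apply step1 x y w hxy hx hy
    intro l hl h1 h2 h3
    have := huniq l hl l₀ hl₀ x y hxy h1 h2 hxl hyl
    subst this
    exact hw h3
  by_cases hzl : z ∈ l₀
  · by_cases hzx : z = x
    · rw [hzx, hx]
    have hxz₀ : x ≠ z₀ := by
      rintro rfl
      exact hz₀ hxl
    apply step1 x z₀ z hxz₀ hx (hoff z₀ hz₀)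
    intro l hl h1 h2 h3
    have := huniq l hl l₀ hl₀ x z (Ne.symm hzx) h1 h3 hxl hzl
    subst this
    exact hz₀ h2
  · exact hoff z hzl

section
variable {G X : Type*} [Group G] [MulAction G X] [FaithfulSMul G X] [Finite X]

/-- An imprimitive normal subgroup of a doubly transitive group has trivial two-point stabilisers. -/
theorem two_point_trivial (h2 : IsMultiplyPretransitive G X 2) (N : Subgroup G) [hNn : N.Normal]
    (B : Set X) (hB : IsBlock N B) (hBne : B ≠ Set.univ) (hBnt : B.Nontrivial)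
    (hmin : ∀ C : Set X, IsBlock N C → C.Nontrivial → B.ncard ≤ C.ncard)
    {x y : X} (hxy : x ≠ y) (n : G) (hn : n ∈ N) (hx : n • x = x) (hy : n • y = y) : n = 1 := by
  classical
  have h2' : ∀ {a b c d : X} (_ : a ≠ b) (_ : c ≠ d), ∃ g : G, g • a = c ∧ g • b = d :=
    is_two_pretransitive_iff.mp h2
  let L : Set (Set X) := Set.range (fun h : G => h • B)
  have hLblock : ∀ l ∈ L, IsBlock N l := by
    rintro _ ⟨h, rfl⟩
    have := IsBlock.of_subgroup_of_conjugate hB h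
    rwa [Cfsg.Agent.H13.map_conj_eq_of_normal] at this
  have hLcard : ∀ l ∈ L, l.ncard = B.ncard := by
    rintro _ ⟨h, rfl⟩
    exact Set.ncard_smul_set h B
  have hex : ∀ x y : X, x ≠ y → ∃ l ∈ L, x ∈ l ∧ y ∈ l := by
    intro x y hxy
    obtain ⟨d, hd, e, he, hde⟩ := hBnt
    obtain ⟨h, hh1, hh2⟩ := h2' hde hxy
    exact ⟨h • B, ⟨h, rfl⟩, ⟨d, hd, hh1⟩, ⟨e, he, hh2⟩⟩
  have huniq : ∀ l ∈ L, ∀ l' ∈ L, ∀ x y : X, x ≠ y → x ∈ l → y ∈ l → x ∈ l' → y ∈ l' → l = l' := by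
    intro l hl l' hl' x y hxy h1 h2 h3 h4
    have hblock := (hLblock l hl).inter (hLblock l' hl')
    have hnt : (l ∩ l').Nontrivial := ⟨x, ⟨h1, h3⟩, y, ⟨h2, h4⟩, hxy⟩
    have hc := hmin _ hblock hnt
    have e1 : l ∩ l' = l := Set.eq_of_subset_of_ncard_le Set.inter_subset_left (by rw [hLcard l hl]; exact hc)
    have e2 : l ∩ l' = l' := Set.eq_of_subset_of_ncard_le Set.inter_subset_right (by rw [hLcard l' hl']; exact hc)
    rw [← e1, e2]
  have hne : ∀ l ∈ L, ∃ z, z ∉ l := by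
    rintro _ ⟨h, rfl⟩
    by_contra hcon
    push Not at hcon
    apply hBne
    ext w
    simp only [Set.mem_univ, iff_true]
    obtain ⟨v, hv, hvw⟩ := hcon (h • w)
    have : v = w := smul_left_cancel h hvw
    rwa [← this]
  have hf : ∀ l ∈ L, ∀ z ∈ l, n • z = z → ∀ w ∈ l, n • w ∈ l := by
    intro l hl z hz hnz w hw
    have hbl := hLblock l hl
    rw [isBlock_iff_smul_eq_of_nonempty] at hbl
    have h1 : (⟨n, hn⟩ : N) • l = l := by
      apply hbl
      exact ⟨z, ⟨z, hz, hnz⟩, hz⟩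
    rw [← h1]
    exact ⟨w, hw, rfl⟩
  apply FaithfulSMul.eq_of_smul_eq_smul (α := X)
  intro z
  rw [one_smul]
  exact dilatation_fix L (fun z => n • z) hex huniq hne hf hxy hx hy z

/-- Simple groups are not Frobenius: -/
theorem simple_not_frob [Finite G] (N : Subgroup G) (hs : IsSimpleGroup N) [hNt : IsPretransitive N X] (a : X)
    (hnr : stabilizer N a ≠ ⊥) (hcard : 2 ≤ Nat.card X)
    (h : ∀ x y : X, x ≠ y → ∀ n : N, n • x = x → n • y = y → n = 1) : False := by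
  classical
  haveI : Fintype N := Fintype.ofFinite N
  haveI : Fintype (Cfsg.IrrCharacter N) := Fintype.ofFinite _
  have hne : stabilizer N a ≠ ⊤ := by
    intro htop
    haveI : Nontrivial X := Finite.one_lt_card_iff_nontrivial.mp (by omega)
    obtain ⟨y, hy⟩ := exists_ne a
    obtain ⟨n, hn⟩ := hNt.exists_smul_eq a y
    have : n ∈ stabilizer N a := by rw [htop]; trivial
    have h1 : n • a = a := this
    rw [h1] at hn
    exact hy hn.symm
  have hF : Cfsg.IsFrobeniusComplement (stabilizer N a) := by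
    refine ⟨hnr, hne, fun g hg => ?_⟩
    rw [eq_bot_iff]
    rintro x ⟨hx1, hx2⟩
    have hx1' : x • a = a := hx1
    have hga : g • a ≠ a := hg
    obtain ⟨y, hy, hyx⟩ := hx2
    have hy' : y • a = a := hy
    have hx3 : x • (g • a) = g • a := by
      have hyx' : g * y * g⁻¹ = x := hyx
      rw [← hyx', mul_smul, mul_smul, inv_smul_smul, hy']
    rw [Subgroup.mem_bot]
    exact h a (g • a) (Ne.symm hga) x hx1' hx3
  obtain ⟨K, _, hKn, hKc⟩ := H01.frobenius_theorem (stabilizer N a) hF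
  rcases hs.eq_bot_or_eq_top_of_normal K hKn with h1 | h1
  · apply hne
    rw [h1, Subgroup.isComplement'_bot_left] at hKc
    exact hKc
  · apply hnr
    rw [h1, Subgroup.isComplement'_top_left] at hKc
    exact hKc

/-- A simple, nonregular normal subgroup of a 2-transitive group is primitive. -/
theorem simple_primitive [Finite G] (h2 : IsMultiplyPretransitive G X 2) (N : Subgroup G) [hNn : N.Normal]
    (hs : IsSimpleGroup N) [hNt : IsPretransitive N X] (a : X)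
    (hnr : stabilizer N a ≠ ⊥) (hcard : 2 ≤ Nat.card X) : IsPreprimitive N X := by
  classical
  refine { isTrivialBlock_of_isBlock := ?_ }
  intro B₀ hB₀
  by_contra hcon
  -- choose a nontrivial block of minimal size
  let S : Set (Set X) := {C | IsBlock N C ∧ C.Nontrivial ∧ C ≠ Set.univ}
  have hB₀S : B₀ ∈ S := by
    refine ⟨hB₀, ?_, ?_⟩
    · rw [IsTrivialBlock, not_or] at hcon
      exact Set.not_subsingleton_iff.mp hcon.1
    · intro h
      exact hcon (Or.inr h)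
  obtain ⟨B, hBS, hBmin⟩ := Set.exists_min_image S (fun C => C.ncard) (Set.toFinite S) ⟨B₀, hB₀S⟩
  have hmin : ∀ C : Set X, IsBlock N C → C.Nontrivial → B.ncard ≤ C.ncard := by
    intro C hC hCnt
    by_cases hCu : C = Set.univ
    · rw [hCu]
      exact Set.ncard_le_ncard (Set.subset_univ _) (Set.toFinite _)
    · exact hBmin C ⟨hC, hCnt, hCu⟩
  refine simple_not_frob N hs a hnr hcard (fun x y hxy n hx hy => ?_)
  apply Subtype.ext
  exact two_point_trivial h2 N B hBS.1 hBS.2.2 hBS.2.1 hmin hxy (n : G) n.2 hx hy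

end

/-! ### minimal normal subgroups -/

section
variable {G X : Type*} [Group G] [Finite G]

/-- `T` is a minimal normal subgroup of `N`. -/
def MinN (N T : Subgroup G) : Prop :=
  T ≤ N ∧ (∀ n ∈ N, ∀ t ∈ T, n * t * n⁻¹ ∈ T) ∧ T ≠ ⊥ ∧
    ∀ U : Subgroup G, U ≤ T → (∀ n ∈ N, ∀ u ∈ U, n * u * n⁻¹ ∈ U) → U ≠ ⊥ → U = T

theorem exists_minN (N : Subgroup G) (hN : N ≠ ⊥) : ∃ T, MinN N T := by
  classical
  let S : Set (Subgroup G) := {T | T ≤ N ∧ (∀ n ∈ N, ∀ t ∈ T, n * t * n⁻¹ ∈ T) ∧ T ≠ ⊥}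
  have hNS : N ∈ S := ⟨le_rfl, fun n hn t ht => N.mul_mem (N.mul_mem hn ht) (N.inv_mem hn), hN⟩
  obtain ⟨T, hT, hTmin⟩ := Set.exists_min_image S (fun C => Nat.card C) (Set.toFinite S) ⟨N, hNS⟩
  refine ⟨T, hT.1, hT.2.1, hT.2.2, fun U hU hUn hUb => ?_⟩
  exact Subgroup.eq_of_le_of_card_ge hU (hTmin U ⟨hU.trans hT.1, hUn, hUb⟩)

theorem MinN.conj {N T : Subgroup G} [hNn : N.Normal] (h : MinN N T) (g : G) :
    MinN N (T.map (MulAut.conj g).toMonoidHom) := by
  obtain ⟨h1, h2, h3, h4⟩ := h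
  refine ⟨?_, ?_, ?_, ?_⟩
  · rintro _ ⟨t, ht, rfl⟩
    exact hNn.conj_mem t (h1 ht) g
  · rintro n hn _ ⟨t, ht, rfl⟩
    have hn' : g⁻¹ * n * g ∈ N := by simpa using hNn.conj_mem n hn g⁻¹
    refine ⟨(g⁻¹ * n * g) * t * (g⁻¹ * n * g)⁻¹, h2 _ hn' t ht, ?_⟩
    change g * ((g⁻¹ * n * g) * t * (g⁻¹ * n * g)⁻¹) * g⁻¹ = n * (g * t * g⁻¹) * n⁻¹
    group
  · intro hb
    apply h3
    rw [eq_bot_iff]
    intro t ht
    have : MulAut.conj g t ∈ T.map (MulAut.conj g).toMonoidHom := ⟨t, ht, rfl⟩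
    rw [hb, Subgroup.mem_bot] at this
    rw [Subgroup.mem_bot]
    exact (map_eq_one_iff _ (MulAut.conj g).injective).mp this
  · intro U hU hUn hUb
    have hle : U.map (MulAut.conj g⁻¹).toMonoidHom ≤ T := by
      rintro _ ⟨u, hu, rfl⟩
      obtain ⟨t, ht, htu⟩ := hU hu
      have htu' : g * t * g⁻¹ = u := htu
      change g⁻¹ * u * g⁻¹⁻¹ ∈ T
      rw [← htu']
      simpa [mul_assoc] using ht
    have hne : U.map (MulAut.conj g⁻¹).toMonoidHom ≠ ⊥ := by
      intro hb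
      apply hUb
      rw [eq_bot_iff]
      intro u hu
      have : MulAut.conj g⁻¹ u ∈ U.map (MulAut.conj g⁻¹).toMonoidHom := ⟨u, hu, rfl⟩
      rw [hb, Subgroup.mem_bot] at this
      rw [Subgroup.mem_bot]
      exact (map_eq_one_iff _ (MulAut.conj g⁻¹).injective).mp this
    have heq := h4 _ hle (by
      rintro n hn _ ⟨u, hu, rfl⟩
      have hn' : g * n * g⁻¹ ∈ N := hNn.conj_mem n hn g
      refine ⟨(g * n * g⁻¹) * u * (g * n * g⁻¹)⁻¹, hUn _ hn' u hu, ?_⟩
      change g⁻¹ * ((g * n * g⁻¹) * u * (g * n * g⁻¹)⁻¹) * g⁻¹⁻¹ = n * (g⁻¹ * u * g⁻¹⁻¹) * n⁻¹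
      group) hne
    rw [← heq]
    ext x
    constructor
    · intro hx
      refine ⟨g⁻¹ * x * g⁻¹⁻¹, ⟨x, hx, rfl⟩, ?_⟩
      change g * (g⁻¹ * x * g⁻¹⁻¹) * g⁻¹ = x
      group
    · rintro ⟨_, ⟨u, hu, rfl⟩, rfl⟩
      change g * (g⁻¹ * u * g⁻¹⁻¹) * g⁻¹ ∈ U
      simpa [mul_assoc] using hu

theorem MinN.comm {N T T' : Subgroup G} (h : MinN N T) (h' : MinN N T') (hne : T ≠ T') :
    ∀ t ∈ T, ∀ t' ∈ T', t * t' = t' * t := by
  obtain ⟨h1, h2, h3, h4⟩ := h
  obtain ⟨h1', h2', h3', h4'⟩ := h'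
  have hinf : T ⊓ T' = ⊥ := by
    by_contra hb
    have hU : ∀ n ∈ N, ∀ u ∈ T ⊓ T', n * u * n⁻¹ ∈ T ⊓ T' := fun n hn u hu =>
      ⟨h2 n hn u hu.1, h2' n hn u hu.2⟩
    have e1 := h4 _ inf_le_left hU hb
    have e2 := h4' _ inf_le_right hU hb
    exact hne (e1.symm.trans e2)
  intro t ht t' ht'
  have hc : t * t' * t⁻¹ * t'⁻¹ ∈ T ⊓ T' := by
    constructor
    · have : t' * t⁻¹ * t'⁻¹ ∈ T := h2 t' (h1' ht') _ (T.inv_mem ht)
      have h5 : t * t' * t⁻¹ * t'⁻¹ = t * (t' * t⁻¹ * t'⁻¹) := by group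
      rw [h5]
      exact T.mul_mem ht this
    · have : t * t' * t⁻¹ ∈ T' := h2' t (h1 ht) _ ht'
      exact T'.mul_mem this (T'.inv_mem ht')
  rw [hinf, Subgroup.mem_bot] at hc
  have h6 : t * t' * t⁻¹ = t' := by
    rw [mul_inv_eq_one] at hc
    exact hc
  rw [mul_inv_eq_iff_eq_mul] at h6
  exact h6

end

section
variable {G X : Type*} [Group G] [Finite G] [MulAction G X] [FaithfulSMul G X] [Finite X]

theorem exists_prime_nonregular (h2 : IsMultiplyPretransitive G X 2) (N : Subgroup G) [hNn : N.Normal]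
    (a : X) (hnr : stabilizer N a ≠ ⊥) :
    ∃ p : ℕ, p.Prime ∧ ¬ p ∣ Nat.card X ∧ p ∣ Nat.card N := by
  classical
  have h2' : ∀ {a b c d : X} (_ : a ≠ b) (_ : c ≠ d), ∃ g : G, g • a = c ∧ g • b = d :=
    is_two_pretransitive_iff.mp h2
  obtain ⟨⟨α, hα⟩, hα1⟩ := Subgroup.ne_bot_iff_exists_ne_one.mp hnr
  have hαa : (α : G) • a = a := hα
  have hα1' : (α : G) ≠ 1 := fun h => hα1 (Subtype.ext (Subtype.ext h))
  obtain ⟨c, hc⟩ : ∃ c : X, (α : G) • c ≠ c := by
    by_contra hcon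
    push Not at hcon
    apply hα1'
    apply FaithfulSMul.eq_of_smul_eq_smul (α := X)
    intro x
    rw [one_smul, hcon]
  have hca : c ≠ a := by
    rintro rfl
    exact hc hαa
  let A : Subgroup G := N ⊓ stabilizer G a
  have memA : ∀ g, g ∈ A ↔ g ∈ N ∧ g • a = a := fun g => by
    simp only [A, Subgroup.mem_inf, mem_stabilizer_iff]
  let Y : Set X := {a}ᶜ
  have hAY : ∀ g ∈ A, ∀ y ∈ Y, g • y ∈ Y := by
    intro g hg y hy
    have hg' := ((memA g).mp hg).2
    simp only [Y, Set.mem_compl_iff, Set.mem_singleton_iff] at hy ⊢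
    intro h
    exact hy (smul_left_cancel g (h.trans hg'.symm))
  have hconj : ∀ y ∈ Y, ∀ y' ∈ Y, ∃ g : G, g • y = y' ∧ ∀ x ∈ A, g * x * g⁻¹ ∈ A := by
    intro y hy y' hy'
    simp only [Y, Set.mem_compl_iff, Set.mem_singleton_iff] at hy hy'
    obtain ⟨g, hga, hgy⟩ := h2' (Ne.symm hy) (Ne.symm hy')
    refine ⟨g, hgy, fun x hx => ?_⟩
    obtain ⟨hxN, hxa⟩ := (memA x).mp hx
    rw [memA]
    refine ⟨hNn.conj_mem x hxN g, ?_⟩
    have hgi : g⁻¹ • a = a := by rw [inv_smul_eq_iff, hga]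
    rw [mul_smul, mul_smul, hgi, hxa, hga]
  have hcY : c ∈ Y := by simpa [Y] using hca
  have hdvd := ncard_orbit_dvd A Y hAY hconj hcY
  have hYc : ({a} : Set X).ncard + Y.ncard = Nat.card X := Set.ncard_add_ncard_compl _
  rw [Set.ncard_singleton] at hYc
  have hαA : (α : G) ∈ A := (memA _).mpr ⟨α.2, hαa⟩
  have hm1 : 1 < (orbit A c).ncard := by
    rw [Set.one_lt_ncard_iff_nontrivial]
    refine ⟨c, mem_orbit_self c, (α : G) • c, ⟨⟨α, hαA⟩, rfl⟩, Ne.symm hc⟩
  let p := (orbit A c).ncard.minFac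
  have hp : p.Prime := Nat.minFac_prime (by omega)
  have hpm : p ∣ (orbit A c).ncard := Nat.minFac_dvd _
  refine ⟨p, hp, ?_, ?_⟩
  · intro hpX
    have h1 : p ∣ Y.ncard := hpm.trans hdvd
    rw [← hYc] at hpX
    have h2 : p ∣ 1 := (Nat.dvd_add_iff_left h1).mpr hpX
    exact hp.one_lt.ne' (Nat.dvd_one.mp h2)
  · have h1 : (stabilizer A c).index = (orbit A c).ncard := index_stabilizer A c
    have h2 : (orbit A c).ncard ∣ Nat.card A := by
      rw [← h1]
      exact Subgroup.index_dvd_card _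
    have h3 : Nat.card A ∣ Nat.card N := Subgroup.card_dvd_of_le inf_le_left
    exact hpm.trans (h2.trans h3)

theorem exists_fix_of_prime (N T : Subgroup G) (hT : MinN N T) [hNn : N.Normal]
    (hnmin : ∀ M : Subgroup G, M.Normal → M ≤ N → M = ⊥ ∨ M = N) [hNt : IsPretransitive N X]
    {p : ℕ} (hp : p.Prime) (hpX : ¬ p ∣ Nat.card X) (hpN : p ∣ Nat.card N) (a : X) :
    ∃ α ∈ T, α ≠ 1 ∧ α • a = a := by
  classical
  haveI : Fact p.Prime := ⟨hp⟩
  have hpT : p ∣ Nat.card T := by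
    by_contra hnd
    haveI : (Cfsg.pPrimeCore p N).Characteristic := H06.pPrimeCore_characteristic N p
    let C : Subgroup G := (Cfsg.pPrimeCore p N).map N.subtype
    have hCn : C.Normal := by
      change ((Cfsg.pPrimeCore p N).map N.subtype).Normal
      infer_instance
    have hTnormal : (T.subgroupOf N).Normal := by
      refine ⟨fun x hx g => ?_⟩
      rw [Subgroup.mem_subgroupOf] at hx ⊢
      exact hT.2.1 g g.2 x hx
    have hcop : (Nat.card (T.subgroupOf N)).Coprime p := by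
      rw [Nat.card_congr (Subgroup.subgroupOfEquivOfLe hT.1).toEquiv]
      exact ((Nat.Prime.coprime_iff_not_dvd hp).mpr hnd).symm
    have hle := H08.le_pPrimeCore hTnormal hcop
    have hTC : T ≤ C := by
      intro t ht
      refine ⟨⟨t, hT.1 ht⟩, hle ?_, rfl⟩
      rw [Subgroup.mem_subgroupOf]
      exact ht
    have hCN : C ≤ N := by
      rintro _ ⟨x, _, rfl⟩
      exact x.2
    have hCb : C ≠ ⊥ := by
      intro h
      apply hT.2.2.1
      rw [eq_bot_iff, ← h]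
      exact hTC
    rcases hnmin C hCn hCN with h | h
    · exact hCb h
    · have h1 : Nat.card C = Nat.card (Cfsg.pPrimeCore p N) :=
        Subgroup.card_map_of_injective N.subtype_injective
      have h2 := H06.coprime_card_pPrimeCore (G := N) p
      rw [← h1, h] at h2
      exact (Nat.Prime.coprime_iff_not_dvd hp).mp h2.symm hpN
  obtain ⟨x, hx⟩ := exists_prime_orderOf_dvd_card' p hpT
  have hxG : orderOf (x : G) = p := by rw [Subgroup.orderOf_coe, hx]
  have hzp : IsPGroup p (Subgroup.zpowers (x : G)) := by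
    rw [IsPGroup.iff_card]
    exact ⟨1, by rw [Nat.card_zpowers, hxG, pow_one]⟩
  obtain ⟨y, _, hy⟩ := exists_fixed_of_not_dvd (Subgroup.zpowers (x : G)) hzp (Set.univ : Set X)
    (fun _ _ _ _ => Set.mem_univ _) (by rwa [Set.ncard_univ])
  have hxy : (x : G) • y = y := hy _ (Subgroup.mem_zpowers _)
  obtain ⟨n, hn⟩ := hNt.exists_smul_eq y a
  have hn' : (n : G) • y = a := hn
  refine ⟨n * x * (n : G)⁻¹, hT.2.1 n n.2 x x.2, ?_, ?_⟩
  · intro h
    have h1 : (x : G) = 1 := by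
      rw [mul_inv_eq_one] at h
      exact mul_left_cancel (a := (n : G)) (by rw [h, mul_one])
    rw [← hxG, h1, orderOf_one] at hp
    exact Nat.not_prime_one hp
  · rw [← hn', mul_smul, mul_smul, inv_smul_smul, hxy]

theorem exists_moved (N T : Subgroup G) (hT : MinN N T) [hNn : N.Normal] [hNt : IsPretransitive N X]
    (hcl : N ≤ Subgroup.normalClosure (T : Set G)) (a : X) (hA : ∃ α ∈ T, α ≠ 1 ∧ α • a = a) :
    ∃ t ∈ T, ∃ α ∈ T, α • a = a ∧ α • (t • a) ≠ t • a := by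
  classical
  by_contra hcon
  push Not at hcon
  let Fx : Set X := {y | ∀ α ∈ T, α • a = a → α • y = y}
  have hpres : ∀ h : G, ∀ x ∈ T.map (MulAut.conj h).toMonoidHom, ∀ y ∈ Fx, x • y ∈ Fx := by
    intro h x hx y hy α hα hαa
    by_cases hTh : T.map (MulAut.conj h).toMonoidHom = T
    · rw [hTh] at hx
      have h1 := hcon x hx α hα hαa
      have h2 : x⁻¹ * α * x ∈ T := T.mul_mem (T.mul_mem (T.inv_mem hx) hα) hx
      have h3 : (x⁻¹ * α * x) • a = a := by
        rw [mul_smul, mul_smul, h1, inv_smul_smul]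
      have h4 := hy _ h2 h3
      rw [mul_smul, mul_smul] at h4
      exact inv_smul_eq_iff.mp h4
    · have hc := MinN.comm (hT.conj h) hT hTh x hx α hα
      rw [← mul_smul, ← hc, mul_smul, hy α hα hαa]
  have hle : Subgroup.normalClosure (T : Set G) ≤ stabilizer G Fx := by
    rw [Subgroup.normalClosure, Subgroup.closure_le]
    intro x hx
    obtain ⟨t, ht, hconj⟩ := Group.mem_conjugatesOfSet_iff.mp hx
    obtain ⟨c, hc⟩ := isConj_iff.mp hconj
    have hxmem : x ∈ T.map (MulAut.conj c).toMonoidHom := ⟨t, ht, hc⟩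
    rw [SetLike.mem_coe, mem_stabilizer_iff]
    apply le_antisymm
    · rintro _ ⟨y, hy, rfl⟩
      exact hpres c x hxmem y hy
    · intro y hy
      exact ⟨x⁻¹ • y, hpres c _ (Subgroup.inv_mem _ hxmem) y hy, by simp⟩
  have haFx : a ∈ Fx := fun α _ h => h
  have hall : ∀ y, y ∈ Fx := by
    intro y
    obtain ⟨n, hn⟩ := hNt.exists_smul_eq a y
    have h1 : (n : G) ∈ stabilizer G Fx := hle (hcl n.2)
    rw [mem_stabilizer_iff] at h1
    rw [← hn, ← h1]
    exact ⟨a, haFx, rfl⟩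
  obtain ⟨α, hα, hα1, hαa⟩ := hA
  apply hα1
  apply FaithfulSMul.eq_of_smul_eq_smul (α := X)
  intro x
  rw [one_smul]
  exact hall x α hα hαa

theorem normalClosure_eq (N T : Subgroup G) (hT : MinN N T) [hNn : N.Normal]
    (hnmin : ∀ M : Subgroup G, M.Normal → M ≤ N → M = ⊥ ∨ M = N) :
    N ≤ Subgroup.normalClosure (T : Set G) := by
  have h1 : Subgroup.normalClosure (T : Set G) ≤ N := Subgroup.normalClosure_le_normal hT.1
  have h3 : (T : Set G) ⊆ Subgroup.normalClosure (T : Set G) := Subgroup.subset_normalClosure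
  rcases hnmin _ Subgroup.normalClosure_normal h1 with h | h
  · exfalso
    apply hT.2.2.1
    rw [eq_bot_iff]
    intro t ht
    have := h3 ht
    rwa [SetLike.mem_coe, h] at this
  · rw [h]

theorem minN_conj_eq (h2 : IsMultiplyPretransitive G X 2) (N T : Subgroup G) (hT : MinN N T) [hNn : N.Normal]
    (hnmin : ∀ M : Subgroup G, M.Normal → M ≤ N → M = ⊥ ∨ M = N) [hNt : IsPretransitive N X]
    {p : ℕ} (hp : p.Prime) (hpX : ¬ p ∣ Nat.card X) (hpN : p ∣ Nat.card N) (a : X) (g : G) :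
    T.map (MulAut.conj g).toMonoidHom = T := by
  classical
  by_contra hne
  have h2' : ∀ {a b c d : X} (_ : a ≠ b) (_ : c ≠ d), ∃ g : G, g • a = c ∧ g • b = d :=
    is_two_pretransitive_iff.mp h2
  have hT' := hT.conj g
  set T' := T.map (MulAut.conj g).toMonoidHom with hT'def
  have hcomm := MinN.comm hT hT' (Ne.symm hne)
  obtain ⟨t, ht, α, hα, hαa, hαx⟩ := exists_moved N T hT (normalClosure_eq N T hT hnmin) a
    (exists_fix_of_prime N T hT hnmin hp hpX hpN a)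
  obtain ⟨t', ht', α', hα', hαa', hαx'⟩ := exists_moved N T' hT' (normalClosure_eq N T' hT' hnmin) a
    (exists_fix_of_prime N T' hT' hnmin hp hpX hpN a)
  -- the points
  obtain ⟨x, hxdef⟩ : ∃ x, x = t • a := ⟨_, rfl⟩
  obtain ⟨y, hydef⟩ : ∃ y, y = t' • x := ⟨_, rfl⟩
  have hαx2 : α • x ≠ x := by rw [hxdef]; exact hαx
  have hαy : α • y ≠ y := by
    intro h
    apply hαx2
    rw [hydef, ← mul_smul, hcomm α hα t' ht', mul_smul] at h
    exact smul_left_cancel t' h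
  have hyalt : y = t • (t' • a) := by
    rw [hydef, hxdef, ← mul_smul, ← mul_smul, hcomm t ht t' ht']
  have hα'y : α' • y ≠ y := by
    intro h
    apply hαx'
    rw [hyalt, ← mul_smul, ← hcomm t ht α' hα', mul_smul] at h
    exact smul_left_cancel t h
  have hxa : a ≠ x := by
    intro h
    apply hαx2
    rw [← h, hαa]
  have hya : a ≠ y := by
    intro h
    apply hαy
    rw [← h, hαa]
  obtain ⟨g₀, hg₀a, hg₀x⟩ := h2' hxa hya
  have hg₀ia : g₀⁻¹ • a = a := by rw [inv_smul_eq_iff, hg₀a]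
  -- general step
  have step : ∀ (S : Subgroup G), MinN N S → ∀ β ∈ S, β • a = a → β • y ≠ y →
      S.map (MulAut.conj g₀⁻¹).toMonoidHom = T := by
    intro S hS β hβ hβa hβy
    by_contra hSne
    have hc := MinN.comm (hS.conj g₀⁻¹) hT hSne
    have hβ1 : g₀⁻¹ * β * g₀⁻¹⁻¹ ∈ S.map (MulAut.conj g₀⁻¹).toMonoidHom := ⟨β, hβ, rfl⟩
    have h1 : (g₀⁻¹ * β * g₀⁻¹⁻¹) • a = a := by
      rw [inv_inv, mul_smul, mul_smul, hg₀a, hβa, hg₀ia]
    have h3 : (g₀⁻¹ * β * g₀⁻¹⁻¹) • x = x := by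
      rw [hxdef, ← mul_smul, hc _ hβ1 t ht, mul_smul, h1]
    apply hβy
    rw [inv_inv, mul_smul, mul_smul, hg₀x, inv_smul_eq_iff, hg₀x] at h3
    exact h3
  have e1 := step T hT α hα hαa hαy
  have e2 := step T' hT' α' hα' hαa' hα'y
  apply hne
  have := e2.trans e1.symm
  exact Subgroup.map_injective (MulAut.conj g₀⁻¹).injective this

theorem burnside_two_trans (h2 : IsMultiplyPretransitive G X 2) (N : Subgroup G) [hNn : N.Normal]
    (hN : N ≠ ⊥) (hnmin : ∀ M : Subgroup G, M.Normal → M ≤ N → M = ⊥ ∨ M = N) :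
    (IsMulCommutative N ∧ (∃ p : ℕ, p.Prime ∧ ∀ n ∈ N, n ^ p = 1) ∧ ∀ a : X, stabilizer N a = ⊥) ∨
      (IsSimpleGroup N ∧ IsPreprimitive N X) := by
  classical
  haveI hNt : IsPretransitive N X := isPretransitive_normal_of_prim (isPreprimitive_of_is_two_pretransitive h2) N hN
  obtain ⟨⟨n₀, hn₀⟩, hn₀2⟩ := Subgroup.ne_bot_iff_exists_ne_one.mp hN
  have hn₀1 : n₀ ≠ 1 := fun h => hn₀2 (Subtype.ext h)
  obtain ⟨c, hc⟩ : ∃ c : X, n₀ • c ≠ c := by
    by_contra hcon
    push Not at hcon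
    apply hn₀1
    apply FaithfulSMul.eq_of_smul_eq_smul (α := X)
    intro x
    rw [one_smul, hcon]
  have hcard : 2 ≤ Nat.card X := by
    haveI : Nontrivial X := ⟨⟨_, _, hc⟩⟩
    exact Finite.one_lt_card
  by_cases hreg : ∃ a : X, stabilizer N a = ⊥
  · left
    obtain ⟨a, ha⟩ := hreg
    have hreg' : ∀ x : X, stabilizer N x = ⊥ := by
      intro x
      obtain ⟨h, hh⟩ := hNt.exists_smul_eq x a
      rw [eq_bot_iff]
      intro n hn
      rw [Subgroup.mem_bot]
      have hn' : n • x = x := hn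
      have h1 : h * n * h⁻¹ ∈ stabilizer N a := by
        change (h * n * h⁻¹) • a = a
        rw [← hh, mul_smul, mul_smul, inv_smul_smul, hn']
      rw [ha, Subgroup.mem_bot, mul_inv_eq_one] at h1
      exact mul_left_cancel (a := h) (by rw [h1, mul_one])
    obtain ⟨p, hp, hc2, hexp, _⟩ := regular_normal_of_two_trans hcard h2 N hNt hreg'
    exact ⟨hc2, ⟨p, hp, hexp⟩, hreg'⟩
  · right
    push Not at hreg
    obtain ⟨T, hT⟩ := exists_minN N hN
    obtain ⟨p, hp, hpX, hpN⟩ := exists_prime_nonregular h2 N c (hreg c)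
    have hTn : T.Normal := by
      refine ⟨fun x hx g => ?_⟩
      have := minN_conj_eq h2 N T hT hnmin hp hpX hpN c g
      rw [← this]
      exact ⟨x, hx, rfl⟩
    have hTN : T = N := by
      rcases hnmin T hTn hT.1 with h | h
      · exact absurd h hT.2.2.1
      · exact h
    subst hTN
    have hs : IsSimpleGroup T := by
      haveI : Nontrivial T := by
        refine ⟨⟨⟨n₀, hn₀⟩, 1, fun h => hn₀1 (congrArg Subtype.val h)⟩⟩
      refine ⟨fun U hU => ?_⟩
      by_cases hUb : U = ⊥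
      · exact Or.inl hUb
      right
      have h1 := hT.2.2.2 (U.map T.subtype) (by
        rintro _ ⟨x, _, rfl⟩
        exact x.2) (by
        rintro n hn _ ⟨u, hu, rfl⟩
        exact ⟨⟨n, hn⟩ * u * (⟨n, hn⟩ : T)⁻¹, hU.conj_mem u hu _, rfl⟩) (by
        intro h
        apply hUb
        exact (Subgroup.map_eq_bot_iff_of_injective _ T.subtype_injective).mp h)
      rw [eq_top_iff]
      intro x _
      have : (x : G) ∈ U.map T.subtype := by rw [h1]; exact x.2
      obtain ⟨u, hu, huv⟩ := this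
      have : u = x := Subtype.ext huv
      rwa [← this]
    exact ⟨hs, simple_primitive h2 T hs c (hreg c) hcard⟩

end

end Cfsg.Agent.H03
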