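import Mathlib
import Cfsg.Agent.Lib.H03.Metacyclic

set_option autoImplicit false

namespace Cfsg.Agent.H03.CycMax

variable {G : Type*} [Group G] [Finite G] {p : ℕ} [hp : Fact p.Prime]

/-- Setup for a `p`-group with a cyclic maximal subgroup. -/
theorem cyc_setup {n : ℕ} (hn : 1 ≤ n) (hG : Nat.card G = p ^ n) (C : Subgroup G)
    (hC : IsCyclic C) (hCi : C.index = p) (hna : ∃ x y : G, x * y ≠ y * x) :
    ∃ (a x : G) (r : ℕ), Subgroup.zpowers a = C ∧ orderOf a = p ^ (n - 1) ∧ x ∉ C ∧ C.Normal ∧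
      x * a * x⁻¹ = a ^ r ∧ ¬ (r ≡ 1 [MOD p ^ (n - 1)]) ∧ x ^ p ∈ C := by
  have hpp : p.Prime := hp.out
  have hnorm : C.Normal := by
    apply Subgroup.normal_of_index_eq_minFac_card
    rw [hCi, hG, Nat.Prime.pow_minFac hpp (by omega)]
  obtain ⟨⟨a, ha⟩, hgen⟩ := hC.exists_generator
  have hza : Subgroup.zpowers a = C := by
    apply le_antisymm
    · rw [Subgroup.zpowers_le]; exact ha
    · intro y hy
      obtain ⟨k, hk⟩ := hgen ⟨y, hy⟩
      have := congrArg Subtype.val hk
      simp only [SubgroupClass.coe_zpow] at this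
      exact ⟨k, this⟩
  have hcard : Nat.card C * p = p ^ n := by
    have := C.card_mul_index
    rw [hCi, hG] at this
    exact this
  have hCc : Nat.card C = p ^ (n - 1) := by
    obtain ⟨m, rfl⟩ : ∃ m, n = m + 1 := ⟨n - 1, by omega⟩
    simp only [Nat.add_sub_cancel]
    rw [pow_succ] at hcard
    exact Nat.eq_of_mul_eq_mul_right hpp.pos hcard
  have hord : orderOf a = p ^ (n - 1) := by
    rw [← Nat.card_zpowers, hza, hCc]
  -- `x ∉ C`
  have hne : C ≠ ⊤ := by
    intro h
    rw [h, Subgroup.index_top] at hCi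
    exact hpp.one_lt.ne hCi
  obtain ⟨x, hx⟩ : ∃ x : G, x ∉ C := by
    by_contra hcon
    push Not at hcon
    exact hne (eq_top_iff.2 fun y _ => hcon y)
  -- `C ⊔ ⟨x⟩ = ⊤`
  have htop : Subgroup.closure ({a, x} : Set G) = ⊤ := by
    set K := Subgroup.closure ({a, x} : Set G) with hK
    have h1 : C ≤ K := by
      rw [← hza, Subgroup.zpowers_le]
      exact Subgroup.subset_closure (by simp)
    have h2 : x ∈ K := Subgroup.subset_closure (by simp)
    have h3 := Subgroup.relIndex_mul_index h1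
    rw [hCi] at h3
    have h4 : K.index ∣ p := ⟨_, by rw [← h3, mul_comm]⟩
    rcases (Nat.dvd_prime hpp).1 h4 with h5 | h5
    · exact Subgroup.index_eq_one.1 h5
    · exfalso
      rw [h5] at h3
      have h6 : C.relIndex K = 1 := by
        have : C.relIndex K * p = 1 * p := by rw [h3, one_mul]
        exact Nat.eq_of_mul_eq_mul_right hpp.pos this
      have h7 := Subgroup.relIndex_eq_one.1 h6
      exact hx (h7 h2)
  refine ⟨a, x, ?_⟩
  have hmem : x * a * x⁻¹ ∈ Subgroup.zpowers a := by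
    rw [hza]
    apply hnorm.conj_mem
    rw [← hza]
    exact Subgroup.mem_zpowers a
  rw [← mem_powers_iff_mem_zpowers] at hmem
  obtain ⟨r, hr0⟩ := hmem
  have hr : a ^ r = x * a * x⁻¹ := hr0
  refine ⟨r, hza, hord, hx, hnorm, hr.symm, ?_, ?_⟩
  · intro hmod
    obtain ⟨u, v, huv⟩ := hna
    apply huv
    have hax : x * a * x⁻¹ = a := by
      rw [← hr]
      have : a ^ r = a ^ 1 := by
        rw [pow_eq_pow_iff_modEq, hord]
        exact hmod
      rw [this, pow_one]
    have hcomm : ∀ y ∈ ({a, x} : Set G), ∀ z ∈ ({a, x} : Set G), y * z = z * y := by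
      have hax' : x * a = a * x := by
        calc x * a = x * a * x⁻¹ * x := by group
          _ = a * x := by rw [hax]
      intro y hy z hz
      simp only [Set.mem_insert_iff, Set.mem_singleton_iff] at hy hz
      rcases hy with rfl | rfl <;> rcases hz with rfl | rfl
      · rfl
      · exact hax'.symm
      · exact hax'
      · rfl
    letI := Subgroup.closureCommGroupOfComm hcomm
    have hu : u ∈ Subgroup.closure ({a, x} : Set G) := by rw [htop]; trivial
    have hv : v ∈ Subgroup.closure ({a, x} : Set G) := by rw [htop]; trivial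
    have := mul_comm (⟨u, hu⟩ : Subgroup.closure ({a, x} : Set G)) ⟨v, hv⟩
    exact congrArg Subtype.val this
  · have := Subgroup.pow_index_mem C x
    rwa [hCi] at this

/-- conjugation by powers of `x` -/
theorem conj_pow_pow {a x : G} {r : ℕ} (h : x * a * x⁻¹ = a ^ r) (m : ℕ) :
    x ^ m * a * (x ^ m)⁻¹ = a ^ (r ^ m) := by
  induction m with
  | zero => simp
  | succ m ih =>
    rw [pow_succ', pow_succ]
    calc x * x ^ m * a * (x * x ^ m)⁻¹ = x * (x ^ m * a * (x ^ m)⁻¹) * x⁻¹ := by group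
      _ = x * a ^ r ^ m * x⁻¹ := by rw [ih]
      _ = a ^ (r ^ m * r) := conj_pow_eq h _

/-- Elements of the coset keep the same action. -/
theorem conj_mul_coset {a x : G} {r : ℕ} (h : x * a * x⁻¹ = a ^ r) (u : ℕ) :
    (a ^ u * x) * a * (a ^ u * x)⁻¹ = a ^ r := by
  calc (a ^ u * x) * a * (a ^ u * x)⁻¹ = a ^ u * (x * a * x⁻¹) * (a ^ u)⁻¹ := by group
    _ = a ^ u * a ^ r * (a ^ u)⁻¹ := by rw [h]
    _ = a ^ r := by
      rw [← pow_add, add_comm, pow_add]
      group

/-- `x ^ p = a ^ s` together with `x a x⁻¹ = a ^ r` forces `a ^ (s * r) = a ^ s`. -/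
theorem fixed_power {a x : G} {r s : ℕ} (h : x * a * x⁻¹ = a ^ r) {m : ℕ} (hs : x ^ m = a ^ s) :
    a ^ (s * r) = a ^ s := by
  rw [← conj_pow_eq h, ← hs]
  calc x * x ^ m * x⁻¹ = x ^ (m + 1) * x⁻¹ := by rw [pow_succ']
    _ = x ^ m := by rw [pow_succ]; group

end Cfsg.Agent.H03.CycMax
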