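import Mathlib
import Cfsg.Agent.Lib.H09.Dick13

/-! Tools for Dickson's lemma on two transvections. -/

set_option autoImplicit false
set_option linter.style.haveILetI false
set_option linter.unusedSectionVars false
set_option linter.unusedSimpArgs false
set_option linter.unusedVariables false

namespace Cfsg.Agent.H03.DL

open scoped LinearAlgebra.Projectivization MatrixGroups
open Cfsg.Agent.H09.Dick
open Cfsg.Agent.H27.DC Cfsg.Agent.H11.SL2X
open Cfsg.Agent.H14 (e00 e01 e10 e11 trc sl_det e00_mul e01_mul e10_mul e11_mul e00_inv e01_inv e10_inv e11_inv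
  e00_one e01_one e10_one e11_one)
open Cfsg.Agent.Lead.DicksonSL (xE yE xE_add yE_add xE_zero yE_zero e00_xE e01_xE e10_xE e11_xE
  e00_yE e01_yE e10_yE e11_yE xE_pow yE_pow)

section gen

variable {F : Type*} [Field F]

lemma top_of_all (G : Subgroup SL(2, F)) (hx : ∀ s, xE s ∈ G) (hy : ∀ s, yE s ∈ G) : G = ⊤ := by
  have key : ∀ g : SL(2, F), e10 g ≠ 0 → g ∈ G := by
    intro g hc
    have e : g = xE ((e00 g - 1) / e10 g) * yE (e10 g) * xE ((e11 g - 1) / e10 g) := by
      have hd := sl_det g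
      apply Cfsg.Agent.H14.sl_ext
      · simp only [e00_mul, e01_mul, e10_mul, e11_mul, e00_xE, e01_xE, e10_xE, e11_xE, e00_yE, e01_yE, e10_yE, e11_yE]
        field_simp
        ring
      · simp only [e00_mul, e01_mul, e10_mul, e11_mul, e00_xE, e01_xE, e10_xE, e11_xE, e00_yE, e01_yE, e10_yE, e11_yE]
        field_simp
        linear_combination -hd
      · simp only [e00_mul, e01_mul, e10_mul, e11_mul, e00_xE, e01_xE, e10_xE, e11_xE, e00_yE, e01_yE, e10_yE, e11_yE]
        ring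
      · simp only [e00_mul, e01_mul, e10_mul, e11_mul, e00_xE, e01_xE, e10_xE, e11_xE, e00_yE, e01_yE, e10_yE, e11_yE]
        field_simp
        ring
    rw [e]
    exact G.mul_mem (G.mul_mem (hx _) (hy _)) (hx _)
  rw [eq_top_iff]
  intro g _
  by_cases hc : e10 g = 0
  · have hd := sl_det g
    rw [hc, mul_zero, sub_zero] at hd
    have ha : e00 g ≠ 0 := left_ne_zero_of_mul_eq_one hd
    have h1 : e10 (yE 1 * g) ≠ 0 := by
      rw [e10_mul, e10_yE, e11_yE, hc]
      simpa using ha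
    have h2 := key _ h1
    have h3 := G.mul_mem (G.inv_mem (hy 1)) h2
    rwa [inv_mul_cancel_left] at h3
  · exact key g hc

lemma four_le {P : F → Prop} {a b c d : F} (ha : P a) (hb : P b) (hc : P c) (hd : P d) (h1 : a ≠ b) (h2 : a ≠ c)
    (h3 : a ≠ d) (h4 : b ≠ c) (h5 : b ≠ d) (h6 : c ≠ d) [Finite F] : 4 ≤ Nat.card {x // P x} := by
  let f : Fin 4 → {x // P x} := ![⟨a, ha⟩, ⟨b, hb⟩, ⟨c, hc⟩, ⟨d, hd⟩]
  have hf : Function.Injective f := by
    intro i j hij
    have := congrArg Subtype.val hij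
    fin_cases i <;> fin_cases j <;> first | rfl | (exfalso; simp [f] at this; first | exact h1 this | exact h2 this | exact h3 this | exact h4 this | exact h5 this | exact h6 this | exact h1 this.symm | exact h2 this.symm | exact h3 this.symm | exact h4 this.symm | exact h5 this.symm | exact h6 this.symm)
  have := Nat.card_le_card_of_injective f hf
  simpa using this

end gen

section four

variable {F : Type*} [Field F] [Fintype F]

theorem top_of_four (L : Subgroup SL(2, F)) (h4 : 4 ≤ Nat.card {a : F // xE a ∈ L}) {lam : F} (hlam : lam ≠ 0)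
    (hgen : Subfield.closure ({lam} : Set F) = ⊤) (hx : xE lam ∈ L) (hy : yE (1 : F) ∈ L) : L = ⊤ := by
  obtain ⟨E, hE⟩ := exists_subfield h4 one_ne_zero hy hlam hx
  have h1 : xE (1 : F) ∈ L := by
    have := (inv_F L h4 hlam hx one_ne_zero hy).1
    rwa [inv_one] at this
  have h2 : lam⁻¹ ∈ E := by
    rw [hE, inv_mul_cancel₀ hlam]
    exact h1
  have h3 : lam ∈ E := by
    have := E.inv_mem h2
    rwa [inv_inv] at this
  have h5 : E = ⊤ := by
    rw [eq_top_iff, ← hgen, Subfield.closure_le]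
    simpa using h3
  have hall : ∀ s, xE s ∈ L := by
    intro s
    have h6 : s / lam ∈ E := by rw [h5]; trivial
    rw [hE] at h6
    rwa [div_mul_cancel₀ _ hlam] at h6
  apply top_of_all L hall
  intro s
  by_cases hs : s = 0
  · rw [hs, yE_zero]
    exact L.one_mem
  · have := (inv_F L h4 (inv_ne_zero hs) (hall s⁻¹) one_ne_zero hy).2
    rwa [inv_inv] at this

end four

section char3

variable {F : Type*} [Field F] [Fintype F] [Fact (Nat.Prime 3)] [CharP F 3]

lemma three_eq_zero' : (3 : F) = 0 := by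
  have := CharP.cast_eq_zero F 3
  exact_mod_cast this

lemma xE_four (a : F) : xE a ^ 4 = xE a := by
  rw [xE_pow]
  congr 1
  have := three_eq_zero' (F := F)
  push_cast
  linear_combination a * this

lemma xE_of_pr_mem {L : Subgroup SL(2, F)} {a : F} (h : pr (xE a) ∈ L.map (QuotientGroup.mk' (Subgroup.center SL(2, F)))) :
    xE a ∈ L := by
  obtain ⟨l, hl, e⟩ := h
  have e0 : l⁻¹ * xE a ∈ Subgroup.center SL(2, F) := QuotientGroup.eq.1 e
  obtain ⟨w, hw⟩ : ∃ w, w = l⁻¹ * xE a := ⟨_, rfl⟩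
  rw [← hw] at e0
  have e1 : pr w = 1 := (QuotientGroup.eq_one_iff w).2 e0
  obtain ⟨r, hr, hwr⟩ := pr_eq_one_iff.1 e1
  have e2 : w ^ 2 = 1 := by
    apply Subtype.ext
    rw [Matrix.SpecialLinearGroup.coe_pow, hwr]
    simp [smul_pow, hr]
  have e3 : xE a = l * w := by rw [hw, mul_inv_cancel_left]
  have e4 : Commute l w := Subgroup.mem_center_iff.1 e0 l
  have e5 : xE a = l ^ 4 := by
    rw [← xE_four, e3, e4.mul_pow]
    have : w ^ 4 = 1 := by
      rw [show 4 = 2 * 2 from rfl, pow_mul, e2, one_pow]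
    rw [this, mul_one]
  rw [e5]
  exact L.pow_mem hl 4

lemma pr_xE_ne_one {a : F} (ha : a ≠ 0) : pr (xE a) ≠ 1 := by
  intro h
  obtain ⟨r, hr1, hr2⟩ := pr_eq_one_iff.1 h
  have := congrFun (congrFun hr2 0) 1
  simp [xE] at this
  exact ha this

lemma fix_ptI (a : F) : actP (pr (xE a)) (ptI : XX F) = ptI := by
  change xE a • (ptI : XX F) = _
  rw [ptI, fix_mk']
  exact ⟨1, xE_eI a⟩

lemma pr_xE_cube (a : F) : pr (xE a) ^ 3 ^ 1 = 1 := by
  rw [pow_one]
  exact pr_xE_pow 3 a

/-- An element of `3`-power order fixing infinity is a translation. -/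
lemma eq_xE_of_fix {g : PS2 F} {n : ℕ} (hp : g ^ 3 ^ n = 1) (hfix : actP g (ptI : XX F) = ptI) : ∃ c : F, g = pr (xE c) := by
  obtain ⟨γ, rfl⟩ := pr_surj g
  have h1 : γ • (ptI : XX F) = ptI := hfix
  rw [ptI, fix_mk'] at h1
  obtain ⟨l, hl⟩ := h1
  rw [smul_eI] at hl
  have h00 : e00 γ = l := by
    have := congrFun hl 0
    simpa [eI] using this
  have h10 : e10 γ = 0 := by
    have := congrFun hl 1
    simpa [eI] using this
  have hd := sl_det γ
  rw [h10, mul_zero, sub_zero, h00] at hd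
  -- the diagonal of powers
  have hpow : ∀ m : ℕ, e00 (γ ^ m) = l ^ m ∧ e10 (γ ^ m) = 0 := by
    intro m
    induction m with
    | zero => simp [e00_one, e10_one]
    | succ m ih =>
      rw [pow_succ, e00_mul, e10_mul, ih.1, ih.2, h00, h10, pow_succ]
      simp
  have h2 : pr (γ ^ 3 ^ n) = 1 := by
    rw [← hp]
    rfl
  obtain ⟨r, hr, e⟩ := pr_eq_one_iff.1 h2
  have h3 : l ^ 3 ^ n = r := by
    rw [← (hpow _).1]
    have h30 : ((γ ^ 3 ^ n : SL(2, F)) : M2 F) 0 0 = (r • (1 : M2 F)) 0 0 := by rw [e]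
    rw [Matrix.smul_apply, Matrix.one_apply_eq, smul_eq_mul, mul_one] at h30
    exact h30
  have h4 : (l ^ 2 - 1) ^ 3 ^ n = 0 := by
    rw [sub_pow_char_pow, one_pow, ← pow_mul, mul_comm, pow_mul, h3, hr, sub_self]
  have h5 : l ^ 2 = 1 := by
    have := pow_eq_zero_iff (n := 3 ^ n) (by positivity) |>.1 h4
    exact sub_eq_zero.1 this
  have h6 : e11 γ = l := by
    have : l * e11 γ = l * l := by rw [hd, ← pow_two, h5]
    have hl0 : l ≠ 0 := left_ne_zero_of_mul_eq_one hd
    exact mul_left_cancel₀ hl0 this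
  refine ⟨l * e01 γ, ?_⟩
  have e7 : γ⁻¹ * xE (l * e01 γ) = γ⁻¹ * xE (l * e01 γ) := rfl
  have e8 : pr (γ⁻¹ * xE (l * e01 γ)) = 1 := by
    apply pr_eq_one_iff.2
    refine ⟨l, by rw [h5], ?_⟩
    ext i j
    fin_cases i <;> fin_cases j
    · change e00 (γ⁻¹ * xE (l * e01 γ)) = _
      rw [e00_mul, e00_inv, e01_inv, e00_xE, e10_xE, h6]
      simp
    · change e01 (γ⁻¹ * xE (l * e01 γ)) = _
      rw [e01_mul, e00_inv, e01_inv, e01_xE, e11_xE, h6]
      simp
      linear_combination (e01 γ) * h5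
    · change e10 (γ⁻¹ * xE (l * e01 γ)) = _
      rw [e10_mul, e10_inv, e11_inv, e00_xE, e10_xE, h10]
      simp
    · change e11 (γ⁻¹ * xE (l * e01 γ)) = _
      rw [e11_mul, e10_inv, e11_inv, e01_xE, e11_xE, h10, h00]
      simp
  have e9 : pr γ * (pr γ⁻¹ * pr (xE (l * e01 γ))) = pr γ := by
    have : pr γ⁻¹ * pr (xE (l * e01 γ)) = pr (γ⁻¹ * xE (l * e01 γ)) := rfl
    rw [this, e8, mul_one]
  have e10' : pr γ * pr γ⁻¹ = 1 := by
    change pr (γ * γ⁻¹) = 1
    rw [mul_inv_cancel]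
    rfl
  rw [← mul_assoc, e10', one_mul] at e9
  exact e9.symm

/-- A `3`-subgroup containing a translation, when only three translations are available. -/
lemma card_le_three {L : Subgroup SL(2, F)} {lam : F} (hlam : lam ≠ 0)
    (hU : ∀ a, xE a ∈ L → a = 0 ∨ a = lam ∨ a = -lam) {S : Subgroup (PS2 F)}
    (hSH : S ≤ L.map (QuotientGroup.mk' (Subgroup.center SL(2, F)))) (hS : IsPGroup 3 S) (hxS : pr (xE lam) ∈ S) :
    Nat.card S ≤ 3 := by
  classical
  have hx1 := pr_xE_ne_one hlam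
  haveI : Nontrivial S := by
    refine ⟨⟨⟨pr (xE lam), hxS⟩, 1, ?_⟩⟩
    intro h
    exact hx1 (congrArg Subtype.val h)
  haveI : Finite S := inferInstance
  have hc := hS.center_nontrivial
  obtain ⟨c, hc1⟩ := exists_ne (1 : Subgroup.center S)
  have hc2 : ((c : S) : PS2 F) ≠ 1 := by
    intro h
    apply hc1
    apply Subtype.ext
    apply Subtype.ext
    exact h
  obtain ⟨k, hk⟩ := hS (c : S)
  have hk' : ((c : S) : PS2 F) ^ 3 ^ k = 1 := congrArg Subtype.val hk
  have hcomm : ∀ g : S, ((c : S) : PS2 F) * g = g * ((c : S) : PS2 F) := by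
    intro g
    have := (Subgroup.mem_center_iff.1 c.2 g).symm
    exact congrArg Subtype.val this
  have hcI : actP ((c : S) : PS2 F) (ptI : XX F) = ptI := by
    have h1 : actP (pr (xE lam)) (actP ((c : S) : PS2 F) (ptI : XX F)) = actP ((c : S) : PS2 F) (ptI : XX F) := by
      have h2 := hcomm ⟨pr (xE lam), hxS⟩
      have h3 : actP (pr (xE lam)) (actP ((c : S) : PS2 F) (ptI : XX F)) = actP ((c : S) : PS2 F) (actP (pr (xE lam)) ptI) := by
        rw [← actP_mul, ← actP_mul, ← h2]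
      rw [h3, fix_ptI]
    exact fix_unique_F 3 hx1 (n := 1) (pr_xE_cube lam) h1 (fix_ptI lam)
  have hall : ∀ g ∈ S, actP g (ptI : XX F) = ptI := by
    intro g hg
    have h1 : actP ((c : S) : PS2 F) (actP g (ptI : XX F)) = actP g (ptI : XX F) := by
      have h2 := hcomm ⟨g, hg⟩
      have h3 : actP ((c : S) : PS2 F) (actP g (ptI : XX F)) = actP g (actP ((c : S) : PS2 F) ptI) := by
        rw [← actP_mul, ← actP_mul, h2]
      rw [h3, hcI]
    exact fix_unique_F 3 hc2 hk' h1 hcI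
  have hsub : (S : Set (PS2 F)) ⊆ ((({pr (xE 0), pr (xE lam), pr (xE (-lam))} : Finset (PS2 F))) : Set (PS2 F)) := by
    intro g hg
    obtain ⟨n, hn⟩ := hS ⟨g, hg⟩
    have hn' : g ^ 3 ^ n = 1 := congrArg Subtype.val hn
    obtain ⟨c', rfl⟩ := eq_xE_of_fix hn' (hall g hg)
    have h7 := xE_of_pr_mem (hSH hg)
    rcases hU _ h7 with rfl | rfl | rfl <;> simp
  have h8 : Nat.card S = (S : Set (PS2 F)).ncard := rfl
  rw [h8]
  have h9 := Set.ncard_le_ncard hsub (Finset.finite_toSet _)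
  refine h9.trans ?_
  rw [Set.ncard_coe_finset]
  exact Finset.card_le_three

end char3

end Cfsg.Agent.H03.DL
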