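import Mathlib
import Cfsg.Agent.Lib.H03.DL1

/-! Element orders in subgroups of `PSL₂(3^n)` with a Sylow `3`-subgroup of order three. -/

set_option autoImplicit false
set_option linter.style.haveILetI false
set_option linter.unusedSectionVars false
set_option linter.unusedSimpArgs false
set_option linter.unusedVariables false

namespace Cfsg.Agent.H03.DL

open scoped LinearAlgebra.Projectivization MatrixGroups
open Cfsg.Agent.H09.Dick
open Cfsg.Agent.H27.DC Cfsg.Agent.H11.SL2X
open Cfsg.Agent.H14 (e00 e01 e10 e11 trc sl_det e00_mul e01_mul e10_mul e11_mul e00_inv e01_inv e10_inv e11_inv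
  e00_one e01_one e10_one e11_one)
open Cfsg.Agent.Lead.DicksonSL (xE yE xE_add yE_add xE_zero yE_zero e00_xE e01_xE e10_xE e11_xE
  e00_yE e01_yE e10_yE e11_yE xE_pow yE_pow)

lemma A4_exp2 : ∀ g : alternatingGroup (Fin 4), g ^ 2 = 1 ∨ g ^ 3 = 1 := by decide +kernel

lemma psl_three_exp {K : Type*} [Field K] [Fintype K] (h : Fintype.card K = 3) (u : PS2 K) : u ^ 2 = 1 ∨ u ^ 3 = 1 := by
  obtain ⟨γ, rfl⟩ := pr_surj u
  have ht : (e00 γ + e11 γ) ^ 3 = e00 γ + e11 γ := by
    have := FiniteField.pow_card (e00 γ + e11 γ)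
    rwa [h] at this
  have hd := sl_det γ
  have e1 : e00 (γ * γ) = (e00 γ + e11 γ) * e00 γ - 1 := by
    rw [e00_mul]; linear_combination -hd
  have e2 : e01 (γ * γ) = (e00 γ + e11 γ) * e01 γ := by
    rw [e01_mul]; ring
  have e3 : e10 (γ * γ) = (e00 γ + e11 γ) * e10 γ := by
    rw [e10_mul]; ring
  have e4 : e11 (γ * γ) = (e00 γ + e11 γ) * e11 γ - 1 := by
    rw [e11_mul]; linear_combination -hd
  have key : e00 γ + e11 γ = 0 ∨ (e00 γ + e11 γ) ^ 2 = 1 := by
    have : (e00 γ + e11 γ) * ((e00 γ + e11 γ) ^ 2 - 1) = 0 := by linear_combination ht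
    rcases mul_eq_zero.1 this with h1 | h1
    · exact Or.inl h1
    · exact Or.inr (sub_eq_zero.1 h1)
  rcases key with h0 | h1
  · left
    have e : pr (γ * γ) = 1 := by
      apply pr_eq_one_iff.2
      refine ⟨-1, by ring, ?_⟩
      ext i j
      fin_cases i <;> fin_cases j
      · change e00 (γ * γ) = _
        rw [e1, h0]
        simp
      · change e01 (γ * γ) = _
        rw [e2, h0]
        simp
      · change e10 (γ * γ) = _
        rw [e3, h0]
        simp
      · change e11 (γ * γ) = _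
        rw [e4, h0]
        simp
    rw [pow_two]
    exact e
  · right
    have e : pr (γ * γ * γ) = 1 := by
      apply pr_eq_one_iff.2
      refine ⟨-(e00 γ + e11 γ), by rw [neg_sq, h1], ?_⟩
      ext i j
      fin_cases i <;> fin_cases j
      · change e00 (γ * γ * γ) = _
        rw [e00_mul, e1, e2]
        simp
        linear_combination (-(e00 γ + e11 γ)) * hd + (e00 γ) * h1
      · change e01 (γ * γ * γ) = _
        rw [e01_mul, e1, e2]
        simp
        linear_combination (e01 γ) * h1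
      · change e10 (γ * γ * γ) = _
        rw [e10_mul, e3, e4]
        simp
        linear_combination (e10 γ) * h1
      · change e11 (γ * γ * γ) = _
        rw [e11_mul, e3, e4]
        simp
        linear_combination (-(e00 γ + e11 γ)) * hd + (e11 γ) * h1
    rw [pow_succ, pow_two]
    exact e

lemma pgl_three_exp {K : Type*} [Field K] [Fintype K] (h : Fintype.card K = 3) (g : Matrix.ProjGenLinGroup (Fin 2) K) :
    g ^ 4 = 1 ∨ g ^ 6 = 1 := by
  obtain ⟨u, hu⟩ := exists_sq_PS2 g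
  rcases psl_three_exp h u with h1 | h1
  · left
    exact (hu 2).1 h1
  · right
    exact (hu 3).1 h1

section main

variable {F : Type*} [Field F] [Fintype F] [Fact (Nat.Prime 3)] [CharP F 3]

lemma three_dvd_card : 3 ∣ Fintype.card F := by
  have : ((Fintype.card F : ℕ) : F) = 0 := Nat.cast_card_eq_zero F
  exact (CharP.cast_eq_zero_iff F 3 _).1 this

theorem exp_of_H {H : Subgroup (PS2 F)} {lam : F} (hlam : lam ≠ 0) (hxH : pr (xE lam) ∈ H) (hyH : pr (yE (1 : F)) ∈ H)
    (hS3 : ∀ S : Subgroup (PS2 F), S ≤ H → IsPGroup 3 S → pr (xE lam) ∈ S → Nat.card S ≤ 3) {g : PS2 F} (hg : g ∈ H) :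
    g ^ 4 = 1 ∨ g ^ 5 = 1 ∨ g ^ 6 = 1 := by
  classical
  obtain ⟨q, hq⟩ : ∃ q, q = Fintype.card F := ⟨_, rfl⟩
  have hq2 : 2 ≤ q := by rw [hq]; exact Fintype.one_lt_card
  have h3q : 3 ∣ q := by rw [hq]; exact three_dvd_card
  have hx1 := pr_xE_ne_one hlam
  let x₀ : H := ⟨pr (xE lam), hxH⟩
  have hx₀ : x₀ ^ 3 = 1 := by
    apply Subtype.ext
    exact pr_xE_pow 3 lam
  have hx₁ : x₀ ≠ 1 := fun h => hx1 (congrArg Subtype.val h)
  have ho : orderOf x₀ = 3 := orderOf_eq_prime hx₀ hx₁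
  have h3H : 3 ∣ Nat.card H := by
    rw [← ho]
    exact orderOf_dvd_natCard x₀
  let g₀ : H := ⟨g, hg⟩
  have htr : ∀ n, g₀ ^ n = 1 → g ^ n = 1 := fun n h => congrArg Subtype.val h
  have up : ∀ a b, g ^ a = 1 → g ^ (a * b) = 1 := by
    intro a b h
    rw [pow_mul, h, one_pow]
  rcases dickson_int hq.symm 3 H with ⟨k, hk, hh⟩ | ⟨x, hx⟩ | ⟨⟨e⟩⟩ | ⟨⟨e⟩⟩ | ⟨⟨e⟩⟩ | ⟨K, _, _, m, hm, hh⟩
  · exfalso
    have h3k : 3 ∣ k := by
      rcases card_of_a hh with h | h
      · rwa [h] at h3H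
      · rw [h] at h3H
        exact (Nat.Coprime.dvd_mul_left (by norm_num)).1 h3H
    rcases hk with h | h
    · have h1 := dvd_add_of_gcd hq2
      have h2 : (q + 1) / Nat.gcd 2 (q - 1) ∣ q + 1 := Nat.div_dvd_of_dvd h1
      have h4 := h3k.trans (h.trans h2)
      omega
    · have h2 : (q - 1) / Nat.gcd 2 (q - 1) ∣ q - 1 := Nat.div_dvd_of_dvd (Nat.gcd_dvd_right _ _)
      have h4 := h3k.trans (h.trans h2)
      omega
  · exact (no_fix_xy 3 hlam one_ne_zero hxH hyH hx).elim
  · have tr : ∀ n, (e g₀) ^ n = 1 → g ^ n = 1 := fun n h => htr n (e.injective (by rw [map_pow, h, map_one]))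
    rcases A4_exp2 (e g₀) with h1 | h1
    · exact Or.inl (up 2 2 (tr 2 h1))
    · exact Or.inr (Or.inr (up 3 2 (tr 3 h1)))
  · have tr : ∀ n, (e g₀) ^ n = 1 → g ^ n = 1 := fun n h => htr n (e.injective (by rw [map_pow, h, map_one]))
    rcases S4_exp (e g₀) with h1 | h1
    · exact Or.inl (tr 4 h1)
    · exact Or.inr (Or.inr (up 3 2 (tr 3 h1)))
  · have tr : ∀ n, (e g₀) ^ n = 1 → g ^ n = 1 := fun n h => htr n (e.injective (by rw [map_pow, h, map_one]))
    rcases A5_exp (e g₀) with h1 | h1 | h1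
    · exact Or.inl (up 2 2 (tr 2 h1))
    · exact Or.inr (Or.inr (up 3 2 (tr 3 h1)))
    · exact Or.inr (Or.inl (tr 5 h1))
  · -- the case of `PSL₂(K)` and `PGL₂(K)`
    have hm1 : 1 ≤ m := by
      rcases Nat.eq_zero_or_pos m with rfl | h
      · rw [pow_zero] at hm
        omega
      · exact h
    haveI : CharP K 3 := charP_of_pow_eq 3 hm1 (hm.trans hq)
    have hK : Fintype.card K = 3 := by
      obtain ⟨n, hp, hn⟩ := FiniteField.card K 3
      have hdvd : Fintype.card K ∣ Nat.card H * 2 := by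
        rcases hh with ⟨⟨e⟩⟩ | ⟨⟨e⟩⟩
        · have h1 := card_PS2 (F := K)
          rw [card_of_iso e]
          have h2 : Fintype.card K ∣ Nat.card (PS2 K) * Nat.gcd 2 (Fintype.card K - 1) := by
            rw [h1]
            exact dvd_mul_right _ _
          exact h2.trans (mul_dvd_mul_left _ (Nat.gcd_dvd_left _ _))
        · have h1 := card_PGL (F := K)
          rw [card_of_iso e, h1]
          exact Dvd.dvd.mul_right (dvd_mul_right _ _) _
      have hdvd2 : Fintype.card K ∣ Nat.card H := by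
        refine Nat.Coprime.dvd_of_dvd_mul_right ?_ hdvd
        rw [hn]
        exact Nat.Coprime.pow_left _ (by norm_num)
      obtain ⟨P, hP⟩ := IsPGroup.exists_le_sylow (p := 3) (P := Subgroup.zpowers x₀) (by
        apply IsPGroup.of_card (n := 1)
        rw [Nat.card_zpowers, ho, pow_one])
      have hxP : x₀ ∈ P := hP (Subgroup.mem_zpowers x₀)
      have h5 : (3 : ℕ) ^ (n : ℕ) ∣ Nat.card P := by
        apply Sylow.pow_dvd_card_of_pow_dvd_card
        rw [← hn]
        exact hdvd2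
      have h6 := hS3 ((P : Subgroup H).map H.subtype) (Subgroup.map_subtype_le _) (IsPGroup.map P.isPGroup' H.subtype) ⟨x₀, hxP, rfl⟩
      rw [Subgroup.card_map_of_injective H.subtype_injective] at h6
      have h7 := Nat.le_of_dvd Nat.card_pos h5
      have h8 : (3 : ℕ) ^ (n : ℕ) ≤ 3 ^ 1 := by omega
      have h9 : (n : ℕ) ≤ 1 := (Nat.pow_le_pow_iff_right (by norm_num)).1 h8
      have h10 : (n : ℕ) = 1 := le_antisymm h9 n.pos
      rw [hn, h10, pow_one]
    rcases hh with ⟨⟨e⟩⟩ | ⟨⟨e⟩⟩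
    · have tr : ∀ n, (e g₀) ^ n = 1 → g ^ n = 1 := fun n h => htr n (e.injective (by rw [map_pow, h, map_one]))
      rcases psl_three_exp hK (e g₀) with h1 | h1
      · exact Or.inl (up 2 2 (tr 2 h1))
      · exact Or.inr (Or.inr (up 3 2 (tr 3 h1)))
    · have tr : ∀ n, (e g₀) ^ n = 1 → g ^ n = 1 := fun n h => htr n (e.injective (by rw [map_pow, h, map_one]))
      rcases pgl_three_exp hK (e g₀) with h1 | h1
      · exact Or.inl (tr 4 h1)
      · exact Or.inr (Or.inr (tr 6 h1))

end main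

end Cfsg.Agent.H03.DL
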