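import Mathlib
import Cfsg.Agent.Lib.H03.DL2

/-! Polynomial relations and explicit words for Dickson's lemma in characteristic three. -/

set_option autoImplicit false
set_option linter.style.haveILetI false
set_option linter.unusedSectionVars false
set_option linter.unusedSimpArgs false
set_option linter.unusedVariables false

namespace Cfsg.Agent.H03.DL

open scoped LinearAlgebra.Projectivization MatrixGroups
open Cfsg.Agent.H09.Dick
open Cfsg.Agent.H27.DC Cfsg.Agent.H11.SL2X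
open Cfsg.Agent.H14 (e00 e01 e10 e11 trc sl_det e00_mul e01_mul e10_mul e11_mul e00_inv e01_inv e10_inv e11_inv
  e00_one e01_one e10_one e11_one)
open Cfsg.Agent.Lead.DicksonSL (xE yE xE_add yE_add xE_zero yE_zero e00_xE e01_xE e10_xE e11_xE
  e00_yE e01_yE e10_yE e11_yE xE_pow yE_pow)

section poly

variable {F : Type*} [Field F]

lemma e10_zpow (lam : F) (n : ℕ) :
    e10 ((yE 1 * xE lam) ^ (n + 1)) = e10 ((yE 1 * xE lam) ^ n) + e11 ((yE 1 * xE lam) ^ n) ∧
    e11 ((yE 1 * xE lam) ^ (n + 1)) = e10 ((yE 1 * xE lam) ^ n) * lam + e11 ((yE 1 * xE lam) ^ n) * (lam + 1) := by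
  rw [pow_succ, e10_mul, e11_mul]
  simp only [e00_mul, e01_mul, e10_mul, e11_mul, e00_xE, e01_xE, e10_xE, e11_xE, e00_yE, e01_yE, e10_yE, e11_yE]
  constructor <;> ring

lemma e10_z_vals (lam : F) :
    e10 ((yE 1 * xE lam) ^ 4) = lam ^ 3 + 6 * lam ^ 2 + 10 * lam + 4 ∧
    e10 ((yE 1 * xE lam) ^ 5) = lam ^ 4 + 8 * lam ^ 3 + 21 * lam ^ 2 + 20 * lam + 5 ∧
    e10 ((yE 1 * xE lam) ^ 6) = lam ^ 5 + 10 * lam ^ 4 + 36 * lam ^ 3 + 56 * lam ^ 2 + 35 * lam + 6 := by
  have h0 : e10 ((yE 1 * xE lam) ^ 0) = 0 ∧ e11 ((yE 1 * xE lam) ^ 0) = 1 := by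
    rw [pow_zero]
    exact ⟨e10_one, e11_one⟩
  obtain ⟨a1, b1⟩ := e10_zpow lam 0
  obtain ⟨a2, b2⟩ := e10_zpow lam 1
  obtain ⟨a3, b3⟩ := e10_zpow lam 2
  obtain ⟨a4, b4⟩ := e10_zpow lam 3
  obtain ⟨a5, b5⟩ := e10_zpow lam 4
  obtain ⟨a6, b6⟩ := e10_zpow lam 5
  norm_num only at a1 b1 a2 b2 a3 b3 a4 b4 a5 b5 a6 b6
  rw [h0.1, h0.2] at a1 b1
  rw [a1, b1] at a2 b2
  rw [a2, b2] at a3 b3
  rw [a3, b3] at a4 b4
  rw [a4, b4] at a5 b5
  rw [a5, b5] at a6 b6
  refine ⟨?_, ?_, ?_⟩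
  · rw [a4]; ring
  · rw [a5]; ring
  · rw [a6]; ring

lemma e10_of_pr_pow {g : SL(2, F)} {n : ℕ} (h : pr g ^ n = 1) : e10 (g ^ n) = 0 := by
  have h2 : pr (g ^ n) = 1 := by
    rw [← h]
    rfl
  obtain ⟨r, hr, e⟩ := pr_eq_one_iff.1 h2
  change ((g ^ n : SL(2, F)) : M2 F) 1 0 = 0
  rw [e]
  simp

theorem lam_cases (h3 : (3 : F) = 0) {lam : F} (hlam : lam ≠ 0)
    (hz : pr (yE 1 * xE lam) ^ 4 = 1 ∨ pr (yE 1 * xE lam) ^ 5 = 1 ∨ pr (yE 1 * xE lam) ^ 6 = 1) :
    lam = 1 ∨ lam = -1 ∨ lam ^ 2 + lam - 1 = 0 ∨ lam ^ 2 - lam - 1 = 0 ∨ lam ^ 2 = -1 := by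
  obtain ⟨v4, v5, v6⟩ := e10_z_vals lam
  rcases hz with h | h | h
  · have h1 := e10_of_pr_pow h
    rw [v4] at h1
    have h2 : (lam - 1) * (lam ^ 2 + lam - 1) = 0 := by
      linear_combination h1 - (1 + 4 * lam + 2 * lam ^ 2) * h3
    rcases mul_eq_zero.1 h2 with h4 | h4
    · exact Or.inl (sub_eq_zero.1 h4)
    · exact Or.inr (Or.inr (Or.inl h4))
  · have h1 := e10_of_pr_pow h
    rw [v5] at h1
    have h2 : (lam ^ 2 - lam - 1) * (lam ^ 2 + 1) = 0 := by
      linear_combination h1 - (2 + 7 * lam + 7 * lam ^ 2 + 3 * lam ^ 3) * h3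
    rcases mul_eq_zero.1 h2 with h4 | h4
    · exact Or.inr (Or.inr (Or.inr (Or.inl h4)))
    · exact Or.inr (Or.inr (Or.inr (Or.inr (by linear_combination h4))))
  · have h1 := e10_of_pr_pow h
    rw [v6] at h1
    have h2 : (lam - 1) * ((lam + 1) * (lam * ((lam - 1) * (lam - 1)))) = 0 := by
      linear_combination h1 - (2 + 12 * lam + 18 * lam ^ 2 + 12 * lam ^ 3 + 4 * lam ^ 4) * h3
    rcases mul_eq_zero.1 h2 with h4 | h4
    · exact Or.inl (sub_eq_zero.1 h4)
    · rcases mul_eq_zero.1 h4 with h4 | h4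
      · exact Or.inr (Or.inl (eq_neg_of_add_eq_zero_left h4))
      · rcases mul_eq_zero.1 h4 with h4 | h4
        · exact (hlam h4).elim
        · rcases mul_eq_zero.1 h4 with h4 | h4 <;> exact Or.inl (sub_eq_zero.1 h4)

lemma word_C2 (h3 : (3 : F) = 0) {lam : F} (hC : lam ^ 2 - lam - 1 = 0) :
    yE 1 * xE (-lam) * yE 1 * xE lam * yE 1 * xE (-lam) * yE (-1) * xE lam * yE (-1) = xE 1 := by
  apply Cfsg.Agent.H14.sl_ext
  · simp only [e00_mul, e01_mul, e10_mul, e11_mul, e00_xE, e01_xE, e10_xE, e11_xE, e00_yE, e01_yE, e10_yE, e11_yE]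
    linear_combination (lam ^ 2) * hC
  · simp only [e00_mul, e01_mul, e10_mul, e11_mul, e00_xE, e01_xE, e10_xE, e11_xE, e00_yE, e01_yE, e10_yE, e11_yE]
    linear_combination (-2 - lam - lam ^ 2) * hC + (-1 - lam) * h3
  · simp only [e00_mul, e01_mul, e10_mul, e11_mul, e00_xE, e01_xE, e10_xE, e11_xE, e00_yE, e01_yE, e10_yE, e11_yE]
    linear_combination (-1 - lam + lam ^ 2) * hC
  · simp only [e00_mul, e01_mul, e10_mul, e11_mul, e00_xE, e01_xE, e10_xE, e11_xE, e00_yE, e01_yE, e10_yE, e11_yE]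
    linear_combination (-lam ^ 2) * hC

lemma word_C1 (h3 : (3 : F) = 0) {lam : F} (hC : lam ^ 2 + lam - 1 = 0) :
    yE 1 * xE lam * yE 1 * xE (-lam) * yE 1 * xE lam * yE (-1) * xE (-lam) * yE (-1) = xE 1 := by
  apply Cfsg.Agent.H14.sl_ext
  · simp only [e00_mul, e01_mul, e10_mul, e11_mul, e00_xE, e01_xE, e10_xE, e11_xE, e00_yE, e01_yE, e10_yE, e11_yE]
    linear_combination (lam ^ 2) * hC
  · simp only [e00_mul, e01_mul, e10_mul, e11_mul, e00_xE, e01_xE, e10_xE, e11_xE, e00_yE, e01_yE, e10_yE, e11_yE]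
    linear_combination (-2 + lam - lam ^ 2) * hC + (-1 + lam) * h3
  · simp only [e00_mul, e01_mul, e10_mul, e11_mul, e00_xE, e01_xE, e10_xE, e11_xE, e00_yE, e01_yE, e10_yE, e11_yE]
    linear_combination (-1 + lam + lam ^ 2) * hC
  · simp only [e00_mul, e01_mul, e10_mul, e11_mul, e00_xE, e01_xE, e10_xE, e11_xE, e00_yE, e01_yE, e10_yE, e11_yE]
    linear_combination (-lam ^ 2) * hC

/-- Both relations yield `x(1)`. -/
lemma xE_one_of_C (h3 : (3 : F) = 0) {lam : F} {L : Subgroup SL(2, F)} (hx : xE lam ∈ L) (hy : yE 1 ∈ L)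
    (hC : lam ^ 2 + lam - 1 = 0 ∨ lam ^ 2 - lam - 1 = 0) : xE 1 ∈ L := by
  have hX : xE (-lam) ∈ L := by
    rw [← xE_inv]
    exact L.inv_mem hx
  have hY : yE (-1) ∈ L := by
    rw [← yE_inv]
    exact L.inv_mem hy
  rcases hC with h | h
  · rw [← word_C1 h3 h]
    exact L.mul_mem (L.mul_mem (L.mul_mem (L.mul_mem (L.mul_mem (L.mul_mem (L.mul_mem (L.mul_mem hy hx) hy) hX) hy) hx) hY) hX) hY
  · rw [← word_C2 h3 h]
    exact L.mul_mem (L.mul_mem (L.mul_mem (L.mul_mem (L.mul_mem (L.mul_mem (L.mul_mem (L.mul_mem hy hX) hy) hx) hy) hX) hY) hx) hY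

end poly

lemma zmod3_cases : ∀ r : ZMod 3, r = 0 ∨ r = 1 ∨ r = -1 := by decide

section small

variable {F : Type*} [Field F] [Fintype F]

/-- If `lam = ±1` generates `F` then all elements of `F` are `0, ±1`. -/
lemma all_of_prime [Fact (Nat.Prime 3)] [CharP F 3] {lam : F} (hgen : Subfield.closure ({lam} : Set F) = ⊤) (h : lam = 1 ∨ lam = -1) (s : F) :
    s = 0 ∨ s = 1 ∨ s = -1 := by
  let ι := ZMod.castHom (dvd_refl 3) F
  have h1 : lam ∈ ι.fieldRange := by
    rcases h with rfl | rfl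
    · exact ⟨1, map_one ι⟩
    · exact ⟨-1, by rw [map_neg, map_one]⟩
  have h2 : ι.fieldRange = ⊤ := by
    rw [eq_top_iff, ← hgen, Subfield.closure_le]
    simpa using h1
  have h3 : s ∈ ι.fieldRange := by rw [h2]; trivial
  obtain ⟨r, rfl⟩ := h3
  rcases zmod3_cases r with rfl | rfl | rfl
  · left; exact map_zero ι
  · right; left; exact map_one ι
  · right; right; rw [map_neg, map_one]

theorem top_of_prime [Fact (Nat.Prime 3)] [CharP F 3] {lam : F} {L : Subgroup SL(2, F)} (hgen : Subfield.closure ({lam} : Set F) = ⊤)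
    (h : lam = 1 ∨ lam = -1) (hx : xE lam ∈ L) (hy : yE 1 ∈ L) : L = ⊤ := by
  have hx1 : xE 1 ∈ L := by
    rcases h with rfl | rfl
    · exact hx
    · have := L.inv_mem hx
      rwa [xE_inv, neg_neg] at this
  apply top_of_all
  · intro s
    rcases all_of_prime hgen h s with rfl | rfl | rfl
    · rw [xE_zero]; exact L.one_mem
    · exact hx1
    · rw [← xE_inv]; exact L.inv_mem hx1
  · intro s
    rcases all_of_prime hgen h s with rfl | rfl | rfl
    · rw [yE_zero]; exact L.one_mem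
    · exact hy
    · rw [← yE_inv]; exact L.inv_mem hy

lemma char3_of (h3 : (3 : F) = 0) : CharP F 3 := by
  obtain ⟨p, hp⟩ := CharP.exists F
  have hp3 : p = 3 := by
    have h5 : p ∣ 3 := (CharP.cast_eq_zero_iff F p 3).1 (by exact_mod_cast h3)
    have h6 := CharP.char_is_prime F p
    exact (Nat.prime_dvd_prime_iff_eq h6 Nat.prime_three).1 h5
  rwa [hp3] at hp

/-- The case distinction for Dickson's lemma, away from `λ² = -1`. -/
theorem top_of_ne (h2 : (2 : F) ≠ 0) {lam : F} (hlam : lam ≠ 0) (hgen : Subfield.closure ({lam} : Set F) = ⊤) {L : Subgroup SL(2, F)}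
    (hx : xE lam ∈ L) (hy : yE 1 ∈ L) (hne : (3 : F) = 0 → lam ^ 2 ≠ -1) : L = ⊤ := by
  classical
  have hneg : lam ≠ -lam := by
    intro h
    apply h2
    have : 2 * lam = 0 := by linear_combination h
    exact (mul_eq_zero.1 this).resolve_right hlam
  by_cases h4 : 4 ≤ Nat.card {a : F // xE a ∈ L}
  · exact top_of_four L h4 hlam hgen hx hy
  have h3 : (3 : F) = 0 := by
    by_contra h3
    apply h4
    have h5 : xE (2 * lam) ∈ L := by
      have := L.pow_mem hx 2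
      rw [xE_pow] at this
      exact_mod_cast this
    have h6 : xE (3 * lam) ∈ L := by
      have := L.pow_mem hx 3
      rw [xE_pow] at this
      exact_mod_cast this
    have h7 : xE 0 ∈ L := by rw [xE_zero]; exact L.one_mem
    refine four_le (P := fun a => xE a ∈ L) h7 hx h5 h6 ?_ ?_ ?_ ?_ ?_ ?_
    · exact hlam.symm
    · exact (mul_ne_zero h2 hlam).symm
    · exact (mul_ne_zero h3 hlam).symm
    · intro h
      apply hlam
      linear_combination (-1 : F) * h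
    · intro h
      apply h2
      have : lam * 2 = 0 := by linear_combination (-1 : F) * h
      exact (mul_eq_zero.1 this).resolve_left hlam
    · intro h
      apply hlam
      linear_combination (-1 : F) * h
  obtain ⟨p, hp⟩ := CharP.exists F
  have hp3 : p = 3 := by
    have h5 : p ∣ 3 := (CharP.cast_eq_zero_iff F p 3).1 (by exact_mod_cast h3)
    have h6 := CharP.char_is_prime F p
    exact (Nat.prime_dvd_prime_iff_eq h6 Nat.prime_three).1 h5
  subst hp3
  haveI : Fact (Nat.Prime 3) := ⟨Nat.prime_three⟩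
  have hU : ∀ a, xE a ∈ L → a = 0 ∨ a = lam ∨ a = -lam := by
    intro a ha
    by_contra hcon
    push Not at hcon
    apply h4
    have h7 : xE 0 ∈ L := by rw [xE_zero]; exact L.one_mem
    have h8 : xE (-lam) ∈ L := by
      rw [← xE_inv]
      exact L.inv_mem hx
    refine four_le (P := fun a => xE a ∈ L) h7 hx h8 ha ?_ ?_ ?_ ?_ ?_ ?_
    · exact hlam.symm
    · exact (neg_ne_zero.2 hlam).symm
    · exact hcon.1.symm
    · exact hneg
    · exact hcon.2.1.symm
    · exact hcon.2.2.symm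
  have hxH : pr (xE lam) ∈ L.map (QuotientGroup.mk' (Subgroup.center SL(2, F))) := ⟨_, hx, rfl⟩
  have hyH : pr (yE (1 : F)) ∈ L.map (QuotientGroup.mk' (Subgroup.center SL(2, F))) := ⟨_, hy, rfl⟩
  have hzH : pr (yE 1 * xE lam) ∈ L.map (QuotientGroup.mk' (Subgroup.center SL(2, F))) := ⟨_, L.mul_mem hy hx, rfl⟩
  have hz := exp_of_H hlam hxH hyH (fun S hSH hS hxS => card_le_three hlam hU hSH hS hxS) hzH
  rcases lam_cases h3 hlam hz with h | h | h | h | h
  · exact top_of_prime hgen (Or.inl h) hx hy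
  · exact top_of_prime hgen (Or.inr h) hx hy
  · have := hU 1 (xE_one_of_C h3 hx hy (Or.inl h))
    rcases this with h5 | h5 | h5
    · exact (one_ne_zero h5).elim
    · exact top_of_prime hgen (Or.inl h5.symm) hx hy
    · exact top_of_prime hgen (Or.inr (by rw [h5, neg_neg])) hx hy
  · have := hU 1 (xE_one_of_C h3 hx hy (Or.inr h))
    rcases this with h5 | h5 | h5
    · exact (one_ne_zero h5).elim
    · exact top_of_prime hgen (Or.inl h5.symm) hx hy
    · exact top_of_prime hgen (Or.inr (by rw [h5, neg_neg])) hx hy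
  · exact (hne h3 h).elim

end small

end Cfsg.Agent.H03.DL
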