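import Mathlib
import Cfsg.Agent.Lib.H03.DL3

/-! The exceptional case of Dickson's lemma: `|F| = 9`, `λ² = -1`. -/

set_option autoImplicit false
set_option linter.style.haveILetI false
set_option linter.unusedSectionVars false
set_option linter.unusedSimpArgs false
set_option linter.unusedVariables false

namespace Cfsg.Agent.H03.DL

open scoped LinearAlgebra.Projectivization MatrixGroups
open Cfsg.Agent.H09.Dick
open Cfsg.Agent.H27.DC Cfsg.Agent.H11.SL2X
open Cfsg.Agent.H14 (e00 e01 e10 e11 trc sl_det e00_mul e01_mul e10_mul e11_mul e00_inv e01_inv e10_inv e11_inv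
  e00_one e01_one e10_one e11_one)
open Cfsg.Agent.Lead.DicksonSL (xE yE xE_add yE_add xE_zero yE_zero e00_xE e01_xE e10_xE e11_xE
  e00_yE e01_yE e10_yE e11_yE xE_pow yE_pow)

/-- Coordinates on `F²` for `|F| = 9`. -/
abbrev V4 := ZMod 3 × ZMod 3 × ZMod 3 × ZMod 3

/-- The action of `x(s + tλ)` in coordinates. -/
def tT (s t : ZMod 3) (v : V4) : V4 :=
  (v.1 + s * v.2.2.1 - t * v.2.2.2, v.2.1 + s * v.2.2.2 + t * v.2.2.1, v.2.2.1, v.2.2.2)

/-- The action of `y(s)` in coordinates. -/
def tY (s : ZMod 3) (v : V4) : V4 := (v.1, v.2.1, v.2.2.1 + s * v.1, v.2.2.2 + s * v.2.1)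

/-- The orbit of `(1, 0)`. -/
def O0 : List V4 := [(1,0,0,0), (1,0,1,0), (1,1,1,0), (1,0,2,0), (1,2,1,0), (1,1,2,1), (1,2,2,0), (1,2,2,2), (0,0,2,1), (1,1,0,2), (1,1,2,0), (1,2,0,2), (2,1,2,2), (1,2,0,1), (2,2,2,1), (2,1,0,2), (1,1,0,1), (2,2,0,2), (1,2,1,1), (0,0,2,2), (2,1,1,0), (0,2,0,1), (2,2,1,0), (0,1,0,2), (2,1,2,0), (0,1,0,1), (1,1,1,2), (0,2,0,2), (0,0,1,1), (2,1,0,1), (2,2,0,1), (0,2,0,0), (2,0,1,0), (0,1,0,0), (2,0,2,0), (2,1,1,1), (2,2,1,2), (2,2,2,0), (2,0,0,0), (0,0,1,2)]

lemma O0_inv : ∀ v ∈ O0, tT 0 1 v ∈ O0 ∧ tT 0 (-1) v ∈ O0 ∧ tY 1 v ∈ O0 ∧ tY (-1) v ∈ O0 := by decide +kernel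

/-- One step of the orbit computation. -/
def stp (S : List V4) : List V4 := (S ++ S.map (tT 0 1) ++ S.map (tY 1)).dedup

lemma O0_reach : ∀ v ∈ O0, v ∈ stp^[8] [(1,0,0,0)] := by decide +kernel

lemma O0_stab : ∀ s t : ZMod 3, (∀ v ∈ O0, tT s t v ∈ O0) → s = 0 := by decide +kernel

lemma O0_nodup : O0.Nodup := by decide +kernel

lemma O0_len : O0.length = 40 := by decide +kernel

lemma e0_mem : ((1, 0, 0, 0) : V4) ∈ O0 := by decide +kernel

lemma no_root : ∀ r : ZMod 3, r * r + 1 ≠ 0 := by decide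

lemma stp_reach (R : V4 → Prop) (h0 : R (1,0,0,0)) (hX : ∀ v, R v → R (tT 0 1 v)) (hY : ∀ v, R v → R (tY 1 v)) (k : ℕ) :
    ∀ v ∈ stp^[k] [(1,0,0,0)], R v := by
  induction k with
  | zero =>
    intro v hv
    simp only [Function.iterate_zero, id_eq, List.mem_singleton] at hv
    rw [hv]
    exact h0
  | succ k ih =>
    intro v hv
    rw [Function.iterate_succ_apply', stp, List.mem_dedup, List.mem_append, List.mem_append] at hv
    rcases hv with (hv | hv) | hv
    · exact ih v hv
    · obtain ⟨w, hw, rfl⟩ := List.mem_map.1 hv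
      exact hX w (ih w hw)
    · obtain ⟨w, hw, rfl⟩ := List.mem_map.1 hv
      exact hY w (ih w hw)

section field

variable {F : Type*} [Field F] [Fintype F] [Fact (Nat.Prime 3)] [CharP F 3] (lam : F)

/-- The prime field. -/
noncomputable abbrev iota : ZMod 3 →+* F := ZMod.castHom (dvd_refl 3) F

/-- The coordinates. -/
noncomputable def rho (a b : ZMod 3) : F := iota a + iota b * lam

/-- The coordinates on `F²`. -/
noncomputable def rep (v : V4) : Fin 2 → F := ![rho lam v.1 v.2.1, rho lam v.2.2.1 v.2.2.2]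

variable {lam}

lemma iota_inj : Function.Injective (iota : ZMod 3 →+* F) := (iota (F := F)).injective

lemma rho_inj (hC : lam ^ 2 = -1) {a b c d : ZMod 3} (h : rho lam a b = rho lam c d) : a = c ∧ b = d := by
  have key : ∀ r : ZMod 3, lam ≠ iota r := by
    intro r hr
    have h1 : iota (r * r + 1) = (0 : F) := by
      rw [map_add, map_mul, map_one, ← hr]
      linear_combination hC
    exact no_root r ((map_eq_zero_iff _ iota_inj).1 h1)
  have hbd : b = d := by
    by_contra hne
    have h1 : b - d ≠ 0 := sub_ne_zero.2 hne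
    apply key ((c - a) * (b - d)⁻¹)
    have h2 : iota (b - d) ≠ (0 : F) := by
      rw [Ne, map_eq_zero_iff _ iota_inj]
      exact h1
    rw [map_mul, map_inv₀]
    rw [eq_mul_inv_iff_mul_eq₀ h2]
    unfold rho at h
    rw [map_sub, map_sub]
    linear_combination h
  subst hbd
  refine ⟨?_, rfl⟩
  apply iota_inj (F := F)
  unfold rho at h
  linear_combination h

lemma rep_inj (hC : lam ^ 2 = -1) : Function.Injective (rep lam : V4 → Fin 2 → F) := by
  rintro ⟨a, b, c, d⟩ ⟨a', b', c', d'⟩ h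
  have h0 := congrFun h 0
  have h1 := congrFun h 1
  simp only [rep, Matrix.cons_val_zero, Matrix.cons_val_one] at h0 h1
  obtain ⟨e1, e2⟩ := rho_inj hC h0
  obtain ⟨e3, e4⟩ := rho_inj hC h1
  rw [e1, e2, e3, e4]

lemma rho_surj (hgen : Subfield.closure ({lam} : Set F) = ⊤) (hC : lam ^ 2 = -1) (s : F) : ∃ a b, rho lam a b = s := by
  classical
  let R : Subring F :=
    { carrier := {s | ∃ a b, rho lam a b = s}
      mul_mem' := by
        rintro _ _ ⟨a, b, rfl⟩ ⟨c, d, rfl⟩
        refine ⟨a * c - b * d, a * d + b * c, ?_⟩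
        simp only [rho, map_sub, map_add, map_mul]
        linear_combination (-(iota b * iota d : F)) * hC
      one_mem' := ⟨1, 0, by simp [rho]⟩
      add_mem' := by
        rintro _ _ ⟨a, b, rfl⟩ ⟨c, d, rfl⟩
        refine ⟨a + c, b + d, ?_⟩
        simp only [rho, map_add]
        ring
      zero_mem' := ⟨0, 0, by simp [rho]⟩
      neg_mem' := by
        rintro _ ⟨a, b, rfl⟩
        refine ⟨-a, -b, ?_⟩
        simp only [rho, map_neg]
        ring }
  let E : Subfield F :=
    { R with
      inv_mem' := by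
        intro x hx
        by_cases h0 : x = 0
        · rw [h0, inv_zero]
          exact R.zero_mem
        · have h1 : x⁻¹ = x ^ (Fintype.card F - 2) := by
            have h2 := FiniteField.pow_card_sub_one_eq_one x h0
            have h3 : 2 ≤ Fintype.card F := Fintype.one_lt_card
            have h4 : Fintype.card F - 1 = (Fintype.card F - 2) + 1 := by omega
            rw [h4, pow_succ] at h2
            exact (eq_inv_of_mul_eq_one_left h2).symm
          rw [h1]
          exact R.pow_mem hx _ }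
  have hl : lam ∈ E := ⟨0, 1, by simp [rho]⟩
  have hE : E = ⊤ := by
    rw [eq_top_iff, ← hgen, Subfield.closure_le]
    simpa using hl
  have : s ∈ E := by rw [hE]; trivial
  exact this

/-- `λ² = -1` forces `|F| = 9`. -/
theorem card_nine (hgen : Subfield.closure ({lam} : Set F) = ⊤) (hC : lam ^ 2 = -1) : Fintype.card F = 9 := by
  classical
  have hb : Function.Bijective (fun p : ZMod 3 × ZMod 3 => rho lam p.1 p.2) := by
    constructor
    · rintro ⟨a, b⟩ ⟨c, d⟩ h
      obtain ⟨e1, e2⟩ := rho_inj hC h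
      exact Prod.ext e1 e2
    · intro s
      obtain ⟨a, b, h⟩ := rho_surj hgen hC s
      exact ⟨(a, b), h⟩
  have := Fintype.card_of_bijective hb
  rw [← this]
  rfl

lemma rep_T (hC : lam ^ 2 = -1) (s t : ZMod 3) (v : V4) : xE (rho lam s t) • rep lam v = rep lam (tT s t v) := by
  apply ext2
  · rw [smul0, e00_xE, e01_xE]
    simp only [rep, rho, tT, Matrix.cons_val_zero, Matrix.cons_val_one, map_add, map_sub, map_mul]
    linear_combination ((iota t * iota v.2.2.2 : F)) * hC
  · rw [smul1, e10_xE, e11_xE]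
    simp only [rep, rho, tT, Matrix.cons_val_zero, Matrix.cons_val_one, map_add, map_sub, map_mul]
    ring

lemma rep_Y (s : ZMod 3) (v : V4) : yE (iota s : F) • rep lam v = rep lam (tY s v) := by
  apply ext2
  · rw [smul0, e00_yE, e01_yE]
    simp only [rep, rho, tY, Matrix.cons_val_zero, Matrix.cons_val_one, map_add, map_sub, map_mul]
    ring
  · rw [smul1, e10_yE, e11_yE]
    simp only [rep, rho, tY, Matrix.cons_val_zero, Matrix.cons_val_one, map_add, map_sub, map_mul]
    ring

lemma rho_zero_one : rho lam 0 1 = lam := by simp [rho]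
lemma rho_zero_neg : rho lam 0 (-1) = -lam := by simp [rho]

/-- **The exceptional case.** -/
theorem card_L (hgen : Subfield.closure ({lam} : Set F) = ⊤) (hC : lam ^ 2 = -1) {L : Subgroup SL(2, F)}
    (hL : L = Subgroup.closure ({yE 1, xE lam} : Set SL(2, F))) : Nat.card L = 120 := by
  classical
  have hx : xE lam ∈ L := by rw [hL]; exact Subgroup.subset_closure (by simp)
  have hy : yE 1 ∈ L := by rw [hL]; exact Subgroup.subset_closure (by simp)
  have hXs : ∀ v, xE lam • rep lam v = rep lam (tT 0 1 v) := by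
    intro v
    rw [← rep_T hC, rho_zero_one]
  have hXi : ∀ v, (xE lam)⁻¹ • rep lam v = rep lam (tT 0 (-1) v) := by
    intro v
    rw [← rep_T hC, rho_zero_neg, xE_inv]
  have hYs : ∀ v, yE (1 : F) • rep lam v = rep lam (tY 1 v) := by
    intro v
    have := rep_Y (lam := lam) (1 : ZMod 3) v
    rwa [map_one] at this
  have hYi : ∀ v, (yE (1 : F))⁻¹ • rep lam v = rep lam (tY (-1) v) := by
    intro v
    have := rep_Y (lam := lam) (-1 : ZMod 3) v
    rwa [map_neg, map_one, ← yE_inv] at this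
  have hinv : ∀ g ∈ L, (∀ v ∈ O0, ∃ w ∈ O0, g • rep lam v = rep lam w) ∧ (∀ v ∈ O0, ∃ w ∈ O0, g⁻¹ • rep lam v = rep lam w) := by
    intro g hg
    rw [hL] at hg
    induction hg using Subgroup.closure_induction with
    | mem g hg =>
      rcases hg with rfl | hg
      · exact ⟨fun v hv => ⟨_, (O0_inv v hv).2.2.1, hYs v⟩, fun v hv => ⟨_, (O0_inv v hv).2.2.2, hYi v⟩⟩
      · rw [Set.mem_singleton_iff] at hg
        subst hg
        exact ⟨fun v hv => ⟨_, (O0_inv v hv).1, hXs v⟩, fun v hv => ⟨_, (O0_inv v hv).2.1, hXi v⟩⟩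
    | one =>
      exact ⟨fun v hv => ⟨v, hv, one_smul _ _⟩, fun v hv => ⟨v, hv, by rw [inv_one, one_smul]⟩⟩
    | mul g h _ _ ihg ihh =>
      constructor
      · intro v hv
        obtain ⟨w, hw, e⟩ := ihh.1 v hv
        obtain ⟨u, hu, e'⟩ := ihg.1 w hw
        exact ⟨u, hu, by rw [mul_smul, e, e']⟩
      · intro v hv
        obtain ⟨w, hw, e⟩ := ihg.2 v hv
        obtain ⟨u, hu, e'⟩ := ihh.2 w hw
        exact ⟨u, hu, by rw [mul_inv_rev, mul_smul, e, e']⟩
    | inv g _ ih =>
      exact ⟨ih.2, by rw [inv_inv]; exact ih.1⟩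
  -- the orbit
  have hreach : ∀ v ∈ O0, ∃ g ∈ L, g • rep lam (1, 0, 0, 0) = rep lam v := by
    intro v hv
    refine stp_reach (fun v => ∃ g ∈ L, g • rep lam (1, 0, 0, 0) = rep lam v) ⟨1, L.one_mem, one_smul _ _⟩ ?_ ?_ 8 v (O0_reach v hv)
    · rintro v ⟨g, hg, e⟩
      exact ⟨xE lam * g, L.mul_mem hx hg, by rw [mul_smul, e, hXs]⟩
    · rintro v ⟨g, hg, e⟩
      exact ⟨yE 1 * g, L.mul_mem hy hg, by rw [mul_smul, e, hYs]⟩
  have he0 : ((1, 0, 0, 0) : V4) ∈ O0 := e0_mem
  have horb : MulAction.orbit L (rep lam (1, 0, 0, 0)) = rep lam '' {v | v ∈ O0} := by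
    ext w
    constructor
    · rintro ⟨⟨g, hg⟩, rfl⟩
      obtain ⟨u, hu, e⟩ := (hinv g hg).1 _ he0
      exact ⟨u, hu, e.symm⟩
    · rintro ⟨v, hv, rfl⟩
      obtain ⟨g, hg, e⟩ := hreach v hv
      exact ⟨⟨g, hg⟩, e⟩
  have hcard_orb : (MulAction.orbit L (rep lam (1, 0, 0, 0))).ncard = 40 := by
    rw [horb, Set.ncard_image_of_injective _ (rep_inj hC)]
    have e : ({v | v ∈ O0} : Set V4) = ((O0.toFinset : Finset V4) : Set V4) := by
      ext v
      simp
    rw [e, Set.ncard_coe_finset, List.toFinset_card_of_nodup O0_nodup, O0_len]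
  -- the stabilizer
  have hstab : Nat.card (MulAction.stabilizer L (rep lam (1, 0, 0, 0))) = 3 := by
    have hmem : ∀ t : ZMod 3, xE (rho lam 0 t) ∈ L := by
      intro t
      rcases zmod3_cases t with rfl | rfl | rfl
      · have : rho lam 0 0 = 0 := by simp [rho]
        rw [this, xE_zero]
        exact L.one_mem
      · rw [rho_zero_one]
        exact hx
      · rw [rho_zero_neg, ← xE_inv]
        exact L.inv_mem hx
    have hfix : ∀ t : ZMod 3, xE (rho lam 0 t) • rep lam (1, 0, 0, 0) = rep lam (1, 0, 0, 0) := by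
      intro t
      rw [rep_T hC]
      congr 1
      simp [tT]
    let f : ZMod 3 → MulAction.stabilizer L (rep lam (1, 0, 0, 0)) := fun t =>
      ⟨⟨xE (rho lam 0 t), hmem t⟩, hfix t⟩
    have hf : Function.Bijective f := by
      constructor
      · intro t t' h
        have h1 : xE (rho lam 0 t) = xE (rho lam 0 t') := congrArg (fun g : MulAction.stabilizer L (rep lam (1, 0, 0, 0)) => ((g : L) : SL(2, F))) h
        have h2 : rho lam 0 t = rho lam 0 t' := congrArg (fun g : SL(2, F) => e01 g) h1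
        exact (rho_inj hC h2).2
      · rintro ⟨⟨g, hg⟩, hgs⟩
        have hgs' : g • rep lam (1, 0, 0, 0) = rep lam (1, 0, 0, 0) := hgs
        have h0 := congrFun hgs' 0
        have h1 := congrFun hgs' 1
        rw [smul0] at h0
        rw [smul1] at h1
        simp [rep, rho] at h0 h1
        have hd := sl_det g
        have e0 : e00 g = 1 := h0
        have e1 : e10 g = 0 := h1
        rw [e0, e1] at hd
        have e3 : e11 g = 1 := by linear_combination hd
        obtain ⟨s, t, hst⟩ := rho_surj hgen hC (e01 g)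
        have e4 : g = xE (rho lam s t) := by
          apply Cfsg.Agent.H14.sl_ext
          · rw [e00_xE]; exact e0
          · rw [e01_xE]; exact hst.symm
          · rw [e10_xE]; exact e1
          · rw [e11_xE]; exact e3
        have hs : s = 0 := by
          apply O0_stab s t
          intro v hv
          obtain ⟨w, hw, e⟩ := (hinv g hg).1 v hv
          rw [e4, rep_T hC] at e
          rw [rep_inj hC e]
          exact hw
        subst hs
        refine ⟨t, ?_⟩
        apply Subtype.ext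
        apply Subtype.ext
        exact e4.symm
    have := Nat.card_congr (Equiv.ofBijective f hf)
    rw [← this, Nat.card_zmod]
  have h1 := MulAction.index_stabilizer L (rep lam (1, 0, 0, 0))
  have h2 := Subgroup.card_mul_index (MulAction.stabilizer L (rep lam (1, 0, 0, 0)))
  rw [h1, hstab, hcard_orb] at h2
  omega

end field

end Cfsg.Agent.H03.DL
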