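import Mathlib
import Cfsg.Prelude.Def_Perm
import Cfsg.Agent.Lib.H03.Orbit

set_option autoImplicit false

namespace Cfsg.Agent.H03

open MulAction

section
variable {G : Type*} [Group G] {K : Type*} [Field K] {Ω : Type*} [Fintype Ω] [MulAction G Ω]

omit [Field K] in
theorem sum_smul_eq {A : Type*} [AddCommMonoid A] (g : G) (F : Ω → A) : ∑ x, F (g • x) = ∑ x, F x :=
  Equiv.sum_comp (toPerm g) F

omit [Fintype Ω] in
theorem permRep_apply (g : G) (F : Ω → K) (x : Ω) : Cfsg.permRep K G Ω g F x = F (g⁻¹ • x) := rfl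

/-- an invariant subspace not contained in the sum-zero functions is everything, if a
`p`-subgroup of `G` is transitive. -/
theorem sum_eq_zero_of_ne_top {p : ℕ} [hp : Fact p.Prime] [hK : CharP K p] [Finite G]
    (P : Subgroup G) (hP : IsPGroup p P) (htr : IsPretransitive P Ω)
    (U : Submodule K (Ω → K))
    (hinv : ∀ g : G, ∀ u ∈ U, Cfsg.permRep K G Ω g u ∈ U) (hU : U ≠ ⊤) :
    ∀ u ∈ U, ∑ x, u x = 0 := by
  classical
  obtain ⟨f, hf0, hf⟩ := Submodule.exists_le_ker_of_lt_top U (lt_top_iff_ne_top.mpr hU)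
  have hf' : ∀ u ∈ U, f u = 0 := fun u hu => hf hu
  let φ : Ω → K := fun x => f (Pi.single x 1)
  have hfφ : ∀ u, f u = ∑ x, φ x * u x := by
    intro u
    rw [LinearMap.pi_apply_eq_sum_univ f u]
    refine Finset.sum_congr rfl fun x _ => ?_
    rw [smul_eq_mul, mul_comm]
    congr 2
    funext y
    simp [Pi.single_apply, eq_comm]
  have hφ : φ ≠ 0 := by
    intro h0
    apply hf0
    refine LinearMap.ext fun u => ?_
    rw [hfφ]
    simp [h0]
  letI inst : DistribMulAction P (Ω → K) :=
    { smul := fun q ψ x => ψ ((q : G)⁻¹ • x)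
      one_smul := fun ψ => by
        funext x
        change ψ (((1 : P) : G)⁻¹ • x) = ψ x
        simp
      mul_smul := fun q r ψ => by
        funext x
        change ψ (((q * r : P) : G)⁻¹ • x) = ψ ((r : G)⁻¹ • ((q : G)⁻¹ • x))
        simp [mul_smul]
      smul_zero := fun q => rfl
      smul_add := fun q ψ χ => rfl }
  have hsm : ∀ (q : P) (ψ : Ω → K) (x : Ω), (q • ψ) x = ψ ((q : G)⁻¹ • x) := fun _ _ _ => rfl
  -- elements of the closure kill `U`
  have hwU : ∀ ψ ∈ AddSubgroup.closure (Set.range fun q : P => q • φ), ∀ u ∈ U, ∑ x, ψ x * u x = 0 := by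
    intro ψ hψ u hu
    induction hψ using AddSubgroup.closure_induction with
    | mem ψ hψ =>
      obtain ⟨q, rfl⟩ := hψ
      have h1 : Cfsg.permRep K G Ω ((q : G)⁻¹) u ∈ U := hinv _ u hu
      have h2 := hf' _ h1
      rw [hfφ] at h2
      rw [← h2, ← sum_smul_eq (q : G)]
      refine Finset.sum_congr rfl fun x _ => ?_
      change φ ((q : G)⁻¹ • ((q : G) • x)) * u ((q : G) • x) = φ x * u (((q : G)⁻¹)⁻¹ • x)
      simp
    | zero => simp
    | add a b _ _ h1 h2 =>
      simp only [Pi.add_apply, add_mul, Finset.sum_add_distrib, h1, h2, add_zero]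
    | neg a _ h1 =>
      simp only [Pi.neg_apply, neg_mul, Finset.sum_neg_distrib, h1, neg_zero]
  obtain ⟨w, hw, hw0, hwfix⟩ := exists_fixed_of_pgroup (p := p) hP
    (fun ψ : Ω → K => by
      funext x
      simp [Pi.smul_apply, nsmul_eq_mul, CharP.cast_eq_zero K p]) φ hφ
  have hwU := hwU w hw
  -- `w` is constant
  have hconst : ∀ x y : Ω, w x = w y := by
    intro x y
    obtain ⟨q, hq⟩ := htr.exists_smul_eq y x
    have := congrFun (hwfix q) x
    rw [hsm] at this
    rw [← this]
    congr 1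
    rw [← hq]
    change (q : G)⁻¹ • ((q : G) • y) = y
    simp
  obtain ⟨x₀, hx₀⟩ : ∃ x, w x ≠ 0 := by
    by_contra hcon
    push Not at hcon
    exact hw0 (funext hcon)
  intro u hu
  have h := hwU u hu
  have h2 : ∑ x, w x * u x = w x₀ * ∑ x, u x := by
    rw [Finset.mul_sum]
    exact Finset.sum_congr rfl fun x _ => by rw [hconst x x₀]
  rw [h2] at h
  exact (mul_eq_zero.mp h).resolve_left hx₀

/-- The orbital operator. -/
noncomputable def orbB (K : Type*) [Field K] {Ω : Type*} [Fintype Ω] (R : Ω → Ω → Prop) (d : ℕ) :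
    (Ω → K) →ₗ[K] (Ω → K) := by
  classical
  exact
  { toFun := fun f u => (∑ v, if R u v then f v else 0) - (d : K) * f u
    map_add' := fun f g => by
      funext u
      simp only [Pi.add_apply, mul_add]
      rw [Finset.sum_congr rfl (fun v _ => (by split_ifs <;> simp :
        (if R u v then f v + g v else 0) = (if R u v then f v else 0) + (if R u v then g v else 0))),
        Finset.sum_add_distrib]
      ring
    map_smul' := fun c f => by
      funext u
      simp only [Pi.smul_apply, smul_eq_mul, RingHom.id_apply]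
      rw [Finset.sum_congr rfl (fun v _ => (by split_ifs <;> simp :
        (if R u v then c * f v else 0) = c * (if R u v then f v else 0))), ← Finset.mul_sum]
      ring }

open Classical in
theorem orbB_apply (R : Ω → Ω → Prop) (d : ℕ) (f : Ω → K) (u : Ω) :
    orbB K R d f u = (∑ v, if R u v then f v else 0) - (d : K) * f u := rfl

open Classical in
theorem orbB_equiv (R : Ω → Ω → Prop) (d : ℕ) (hinv : ∀ (g : G) u v, R (g • u) (g • v) ↔ R u v)
    (g : G) (f : Ω → K) : orbB K R d (Cfsg.permRep K G Ω g f) = Cfsg.permRep K G Ω g (orbB K R d f) := by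
  funext u
  rw [permRep_apply, orbB_apply, orbB_apply, ← sum_smul_eq g]
  simp only [permRep_apply]
  congr 1
  refine Finset.sum_congr rfl fun v _ => ?_
  have h := hinv g (g⁻¹ • u) v
  rw [smul_inv_smul] at h
  simp only [inv_smul_smul, h]

open Classical in
theorem orbB_const (R : Ω → Ω → Prop) (d : ℕ) (hd₁ : ∀ u, (Finset.univ.filter fun v => R u v).card = d)
    (c : K) (u : Ω) : orbB K R d (fun _ => c) u = 0 := by
  rw [orbB_apply]
  rw [← Finset.sum_filter, Finset.sum_const, hd₁, nsmul_eq_mul]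
  ring

open Classical in
theorem orbB_sum (R : Ω → Ω → Prop) (d : ℕ) (hd₂ : ∀ v, (Finset.univ.filter fun u => R u v).card = d)
    (f : Ω → K) : ∑ u, orbB K R d f u = 0 := by
  simp only [orbB_apply]
  rw [Finset.sum_sub_distrib, Finset.sum_comm]
  have : ∀ v : Ω, (∑ u, if R u v then f v else 0) = (d : K) * f v := by
    intro v
    rw [← Finset.sum_filter, Finset.sum_const, hd₂, nsmul_eq_mul]
  simp only [this, sub_self]

end

section main

variable {G : Type*} [Group G] [Finite G] {K : Type*} [Field K] {p f : ℕ} [hp : Fact p.Prime] [hK : CharP K p]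
  {Ω : Type*} [Fintype Ω] [MulAction G Ω] [hpt : IsPretransitive G Ω]

/-- The orbital relation -/
def orbR (G : Type*) [Group G] {Ω : Type*} [MulAction G Ω] (a b u v : Ω) : Prop :=
  ∃ g : G, g • a = u ∧ g • b = v

omit [Finite G] [hpt : IsPretransitive G Ω] [Fintype Ω] in
theorem orbR_smul (a b : Ω) (g : G) (u v : Ω) : orbR G a b (g • u) (g • v) ↔ orbR G a b u v := by
  constructor
  · rintro ⟨h, h1, h2⟩
    refine ⟨g⁻¹ * h, ?_, ?_⟩
    · rw [mul_smul, h1, inv_smul_smul]
    · rw [mul_smul, h2, inv_smul_smul]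
  · rintro ⟨h, h1, h2⟩
    refine ⟨g * h, ?_, ?_⟩
    · rw [mul_smul, h1]
    · rw [mul_smul, h2]

omit [Finite G] in
open Classical in
/-- counting for the orbital relation. -/
theorem orbital_counts (a b : Ω) :
    (∀ u, (Finset.univ.filter fun v => orbR G a b u v).card = (Finset.univ.filter fun v => orbR G a b a v).card) ∧
    (∀ v, (Finset.univ.filter fun u => orbR G a b u v).card = (Finset.univ.filter fun v => orbR G a b a v).card) := by
  have h1 : ∀ u, (Finset.univ.filter fun v => orbR G a b u v).card = (Finset.univ.filter fun v => orbR G a b a v).card := by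
    intro u
    obtain ⟨g, rfl⟩ := hpt.exists_smul_eq a u
    symm
    apply Finset.card_bijective (fun v => g • v) (MulAction.bijective g)
    intro v
    simp only [Finset.mem_filter, Finset.mem_univ, true_and]
    exact (orbR_smul a b g a v).symm
  have h2 : ∀ v, (Finset.univ.filter fun u => orbR G a b u v).card = (Finset.univ.filter fun u => orbR G a b u b).card := by
    intro v
    obtain ⟨g, rfl⟩ := hpt.exists_smul_eq b v
    symm
    apply Finset.card_bijective (fun u => g • u) (MulAction.bijective g)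
    intro u
    simp only [Finset.mem_filter, Finset.mem_univ, true_and]
    exact (orbR_smul a b g u b).symm
  refine ⟨h1, ?_⟩
  intro v
  rw [h2 v]
  have hsum : ∑ u : Ω, (Finset.univ.filter fun v => orbR G a b u v).card = ∑ v : Ω, (Finset.univ.filter fun u => orbR G a b u v).card := by
    simp only [Finset.card_filter]
    rw [Finset.sum_comm]
  simp only [h1, h2 _] at hsum
  simp only [Finset.sum_const, Finset.card_univ, smul_eq_mul] at hsum
  have hpos : 0 < Fintype.card Ω := Fintype.card_pos_iff.mpr ⟨a⟩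
  exact (Nat.eq_of_mul_eq_mul_left hpos hsum).symm

omit hp hK [Fintype Ω] [Finite G] [hpt : IsPretransitive G Ω] in
theorem mem_permConstants {F : Ω → K} : F ∈ (Cfsg.permConstants K G Ω).toSubmodule ↔ ∃ t : K, F = fun _ => t := by
  constructor
  · intro h
    obtain ⟨t, rfl⟩ := Submodule.mem_span_singleton.mp h
    exact ⟨t, by funext x; simp⟩
  · rintro ⟨t, rfl⟩
    exact Submodule.mem_span_singleton.mpr ⟨t, by funext x; simp⟩

/-- The main theorem: if no section of the heart carries a trivial action, the action is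
doubly transitive. -/
theorem two_trans_of_no_trivial (hf : 1 ≤ f) (hcard : Fintype.card Ω = p ^ f)
    (h : ∀ W W' : Subrepresentation (Cfsg.permRep K G Ω),
      (Cfsg.permConstants K G Ω).toSubmodule ≤ W.toSubmodule → W.toSubmodule < W'.toSubmodule →
      W'.toSubmodule ≤ (Cfsg.permSumZero K G Ω).toSubmodule →
      ∃ g : G, ∃ v ∈ W'.toSubmodule, Cfsg.permRep K G Ω g v - v ∉ W.toSubmodule) :
    IsMultiplyPretransitive G Ω 2 := by
  classical
  rw [is_two_pretransitive_iff]
  intro a b c d hab hcd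
  obtain ⟨hd₁, hd₂⟩ := orbital_counts (G := G) a b
  obtain ⟨d0, hd0⟩ : ∃ d0, d0 = (Finset.univ.filter fun v => orbR G a b a v).card := ⟨_, rfl⟩
  rw [← hd0] at hd₁ hd₂
  obtain ⟨B, hB⟩ : ∃ B, B = orbB K (orbR G a b) d0 := ⟨_, rfl⟩
  have hBeq : ∀ (g : G) (m : Ω → K), B (Cfsg.permRep K G Ω g m) = Cfsg.permRep K G Ω g (B m) := by
    intro g m
    rw [hB]
    exact orbB_equiv _ _ (orbR_smul a b) g m
  have hBsum : ∀ m, ∑ u, B m u = 0 := by
    intro m
    rw [hB]
    exact orbB_sum _ _ hd₂ m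
  have hCinv : ∀ (g : G), ∀ c ∈ (Cfsg.permConstants K G Ω).toSubmodule, Cfsg.permRep K G Ω g c = c := by
    intro g c hc
    obtain ⟨t, rfl⟩ := mem_permConstants.mp hc
    rfl
  have hmkinv : ∀ S : Submodule K (Ω → K), (∀ (g : G), ∀ m ∈ S, Cfsg.permRep K G Ω g m ∈ S) →
      ∀ (g : G), ∀ v ∈ S.map B ⊔ (Cfsg.permConstants K G Ω).toSubmodule,
        Cfsg.permRep K G Ω g v ∈ S.map B ⊔ (Cfsg.permConstants K G Ω).toSubmodule := by
    intro S hS g v hv
    obtain ⟨x, hx, c, hc, rfl⟩ := Submodule.mem_sup.mp hv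
    obtain ⟨m, hm, rfl⟩ := hx
    rw [map_add, ← hBeq, hCinv g c hc]
    exact add_mem (Submodule.mem_sup_left ⟨_, hS g m hm, rfl⟩) (Submodule.mem_sup_right hc)
  let U₁ : Subrepresentation (Cfsg.permRep K G Ω) :=
    ⟨(Cfsg.permSumZero K G Ω).toSubmodule.map B ⊔ (Cfsg.permConstants K G Ω).toSubmodule,
      fun g v hv => hmkinv _ (fun g m hm => (Cfsg.permSumZero K G Ω).apply_mem_toSubmodule g hm) g v hv⟩
  let U₂ : Subrepresentation (Cfsg.permRep K G Ω) :=
    ⟨(⊤ : Submodule K (Ω → K)).map B ⊔ (Cfsg.permConstants K G Ω).toSubmodule,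
      fun g v hv => hmkinv ⊤ (fun g m hm => Submodule.mem_top) g v hv⟩
  have hZsub : ∀ (g : G) (m : Ω → K), Cfsg.permRep K G Ω g m - m ∈ (Cfsg.permSumZero K G Ω).toSubmodule := by
    intro g m
    change ∑ x, (m (g⁻¹ • x) - m x) = 0
    rw [Finset.sum_sub_distrib, sum_smul_eq g⁻¹ m, sub_self]
  have htriv : ∀ (g : G), ∀ v ∈ U₂.toSubmodule, Cfsg.permRep K G Ω g v - v ∈ U₁.toSubmodule := by
    intro g v hv
    obtain ⟨x, hx, c, hc, rfl⟩ := Submodule.mem_sup.mp hv
    obtain ⟨m, hm, rfl⟩ := hx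
    rw [map_add, hCinv g c hc, add_sub_add_right_eq_sub, ← hBeq, ← map_sub]
    exact Submodule.mem_sup_left ⟨_, hZsub g m, rfl⟩
  have hC1 : (Cfsg.permConstants K G Ω).toSubmodule ≤ U₁.toSubmodule := le_sup_right
  have h12 : U₁.toSubmodule ≤ U₂.toSubmodule :=
    sup_le_sup_right (Submodule.map_mono le_top) _
  have h2Z : U₂.toSubmodule ≤ (Cfsg.permSumZero K G Ω).toSubmodule := by
    intro v hv
    obtain ⟨x, hx, c, hc, rfl⟩ := Submodule.mem_sup.mp hv
    obtain ⟨m, hm, rfl⟩ := hx
    refine add_mem (hBsum m) ?_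
    obtain ⟨t, rfl⟩ := mem_permConstants.mp hc
    change ∑ _x : Ω, t = 0
    rw [Finset.sum_const, Finset.card_univ, hcard, nsmul_eq_mul]
    have : ((p ^ f : ℕ) : K) = 0 := by
      rw [Nat.cast_pow, CharP.cast_eq_zero K p, zero_pow (by omega)]
    rw [this, zero_mul]
  have heq : U₁.toSubmodule = U₂.toSubmodule := by
    by_contra hne
    obtain ⟨g, v, hv, hgv⟩ := h U₁ U₂ hC1 (lt_of_le_of_ne h12 hne) h2Z
    exact hgv (htriv g v hv)
  -- the preimage of the constants
  let U : Submodule K (Ω → K) := (Cfsg.permConstants K G Ω).toSubmodule.comap B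
  have hUinv : ∀ (g : G), ∀ u ∈ U, Cfsg.permRep K G Ω g u ∈ U := by
    intro g u hu
    refine Submodule.mem_comap.mpr ?_
    rw [hBeq]
    exact (Cfsg.permConstants K G Ω).apply_mem_toSubmodule g hu
  have hdecomp : ∀ m : Ω → K, ∃ z ∈ (Cfsg.permSumZero K G Ω).toSubmodule, m - z ∈ U := by
    intro m
    have h1 : B m ∈ U₁.toSubmodule := by
      rw [heq]
      exact Submodule.mem_sup_left ⟨m, trivial, rfl⟩
    obtain ⟨x, hx, c, hc, hxc⟩ := Submodule.mem_sup.mp h1
    obtain ⟨z, hz, rfl⟩ := hx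
    refine ⟨z, hz, ?_⟩
    refine Submodule.mem_comap.mpr ?_
    rw [map_sub, ← hxc, add_sub_cancel_left]
    exact hc
  have hUtop : U = ⊤ := by
    by_contra hne
    obtain ⟨P⟩ : Nonempty (Sylow p G) := inferInstance
    have hcard' : Nat.card Ω = p ^ f := by rw [Nat.card_eq_fintype_card, hcard]
    have hsum := sum_eq_zero_of_ne_top (P : Subgroup G) P.isPGroup'
      (isPretransitive_sylow f hcard' P) U hUinv hne
    obtain ⟨z, hz, hzU⟩ := hdecomp (Pi.single a 1)
    have h1 := hsum _ hzU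
    have h2 : ∑ x, z x = 0 := hz
    simp only [Pi.sub_apply, Finset.sum_sub_distrib, h2, sub_zero, Finset.sum_pi_single', Finset.mem_univ,
      if_true] at h1
    exact one_ne_zero h1
  have hBC : B (Pi.single b 1) ∈ (Cfsg.permConstants K G Ω).toSubmodule := by
    have : (Pi.single b 1 : Ω → K) ∈ U := by rw [hUtop]; trivial
    exact this
  obtain ⟨t, ht⟩ := mem_permConstants.mp hBC
  have hval : ∀ u, u ≠ b → B (Pi.single b 1) u = if orbR G a b u b then 1 else 0 := by
    intro u hu
    rw [hB, orbB_apply, Pi.single_eq_of_ne hu, mul_zero, sub_zero]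
    rw [Finset.sum_eq_single b]
    · simp
    · intro v _ hv
      rw [Pi.single_eq_of_ne hv]
      simp
    · simp
  have ht1 : t = 1 := by
    have h1 := hval a hab
    rw [ht, if_pos ⟨1, by simp, by simp⟩] at h1
    exact h1
  have hall : ∀ u, u ≠ b → orbR G a b u b := by
    intro u hu
    have h1 := hval u hu
    rw [ht, ht1] at h1
    by_contra hn
    rw [if_neg hn] at h1
    exact one_ne_zero h1
  obtain ⟨k, rfl⟩ := hpt.exists_smul_eq b d
  have hne : k⁻¹ • c ≠ b := by
    intro h'
    apply hcd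
    rw [← h', smul_inv_smul]
  obtain ⟨g, hg1, hg2⟩ := hall _ hne
  refine ⟨k * g, ?_, ?_⟩
  · rw [mul_smul, hg1, smul_inv_smul]
  · rw [mul_smul, hg2]

end main

end Cfsg.Agent.H03
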