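import Mathlib
import Cfsg.Prelude.Def_Perm
import Cfsg.Agent.Lib.H03.PermMod

set_option autoImplicit false

namespace Cfsg.Agent.H03

open MulAction

section
variable {G : Type*} [Group G] {K : Type*} [Field K] {Ω : Type*} [Fintype Ω] [DecidableEq Ω] [MulAction G Ω]

open scoped Pointwise

/-- The map to pairs. -/
noncomputable def pairT (K : Type*) [Field K] {Ω : Type*} [Fintype Ω] [DecidableEq Ω]
    (R : Set.powersetCard Ω 2 → Ω → Prop) (a b : K) :
    (Ω → K) →ₗ[K] (Set.powersetCard Ω 2 → K) := by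
  classical
  exact
  { toFun := fun f A => a * (∑ z, if R A z then f z else 0) - b * ∑ u ∈ (A : Finset Ω), f u
    map_add' := fun f g => by
      funext A
      simp only [Pi.add_apply]
      rw [Finset.sum_congr rfl (fun v _ => (by split_ifs <;> simp :
        (if R A v then f v + g v else 0) = (if R A v then f v else 0) + (if R A v then g v else 0))),
        Finset.sum_add_distrib, Finset.sum_add_distrib]
      ring
    map_smul' := fun c f => by
      funext A
      simp only [Pi.smul_apply, smul_eq_mul, RingHom.id_apply]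
      rw [Finset.sum_congr rfl (fun v _ => (by split_ifs <;> simp :
        (if R A v then c * f v else 0) = c * (if R A v then f v else 0))), ← Finset.mul_sum,
        ← Finset.mul_sum]
      ring }

open Classical in
theorem pairT_apply (R : Set.powersetCard Ω 2 → Ω → Prop) (a b : K) (f : Ω → K)
    (A : Set.powersetCard Ω 2) :
    pairT K R a b f A = a * (∑ z, if R A z then f z else 0) - b * ∑ u ∈ (A : Finset Ω), f u := rfl

theorem sum_smul_finset_eq (g : G) (S : Finset Ω) (f : Ω → K) :
    ∑ u ∈ g • S, f u = ∑ u ∈ S, f (g • u) := by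
  rw [Finset.smul_finset_def, Finset.sum_image]
  exact fun x _ y _ h => MulAction.injective g h

open Classical in
theorem pairT_equiv (R : Set.powersetCard Ω 2 → Ω → Prop) (a b : K)
    (hinv : ∀ (g : G) A z, R (g • A) (g • z) ↔ R A z) (g : G) (f : Ω → K) :
    pairT K R a b (Cfsg.permRep K G Ω g f) = Cfsg.permRep K G (Set.powersetCard Ω 2) g (pairT K R a b f) := by
  funext A
  rw [permRep_apply, pairT_apply, pairT_apply, Set.powersetCard.coe_smul, sum_smul_finset_eq,
    ← sum_smul_eq g (fun z => if R A z then (Cfsg.permRep K G Ω g f) z else 0)]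
  simp only [permRep_apply]
  congr 2
  refine Finset.sum_congr rfl fun v _ => ?_
  have h := hinv g (g⁻¹ • A) v
  rw [smul_inv_smul] at h
  simp only [inv_smul_smul, h]

omit [Fintype Ω] in
theorem three_trans_of (x y c : Ω) (hxy : x ≠ y) (hxc : x ≠ c) (hyc : y ≠ c)
    (h : ∀ u v w : Ω, u ≠ v → u ≠ w → v ≠ w → ∃ g : G, g • x = u ∧ g • y = v ∧ g • c = w) :
    IsMultiplyPretransitive G Ω 3 := by
  let e₀ : Fin 3 ↪ Ω := ⟨![x, y, c], by
    intro i j hij
    fin_cases i <;> fin_cases j <;> simp_all⟩
  have key : ∀ f : Fin 3 ↪ Ω, ∃ g : G, g • e₀ = f := by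
    intro f
    obtain ⟨g, h1, h2, h3⟩ := h (f 0) (f 1) (f 2) (fun h => by simpa using f.injective h)
      (fun h => by simpa using f.injective h) (fun h => by simpa using f.injective h)
    refine ⟨g, ?_⟩
    ext i
    rw [Function.Embedding.smul_apply]
    fin_cases i
    · exact h1
    · exact h2
    · exact h3
  refine ⟨fun a b => ?_⟩
  obtain ⟨g₁, rfl⟩ := key a
  obtain ⟨g₂, rfl⟩ := key b
  exact ⟨g₂ * g₁⁻¹, by rw [mul_smul, inv_smul_smul]⟩

/-- `S0672`. -/
theorem three_trans_of_no_map [Finite G] {p : ℕ} [hp : Fact p.Prime] [hK : CharP K p] [FaithfulSMul G Ω]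
    (h2 : IsMultiplyPretransitive G Ω 2) (hpd : p ∣ Fintype.card Ω)
    (heven : ∀ a : Ω, Even (Nat.card (stabilizer G a)))
    (h : ∀ f : Representation.IntertwiningMap (Cfsg.permSumZero K G Ω).toRepresentation
        (Cfsg.permRep K G (Set.powersetCard Ω 2)),
      (∀ v : (Cfsg.permSumZero K G Ω).toSubmodule,
        (v : Ω → K) ∈ (Cfsg.permConstants K G Ω).toSubmodule → f v = 0) → f = 0) :
    IsMultiplyPretransitive G Ω 3 := by
  classical
  by_contra h3
  have htt : ∀ {a b c d : Ω} (_ : a ≠ b) (_ : c ≠ d), ∃ g : G, g • a = c ∧ g • b = d :=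
    is_two_pretransitive_iff.mp h2
  obtain ⟨e⟩ : Nonempty (Fin 3 ↪ Ω) := by
    by_contra hn
    exact h3 ⟨fun a => (hn ⟨a⟩).elim⟩
  obtain ⟨c, hc⟩ : ∃ c, c = e 0 := ⟨_, rfl⟩
  obtain ⟨t, ht⟩ := exists_prime_orderOf_dvd_card' (G := stabilizer G c) 2 (heven c).two_dvd
  have htc : (t : G) • c = c := t.2
  have ht2 : (t : G) * (t : G) = 1 := by
    have : t ^ 2 = 1 := by rw [← ht]; exact pow_orderOf_eq_one t
    have h' : t * t = 1 := by rw [← sq]; exact this
    exact congrArg Subtype.val h'
  have ht1 : (t : G) ≠ 1 := by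
    intro h1
    have : t = 1 := Subtype.ext h1
    rw [this, orderOf_one] at ht
    omega
  obtain ⟨x, hx⟩ : ∃ x : Ω, (t : G) • x ≠ x := by
    by_contra hcon
    push Not at hcon
    exact ht1 (FaithfulSMul.eq_of_smul_eq_smul (α := Ω) (by simpa using hcon))
  obtain ⟨y, hy⟩ : ∃ y, y = (t : G) • x := ⟨_, rfl⟩
  have hty : (t : G) • y = x := by rw [hy, ← mul_smul, ht2, one_smul]
  have hxy : x ≠ y := fun h => hx (by rw [← hy]; exact h.symm)
  have hxc : x ≠ c := by
    rintro rfl
    exact hx htc
  have hyc : y ≠ c := by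
    intro h
    apply hxc
    rw [← hty, h, htc]
  -- the pair
  let A₀ : Set.powersetCard Ω 2 := Set.powersetCard.ofCard (s := {x, y}) (Finset.card_pair hxy)
  have hA₀ : (A₀ : Finset Ω) = {x, y} := rfl
  have hsmA₀ : ∀ g : G, ((g • A₀ : Set.powersetCard Ω 2) : Finset Ω) = {g • x, g • y} := by
    intro g
    rw [Set.powersetCard.coe_smul, hA₀, Finset.smul_finset_insert, Finset.smul_finset_singleton]
  have htrans : ∀ A : Set.powersetCard Ω 2, ∃ k : G, k • A₀ = A := by
    intro A
    obtain ⟨u, v, huv, hA⟩ := Finset.card_eq_two.mp A.2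
    obtain ⟨k, h1, h2⟩ := htt hxy huv
    refine ⟨k, ?_⟩
    apply Subtype.ext
    rw [hsmA₀, h1, h2, ← hA]
  let R : Set.powersetCard Ω 2 → Ω → Prop := fun A z => ∃ g : G, g • A₀ = A ∧ g • c = z
  have hRinv : ∀ (g : G) A z, R (g • A) (g • z) ↔ R A z := by
    intro g A z
    constructor
    · rintro ⟨k, h1, h2⟩
      refine ⟨g⁻¹ * k, ?_, ?_⟩
      · rw [mul_smul, h1, inv_smul_smul]
      · rw [mul_smul, h2, inv_smul_smul]
    · rintro ⟨k, h1, h2⟩
      refine ⟨g * k, ?_, ?_⟩
      · rw [mul_smul, h1]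
      · rw [mul_smul, h2]
  obtain ⟨d0, hd0⟩ : ∃ d0, d0 = (Finset.univ.filter fun z => R A₀ z).card := ⟨_, rfl⟩
  have hd : ∀ A, (Finset.univ.filter fun z => R A z).card = d0 := by
    intro A
    obtain ⟨k, rfl⟩ := htrans A
    rw [hd0]
    symm
    apply Finset.card_bijective (fun v => k • v) (MulAction.bijective k)
    intro v
    simp only [Finset.mem_filter, Finset.mem_univ, true_and]
    exact (hRinv k A₀ v).symm
  -- vanishing
  have hzero : ∀ a b : K, a * d0 = b * 2 → ∀ f ∈ (Cfsg.permSumZero K G Ω).toSubmodule, pairT K R a b f = 0 := by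
    intro a b hab f hf
    let T : Representation.IntertwiningMap (Cfsg.permSumZero K G Ω).toRepresentation
        (Cfsg.permRep K G (Set.powersetCard Ω 2)) :=
      ⟨(pairT K R a b).comp (Cfsg.permSumZero K G Ω).toSubmodule.subtype, by
        intro g
        ext v
        exact congrFun (pairT_equiv (G := G) R a b hRinv g (v : Ω → K)) _⟩
    have hT : T = 0 := by
      apply h
      intro v hv
      obtain ⟨t', ht'⟩ := mem_permConstants.mp hv
      funext A
      change pairT K R a b (v : Ω → K) A = 0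
      rw [ht', pairT_apply, ← Finset.sum_filter, Finset.sum_const, Finset.sum_const, hd,
        Set.powersetCard.card_eq, nsmul_eq_mul, nsmul_eq_mul]
      push_cast
      linear_combination t' * hab
    exact congrArg (fun F : Representation.IntertwiningMap (Cfsg.permSumZero K G Ω).toRepresentation
        (Cfsg.permRep K G (Set.powersetCard Ω 2)) => F ⟨f, hf⟩) hT
  have hsingle : ∀ u w : Ω, (Pi.single u 1 - Pi.single w 1 : Ω → K) ∈ (Cfsg.permSumZero K G Ω).toSubmodule := by
    intro u w
    change ∑ x, (Pi.single u 1 - Pi.single w 1 : Ω → K) x = 0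
    simp [Finset.sum_sub_distrib]
  by_cases h20 : (2 : K) = 0
  · -- characteristic two
    have := hzero 0 1 (by rw [zero_mul, h20, mul_zero]) _ (hsingle x c)
    have h1 := congrFun this A₀
    rw [pairT_apply, hA₀, Finset.sum_pair hxy] at h1
    simp [Pi.single_apply, hxc, hyc, hxy.symm, Ne.symm hxc] at h1
  -- characteristic not two
  have hex : ∃ A z w, R A z ∧ w ∉ (A : Finset Ω) ∧ ¬ R A w := by
    by_contra hcon
    push Not at hcon
    apply h3
    apply three_trans_of (G := G) x y c hxy hxc hyc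
    intro u v w huv huw hvw
    let A : Set.powersetCard Ω 2 := Set.powersetCard.ofCard (s := {u, v}) (Finset.card_pair huv)
    have hA : (A : Finset Ω) = {u, v} := rfl
    obtain ⟨k, hk⟩ := htrans A
    have h1 : R A (k • c) := ⟨k, hk, rfl⟩
    have hw : w ∉ (A : Finset Ω) := by
      rw [hA]
      simp [huw.symm, hvw.symm]
    obtain ⟨g, hg1, hg2⟩ := hcon A _ w h1 hw
    have hg3 : ({g • x, g • y} : Finset Ω) = {u, v} := by
      rw [← hsmA₀, hg1, hA]
    have hx' : g • x ∈ ({u, v} : Finset Ω) := by rw [← hg3]; simp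
    have hy' : g • y ∈ ({u, v} : Finset Ω) := by rw [← hg3]; simp
    have hne : g • x ≠ g • y := fun h => hxy (MulAction.injective g h)
    simp only [Finset.mem_insert, Finset.mem_singleton] at hx' hy'
    rcases hx' with h1 | h1
    · rcases hy' with h2 | h2
      · exact absurd (h1.trans h2.symm) hne
      · exact ⟨g, h1, h2, hg2⟩
    · rcases hy' with h2 | h2
      · refine ⟨g * t, ?_, ?_, ?_⟩
        · rw [mul_smul, ← hy, h2]
        · rw [mul_smul, hty, h1]
        · rw [mul_smul, htc, hg2]
      · exact absurd (h1.trans h2.symm) hne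
  obtain ⟨A, z, w, hz, hw, hnw⟩ := hex
  have hzA : z ∉ (A : Finset Ω) := by
    obtain ⟨g, hg1, hg2⟩ := hz
    rw [← hg1, hsmA₀, ← hg2]
    simp only [Finset.mem_insert, Finset.mem_singleton, not_or]
    exact ⟨fun h => hxc (MulAction.injective g h).symm, fun h => hyc (MulAction.injective g h).symm⟩
  have hzw : z ≠ w := by
    rintro rfl
    exact hnw hz
  have := hzero 2 (d0 : K) (by ring) _ (hsingle z w)
  have h1 := congrFun this A
  rw [pairT_apply] at h1
  have h4 : ∑ u ∈ (A : Finset Ω), (Pi.single z 1 - Pi.single w 1 : Ω → K) u = 0 := by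
    apply Finset.sum_eq_zero
    intro u hu
    have h5 : u ≠ z := fun h => hzA (h ▸ hu)
    have h6 : u ≠ w := fun h => hw (h ▸ hu)
    simp [Pi.single_apply, h5, h6]
  have h7 : (∑ v, if R A v then (Pi.single z 1 - Pi.single w 1 : Ω → K) v else 0) = 1 := by
    rw [Finset.sum_eq_single z]
    · simp [hz, Pi.single_apply, hzw]
    · intro v _ hv
      split_ifs with hv2
      · have : v ≠ w := by
          rintro rfl
          exact hnw hv2
        simp [Pi.single_apply, hv, this]
      · rfl
    · simp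
  rw [h4, h7] at h1
  simp at h1
  exact h20 (by simpa using h1)

end

end Cfsg.Agent.H03
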