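import Mathlib

set_option autoImplicit false

namespace Cfsg.Agent.H03

open Polynomial

section
variable {p : ℕ} [hp : Fact p.Prime] {K : Type*} [Field K] [hK : CharP K p]

/-- the cast from `ZMod p` to `K`. -/
noncomputable def zc (j : ZMod p) : K := ZMod.cast j

theorem zc_eq (j : ZMod p) : (zc j : K) = ZMod.castHom (dvd_refl p) K j := rfl

theorem zc_injective : Function.Injective (zc : ZMod p → K) := by
  intro a b h
  rw [zc_eq, zc_eq] at h
  exact (ZMod.castHom (dvd_refl p) K).injective h

theorem zc_sub_one (j : ZMod p) : (zc (j - 1) : K) = zc j - 1 := by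
  rw [zc_eq, zc_eq, map_sub, map_one]

variable (p K) in
/-- evaluation of polynomials on `ZMod p` -/
noncomputable def evalL : K[X] →ₗ[K] (ZMod p → K) where
  toFun P := fun j => P.eval (zc j)
  map_add' P Q := by
    ext j
    simp
  map_smul' c P := by
    ext j
    simp

theorem evalL_apply (P : K[X]) (j : ZMod p) : evalL p K P j = P.eval (zc j) := rfl

variable (p K) in
/-- the difference operator -/
noncomputable def delta : (ZMod p → K) →ₗ[K] (ZMod p → K) where
  toFun f := fun j => f (j - 1) - f j
  map_add' f g := by
    ext j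
    simp only [Pi.add_apply]
    ring
  map_smul' c f := by
    ext j
    simp only [Pi.smul_apply, smul_eq_mul, RingHom.id_apply]
    ring

theorem delta_apply (f : ZMod p → K) (j : ZMod p) : delta p K f j = f (j - 1) - f j := rfl

/-- the polynomial difference. -/
noncomputable def polyT (P : K[X]) : K[X] := P.comp (X - C 1) - P

theorem delta_evalL (P : K[X]) : delta p K (evalL p K P) = evalL p K (polyT P) := by
  ext j
  simp [delta_apply, evalL_apply, polyT, zc_sub_one, eval_comp]

theorem degree_polyT_lt (P : K[X]) {r : ℕ} (h : P.degree < (r + 1 : ℕ)) : (polyT P).degree < (r : ℕ) := by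
  classical
  by_cases hP : P.natDegree = 0
  · have hc : P = C (P.coeff 0) := eq_C_of_natDegree_eq_zero hP
    have : polyT P = 0 := by
      rw [hc, polyT]
      simp
    rw [this, degree_zero]
    exact WithBot.bot_lt_coe r
  · have hP0 : P ≠ 0 := by
      rintro rfl
      simp at hP
    have hq : (X - C 1 : K[X]).natDegree = 1 := natDegree_X_sub_C 1
    have hdeg : (P.comp (X - C 1)).degree = P.degree := by
      rw [degree_eq_natDegree (by
        intro h0
        rw [comp_eq_zero_iff] at h0
        rcases h0 with h0 | ⟨_, h1⟩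
        · exact hP0 h0
        · have := congrArg natDegree h1
          rw [natDegree_C, hq] at this
          exact one_ne_zero this), natDegree_comp, hq, mul_one, degree_eq_natDegree hP0]
    have hlc : (P.comp (X - C 1)).leadingCoeff = P.leadingCoeff := by
      rw [leadingCoeff_comp (by rw [hq]; exact one_ne_zero), leadingCoeff_X_sub_C, one_pow, mul_one]
    have hne : P.comp (X - C 1) ≠ 0 := by
      intro h0
      rw [h0, leadingCoeff_zero] at hlc
      exact hP0 (leadingCoeff_eq_zero.mp hlc.symm)
    have h1 := degree_sub_lt hdeg hne hlc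
    rw [hdeg] at h1
    rw [degree_eq_natDegree hP0] at h h1
    have h2 : P.natDegree < r + 1 := by exact_mod_cast h
    have h3 : (P.natDegree : WithBot ℕ) ≤ (r : ℕ) := by exact_mod_cast (by omega : P.natDegree ≤ r)
    exact lt_of_lt_of_le h1 h3

variable (p K) in
/-- polynomial functions of degree `< r` -/
noncomputable def polyFun (r : ℕ) : Submodule K (ZMod p → K) := (degreeLT K r).map (evalL p K)

theorem mem_polyFun {r : ℕ} {f : ZMod p → K} :
    f ∈ polyFun p K r ↔ ∃ P : K[X], P.degree < r ∧ ∀ j : ZMod p, f j = P.eval (ZMod.cast j : K) := by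
  constructor
  · rintro ⟨P, hP, rfl⟩
    exact ⟨P, mem_degreeLT.mp hP, fun j => rfl⟩
  · rintro ⟨P, hP, hf⟩
    exact ⟨P, mem_degreeLT.mpr hP, funext fun j => (hf j).symm⟩

theorem finrank_polyFun {r : ℕ} (hr : r ≤ p) : Module.finrank K (polyFun p K r) = r := by
  classical
  have hinj : Function.Injective ((evalL p K).domRestrict (degreeLT K r)) := by
    rw [injective_iff_map_eq_zero]
    rintro ⟨P, hP⟩ h
    have hP' : P.degree < r := mem_degreeLT.mp hP
    apply Subtype.ext
    change P = 0
    have hev : ∀ j : ZMod p, P.eval (zc j) = 0 := fun j => congrFun h j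
    by_contra hne
    have hnd : P.natDegree < r := by
      rw [degree_eq_natDegree hne] at hP'
      exact_mod_cast hP'
    have hlt : P.natDegree < Fintype.card (ZMod p) := by
      rw [ZMod.card]
      omega
    exact hne (eq_zero_of_natDegree_lt_card_of_eval_eq_zero P zc_injective hev hlt)
  have h1 := LinearMap.finrank_range_of_inj hinj
  rw [LinearMap.range_domRestrict] at h1
  change Module.finrank K (polyFun p K r) = _ at h1
  rw [h1, (degreeLTEquiv K r).finrank_eq, Module.finrank_fin_fun]

theorem polyFun_le_ker (r : ℕ) : polyFun p K r ≤ LinearMap.ker (delta p K ^ r) := by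
  induction r with
  | zero =>
    rintro _ ⟨P, hP, rfl⟩
    have hP' : P.degree < (0 : ℕ) := mem_degreeLT.mp hP
    have : P = 0 := by
      rw [← degree_eq_bot]
      exact Nat.WithBot.lt_zero_iff.mp hP'
    rw [this, map_zero]
    exact Submodule.zero_mem _
  | succ r ih =>
    rintro _ ⟨P, hP, rfl⟩
    rw [LinearMap.mem_ker, pow_succ, Module.End.mul_apply, delta_evalL]
    have h1 : evalL p K (polyT P) ∈ polyFun p K r :=
      ⟨polyT P, mem_degreeLT.mpr (degree_polyT_lt P (mem_degreeLT.mp hP)), rfl⟩
    exact ih h1

theorem const_of_delta (f : ZMod p → K) (h : delta p K f = 0) (j : ZMod p) : f j = f 0 := by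
  have h1 : ∀ n : ℕ, f (n : ZMod p) = f 0 := by
    intro n
    induction n with
    | zero => simp
    | succ n ih =>
      have h2 := congrFun h ((n + 1 : ℕ) : ZMod p)
      rw [delta_apply] at h2
      have h3 : ((n + 1 : ℕ) : ZMod p) - 1 = (n : ZMod p) := by
        push_cast
        ring
      rw [h3, ih] at h2
      simp only [Pi.zero_apply] at h2
      exact (sub_eq_zero.mp h2).symm
  have := h1 j.val
  rwa [ZMod.natCast_zmod_val] at this

theorem finrank_ker_delta_pow (r : ℕ) : Module.finrank K (LinearMap.ker (delta p K ^ r)) ≤ r := by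
  classical
  induction r with
  | zero =>
    have : LinearMap.ker (delta p K ^ 0) = ⊥ := by
      rw [pow_zero]
      exact LinearMap.ker_id
    rw [this, finrank_bot]
  | succ r ih =>
    let g := (delta p K).domRestrict (LinearMap.ker (delta p K ^ (r + 1)))
    have hrn := g.finrank_range_add_finrank_ker
    have hrange : LinearMap.range g ≤ LinearMap.ker (delta p K ^ r) := by
      rintro _ ⟨⟨w, hw⟩, rfl⟩
      rw [LinearMap.mem_ker, pow_succ, Module.End.mul_apply] at hw
      rw [LinearMap.mem_ker]
      exact hw
    have h1 := Submodule.finrank_mono hrange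
    have hker : Module.finrank K (LinearMap.ker g) ≤ 1 := by
      let φ : LinearMap.ker g →ₗ[K] K :=
        (LinearMap.proj (0 : ZMod p)).comp ((Submodule.subtype _).comp (Submodule.subtype _))
      have hφ : Function.Injective φ := by
        rw [injective_iff_map_eq_zero]
        rintro ⟨⟨w, hw⟩, hw2⟩ h0
        apply Subtype.ext
        apply Subtype.ext
        have h3 : delta p K w = 0 := hw2
        ext j
        change w j = 0
        rw [const_of_delta w h3 j]
        exact h0
      have := LinearMap.finrank_le_finrank_of_injective hφ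
      rwa [Module.finrank_self] at this
    omega

theorem delta_pow_p : delta p K ^ p = 0 := by
  have hle := polyFun_le_ker (p := p) (K := K) p
  have htop : polyFun p K p = ⊤ := by
    apply Submodule.eq_top_of_finrank_eq
    rw [finrank_polyFun le_rfl, Module.finrank_fintype_fun_eq_card, ZMod.card]
  rw [htop, top_le_iff, LinearMap.ker_eq_top] at hle
  exact hle

/-- Classification of translation invariant subspaces. -/
theorem inv_classify (W : Submodule K (ZMod p → K)) (hW : ∀ f ∈ W, (fun j => f (j - 1)) ∈ W) :
    ∃ r : ℕ, r ≤ p ∧ Module.finrank K W = r ∧ W = polyFun p K r := by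
  classical
  have hΔW : ∀ f ∈ W, delta p K f ∈ W := by
    intro f hf
    exact W.sub_mem (hW f hf) hf
  have hΔWk : ∀ (k : ℕ), ∀ f ∈ W, (delta p K ^ k) f ∈ W := by
    intro k
    induction k with
    | zero => simpa using fun f hf => hf
    | succ k ih =>
      intro f hf
      rw [pow_succ, Module.End.mul_apply]
      exact ih _ (hΔW f hf)
  have hex : ∃ r, ∀ f ∈ W, (delta p K ^ r) f = 0 := ⟨p, fun f _ => by rw [delta_pow_p]; rfl⟩
  let r := Nat.find hex
  have hr : ∀ f ∈ W, (delta p K ^ r) f = 0 := Nat.find_spec hex
  have hrp : r ≤ p := Nat.find_min' hex (fun f _ => by rw [delta_pow_p]; rfl)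
  have hmono : ∀ i, LinearMap.ker (delta p K ^ i) ≤ LinearMap.ker (delta p K ^ (i + 1)) := by
    intro i v hv
    rw [LinearMap.mem_ker] at hv ⊢
    rw [pow_succ', Module.End.mul_apply, hv, map_zero]
  have hlow : ∀ i, i ≤ r → i ≤ Module.finrank K (W ⊓ LinearMap.ker (delta p K ^ i) : Submodule K _) := by
    intro i
    induction i with
    | zero => intro _; exact Nat.zero_le _
    | succ i ih =>
      intro hi
      have h1 := ih (by omega)
      have hmin : r - 1 < r := by omega
      have hnot := Nat.find_min hex hmin
      push Not at hnot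
      obtain ⟨f, hf, hfne⟩ := hnot
      let v := (delta p K ^ (r - 1 - i)) f
      have hvW : v ∈ W := hΔWk _ f hf
      have hv1 : (delta p K ^ (i + 1)) v = 0 := by
        change (delta p K ^ (i + 1)) ((delta p K ^ (r - 1 - i)) f) = 0
        rw [← Module.End.mul_apply, ← pow_add]
        have : i + 1 + (r - 1 - i) = r := by omega
        rw [this]
        exact hr f hf
      have hv2 : (delta p K ^ i) v ≠ 0 := by
        change (delta p K ^ i) ((delta p K ^ (r - 1 - i)) f) ≠ 0
        rw [← Module.End.mul_apply, ← pow_add]
        have : i + (r - 1 - i) = r - 1 := by omega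
        rw [this]
        exact hfne
      have hlt : (W ⊓ LinearMap.ker (delta p K ^ i) : Submodule K _) < W ⊓ LinearMap.ker (delta p K ^ (i + 1)) := by
        apply lt_of_le_of_ne (inf_le_inf_left _ (hmono i))
        intro heq
        have hmem : v ∈ (W ⊓ LinearMap.ker (delta p K ^ (i + 1)) : Submodule K _) := ⟨hvW, hv1⟩
        rw [← heq] at hmem
        exact hv2 hmem.2
      have := Submodule.finrank_lt_finrank_of_lt hlt
      omega
  have hWN : W ≤ LinearMap.ker (delta p K ^ r) := fun f hf => hr f hf
  have h1 := hlow r le_rfl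
  have h2 : Module.finrank K (W ⊓ LinearMap.ker (delta p K ^ r) : Submodule K _) ≤ Module.finrank K W :=
    Submodule.finrank_mono inf_le_left
  have h3 := Submodule.finrank_mono hWN
  have h4 := finrank_ker_delta_pow (p := p) (K := K) r
  have hcard : Module.finrank K W = r := by omega
  have heq1 : W = LinearMap.ker (delta p K ^ r) := Submodule.eq_of_le_of_finrank_le hWN (by omega)
  have heq2 : polyFun p K r = LinearMap.ker (delta p K ^ r) :=
    Submodule.eq_of_le_of_finrank_le (polyFun_le_ker r) (by rw [finrank_polyFun hrp]; omega)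
  exact ⟨r, hrp, hcard, heq1.trans heq2.symm⟩

end

end Cfsg.Agent.H03
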