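import Mathlib
import Cfsg.Prelude.Def_Perm
import Cfsg.Agent.Lib.H03.TransInv

set_option autoImplicit false

namespace Cfsg.Agent.H03

open Polynomial

section polys
variable {p : ℕ} [hp : Fact p.Prime] {K : Type*} [Field K] [hK : CharP K p]

/-- the monic polynomial with given roots -/
noncomputable def prodT (T : Finset (ZMod p)) : K[X] := ∏ t ∈ T, (X - C (zc t : K))

theorem eval_prodT (T : Finset (ZMod p)) (x : K) :
    (prodT T : K[X]).eval x = ∏ t ∈ T, (x - zc t) := by
  simp [prodT, eval_prod]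

theorem degree_prodT (T : Finset (ZMod p)) : (prodT T : K[X]).degree = T.card := by
  simp [prodT, degree_prod, degree_X_sub_C]

/-- a polynomial of degree at most `|T|` vanishing on `T` is a multiple of `prodT T`. -/
theorem eq_smul_prodT (T : Finset (ZMod p)) (hT : T.card < p) (Q : K[X])
    (hQ : Q.degree < (T.card + 1 : ℕ)) (h0 : ∀ t ∈ T, Q.eval (zc t) = 0) :
    ∃ c : K, Q = C c * prodT T := by
  classical
  obtain ⟨i, hi⟩ : ∃ i : ZMod p, i ∉ T := by
    by_contra hcon
    push Not at hcon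
    have : T = Finset.univ := Finset.eq_univ_iff_forall.mpr hcon
    rw [this, Finset.card_univ, ZMod.card] at hT
    omega
  have hne : (prodT T : K[X]).eval (zc i) ≠ 0 := by
    rw [eval_prodT, Finset.prod_ne_zero_iff]
    intro t ht h
    apply hi
    have : i = t := zc_injective (sub_eq_zero.mp h)
    rwa [this]
  refine ⟨Q.eval (zc i) / (prodT T : K[X]).eval (zc i), ?_⟩
  set c := Q.eval (zc i) / (prodT T : K[X]).eval (zc i) with hc
  have hz : Q - C c * prodT T = 0 := by
    apply Polynomial.eq_zero_of_degree_lt_of_eval_index_eq_zero (s := insert i T)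
      (v := (zc : ZMod p → K)) (zc_injective.injOn)
    · rw [Finset.card_insert_of_notMem hi]
      refine lt_of_le_of_lt (degree_sub_le _ _) (max_lt hQ ?_)
      refine lt_of_le_of_lt (degree_mul_le _ _) ?_
      refine lt_of_le_of_lt (add_le_add_left degree_C_le _) ?_
      rw [degree_prodT, zero_add]
      exact_mod_cast Nat.lt_succ_self _
    · intro j hj
      rw [eval_sub, eval_mul, eval_C]
      rcases Finset.mem_insert.mp hj with rfl | hj
      · rw [hc, div_mul_cancel₀ _ hne, sub_self]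
      · rw [h0 j hj, eval_prodT, Finset.prod_eq_zero (f := fun t => (zc j : K) - zc t) hj (sub_self _),
          mul_zero, sub_zero]
  exact sub_eq_zero.mp hz

/-- The product relation: if the polynomial functions of degree at most `g` are preserved by the
permutation `s` of `ZMod p`, then the products over `g`-subsets transform by a scalar. -/
theorem prod_relation {g : ℕ} (s : Equiv.Perm (ZMod p))
    (hinv : ∀ f ∈ polyFun p K (g + 1), (fun j => f (s.symm j)) ∈ polyFun p K (g + 1))
    (T : Finset (ZMod p)) (hT : T.card = g) (hg : g < p) :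
    ∃ c : K, ∀ i : ZMod p,
      ∏ t ∈ T, ((zc i : K) - zc t) = c * ∏ t ∈ T, ((zc (s i) : K) - zc (s t)) := by
  classical
  have h1 : evalL p K (prodT T) ∈ polyFun p K (g + 1) := by
    refine ⟨prodT T, ?_, rfl⟩
    rw [SetLike.mem_coe, mem_degreeLT, degree_prodT, hT]
    exact_mod_cast Nat.lt_succ_self _
  obtain ⟨Q, hQ, hQ2⟩ := mem_polyFun.mp (hinv _ h1)
  have hQ' : ∀ j : ZMod p, (prodT T : K[X]).eval (zc (s.symm j)) = Q.eval (zc j) := by
    intro j
    exact hQ2 j
  let T' := T.image s
  have hcard : T'.card = g := by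
    rw [Finset.card_image_of_injective _ s.injective, hT]
  obtain ⟨c, hc⟩ := eq_smul_prodT T' (by omega) Q (by rw [hcard]; exact_mod_cast hQ) (by
    intro t ht
    obtain ⟨t0, ht0, rfl⟩ := Finset.mem_image.mp ht
    rw [← hQ', Equiv.symm_apply_apply, eval_prodT]
    exact Finset.prod_eq_zero (f := fun t => (zc t0 : K) - zc t) ht0 (sub_self _))
  refine ⟨c, fun i => ?_⟩
  have h2 := hQ' (s i)
  rw [Equiv.symm_apply_apply, eval_prodT, hc, eval_mul, eval_C, eval_prodT] at h2
  rw [h2, Finset.prod_image (fun a _ b _ h => s.injective h)]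

/-- cross ratio relation in `K`. -/
theorem cross_ratio_K {g : ℕ} (s : Equiv.Perm (ZMod p))
    (hinv : ∀ f ∈ polyFun p K (g + 1), (fun j => f (s.symm j)) ∈ polyFun p K (g + 1))
    (hg0 : 1 ≤ g) (hg : g + 3 ≤ p) (u v a b : ZMod p)
    (huv : u ≠ v) (hua : u ≠ a) (hub : u ≠ b) (hva : v ≠ a) (hvb : v ≠ b) (hab : a ≠ b) :
    ((zc u : K) - zc a) * (zc v - zc b) * (zc (s v) - zc (s a)) * (zc (s u) - zc (s b)) =
      ((zc v : K) - zc a) * (zc u - zc b) * (zc (s u) - zc (s a)) * (zc (s v) - zc (s b)) := by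
  classical
  -- choose `S`
  let R : Finset (ZMod p) := Finset.univ \ {u, v, a, b}
  have hR : g - 1 ≤ R.card := by
    have h1 : ({u, v, a, b} : Finset (ZMod p)).card ≤ 4 := Finset.card_le_four
    have h2 : R.card = p - ({u, v, a, b} : Finset (ZMod p)).card := by
      rw [Finset.card_sdiff_of_subset (Finset.subset_univ _), Finset.card_univ, ZMod.card]
    omega
  obtain ⟨S, hSR, hS⟩ := Finset.exists_subset_card_eq hR
  have hmem : ∀ t ∈ S, t ≠ u ∧ t ≠ v ∧ t ≠ a ∧ t ≠ b := by
    intro t ht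
    have := (Finset.mem_sdiff.mp (hSR ht)).2
    simp only [Finset.mem_insert, Finset.mem_singleton, not_or] at this
    exact this
  have haS : a ∉ S := fun h => (hmem a h).2.2.1 rfl
  have hbS : b ∉ S := fun h => (hmem b h).2.2.2 rfl
  obtain ⟨c1, h1⟩ := prod_relation (K := K) s hinv (insert a S)
    (by rw [Finset.card_insert_of_notMem haS, hS]; omega) (by omega)
  obtain ⟨c2, h2⟩ := prod_relation (K := K) s hinv (insert b S)
    (by rw [Finset.card_insert_of_notMem hbS, hS]; omega) (by omega)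
  have h1u := h1 u
  have h1v := h1 v
  have h2u := h2 u
  have h2v := h2 v
  rw [Finset.prod_insert haS, Finset.prod_insert haS] at h1u h1v
  rw [Finset.prod_insert hbS, Finset.prod_insert hbS] at h2u h2v
  -- the four products
  obtain ⟨Au, hAu⟩ : ∃ x, x = ∏ t ∈ S, ((zc u : K) - zc t) := ⟨_, rfl⟩
  obtain ⟨Av, hAv⟩ : ∃ x, x = ∏ t ∈ S, ((zc v : K) - zc t) := ⟨_, rfl⟩
  obtain ⟨Bu, hBu⟩ : ∃ x, x = ∏ t ∈ S, ((zc (s u) : K) - zc (s t)) := ⟨_, rfl⟩
  obtain ⟨Bv, hBv⟩ : ∃ x, x = ∏ t ∈ S, ((zc (s v) : K) - zc (s t)) := ⟨_, rfl⟩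
  rw [← hAu, ← hBu] at h1u h2u
  rw [← hAv, ← hBv] at h1v h2v
  have hne : ∀ x y : ZMod p, x ≠ y → (zc x : K) - zc y ≠ 0 := fun x y h h' =>
    h (zc_injective (sub_eq_zero.mp h'))
  have hAu0 : Au ≠ 0 := by
    rw [hAu, Finset.prod_ne_zero_iff]
    exact fun t ht => hne _ _ (hmem t ht).1.symm
  have hAv0 : Av ≠ 0 := by
    rw [hAv, Finset.prod_ne_zero_iff]
    exact fun t ht => hne _ _ (hmem t ht).2.1.symm
  have hBu0 : Bu ≠ 0 := by
    rw [hBu, Finset.prod_ne_zero_iff]
    exact fun t ht => hne _ _ (fun h => (hmem t ht).1 (s.injective h).symm)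
  have hBv0 : Bv ≠ 0 := by
    rw [hBv, Finset.prod_ne_zero_iff]
    exact fun t ht => hne _ _ (fun h => (hmem t ht).2.1 (s.injective h).symm)
  have key : (Au * Av * Bu * Bv) * (((zc u : K) - zc a) * (zc v - zc b) * (zc (s v) - zc (s a)) * (zc (s u) - zc (s b))) =
      (Au * Av * Bu * Bv) * (((zc v : K) - zc a) * (zc u - zc b) * (zc (s u) - zc (s a)) * (zc (s v) - zc (s b))) := by
    have e1 : ((zc u : K) - zc a) * Au * ((zc (s v) - zc (s a)) * Bv) = ((zc v : K) - zc a) * Av * ((zc (s u) - zc (s a)) * Bu) := by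
      rw [h1u, h1v]; ring
    have e2 : ((zc v : K) - zc b) * Av * ((zc (s u) - zc (s b)) * Bu) = ((zc u : K) - zc b) * Au * ((zc (s v) - zc (s b)) * Bv) := by
      rw [h2u, h2v]; ring
    calc _ = (((zc u : K) - zc a) * Au * ((zc (s v) - zc (s a)) * Bv)) * (((zc v : K) - zc b) * Av * ((zc (s u) - zc (s b)) * Bu)) := by ring
      _ = (((zc v : K) - zc a) * Av * ((zc (s u) - zc (s a)) * Bu)) * (((zc u : K) - zc b) * Au * ((zc (s v) - zc (s b)) * Bv)) := by rw [e1, e2]
      _ = _ := by ring
  exact mul_left_cancel₀ (mul_ne_zero (mul_ne_zero (mul_ne_zero hAu0 hAv0) hBu0) hBv0) key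

/-- The cross ratio relation pushed to `ZMod p`. -/
theorem cross_ratio_Z {g : ℕ} (s : Equiv.Perm (ZMod p))
    (hinv : ∀ f ∈ polyFun p K (g + 1), (fun j => f (s.symm j)) ∈ polyFun p K (g + 1))
    (hg0 : 1 ≤ g) (hg : g + 3 ≤ p) (u v a b : ZMod p)
    (huv : u ≠ v) (hua : u ≠ a) (hub : u ≠ b) (hva : v ≠ a) (hvb : v ≠ b) (hab : a ≠ b) :
    (u - a) * (v - b) * (s v - s a) * (s u - s b) =
      (v - a) * (u - b) * (s u - s a) * (s v - s b) := by
  have h := cross_ratio_K (K := K) s hinv hg0 hg u v a b huv hua hub hva hvb hab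
  simp only [zc_eq] at h
  simp only [← map_sub, ← map_mul] at h
  exact (ZMod.castHom (dvd_refl p) K).injective h

/-- A permutation of `ZMod p` preserving cross ratios is affine. -/
theorem affine_of_cross_ratio (s : Equiv.Perm (ZMod p))
    (hs : ∀ u v a b : ZMod p, u ≠ v → u ≠ a → u ≠ b → v ≠ a → v ≠ b → a ≠ b →
      (u - a) * (v - b) * (s v - s a) * (s u - s b) =
        (v - a) * (u - b) * (s u - s a) * (s v - s b)) :
    ∃ a : ZMod p, a ≠ 0 ∧ ∃ b : ZMod p, ∀ x, s x = a * x + b := by
  classical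
  have h01 : (0 : ZMod p) ≠ 1 := zero_ne_one
  have hA : s 1 - s 0 ≠ 0 := fun h => h01 (s.injective (sub_eq_zero.mp h)).symm
  obtain ⟨A, hAdef⟩ : ∃ A, A = s 1 - s 0 := ⟨_, rfl⟩
  rw [← hAdef] at hA
  -- the normalized permutation
  let t : ZMod p → ZMod p := fun x => (s x - s 0) / A
  have ht0 : t 0 = 0 := by simp [t]
  have ht1 : t 1 = 1 := by simp only [t]; rw [← hAdef, div_self hA]
  have htinj : Function.Injective t := by
    intro x y h
    simp only [t] at h
    have := (div_left_inj' hA).mp h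
    exact s.injective (sub_left_injective this)
  have hsub : ∀ x y, t x - t y = (s x - s y) / A := by
    intro x y
    simp only [t]
    field_simp
    ring
  have ht : ∀ u v a b : ZMod p, u ≠ v → u ≠ a → u ≠ b → v ≠ a → v ≠ b → a ≠ b →
      (u - a) * (v - b) * (t v - t a) * (t u - t b) =
        (v - a) * (u - b) * (t u - t a) * (t v - t b) := by
    intro u v a b h1 h2 h3 h4 h5 h6
    have := hs u v a b h1 h2 h3 h4 h5 h6
    rw [hsub, hsub, hsub, hsub]
    field_simp
    linear_combination this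
  -- the values outside `0, 1`
  let U : Finset (ZMod p) := Finset.univ.filter fun x => x ≠ 0 ∧ x ≠ 1
  have hU : ∀ x, x ∈ U ↔ x ≠ 0 ∧ x ≠ 1 := by simp [U]
  have htU : ∀ x ∈ U, t x ∈ U := by
    intro x hx
    rw [hU] at hx ⊢
    refine ⟨fun h => hx.1 (htinj (h.trans ht0.symm)), fun h => hx.2 (htinj (h.trans ht1.symm))⟩
  let φ : ZMod p → ZMod p := fun x => x / (x - 1)
  have hφ0 : ∀ x ∈ U, φ x ≠ 0 := by
    intro x hx
    rw [hU] at hx
    exact div_ne_zero hx.1 (sub_ne_zero.mpr hx.2)
  have hφ : ∀ x ∈ U, ∀ y ∈ U, φ (t x) * φ y = φ (t y) * φ x := by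
    intro x hx y hy
    by_cases hxy : x = y
    · rw [hxy]
    have hx' := (hU x).mp hx
    have hy' := (hU y).mp hy
    have hx2 := (hU _).mp (htU x hx)
    have hy2 := (hU _).mp (htU y hy)
    have := ht x y 0 1 hxy hx'.1 hx'.2 hy'.1 hy'.2 h01
    rw [ht0, ht1] at this
    simp only [φ]
    have d1 : x - 1 ≠ 0 := sub_ne_zero.mpr hx'.2
    have d2 : y - 1 ≠ 0 := sub_ne_zero.mpr hy'.2
    have d3 : t x - 1 ≠ 0 := sub_ne_zero.mpr hx2.2
    have d4 : t y - 1 ≠ 0 := sub_ne_zero.mpr hy2.2
    field_simp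
    linear_combination -this
  have hfix : ∀ x ∈ U, t x = x := by
    intro x₀ hx₀
    let κ := φ (t x₀) / φ x₀
    have hκ : ∀ x ∈ U, φ (t x) = κ * φ x := by
      intro x hx
      have h := hφ x hx x₀ hx₀
      simp only [κ]
      have := hφ0 x₀ hx₀
      field_simp
      linear_combination h
    have hκ0 : κ ≠ 0 := div_ne_zero (hφ0 _ (htU _ hx₀)) (hφ0 _ hx₀)
    have himg : U.image t = U := by
      apply Finset.eq_of_subset_of_card_le
      · intro y hy
        obtain ⟨x, hx, rfl⟩ := Finset.mem_image.mp hy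
        exact htU x hx
      · rw [Finset.card_image_of_injective _ htinj]
    have hprod : ∏ x ∈ U, φ (t x) = ∏ x ∈ U, φ x := by
      conv_rhs => rw [← himg]
      rw [Finset.prod_image (fun a _ b _ h => htinj h)]
    have hcardU : U.card + 2 = p := by
      have h1 : U = Finset.univ \ {0, 1} := by
        ext x
        simp [hU]
      rw [h1, Finset.card_sdiff_of_subset (Finset.subset_univ _), Finset.card_univ, ZMod.card,
        Finset.card_pair h01]
      have := hp.out.two_le
      omega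
    have hprod2 : κ ^ U.card * ∏ x ∈ U, φ x = ∏ x ∈ U, φ x := by
      conv_rhs => rw [← hprod]
      rw [Finset.prod_congr rfl hκ, Finset.prod_mul_distrib, Finset.prod_const]
    have hprod0 : ∏ x ∈ U, φ x ≠ 0 := Finset.prod_ne_zero_iff.mpr hφ0
    have hκ1 : κ ^ U.card = 1 := mul_right_cancel₀ hprod0 (by rw [hprod2, one_mul])
    have hκ2 : κ ^ (p - 1) = 1 := ZMod.pow_card_sub_one_eq_one hκ0
    have hκ3 : κ = 1 := by
      have : p - 1 = U.card + 1 := by omega
      rw [this, pow_succ, hκ1, one_mul] at hκ2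
      exact hκ2
    have h := hκ x₀ hx₀
    rw [hκ3, one_mul] at h
    have hx' := (hU x₀).mp hx₀
    have hx2 := (hU _).mp (htU x₀ hx₀)
    simp only [φ] at h
    have d1 : x₀ - 1 ≠ 0 := sub_ne_zero.mpr hx'.2
    have d3 : t x₀ - 1 ≠ 0 := sub_ne_zero.mpr hx2.2
    field_simp at h
    linear_combination -h
  have hall : ∀ x, t x = x := by
    intro x
    by_cases h0 : x = 0
    · rw [h0, ht0]
    by_cases h1 : x = 1
    · rw [h1, ht1]
    exact hfix x ((hU x).mpr ⟨h0, h1⟩)
  refine ⟨A, hA, s 0, fun x => ?_⟩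
  have := hall x
  simp only [t] at this
  rw [div_eq_iff hA] at this
  linear_combination this

end polys

section coord

variable {α : Type*} [Fintype α] {p : ℕ} [hp : Fact p.Prime]

/-- Coordinates from an element of prime order acting on a set of `p` points. -/
theorem exists_coord_of_order {G : Type*} [Group G] [MulAction G α] (hα : Fintype.card α = p)
    (x : G) (hx : orderOf x = p) (a : α) (ha : x • a ≠ a) :
    ∃ e : ZMod p ≃ α, ∀ j, x • e j = e (j + 1) := by
  classical
  let f : ZMod p → α := fun j => x ^ j.val • a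
  have hfixpow : ∀ n : ℕ, n % p ≠ 0 → x ^ n • a ≠ a := by
    intro n hn h
    apply ha
    have hcop : Nat.Coprime n (orderOf x) := by
      rw [hx]
      exact ((Nat.Prime.coprime_iff_not_dvd hp.out).mpr (fun hd => hn (Nat.mod_eq_zero_of_dvd hd))).symm
    obtain ⟨m, hm⟩ := exists_pow_eq_self_of_coprime hcop
    have hm2 : ∀ k : ℕ, (x ^ n) ^ k • a = a := by
      intro k
      induction k with
      | zero => simp
      | succ k ih => rw [pow_succ, mul_smul, h, ih]
    rw [← hm]
    exact hm2 m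
  have hinj : Function.Injective f := by
    intro i j hij
    wlog hle : i.val ≤ j.val generalizing i j
    · exact (this hij.symm (by omega)).symm
    simp only [f] at hij
    by_contra hne
    have hlt : i.val < j.val := lt_of_le_of_ne hle (fun h => hne (ZMod.val_injective p h))
    have hjlt : j.val < p := ZMod.val_lt j
    have h1 : x ^ (j.val - i.val) • a = a := by
      have : x ^ j.val = x ^ i.val * x ^ (j.val - i.val) := by
        rw [← pow_add]
        congr 1
        omega
      rw [this, mul_smul] at hij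
      exact (smul_left_cancel _ hij).symm
    refine hfixpow _ ?_ h1
    rw [Nat.mod_eq_of_lt (by omega)]
    omega
  have hbij : Function.Bijective f := by
    rw [Fintype.bijective_iff_injective_and_card]
    exact ⟨hinj, by rw [ZMod.card, hα]⟩
  refine ⟨Equiv.ofBijective f hbij, fun j => ?_⟩
  simp only [Equiv.ofBijective_apply, f]
  rw [← mul_smul, ← pow_succ']
  congr 1
  rw [pow_eq_pow_iff_modEq, hx]
  have h2 : 1 < p := hp.out.one_lt
  rw [ZMod.val_add, ZMod.val_one'' (by omega)]
  exact (Nat.mod_modEq _ _).symm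

end coord

section group
open MulAction
variable {α : Type*} [Fintype α] {p : ℕ} [hp : Fact p.Prime]

theorem exists_coord {G : Type*} [Group G] [Finite G] [MulAction G α] [FaithfulSMul G α]
    [IsPretransitive G α] (hα : Fintype.card α = p) :
    ∃ (x : G) (e : ZMod p ≃ α), orderOf x = p ∧ ∀ j, x • e j = e (j + 1) := by
  classical
  have hne : Nonempty α := by
    apply Fintype.card_pos_iff.mp
    rw [hα]
    exact hp.out.pos
  obtain ⟨a₀⟩ := hne
  have hdvd : p ∣ Nat.card G := by
    have h1 := index_stabilizer_of_transitive G a₀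
    rw [Nat.card_eq_fintype_card, hα] at h1
    rw [← h1]
    exact Subgroup.index_dvd_card _
  obtain ⟨x, hx⟩ := exists_prime_orderOf_dvd_card' p hdvd
  have hx1 : x ≠ 1 := by
    rintro rfl
    rw [orderOf_one] at hx
    exact hp.out.one_lt.ne hx
  obtain ⟨a, ha⟩ : ∃ a : α, x • a ≠ a := by
    by_contra hcon
    push Not at hcon
    exact hx1 (FaithfulSMul.eq_of_smul_eq_smul (α := α) (by simpa using hcon))
  obtain ⟨e, he⟩ := exists_coord_of_order hα x hx a ha
  exact ⟨x, e, hx, he⟩

/-- a group acting faithfully by affine maps is solvable. -/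
theorem solvable_of_affine {G : Type*} [Group G] [MulAction G α] [FaithfulSMul G α]
    (e : ZMod p ≃ α) (h : ∀ σ : G, ∃ a : ZMod p, a ≠ 0 ∧ ∃ b : ZMod p, ∀ j, σ • e j = e (a * j + b)) :
    Group.IsSolvable G := by
  classical
  have hslope : ∀ σ : G, e.symm (σ • e 1) - e.symm (σ • e 0) ≠ 0 := by
    intro σ
    obtain ⟨a, ha, b, hb⟩ := h σ
    rw [hb, hb, Equiv.symm_apply_apply, Equiv.symm_apply_apply]
    simpa using ha
  have hval : ∀ σ : G, ∀ a b : ZMod p, (∀ j, σ • e j = e (a * j + b)) →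
      e.symm (σ • e 1) - e.symm (σ • e 0) = a := by
    intro σ a b hb
    rw [hb, hb, Equiv.symm_apply_apply, Equiv.symm_apply_apply]
    ring
  let g : G →* (ZMod p)ˣ := MonoidHom.mk' (fun σ => Units.mk0 _ (hslope σ)) (by
    intro σ τ
    obtain ⟨a, ha, b, hb⟩ := h σ
    obtain ⟨c, hc, d, hd⟩ := h τ
    apply Units.ext
    simp only [Units.val_mul, Units.val_mk0]
    rw [hval σ a b hb, hval τ c d hd]
    apply hval (σ * τ) (a * c) (a * d + b)
    intro j
    rw [mul_smul, hd, hb]
    congr 1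
    ring)
  have hker : Group.IsSolvable g.ker := by
    apply Group.isSolvable_of_comm
    intro σ τ
    apply Subtype.ext
    have key : ∀ σ : g.ker, ∃ b : ZMod p, ∀ j, (σ : G) • e j = e (j + b) := by
      intro σ
      obtain ⟨a, ha, b, hb⟩ := h σ
      refine ⟨b, fun j => ?_⟩
      have h1 : g σ = 1 := σ.2
      have h2 : e.symm ((σ : G) • e 1) - e.symm ((σ : G) • e 0) = 1 := by
        have := congrArg Units.val h1
        simpa [g] using this
      rw [hval _ a b hb] at h2
      rw [hb, h2, one_mul]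
    obtain ⟨b, hb⟩ := key σ
    obtain ⟨c, hc⟩ := key τ
    apply FaithfulSMul.eq_of_smul_eq_smul (α := α)
    intro y
    obtain ⟨j, rfl⟩ := e.surjective y
    change ((σ : G) * (τ : G)) • e j = ((τ : G) * (σ : G)) • e j
    rw [mul_smul, mul_smul, hc, hb, hb, hc]
    congr 1
    ring
  exact Group.isSolvable_of_ker_le_range g.ker.subtype g (by simp)

variable {K : Type*} [Field K] [hK : CharP K p]

/-- pull back of a subspace along a coordinate -/
noncomputable def pullSub (e : ZMod p ≃ α) (W : Submodule K (α → K)) : Submodule K (ZMod p → K) :=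
  W.comap (LinearMap.funLeft K K e.symm)

omit hp hK in
theorem mem_pullSub {e : ZMod p ≃ α} {W : Submodule K (α → K)} {f : ZMod p → K} :
    f ∈ pullSub e W ↔ (fun y => f (e.symm y)) ∈ W := Iff.rfl

omit hp hK in
theorem mem_of_pull {e : ZMod p ≃ α} {W : Submodule K (α → K)} {F : α → K} :
    (fun j => F (e j)) ∈ pullSub e W ↔ F ∈ W := by
  rw [mem_pullSub]
  simp only [Equiv.apply_symm_apply]

theorem pull_trans {G : Type*} [Group G] [MulAction G α] (x : G) (e : ZMod p ≃ α)
    (hx : ∀ j, x • e j = e (j + 1)) (W : Subrepresentation (Cfsg.permRep K G α)) :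
    ∀ f ∈ pullSub e W.toSubmodule, (fun j => f (j - 1)) ∈ pullSub e W.toSubmodule := by
  intro f hf
  rw [mem_pullSub] at hf ⊢
  have := W.apply_mem_toSubmodule x hf
  convert this using 1
  funext y
  obtain ⟨j, rfl⟩ := e.surjective y
  change f (e.symm (e j) - 1) = f (e.symm (x⁻¹ • e j))
  congr 1
  rw [Equiv.symm_apply_apply, Equiv.eq_symm_apply, eq_inv_smul_iff, hx, sub_add_cancel]

theorem polyFun_one_const {f : ZMod p → K} (hf : f ∈ polyFun p K 1) : ∃ c, ∀ j, f j = c := by
  obtain ⟨P, hP, h⟩ := mem_polyFun.mp hf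
  have : P = Polynomial.C (P.coeff 0) := Polynomial.eq_C_of_degree_le_zero (by
    exact Nat.WithBot.lt_one_iff_le_zero.mp (by simpa using hP))
  refine ⟨P.coeff 0, fun j => ?_⟩
  rw [h j, this]
  simp

/-- Main step: a proper invariant subspace forces every group element to be affine. -/
theorem affine_of_proper {G : Type*} [Group G] [MulAction G α] (x : G) (e : ZMod p ≃ α)
    (hx : ∀ j, x • e j = e (j + 1)) (W : Subrepresentation (Cfsg.permRep K G α))
    (h₁ : (Cfsg.permConstants K G α).toSubmodule ≤ W.toSubmodule)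
    (h₂ : W.toSubmodule ≤ (Cfsg.permSumZero K G α).toSubmodule)
    (hne₁ : W ≠ Cfsg.permConstants K G α) (hne₂ : W ≠ Cfsg.permSumZero K G α) (σ : G) :
    ∃ a : ZMod p, a ≠ 0 ∧ ∃ b : ZMod p, ∀ j, σ • e j = e (a * j + b) := by
  classical
  obtain ⟨r, hrp, hrf, hr⟩ := inv_classify _ (pull_trans x e hx W)
  obtain ⟨r', hrp', hrf', hr'⟩ := inv_classify _ (pull_trans x e hx (Cfsg.permSumZero K G α))
  -- `r ≠ 0`
  have hr0 : r ≠ 0 := by
    rintro rfl
    have h1 : (fun _ => 1 : ZMod p → K) ∈ polyFun p K 0 := by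
      rw [← hr, mem_pullSub]
      apply h₁
      exact Submodule.mem_span_singleton_self _
    obtain ⟨P, hP, h⟩ := mem_polyFun.mp h1
    have : P = 0 := by simpa using hP
    have h2 := h 0
    rw [this] at h2
    simp at h2
  have hr1 : r ≠ 1 := by
    rintro rfl
    apply hne₁
    apply Subrepresentation.toSubmodule_injective
    apply le_antisymm _ h₁
    intro F hF
    have h1 : (fun j => F (e j)) ∈ polyFun p K 1 := by
      rw [← hr, mem_of_pull]
      exact hF
    obtain ⟨c, hc⟩ := polyFun_one_const h1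
    refine Submodule.mem_span_singleton.mpr ⟨c, ?_⟩
    funext y
    obtain ⟨j, rfl⟩ := e.surjective y
    simpa using (hc j).symm
  have hle : r ≤ r' := by
    rw [← hrf, ← hrf']
    apply Submodule.finrank_mono
    intro f hf
    exact h₂ hf
  have hne : r ≠ r' := by
    rintro rfl
    apply hne₂
    apply Subrepresentation.toSubmodule_injective
    apply SetLike.ext
    intro F
    rw [← mem_of_pull (e := e), ← mem_of_pull (e := e) (W := (Cfsg.permSumZero K G α).toSubmodule),
      hr, hr']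
  have hr'lt : r' < p := by
    by_contra hcon
    have hrp2 : r' = p := by omega
    have htop : polyFun p K r' = ⊤ := by
      apply Submodule.eq_top_of_finrank_eq
      rw [finrank_polyFun hrp', Module.finrank_fintype_fun_eq_card, ZMod.card, hrp2]
    have hmem : (Pi.single (0 : ZMod p) 1 : ZMod p → K) ∈ polyFun p K r' := by
      rw [htop]
      trivial
    rw [← hr', mem_pullSub] at hmem
    have hs : (∑ y, (Pi.single (0 : ZMod p) 1 : ZMod p → K) (e.symm y)) = 0 := hmem
    rw [Fintype.sum_equiv e.symm (fun y => (Pi.single (0 : ZMod p) 1 : ZMod p → K) (e.symm y))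
      (fun j => (Pi.single (0 : ZMod p) 1 : ZMod p → K) j) (fun _ => rfl)] at hs
    rw [Finset.sum_pi_single'] at hs
    simp at hs
  obtain ⟨g, rfl⟩ : ∃ g, r = g + 1 := ⟨r - 1, by omega⟩
  let s : Equiv.Perm (ZMod p) := e.trans ((MulAction.toPerm σ).trans e.symm)
  have hss : ∀ j, s j = e.symm (σ • e j) := fun _ => rfl
  have hinv : ∀ f ∈ polyFun p K (g + 1), (fun j => f (s.symm j)) ∈ polyFun p K (g + 1) := by
    intro f hf
    rw [← hr] at hf ⊢
    rw [mem_pullSub] at hf ⊢
    have := W.apply_mem_toSubmodule σ hf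
    convert this using 1
    funext y
    change f (s.symm (e.symm y)) = f (e.symm (σ⁻¹ • y))
    congr 1
    rw [Equiv.symm_apply_eq, hss, Equiv.apply_symm_apply, smul_inv_smul]
  have hcr := fun u v a b h1 h2 h3 h4 h5 h6 =>
    cross_ratio_Z (K := K) s hinv (by omega) (by omega) u v a b h1 h2 h3 h4 h5 h6
  obtain ⟨a, ha, b, hb⟩ := affine_of_cross_ratio s hcr
  refine ⟨a, ha, b, fun j => ?_⟩
  rw [← hb j, hss, Equiv.apply_symm_apply]

end group

end Cfsg.Agent.H03
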