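import Mathlib
import Cfsg.Prelude.Def_Perm
import Cfsg.Agent.Lib.H03.PrimeDeg
import Cfsg.Agent.Lib.H03.PermMod
import Cfsg.Agent.Lib.H03.PermPairs

set_option autoImplicit false

namespace Cfsg.Agent.H03

open MulAction

section
variable {α : Type*} [Fintype α] {p : ℕ} [hp : Fact p.Prime]

theorem affine_of_small (hp3 : p ≤ 3) (s : Equiv.Perm (ZMod p)) :
    ∃ a : ZMod p, a ≠ 0 ∧ ∃ b : ZMod p, ∀ x, s x = a * x + b := by
  classical
  apply affine_of_cross_ratio
  intro u v a b h1 h2 h3 h4 h5 h6
  exfalso
  have hc : ({u, v, a, b} : Finset (ZMod p)).card = 4 := by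
    rw [Finset.card_insert_of_notMem, Finset.card_insert_of_notMem, Finset.card_pair h6]
    · simp [h4, h5]
    · simp [h1, h2, h3]
  have := Finset.card_le_univ ({u, v, a, b} : Finset (ZMod p))
  rw [hc, ZMod.card] at this
  omega

theorem sum_pow_zmod (i : ℕ) (hi : i + 1 < p) (hi0 : 0 < i) : ∑ j : ZMod p, j ^ i = 0 := by
  have := FiniteField.sum_pow_lt_card_sub_one (ZMod p) i (by rw [ZMod.card]; omega)
  exact this

/-- Dichotomy for a transitive action of prime degree, in given coordinates. -/
theorem affine_or_two_trans {G : Type*} [Group G] [Finite G] [MulAction G α]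
    [IsPretransitive G α] (hα : Fintype.card α = p) (x : G) (e : ZMod p ≃ α)
    (he : ∀ j, x • e j = e (j + 1)) :
    (∀ σ : G, ∃ a : ZMod p, a ≠ 0 ∧ ∃ b : ZMod p, ∀ j, σ • e j = e (a * j + b)) ∨
      IsMultiplyPretransitive G α 2 := by
  classical
  by_cases hp3 : p ≤ 3
  · left
    intro σ
    obtain ⟨a, ha, b, hb⟩ := affine_of_small hp3 (e.trans ((MulAction.toPerm σ).trans e.symm))
    refine ⟨a, ha, b, fun j => ?_⟩
    rw [← hb j]
    simp
  by_cases hex : ∃ W : Subrepresentation (Cfsg.permRep (ZMod p) G α),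
      (Cfsg.permConstants (ZMod p) G α).toSubmodule ≤ W.toSubmodule ∧
      W.toSubmodule ≤ (Cfsg.permSumZero (ZMod p) G α).toSubmodule ∧
      W ≠ Cfsg.permConstants (ZMod p) G α ∧ W ≠ Cfsg.permSumZero (ZMod p) G α
  · left
    obtain ⟨W, h1, h2, h3, h4⟩ := hex
    exact affine_of_proper (K := ZMod p) x e he W h1 h2 h3 h4
  right
  push Not at hex
  have hCZ : (Cfsg.permConstants (ZMod p) G α).toSubmodule ≤ (Cfsg.permSumZero (ZMod p) G α).toSubmodule := by
    intro c hc
    obtain ⟨t, rfl⟩ := mem_permConstants.mp hc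
    change ∑ _x : α, t = 0
    rw [Finset.sum_const, Finset.card_univ, hα]
    simp
  apply two_trans_of_no_trivial (K := ZMod p) (p := p) (f := 1) le_rfl (by rw [hα, pow_one])
  intro W W' h1 h2 h3
  have hW' : W' = Cfsg.permSumZero (ZMod p) G α := by
    apply hex W' (h1.trans h2.le) h3
    rintro rfl
    exact absurd h1 (not_le_of_gt h2)
  have hW : W = Cfsg.permConstants (ZMod p) G α := by
    by_contra hne
    have := hex W h1 (h2.le.trans h3) hne
    rw [this, hW'] at h2
    exact lt_irrefl _ h2
  subst hW hW'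
  refine ⟨x, fun y => (e.symm y) ^ 2, ?_, ?_⟩
  · change ∑ y, (e.symm y) ^ 2 = 0
    rw [Equiv.sum_comp e.symm (fun j => j ^ 2)]
    apply sum_pow_zmod
    · have := hp.out.two_le
      have h4 : p ≠ 4 := by
        rintro rfl
        exact absurd hp.out (by norm_num)
      omega
    · norm_num
  · intro hmem
    obtain ⟨t, ht⟩ := mem_permConstants.mp hmem
    have hxinv : ∀ j, x⁻¹ • e j = e (j - 1) := by
      intro j
      rw [inv_smul_eq_iff, he, sub_add_cancel]
    have h0 := congrFun ht (e 0)
    have h1 := congrFun ht (e 1)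
    simp only [Pi.sub_apply, permRep_apply, hxinv, Equiv.symm_apply_apply] at h0 h1
    have h5 : (2 : ZMod p) = 0 := by
      linear_combination h0 - h1
    have h6 : ((2 : ℕ) : ZMod p) = 0 := by exact_mod_cast h5
    rw [ZMod.natCast_eq_zero_iff] at h6
    have := Nat.le_of_dvd (by norm_num) h6
    omega

end

section main

variable {α : Type*} [Fintype α] [DecidableEq α] {p : ℕ} [hp : Fact p.Prime]

/-- Burnside -/
theorem burnside_prime_degree (G : Type*) [Group G] [Finite G] [MulAction G α] [FaithfulSMul G α]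
    [IsPretransitive G α] (hα : Fintype.card α = p) :
    Group.IsSolvable G ∨ IsMultiplyPretransitive G α 2 := by
  obtain ⟨x, e, -, he⟩ := exists_coord (α := α) (G := G) hα
  rcases affine_or_two_trans hα x e he with h | h
  · exact Or.inl (solvable_of_affine e h)
  · exact Or.inr h

omit [DecidableEq α] in
/-- Structure of a Sylow `p`-subgroup for a transitive group of degree `p`. -/
theorem sylow_coord {G : Type*} [Group G] [Finite G] [MulAction G α] [FaithfulSMul G α]
    [IsPretransitive G α] (hα : Fintype.card α = p) (P : Sylow p G) :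
    ∃ (x : G) (e : ZMod p ≃ α), x ∈ (P : Subgroup G) ∧ orderOf x = p ∧ (∀ j, x • e j = e (j + 1)) ∧
      (P : Subgroup G) = Subgroup.zpowers x := by
  classical
  have hne : Nonempty α := by
    apply Fintype.card_pos_iff.mp
    rw [hα]
    exact hp.out.pos
  obtain ⟨a₀⟩ := hne
  have hdvd : p ∣ Nat.card G := by
    have h1 := index_stabilizer_of_transitive G a₀
    rw [Nat.card_eq_fintype_card, hα] at h1
    rw [← h1]
    exact Subgroup.index_dvd_card _
  have hfact : Nat.card G ∣ p.factorial := by
    have h1 := Subgroup.card_dvd_of_injective (MulAction.toPermHom G α) (MulAction.toPerm_injective (α := G) (β := α))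
    rwa [Nat.card_perm, Nat.card_eq_fintype_card (α := α), hα] at h1
  have hPdvd : p ∣ Nat.card P := by
    have := P.pow_dvd_card_of_pow_dvd_card (n := 1) (by rwa [pow_one])
    rwa [pow_one] at this
  obtain ⟨k, hk⟩ := IsPGroup.iff_card.mp P.isPGroup'
  have hk1 : k = 1 := by
    have hk0 : k ≠ 0 := by
      rintro rfl
      rw [hk, pow_zero] at hPdvd
      exact hp.out.one_lt.ne' (Nat.dvd_one.mp hPdvd)
    by_contra hne
    have h2 : 2 ≤ k := by omega
    have h3 : p ^ 2 ∣ Nat.card P := by
      rw [hk]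
      exact pow_dvd_pow _ h2
    have h4 : p ^ 2 ∣ p.factorial :=
      h3.trans ((Subgroup.card_subgroup_dvd_card (P : Subgroup G)).trans hfact)
    rw [← Nat.mul_factorial_pred hp.out.ne_zero, sq] at h4
    have h5 := Nat.dvd_of_mul_dvd_mul_left hp.out.pos h4
    have h6 := (hp.out.dvd_factorial).mp h5
    have := hp.out.pos
    omega
  obtain ⟨y, hy⟩ := exists_prime_orderOf_dvd_card' (G := P) p hPdvd
  have hyo : orderOf (y : G) = p := by rw [Subgroup.orderOf_coe, hy]
  have hy1 : (y : G) ≠ 1 := by
    intro h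
    rw [h, orderOf_one] at hyo
    exact hp.out.one_lt.ne hyo
  obtain ⟨a, ha⟩ : ∃ a : α, (y : G) • a ≠ a := by
    by_contra hcon
    push Not at hcon
    exact hy1 (FaithfulSMul.eq_of_smul_eq_smul (α := α) (by simpa using hcon))
  obtain ⟨e, he⟩ := exists_coord_of_order hα (y : G) hyo a ha
  refine ⟨y, e, y.2, hyo, he, ?_⟩
  symm
  apply Subgroup.eq_of_le_of_card_ge
  · rw [Subgroup.zpowers_le]
    exact y.2
  · rw [hk, hk1, pow_one, Nat.card_zpowers, hyo]

omit [DecidableEq α] in
theorem zpow_coord {G : Type*} [Group G] [MulAction G α] (x : G) (e : ZMod p ≃ α)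
    (he : ∀ j, x • e j = e (j + 1)) (n : ℤ) (i : ZMod p) : x ^ n • e i = e (i + n) := by
  induction n using Int.induction_on generalizing i with
  | zero => simp
  | succ m ih =>
    rw [zpow_add_one, mul_smul, he, ih]
    congr 1
    push_cast
    ring
  | pred m ih =>
    rw [zpow_sub_one, mul_smul]
    have : x⁻¹ • e i = e (i - 1) := by
      rw [inv_smul_eq_iff, he, sub_add_cancel]
    rw [this, ih]
    congr 1
    push_cast
    ring

omit [DecidableEq α] in
theorem pow_coord {G : Type*} [Group G] [MulAction G α] (x : G) (e : ZMod p ≃ α)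
    (he : ∀ j, x • e j = e (j + 1)) (n : ℕ) (i : ZMod p) : x ^ n • e i = e (i + n) := by
  have := zpow_coord x e he n i
  simpa using this

omit [DecidableEq α] in
/-- An involution normalising the `p`-cycle acts by a reflection. -/
theorem neg_form {G : Type*} [Group G] [MulAction G α] [FaithfulSMul G α] (hp2 : p ≠ 2)
    (x : G) (e : ZMod p ≃ α) (he : ∀ j, x • e j = e (j + 1)) (t : G) (ht : t * t = 1) (ht1 : t ≠ 1)
    (hn : t * x * t⁻¹ ∈ Subgroup.zpowers x) : ∃ b : ZMod p, ∀ j, t • e j = e (-j + b) := by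
  classical
  obtain ⟨n, hn⟩ := Subgroup.mem_zpowers_iff.mp hn
  obtain ⟨k, hk⟩ : ∃ k : ZMod p, k = (n : ZMod p) := ⟨_, rfl⟩
  have hconj : ∀ i, (t * x * t⁻¹) • e i = e (i + k) := by
    intro i
    rw [← hn, zpow_coord x e he, hk]
  let s : ZMod p → ZMod p := fun j => e.symm (t • e j)
  have hs : ∀ j, t • e j = e (s j) := fun j => by simp [s]
  have hstep : ∀ j, s (j + 1) = s j + k := by
    intro j
    have h1 : t • e (j + 1) = (t * x * t⁻¹) • (t • e j) := by
      rw [← he]
      simp [mul_smul]
    change e.symm (t • e (j + 1)) = s j + k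
    rw [h1, hs j, hconj, Equiv.symm_apply_apply]
  have hnat : ∀ m : ℕ, s m = s 0 + m * k := by
    intro m
    induction m with
    | zero => simp
    | succ m ih =>
      push_cast
      rw [hstep, ih]
      ring
  obtain ⟨b, hb⟩ : ∃ b, b = s 0 := ⟨_, rfl⟩
  have hlin : ∀ j, s j = k * j + b := by
    intro j
    have := hnat j.val
    rw [ZMod.natCast_zmod_val] at this
    rw [this, hb]
    ring
  have hinvol : ∀ j, s (s j) = j := by
    intro j
    simp only [s]
    rw [hs j, Equiv.symm_apply_apply]
    rw [← hs j, ← mul_smul, ht, one_smul, Equiv.symm_apply_apply]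
  have h0 := hinvol 0
  have h1 := hinvol 1
  rw [hlin 0, hlin _] at h0
  rw [hlin 1, hlin _] at h1
  have hk2 : (k - 1) * (k + 1) = 0 := by
    linear_combination h1 - h0
  have h2ne : (2 : ZMod p) ≠ 0 := by
    intro h
    have h6 : ((2 : ℕ) : ZMod p) = 0 := by exact_mod_cast h
    rw [ZMod.natCast_eq_zero_iff] at h6
    exact hp2 ((Nat.prime_dvd_prime_iff_eq hp.out Nat.prime_two).mp h6)
  rcases mul_eq_zero.mp hk2 with h3 | h3
  · have hk1 : k = 1 := sub_eq_zero.mp h3
    exfalso
    apply ht1
    have hb0 : b = 0 := by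
      have : 2 * b = 0 := by
        rw [hk1] at h0
        linear_combination h0
      exact (mul_eq_zero.mp this).resolve_left h2ne
    apply FaithfulSMul.eq_of_smul_eq_smul (α := α)
    intro y
    obtain ⟨j, rfl⟩ := e.surjective y
    rw [one_smul, hs, hlin, hk1, hb0]
    simp
  · have hk1 : k = -1 := eq_neg_of_add_eq_zero_left h3
    refine ⟨b, fun j => ?_⟩
    rw [hs, hlin, hk1]
    congr 1
    ring

/-- `S0676`, in abstract form. -/
theorem three_trans_of_even {G : Type*} [Group G] [Finite G] [MulAction G α] [FaithfulSMul G α]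
    [IsPretransitive G α] (hα : Fintype.card α = p) (hG : ¬ Group.IsSolvable G) (P : Sylow p G)
    (heven : Even (Nat.card (Subgroup.normalizer ((P : Subgroup G) : Set G)))) :
    IsMultiplyPretransitive G α 3 := by
  classical
  obtain ⟨x, e, hxP, hxo, he, hPx⟩ := sylow_coord (α := α) hα P
  have hp3 : ¬ p ≤ 3 := by
    intro hp3
    apply hG
    apply solvable_of_affine e
    intro σ
    obtain ⟨a, ha, b, hb⟩ := affine_of_small hp3 (e.trans ((MulAction.toPerm σ).trans e.symm))
    refine ⟨a, ha, b, fun j => ?_⟩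
    rw [← hb j]
    simp
  have h2 : IsMultiplyPretransitive G α 2 := by
    rcases affine_or_two_trans hα x e he with h | h
    · exact absurd (solvable_of_affine e h) hG
    · exact h
  have hp2 : p ≠ 2 := by omega
  have h2ne : (2 : ZMod p) ≠ 0 := by
    intro h
    have h6 : ((2 : ℕ) : ZMod p) = 0 := by exact_mod_cast h
    rw [ZMod.natCast_eq_zero_iff] at h6
    exact hp2 ((Nat.prime_dvd_prime_iff_eq hp.out Nat.prime_two).mp h6)
  obtain ⟨t', ht'⟩ := exists_prime_orderOf_dvd_card'
    (G := Subgroup.normalizer ((P : Subgroup G) : Set G)) 2 heven.two_dvd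
  obtain ⟨t, htn⟩ : ∃ t : G, t = (t' : G) := ⟨_, rfl⟩
  have hto : orderOf t = 2 := by rw [htn, Subgroup.orderOf_coe, ht']
  have ht : t * t = 1 := by
    rw [← sq, ← hto]
    exact pow_orderOf_eq_one t
  have ht1 : t ≠ 1 := by
    rintro rfl
    rw [orderOf_one] at hto
    omega
  have htinv : t⁻¹ = t := inv_eq_of_mul_eq_one_left ht
  have hnorm : t * x * t⁻¹ ∈ Subgroup.zpowers x := by
    rw [← hPx]
    have := t'.2
    rw [Subgroup.mem_normalizer_iff] at this
    rw [htn]
    exact (this x).mp hxP
  obtain ⟨b, hb⟩ := neg_form hp2 x e he t ht ht1 hnorm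
  -- stabilisers have even order
  have hstab : ∀ a : α, Even (Nat.card (stabilizer G a)) := by
    have h1 : ∀ a a' : α, Nat.card (stabilizer G a) = Nat.card (stabilizer G a') := by
      intro a a'
      have e1 := Subgroup.card_mul_index (stabilizer G a)
      have e2 := Subgroup.card_mul_index (stabilizer G a')
      rw [index_stabilizer_of_transitive] at e1 e2
      have hpos : 0 < Nat.card α := by
        rw [Nat.card_eq_fintype_card, hα]
        exact hp.out.pos
      exact Nat.eq_of_mul_eq_mul_right hpos (e1.trans e2.symm)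
    intro a
    rw [h1 a (e (b / 2)), even_iff_two_dvd]
    have hmem : t ∈ stabilizer G (e (b / 2)) := by
      rw [mem_stabilizer_iff, hb]
      congr 1
      field_simp
      ring
    have := orderOf_dvd_natCard (⟨t, hmem⟩ : stabilizer G (e (b / 2)))
    rw [Subgroup.orderOf_mk, hto] at this
    exact this
  apply three_trans_of_no_map (K := ZMod p) (p := p) h2 (by rw [hα]) hstab
  intro F hF
  -- the test vector
  have hv₀ : (fun y => e.symm y : α → ZMod p) ∈ (Cfsg.permSumZero (ZMod p) G α).toSubmodule := by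
    change ∑ y, e.symm y = 0
    rw [Equiv.sum_comp e.symm (fun j => j)]
    have := sum_pow_zmod (p := p) 1 (by omega) (by norm_num)
    simpa using this
  have hCZ : ∀ c : ZMod p, (fun _ => c : α → ZMod p) ∈ (Cfsg.permSumZero (ZMod p) G α).toSubmodule := by
    intro c
    change ∑ _x : α, c = 0
    rw [Finset.sum_const, Finset.card_univ, hα]
    simp
  have hFc : ∀ c : ZMod p, F ⟨fun _ => c, hCZ c⟩ = 0 := by
    intro c
    apply hF
    exact mem_permConstants.mpr ⟨c, rfl⟩
  obtain ⟨v, hv⟩ : ∃ v : (Cfsg.permSumZero (ZMod p) G α).toSubmodule, v = ⟨_, hv₀⟩ := ⟨_, rfl⟩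
  have hxinv : ∀ j, x⁻¹ • e j = e (j - 1) := by
    intro j
    rw [inv_smul_eq_iff, he, sub_add_cancel]
  have hρx : (Cfsg.permSumZero (ZMod p) G α).toRepresentation x v = v + ⟨fun _ => -1, hCZ _⟩ := by
    apply Subtype.ext
    funext y
    obtain ⟨j, rfl⟩ := e.surjective y
    rw [hv]
    change e.symm (x⁻¹ • e j) = e.symm (e j) + -1
    rw [hxinv, Equiv.symm_apply_apply, Equiv.symm_apply_apply]
    ring
  have hρt : (Cfsg.permSumZero (ZMod p) G α).toRepresentation t v = - v + ⟨fun _ => b, hCZ _⟩ := by
    apply Subtype.ext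
    funext y
    obtain ⟨j, rfl⟩ := e.surjective y
    rw [hv]
    change e.symm (t⁻¹ • e j) = - e.symm (e j) + b
    rw [htinv, hb, Equiv.symm_apply_apply, Equiv.symm_apply_apply]
  have hux : Cfsg.permRep (ZMod p) G (Set.powersetCard α 2) x (F v) = F v := by
    rw [← F.isIntertwining, hρx, map_add, hFc, add_zero]
  have hut : Cfsg.permRep (ZMod p) G (Set.powersetCard α 2) t (F v) = - F v := by
    rw [← F.isIntertwining, hρt, map_add, hFc, add_zero, map_neg]
  have huxA : ∀ A, F v (x • A) = F v A := by
    intro A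
    have := congrFun hux (x • A)
    rw [permRep_apply, inv_smul_smul] at this
    exact this.symm
  have huxP : ∀ (m : ℕ) A, F v (x ^ m • A) = F v A := by
    intro m
    induction m with
    | zero => simp
    | succ m ih =>
      intro A
      rw [pow_succ', mul_smul, huxA, ih]
  have hu0 : F v = 0 := by
    funext A
    have hA := congrFun hut A
    rw [permRep_apply, htinv] at hA
    obtain ⟨u, w, huw, hAuw⟩ := Finset.card_eq_two.mp A.2
    obtain ⟨i, rfl⟩ := e.surjective u
    obtain ⟨j, rfl⟩ := e.surjective w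
    have hAc : (A : Finset α) = {e i, e j} := hAuw
    have hst : t • A = x ^ (b - i - j).val • A := by
      apply Subtype.ext
      change ((t • A : Set.powersetCard α 2) : Finset α) = ((x ^ (b - i - j).val • A : Set.powersetCard α 2) : Finset α)
      rw [Set.powersetCard.coe_smul, Set.powersetCard.coe_smul, hAc, Finset.smul_finset_insert,
        Finset.smul_finset_singleton, Finset.smul_finset_insert, Finset.smul_finset_singleton,
        pow_coord x e he, pow_coord x e he, ZMod.natCast_zmod_val, hb, hb,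
        show i + (b - i - j) = -j + b by ring, show j + (b - i - j) = -i + b by ring, Finset.pair_comm]
    rw [hst, huxP] at hA
    have h3 : (2 : ZMod p) * F v A = 0 := by
      have h4 : F v A = - F v A := hA
      linear_combination h4
    exact (mul_eq_zero.mp h3).resolve_left h2ne
  -- the kernel
  let W : Subrepresentation (Cfsg.permRep (ZMod p) G α) :=
    ⟨(LinearMap.ker F.toLinearMap).map (Cfsg.permSumZero (ZMod p) G α).toSubmodule.subtype, by
      rintro g _ ⟨z, hz, rfl⟩
      refine ⟨(Cfsg.permSumZero (ZMod p) G α).toRepresentation g z, ?_, rfl⟩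
      have hz' : F z = 0 := hz
      change F _ = 0
      rw [F.isIntertwining, hz', map_zero]⟩
  have hW1 : (Cfsg.permConstants (ZMod p) G α).toSubmodule ≤ W.toSubmodule := by
    intro c hc
    obtain ⟨t'', rfl⟩ := mem_permConstants.mp hc
    exact ⟨⟨_, hCZ t''⟩, hFc t'', rfl⟩
  have hW2 : W.toSubmodule ≤ (Cfsg.permSumZero (ZMod p) G α).toSubmodule := by
    rintro _ ⟨z, _, rfl⟩
    exact z.2
  have hWne : W ≠ Cfsg.permConstants (ZMod p) G α := by
    intro hWC
    have h1 : (fun y => e.symm y : α → ZMod p) ∈ W.toSubmodule := by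
      refine ⟨v, ?_, by rw [hv]; rfl⟩
      exact hu0
    rw [hWC] at h1
    obtain ⟨c, hc⟩ := mem_permConstants.mp h1
    have h3 := congrFun hc (e 0)
    have h4 := congrFun hc (e 1)
    simp only [Equiv.symm_apply_apply] at h3 h4
    exact zero_ne_one (h3.trans h4.symm)
  have hWZ : W = Cfsg.permSumZero (ZMod p) G α := by
    by_contra hne
    exact hG (solvable_of_affine e (affine_of_proper (K := ZMod p) x e he W hW1 hW2 hWne hne))
  apply Representation.IntertwiningMap.ext
  refine LinearMap.ext fun z => ?_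
  have hz : (z : α → ZMod p) ∈ W.toSubmodule := by
    rw [hWZ]
    exact z.2
  obtain ⟨z', hz', hzz⟩ := hz
  have : z' = z := Subtype.ext hzz
  rw [← this]
  exact hz'

end main

end Cfsg.Agent.H03
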