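import Mathlib
import Cfsg.Prelude.Def_Perm
import Cfsg.Agent.Lib.H03.PrimeDeg2

set_option autoImplicit false

namespace Cfsg.Agent.H03

open MulAction

theorem even_card_of_invol {S : Type*} [DecidableEq S] (π : S → S) (A : Finset S)
    (hA : ∀ s ∈ A, π s ∈ A) (hπ : ∀ s ∈ A, π (π s) = s) (h : ∀ s ∈ A, π s ≠ s) : Even A.card := by
  have : ∑ s ∈ A, (1 : ZMod 2) = 0 := by
    apply Finset.sum_involution (fun s _ => π s)
    · intro s _
      decide
    · intro s hs _
      exact h s hs
    · intro s hs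
      exact hA s hs
    · intro s hs
      exact hπ s hs
  rw [Finset.sum_const, nsmul_eq_mul, mul_one] at this
  exact ZMod.natCast_eq_zero_iff_even.mp this

section main

variable {α : Type*} [Fintype α] {p : ℕ} [hp : Fact p.Prime]

/-- The parity argument: an `H`-orbit through the fixed point of a reflection in `H` is trivial. -/
theorem core_fix {G : Type*} [Group G] [Finite G] [MulAction G α] [FaithfulSMul G α]
    (h2 : IsMultiplyPretransitive G α 2) (hα : Fintype.card α = p) (hp2 : p ≠ 2)
    (H : Subgroup G) (hH : H.index = p) (hpH : ¬ p ∣ Nat.card H)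
    (x : G) (hxo : orderOf x = p) (e : ZMod p ≃ α) (he : ∀ j, x • e j = e (j + 1))
    (t : G) (htH : t ∈ H) (ht : ∀ j, t • e j = e (-j)) :
    ∀ h ∈ H, h • e 0 = e 0 := by
  classical
  have htt : ∀ {a b c d : α} (_ : a ≠ b) (_ : c ≠ d), ∃ g : G, g • a = c ∧ g • b = d :=
    is_two_pretransitive_iff.mp h2
  have h2ne : (2 : ZMod p) ≠ 0 := by
    intro h
    have h6 : ((2 : ℕ) : ZMod p) = 0 := by exact_mod_cast h
    rw [ZMod.natCast_eq_zero_iff] at h6
    exact hp2 ((Nat.prime_dvd_prime_iff_eq hp.out Nat.prime_two).mp h6)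
  let D : ZMod p → Prop := fun j => ∃ h ∈ H, h • e 0 = e j
  have hD0 : D 0 := ⟨1, H.one_mem, one_smul _ _⟩
  have hDneg : ∀ j, D j → D (-j) := by
    rintro j ⟨h, hh, hj⟩
    exact ⟨t * h, H.mul_mem htH hh, by rw [mul_smul, hj, ht]⟩
  -- the coset parametrisation
  have hxinv : ∀ (i j : ZMod p), (x ^ i.val)⁻¹ • e j = e (j - i) := by
    intro i j
    rw [inv_smul_eq_iff, pow_coord x e he, ZMod.natCast_zmod_val, sub_add_cancel]
  have hxpow : ∀ i : ZMod p, x ^ i.val ∈ H → i = 0 := by
    intro i hi
    by_contra hne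
    have h1 : x ^ i.val ≠ 1 := by
      intro h1
      have := pow_coord x e he i.val 0
      rw [h1, one_smul, ZMod.natCast_zmod_val, zero_add] at this
      exact hne (e.injective this).symm
    have h3 : (x ^ i.val) ^ p = 1 := by
      have h0 : x ^ p = 1 := by
        have := pow_orderOf_eq_one x
        rwa [hxo] at this
      rw [← pow_mul, mul_comm, pow_mul, h0, one_pow]
    have h4 : orderOf (x ^ i.val) = p := orderOf_eq_prime h3 h1
    have h5 := orderOf_dvd_natCard (⟨x ^ i.val, hi⟩ : H)
    rw [Subgroup.orderOf_mk, h4] at h5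
    exact hpH h5
  let iq : ZMod p → G ⧸ H := fun i => ((x ^ i.val : G) : G ⧸ H)
  have hiq : Function.Bijective iq := by
    haveI : Fintype (G ⧸ H) := Fintype.ofFinite _
    rw [Fintype.bijective_iff_injective_and_card]
    constructor
    · intro a b hab
      have h1 : (x ^ a.val)⁻¹ * x ^ b.val ∈ H := QuotientGroup.eq.mp hab
      have h3 : (x ^ a.val)⁻¹ * x ^ b.val = x ^ (b - a).val := by
        apply FaithfulSMul.eq_of_smul_eq_smul (α := α)
        intro y
        obtain ⟨j, rfl⟩ := e.surjective y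
        rw [mul_smul, pow_coord x e he, hxinv, pow_coord x e he, ZMod.natCast_zmod_val,
          ZMod.natCast_zmod_val]
        congr 1
        ring
      rw [h3] at h1
      exact (sub_eq_zero.mp (hxpow _ h1)).symm
    · rw [ZMod.card, ← Nat.card_eq_fintype_card]
      exact hH.symm
  -- incidence
  let I : α → G ⧸ H → Prop := fun y q => ∃ g : G, (g : G ⧸ H) = q ∧ ∃ h ∈ H, h • e 0 = g⁻¹ • y
  have hI : ∀ j i, I (e j) (iq i) ↔ D (j - i) := by
    intro j i
    constructor
    · rintro ⟨g, hg, h, hh, hhg⟩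
      have h1 : (x ^ i.val)⁻¹ * g ∈ H := QuotientGroup.eq.mp hg.symm
      refine ⟨(x ^ i.val)⁻¹ * g * h, H.mul_mem h1 hh, ?_⟩
      rw [mul_smul, hhg, mul_smul, smul_inv_smul, hxinv]
    · rintro ⟨h, hh, hhg⟩
      refine ⟨x ^ i.val, rfl, h, hh, ?_⟩
      rw [hhg, hxinv]
  have hsm : ∀ k g : G, ((k * g : G) : G ⧸ H) = k • (g : G ⧸ H) := fun _ _ => rfl
  have hIinv : ∀ (k : G) y q, I (k • y) (k • q) ↔ I y q := by
    intro k y q
    constructor
    · rintro ⟨g, hg, h, hh, hhg⟩
      refine ⟨k⁻¹ * g, ?_, h, hh, ?_⟩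
      · rw [hsm, hg, inv_smul_smul]
      · rw [hhg, mul_inv_rev, inv_inv, mul_smul]
    · rintro ⟨g, hg, h, hh, hhg⟩
      refine ⟨k * g, ?_, h, hh, ?_⟩
      · rw [hsm, hg]
      · rw [hhg, mul_inv_rev, mul_smul, inv_smul_smul]
  haveI : Fintype (G ⧸ H) := Fintype.ofFinite _
  let N : α → α → ℕ := fun y₁ y₂ => (Finset.univ.filter fun q => I y₁ q ∧ I y₂ q).card
  have hN : ∀ {a b c d : α}, a ≠ b → c ≠ d → N a b = N c d := by
    intro a b c d hab hcd
    obtain ⟨k, rfl, rfl⟩ := htt hab hcd
    apply Finset.card_bijective (fun q => k • q) (MulAction.bijective k)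
    intro q
    simp only [Finset.mem_filter, Finset.mem_univ, true_and]
    rw [hIinv, hIinv]
  let T : ZMod p → ZMod p → Finset (ZMod p) := fun j k => Finset.univ.filter fun i => D (j - i) ∧ D (k - i)
  have hT : ∀ j k, (T j k).card = N (e j) (e k) := by
    intro j k
    apply Finset.card_bijective iq hiq
    intro i
    simp only [T, Finset.mem_filter, Finset.mem_univ, true_and]
    rw [hI, hI]
  -- parity
  have hpar : ∀ u : ZMod p, (Odd (T (2 * u) 0).card ↔ D u) := by
    intro u
    have hmem : ∀ i, i ∈ T (2 * u) 0 ↔ D (2 * u - i) ∧ D (0 - i) := by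
      intro i
      simp [T]
    have hev : Even ((T (2 * u) 0).erase u).card := by
      apply even_card_of_invol (fun i => 2 * u - i)
      · intro i hi
        rw [Finset.mem_erase] at hi ⊢
        constructor
        · intro h
          apply hi.1
          linear_combination -h
        · rw [hmem] at hi ⊢
          refine ⟨?_, ?_⟩
          · have := hDneg _ hi.2.2
            convert this using 1
            ring
          · have := hDneg _ hi.2.1
            convert this using 1
            ring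
      · intro i _
        ring
      · intro i hi h
        apply (Finset.mem_erase.mp hi).1
        have : 2 * (i - u) = 0 := by linear_combination -h
        exact sub_eq_zero.mp ((mul_eq_zero.mp this).resolve_left h2ne)
    by_cases hu : D u
    · have hut : u ∈ T (2 * u) 0 := by
        rw [hmem]
        refine ⟨?_, ?_⟩
        · convert hu using 1
          ring
        · have := hDneg _ hu
          convert this using 1
          ring
      constructor
      · exact fun _ => hu
      · intro _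
        rw [← Finset.card_erase_add_one hut]
        exact hev.add_one
    · have hut : u ∉ T (2 * u) 0 := by
        rw [hmem]
        rintro ⟨h1, -⟩
        apply hu
        convert h1 using 1
        ring
      rw [Finset.erase_eq_of_notMem hut] at hev
      constructor
      · intro h
        exact absurd hev (Nat.not_even_iff_odd.mpr h)
      · intro h
        exact absurd h hu
  have hdich : ∀ u v : ZMod p, u ≠ 0 → v ≠ 0 → D u → D v := by
    intro u v hu hv hDu
    rw [← hpar] at hDu ⊢
    rw [hT] at hDu ⊢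
    have h1 : e (2 * u) ≠ e 0 := fun h => (mul_ne_zero h2ne hu) (e.injective h)
    have h3 : e (2 * v) ≠ e 0 := fun h => (mul_ne_zero h2ne hv) (e.injective h)
    rw [← hN h1 h3]
    exact hDu
  intro h hh
  by_contra hne
  obtain ⟨j, hj⟩ := e.surjective (h • e 0)
  have hj0 : j ≠ 0 := by
    rintro rfl
    exact hne hj.symm
  have hDj : D j := ⟨h, hh, hj.symm⟩
  have hall : ∀ v, D v := by
    intro v
    by_cases hv : v = 0
    · rw [hv]
      exact hD0
    · exact hdich j v hj0 hv hDj
  apply hpH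
  haveI htr : IsPretransitive H α := by
    have key : ∀ y : α, ∃ h : H, h • e 0 = y := by
      intro y
      obtain ⟨v, rfl⟩ := e.surjective y
      obtain ⟨h, hh, h3⟩ := hall v
      exact ⟨⟨h, hh⟩, h3⟩
    refine ⟨fun a b => ?_⟩
    obtain ⟨g₁, rfl⟩ := key a
    obtain ⟨g₂, rfl⟩ := key b
    exact ⟨g₂ * g₁⁻¹, by rw [mul_smul, inv_smul_smul]⟩
  have h1 := index_stabilizer_of_transitive H (e 0)
  rw [Nat.card_eq_fintype_card, hα] at h1
  rw [← h1]
  exact Subgroup.index_dvd_card _

/-- A subgroup of order prime to `p` of an affine group has a fixed point. -/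
theorem fix_of_affine {G : Type*} [Group G] [Finite G] [MulAction G α] [FaithfulSMul G α]
    (H : Subgroup G) (hpH : ¬ p ∣ Nat.card H) (e : ZMod p ≃ α)
    (hAff : ∀ σ : G, ∃ a : ZMod p, a ≠ 0 ∧ ∃ b : ZMod p, ∀ j, σ • e j = e (a * j + b)) :
    ∃ a₀ : α, ∀ h ∈ H, h • a₀ = a₀ := by
  classical
  have htr : ∀ z ∈ H, ∀ τ : ZMod p, (∀ j, z • e j = e (j + τ)) → z = 1 := by
    intro z hz τ hτ
    by_contra hne
    have hpow : ∀ (n : ℕ) j, z ^ n • e j = e (j + n * τ) := by
      intro n
      induction n with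
      | zero => simp
      | succ n ih =>
        intro j
        rw [pow_succ, mul_smul, hτ, ih]
        congr 1
        push_cast
        ring
    have h1 : z ^ p = 1 := by
      apply FaithfulSMul.eq_of_smul_eq_smul (α := α)
      intro y
      obtain ⟨j, rfl⟩ := e.surjective y
      rw [hpow, one_smul]
      simp
    have h2 : orderOf z = p := orderOf_eq_prime h1 hne
    have h3 := orderOf_dvd_natCard (⟨z, hz⟩ : H)
    rw [Subgroup.orderOf_mk, h2] at h3
    exact hpH h3
  by_cases hbot : H = ⊥
  · refine ⟨e 0, fun h hh => ?_⟩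
    rw [hbot, Subgroup.mem_bot] at hh
    rw [hh, one_smul]
  obtain ⟨⟨y, hy⟩, hy1'⟩ := Subgroup.ne_bot_iff_exists_ne_one.mp hbot
  have hy1 : y ≠ 1 := fun h => hy1' (Subtype.ext h)
  obtain ⟨c, hc0, d, hcd⟩ := hAff y
  have hc1 : c ≠ 1 := by
    rintro rfl
    exact hy1 (htr y hy d (fun j => by rw [hcd, one_mul]))
  have h1c : 1 - c ≠ 0 := sub_ne_zero.mpr (Ne.symm hc1)
  have hcomm : ∀ h ∈ H, h * y = y * h := by
    intro h hh
    obtain ⟨a, ha0, b, hab⟩ := hAff h
    have hz : h * y * (y * h)⁻¹ = 1 := by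
      apply htr _ (H.mul_mem (H.mul_mem hh hy) (H.inv_mem (H.mul_mem hy hh))) (a * d + b - (c * b + d))
      intro i
      obtain ⟨j, hj⟩ := e.surjective ((y * h)⁻¹ • e i)
      have h3 : e i = e (c * (a * j + b) + d) := by
        have : (y * h) • e j = e i := by rw [hj, smul_inv_smul]
        rw [mul_smul, hab, hcd] at this
        exact this.symm
      have h4 : i = c * (a * j + b) + d := e.injective h3
      rw [mul_smul, ← hj, mul_smul, hcd, hab]
      congr 1
      rw [h4]
      ring
    have := mul_inv_eq_one.mp hz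
    exact this
  refine ⟨e (d / (1 - c)), fun h hh => ?_⟩
  obtain ⟨j, hj⟩ := e.surjective (h • e (d / (1 - c)))
  have hfix : y • e (d / (1 - c)) = e (d / (1 - c)) := by
    rw [hcd]
    congr 1
    field_simp
    ring
  have h3 : y • e j = e j := by
    rw [hj, ← mul_smul, ← hcomm h hh, mul_smul, hfix]
  rw [hcd] at h3
  have h4 : c * j + d = j := e.injective h3
  have h5 : j = d / (1 - c) := by
    field_simp
    linear_combination -h4
  rw [← hj, h5]

/-- `S0677`, abstractly. -/
theorem index_p_eq_stabilizer {G : Type*} [Group G] [Finite G] [MulAction G α] [FaithfulSMul G α]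
    [IsPretransitive G α] (hα : Fintype.card α = p) (P : Sylow p G)
    (heven : Even (Nat.card (Subgroup.normalizer ((P : Subgroup G) : Set G))))
    (H : Subgroup G) (hH : H.index = p) : ∃ a : α, H = stabilizer G a := by
  classical
  obtain ⟨x, e, hxP, hxo, he, hPx⟩ := sylow_coord (α := α) hα P
  have hfact : Nat.card G ∣ p.factorial := by
    have h1 := Subgroup.card_dvd_of_injective (MulAction.toPermHom G α) (MulAction.toPerm_injective (α := G) (β := α))
    rwa [Nat.card_perm, Nat.card_eq_fintype_card (α := α), hα] at h1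
  have hpH : ¬ p ∣ Nat.card H := by
    intro h
    have h1 := Subgroup.card_mul_index H
    rw [hH] at h1
    have h3 : p * p ∣ p.factorial := by
      rw [← h1] at hfact
      exact (mul_dvd_mul_right h p).trans hfact
    rw [← Nat.mul_factorial_pred hp.out.ne_zero] at h3
    have h5 := Nat.dvd_of_mul_dvd_mul_left hp.out.pos h3
    have h6 := (hp.out.dvd_factorial).mp h5
    have := hp.out.pos
    omega
  suffices hfix : ∃ a₀ : α, ∀ h ∈ H, h • a₀ = a₀ by
    obtain ⟨a₀, ha₀⟩ := hfix
    refine ⟨a₀, ?_⟩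
    apply Subgroup.eq_of_le_of_card_ge
    · intro h hh
      exact ha₀ h hh
    · have e1 := Subgroup.card_mul_index H
      have e2 := Subgroup.card_mul_index (stabilizer G a₀)
      rw [index_stabilizer_of_transitive, Nat.card_eq_fintype_card (α := α), hα] at e2
      rw [hH] at e1
      exact (Nat.eq_of_mul_eq_mul_right hp.out.pos (e2.trans e1.symm)).le
  by_cases hAff : ∀ σ : G, ∃ a : ZMod p, a ≠ 0 ∧ ∃ b : ZMod p, ∀ j, σ • e j = e (a * j + b)
  · exact fix_of_affine H hpH e hAff
  have h2 : IsMultiplyPretransitive G α 2 := by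
    rcases affine_or_two_trans hα x e he with h | h
    · exact absurd h hAff
    · exact h
  have hp3 : ¬ p ≤ 3 := by
    intro hp3
    apply hAff
    intro σ
    obtain ⟨a, ha, b, hb⟩ := affine_of_small hp3 (e.trans ((MulAction.toPerm σ).trans e.symm))
    refine ⟨a, ha, b, fun j => ?_⟩
    rw [← hb j]
    simp
  have hp2 : p ≠ 2 := by omega
  have h2ne : (2 : ZMod p) ≠ 0 := by
    intro h
    have h6 : ((2 : ℕ) : ZMod p) = 0 := by exact_mod_cast h
    rw [ZMod.natCast_eq_zero_iff] at h6
    exact hp2 ((Nat.prime_dvd_prime_iff_eq hp.out Nat.prime_two).mp h6)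
  obtain ⟨t', ht'⟩ := exists_prime_orderOf_dvd_card'
    (G := Subgroup.normalizer ((P : Subgroup G) : Set G)) 2 heven.two_dvd
  obtain ⟨t, htn⟩ : ∃ t : G, t = (t' : G) := ⟨_, rfl⟩
  have hto : orderOf t = 2 := by rw [htn, Subgroup.orderOf_coe, ht']
  have ht : t * t = 1 := by
    rw [← sq, ← hto]
    exact pow_orderOf_eq_one t
  have ht1 : t ≠ 1 := by
    rintro rfl
    rw [orderOf_one] at hto
    omega
  have htinv : t⁻¹ = t := inv_eq_of_mul_eq_one_left ht
  have hnorm : t * x * t⁻¹ ∈ Subgroup.zpowers x := by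
    rw [← hPx]
    have := t'.2
    rw [Subgroup.mem_normalizer_iff] at this
    rw [htn]
    exact (this x).mp hxP
  obtain ⟨b, hb⟩ := neg_form hp2 x e he t ht ht1 hnorm
  -- a fixed coset
  have hTp : IsPGroup 2 (Subgroup.zpowers t) := by
    apply IsPGroup.of_card (n := 1)
    rw [Nat.card_zpowers, hto, pow_one]
  have hodd : ¬ 2 ∣ Nat.card (G ⧸ H) := by
    change ¬ 2 ∣ H.index
    rw [hH]
    intro h
    exact hp2 ((Nat.prime_dvd_prime_iff_eq Nat.prime_two hp.out).mp h).symm
  obtain ⟨q, hq⟩ := hTp.nonempty_fixed_point_of_prime_not_dvd_card (G ⧸ H) hodd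
  obtain ⟨g₀, rfl⟩ := QuotientGroup.mk_surjective q
  have h1 := hq ⟨t, Subgroup.mem_zpowers t⟩
  have h3 : ((t * g₀ : G) : G ⧸ H) = (g₀ : G ⧸ H) := h1
  have ht₁ : g₀⁻¹ * t * g₀ ∈ H := by
    have := QuotientGroup.eq.mp h3
    rw [mul_inv_rev, htinv] at this
    exact this
  have hx₁o : orderOf (g₀⁻¹ * x * g₀) = p := by
    apply orderOf_eq_prime
    · have h4 : (g₀⁻¹ * x * g₀) ^ p = g₀⁻¹ * x ^ p * g₀ := by
        have := conj_pow (a := g₀⁻¹) (b := x) (i := p)
        simpa using this
      have h0 : x ^ p = 1 := by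
        have := pow_orderOf_eq_one x
        rwa [hxo] at this
      rw [h4, h0]
      simp
    · intro h
      have : x = 1 := by
        have h5 : g₀ * (g₀⁻¹ * x * g₀) * g₀⁻¹ = x := by group
        rw [h] at h5
        rw [← h5]
        simp
      rw [this, orderOf_one] at hxo
      exact hp.out.one_lt.ne hxo
  let e₁ : ZMod p ≃ α := (Equiv.addRight (b / 2)).trans (e.trans (MulAction.toPerm g₀⁻¹))
  have he₁ : ∀ j, e₁ j = g₀⁻¹ • e (j + b / 2) := fun _ => rfl
  have hb2 : b / 2 + b / 2 = b := by
    field_simp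
    ring
  have hfix := core_fix h2 hα hp2 H hH hpH (g₀⁻¹ * x * g₀) hx₁o e₁ (by
      intro j
      rw [he₁, he₁, mul_smul, mul_smul, smul_inv_smul, he]
      congr 2
      ring) (g₀⁻¹ * t * g₀) ht₁ (by
      intro j
      rw [he₁, he₁, mul_smul, mul_smul, smul_inv_smul, hb]
      congr 2
      linear_combination -hb2)
  exact ⟨e₁ 0, hfix⟩

end main

end Cfsg.Agent.H03
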