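import Mathlib
import Cfsg.Prelude.Def_Perm
import Cfsg.Agent.Lib.H03.PrimeDeg3
import Cfsg.Agent.Lib.H03.JordanN
import Cfsg.Agent.Lib.H01.NormalComp
import Cfsg.Agent.Lib.H01.Hall

set_option autoImplicit false

namespace Cfsg.Agent.H03

open MulAction

section
variable {α : Type*} [Fintype α] {p : ℕ} [hp : Fact p.Prime]

/-- An element normalising the `p`-cycle acts by an affine map. -/
theorem affine_of_normalizing {G : Type*} [Group G] [MulAction G α]
    (x : G) (e : ZMod p ≃ α) (he : ∀ j, x • e j = e (j + 1)) (t : G)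
    (hn : t * x * t⁻¹ ∈ Subgroup.zpowers x) :
    ∃ a : ZMod p, a ≠ 0 ∧ ∃ b : ZMod p, ∀ j, t • e j = e (a * j + b) := by
  classical
  obtain ⟨n, hn⟩ := Subgroup.mem_zpowers_iff.mp hn
  obtain ⟨k, hk⟩ : ∃ k : ZMod p, k = (n : ZMod p) := ⟨_, rfl⟩
  have hconj : ∀ i, (t * x * t⁻¹) • e i = e (i + k) := by
    intro i
    rw [← hn, zpow_coord x e he, hk]
  let s : ZMod p → ZMod p := fun j => e.symm (t • e j)
  have hs : ∀ j, t • e j = e (s j) := fun j => by simp [s]
  have hstep : ∀ j, s (j + 1) = s j + k := by
    intro j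
    have h1 : t • e (j + 1) = (t * x * t⁻¹) • (t • e j) := by
      rw [← he]
      simp [mul_smul]
    change e.symm (t • e (j + 1)) = s j + k
    rw [h1, hs j, hconj, Equiv.symm_apply_apply]
  have hnat : ∀ m : ℕ, s m = s 0 + m * k := by
    intro m
    induction m with
    | zero => simp
    | succ m ih =>
      push_cast
      rw [hstep, ih]
      ring
  obtain ⟨b, hb⟩ : ∃ b, b = s 0 := ⟨_, rfl⟩
  have hlin : ∀ j, s j = k * j + b := by
    intro j
    have := hnat j.val
    rw [ZMod.natCast_zmod_val] at this
    rw [this, hb]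
    ring
  have hk0 : k ≠ 0 := by
    rintro rfl
    have h1 := hlin 0
    have h2 := hlin 1
    simp only [zero_mul] at h1 h2
    have h3 : t • e 0 = t • e 1 := by
      rw [hs, hs, h1, h2]
    have := e.injective (MulAction.injective t h3)
    exact zero_ne_one this
  refine ⟨k, hk0, b, fun j => ?_⟩
  rw [hs, hlin]

/-- A group of affine maps of `ZMod p` has order dividing `p (p - 1)`. -/
theorem card_dvd_of_affine {H : Type*} [Group H] [Finite H] [MulAction H α] [FaithfulSMul H α]
    (e : ZMod p ≃ α)
    (h : ∀ σ : H, ∃ a : ZMod p, a ≠ 0 ∧ ∃ b : ZMod p, ∀ j, σ • e j = e (a * j + b)) :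
    Nat.card H ∣ p * (p - 1) := by
  classical
  have hslope : ∀ σ : H, e.symm (σ • e 1) - e.symm (σ • e 0) ≠ 0 := by
    intro σ
    obtain ⟨a, ha, b, hb⟩ := h σ
    rw [hb, hb, Equiv.symm_apply_apply, Equiv.symm_apply_apply]
    simpa using ha
  have hval : ∀ σ : H, ∀ a b : ZMod p, (∀ j, σ • e j = e (a * j + b)) →
      e.symm (σ • e 1) - e.symm (σ • e 0) = a := by
    intro σ a b hb
    rw [hb, hb, Equiv.symm_apply_apply, Equiv.symm_apply_apply]
    ring
  let g : H →* (ZMod p)ˣ := MonoidHom.mk' (fun σ => Units.mk0 _ (hslope σ)) (by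
    intro σ τ
    obtain ⟨a, ha, b, hb⟩ := h σ
    obtain ⟨c, hc, d, hd⟩ := h τ
    apply Units.ext
    simp only [Units.val_mul, Units.val_mk0]
    rw [hval σ a b hb, hval τ c d hd]
    apply hval (σ * τ) (a * c) (a * d + b)
    intro j
    rw [mul_smul, hd, hb]
    congr 1
    ring)
  have key : ∀ σ : g.ker, ∀ j, (σ : H) • e j = e (j + e.symm ((σ : H) • e 0)) := by
    intro σ j
    obtain ⟨a, ha, b, hb⟩ := h σ
    have h1 : g σ = 1 := σ.2
    have h2 : e.symm ((σ : H) • e 1) - e.symm ((σ : H) • e 0) = 1 := by
      have := congrArg Units.val h1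
      simpa [g] using this
    rw [hval _ a b hb] at h2
    rw [hb, hb, h2, one_mul]
    simp
  let T : g.ker →* Multiplicative (ZMod p) := MonoidHom.mk' (fun z => Multiplicative.ofAdd (e.symm ((z : H) • e 0))) (by
    intro z w
    rw [← ofAdd_add]
    congr 1
    change e.symm (((z : H) * (w : H)) • e 0) = _
    obtain ⟨τ, hτ⟩ : ∃ τ, τ = e.symm ((w : H) • e 0) := ⟨_, rfl⟩
    have hw : (w : H) • e 0 = e τ := by rw [hτ, Equiv.apply_symm_apply]
    rw [← hτ, mul_smul, hw, key z, Equiv.symm_apply_apply, add_comm])
  have hT : Function.Injective T := by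
    rw [injective_iff_map_eq_one]
    intro z hz
    have h0 : e.symm ((z : H) • e 0) = 0 := hz
    apply Subtype.ext
    apply FaithfulSMul.eq_of_smul_eq_smul (α := α)
    intro y
    obtain ⟨j, rfl⟩ := e.surjective y
    rw [key, h0, add_zero]
    simp
  have h1 : Nat.card g.ker ∣ p := by
    have := Subgroup.card_dvd_of_injective T hT
    simpa using this
  have h2 : Nat.card g.range ∣ p - 1 := by
    have := Subgroup.card_subgroup_dvd_card g.range
    rwa [Nat.card_eq_fintype_card (α := (ZMod p)ˣ), ZMod.card_units] at this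
  have h3 := Subgroup.card_mul_index g.ker
  rw [Subgroup.index_ker] at h3
  rw [← h3]
  exact mul_dvd_mul h1 h2

/-- The normaliser of a Sylow `p`-subgroup of a transitive group of degree `p` has order dividing
`p (p - 1)`. -/
theorem card_normalizer_dvd {G : Type*} [Group G] [Finite G] [MulAction G α] [FaithfulSMul G α]
    [IsPretransitive G α] (hα : Fintype.card α = p) (P : Sylow p G) :
    Nat.card (Subgroup.normalizer ((P : Subgroup G) : Set G)) ∣ p * (p - 1) := by
  classical
  obtain ⟨x, e, hxP, -, he, hPx⟩ := sylow_coord (α := α) hα P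
  apply card_dvd_of_affine e
  intro σ
  have := affine_of_normalizing x e he (σ : G) (by
    rw [← hPx]
    have := σ.2
    rw [Subgroup.mem_normalizer_iff] at this
    exact (this x).mp hxP)
  exact this

/-- Burnside transfer, in the case of a self-normalising Sylow of prime order. -/
theorem complement_of_self_normalizing {L : Type*} [Group L] [Finite L] {q : ℕ} [hq : Fact q.Prime]
    (P : Sylow q L) (hcard : Nat.card P = q)
    (hN : Nat.card (Subgroup.normalizer ((P : Subgroup L) : Set L)) = q) :
    ∃ R : Subgroup L, R.Normal ∧ R.IsComplement' P := by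
  have hle : (P : Subgroup L) ≤ Subgroup.normalizer ((P : Subgroup L) : Set L) := Subgroup.le_normalizer
  have heq : (P : Subgroup L) = Subgroup.normalizer ((P : Subgroup L) : Set L) :=
    Subgroup.eq_of_le_of_card_ge hle (by rw [hN, hcard])
  haveI : IsCyclic P := isCyclic_of_prime_card hcard
  have hP : Subgroup.normalizer ((P : Subgroup L) : Set L) ≤ Subgroup.centralizer ((P : Subgroup L) : Set L) := by
    rw [← heq]
    intro g hg
    rw [Subgroup.mem_centralizer_iff]
    intro h hh
    have := (IsCyclic.commGroup (α := P)).mul_comm (⟨h, hh⟩ : P) ⟨g, hg⟩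
    exact congrArg Subtype.val this
  exact ⟨(MonoidHom.transferSylow P hP).ker, inferInstance, MonoidHom.ker_transferSylow_isComplement' P hP⟩

end

section main

variable {α : Type*} [Fintype α] [DecidableEq α]

theorem sqf42 : Squarefree (42 : ℕ) := by
  rw [Nat.squarefree_iff_prime_squarefree]
  intro p hp hd
  have h1 : p * p ≤ 42 := Nat.le_of_dvd (by norm_num) hd
  have h2 : p ≤ 6 := by nlinarith
  interval_cases p <;> first | (revert hd; decide) | (exact Nat.not_prime_one hp)

theorem sqf210 : Squarefree (210 : ℕ) := by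
  rw [Nat.squarefree_iff_prime_squarefree]
  intro p hp hd
  have h1 : p * p ≤ 210 := Nat.le_of_dvd (by norm_num) hd
  have h2 : p ≤ 14 := by nlinarith
  interval_cases p <;> first | (revert hd; decide) | (exact Nat.not_prime_one hp)

omit [Fintype α] [DecidableEq α] in
theorem exists_stab_of_mult {G : Type*} [Group G] [Finite G] [MulAction G α] (n : ℕ)
    (h : IsMultiplyPretransitive G α n) (b : Fin n ↪ α) :
    ∃ S : Subgroup G, (∀ g ∈ S, ∀ i, g • b i = b i) ∧
      Nat.card S * Nat.card (Fin n ↪ α) = Nat.card G := by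
  refine ⟨stabilizer G b, ?_, ?_⟩
  · intro g hg i
    have h1 : g • b = b := hg
    exact congrArg (fun f : Fin n ↪ α => f i) h1
  · have h1 := Subgroup.card_mul_index (stabilizer G b)
    rwa [index_stabilizer_of_transitive] at h1

theorem deg7_main (hα : Fintype.card α = 7) (G : Subgroup (Equiv.Perm α)) [IsPretransitive G α]
    (hG : ¬ Group.IsSolvable G) (hA : ¬ alternatingGroup α ≤ G) :
    Nat.card G = 168 ∧ IsSimpleGroup G := by
  classical
  haveI : Fact (Nat.Prime 7) := ⟨by norm_num⟩
  have h2 : IsMultiplyPretransitive G α 2 := (burnside_prime_degree (p := 7) G hα).resolve_left hG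
  have hprim : IsPreprimitive G α := isPreprimitive_of_is_two_pretransitive h2
  have hsupp : ∀ g ∈ G, g ≠ 1 → 4 ≤ g.support.card := by
    intro g hg hg1
    by_contra hlt
    have h3 : g.support.card ≠ 0 := by simpa [Finset.card_eq_zero] using hg1
    have h4 : g.support.card ≠ 1 := Equiv.Perm.card_support_ne_one g
    have h5 : g.support.card = 2 ∨ g.support.card = 3 := by omega
    rcases h5 with h5 | h5
    · have hsw : g.IsSwap := Equiv.Perm.card_support_eq_two.mp h5
      have := Equiv.Perm.subgroup_eq_top_of_isPreprimitive_of_isSwap_mem hprim g hsw hg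
      exact hA (by rw [this]; exact le_top)
    · have h3c : g.IsThreeCycle := card_support_eq_three_iff.mp h5
      exact hA (Equiv.Perm.alternatingGroup_le_of_isPreprimitive_of_isThreeCycle_mem hprim h3c hg)
  -- support of an element fixing a set
  have hsuppS : ∀ (g : Equiv.Perm α) (S : Finset α), (∀ a ∈ S, g a = a) → g.support.card + S.card ≤ 7 := by
    intro g S hS
    have hdisj : Disjoint g.support S := by
      rw [Finset.disjoint_left]
      intro a ha haS
      exact (Equiv.Perm.mem_support.mp ha) (hS a haS)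
    have := Finset.card_le_univ (g.support ∪ S)
    rw [Finset.card_union_of_disjoint hdisj, hα] at this
    exact this
  -- upper bound
  have h840 : Nat.card G ≤ 840 := by
    obtain ⟨b⟩ : Nonempty (Fin 4 ↪ α) := Function.Embedding.nonempty_of_card_le (by rw [hα]; simp)
    let φ : G → (Fin 4 ↪ α) := fun g => g • b
    have hφ : Function.Injective φ := by
      intro g g' h
      by_contra hne
      have hfix : ∀ a ∈ Finset.univ.image b, ((g⁻¹ * g' : G) : Equiv.Perm α) a = a := by
        intro a ha
        obtain ⟨i, -, rfl⟩ := Finset.mem_image.mp ha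
        have h1 : g • b i = g' • b i := by
          have := congrArg (fun f : Fin 4 ↪ α => f i) h
          simpa [φ, Function.Embedding.smul_apply] using this
        change (g⁻¹ * g') • b i = b i
        rw [mul_smul, ← h1, inv_smul_smul]
      have h3 := hsuppS _ _ hfix
      rw [Finset.card_image_of_injective _ b.injective, Finset.card_univ, Fintype.card_fin] at h3
      have h4 := hsupp _ (g⁻¹ * g').2 (by
        intro h5
        apply hne
        have h6 : g⁻¹ * g' = 1 := Subtype.ext h5
        exact (inv_mul_eq_one.mp h6))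
      omega
    have := Nat.card_le_card_of_injective φ hφ
    rwa [Nat.card_eq_fintype_card (α := Fin 4 ↪ α), Fintype.card_embedding_eq, hα, Fintype.card_fin] at this
  have hemb2 : Nat.card (Fin 2 ↪ α) = 42 := by
    rw [Nat.card_eq_fintype_card, Fintype.card_embedding_eq, hα, Fintype.card_fin]
    rfl
  have hemb3 : Nat.card (Fin 3 ↪ α) = 210 := by
    rw [Nat.card_eq_fintype_card, Fintype.card_embedding_eq, hα, Fintype.card_fin]
    rfl
  obtain ⟨b₂⟩ : Nonempty (Fin 2 ↪ α) := Function.Embedding.nonempty_of_card_le (by rw [hα]; simp)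
  obtain ⟨S₂, hS₂, hstab⟩ := exists_stab_of_mult 2 h2 b₂
  rw [hemb2] at hstab
  obtain ⟨m, hm⟩ : ∃ m, m = Nat.card S₂ := ⟨_, rfl⟩
  rw [← hm] at hstab
  -- no element of order three
  have h3m : ¬ 3 ∣ m := by
    intro h3
    haveI : Fact (Nat.Prime 3) := ⟨by norm_num⟩
    rw [hm] at h3
    obtain ⟨y, hy⟩ := exists_prime_orderOf_dvd_card' (G := S₂) 3 h3
    obtain ⟨g, hg⟩ : ∃ g : Equiv.Perm α, g = (((y : G) : Equiv.Perm α)) := ⟨_, rfl⟩
    have hgo : orderOf g = 3 := by
      rw [hg, Subgroup.orderOf_coe, Subgroup.orderOf_coe, hy]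
    have hgm : g ∈ G := by rw [hg]; exact (y : G).2
    have hfix : ∀ a ∈ Finset.univ.image b₂, g a = a := by
      intro a ha
      obtain ⟨i, -, rfl⟩ := Finset.mem_image.mp ha
      rw [hg]
      exact hS₂ y y.2 i
    have h4 := hsuppS _ _ hfix
    rw [Finset.card_image_of_injective _ b₂.injective, Finset.card_univ, Fintype.card_fin] at h4
    have hg1 : g ≠ 1 := by
      rintro rfl
      rw [orderOf_one] at hgo
      omega
    have h5 := hsupp g hgm hg1
    obtain ⟨n, hn⟩ := Equiv.Perm.cycleType_prime_order (σ := g) (by rw [hgo]; norm_num)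
    have h6 := Equiv.Perm.sum_cycleType g
    rw [hn, hgo, Multiset.sum_replicate, smul_eq_mul] at h6
    omega
  have hfact : Nat.card G ∣ 5040 := by
    have := Subgroup.card_subgroup_dvd_card G
    rwa [Nat.card_perm, Nat.card_eq_fintype_card (α := α), hα] at this
  have hmpos : 0 < m := by
    rw [hm]
    exact Nat.card_pos
  have hmle : m ≤ 20 := by omega
  have hmdvd : m ∣ 120 := by
    rw [← hstab] at hfact
    have h5040 : (5040 : ℕ) = 120 * 42 := by norm_num
    rw [h5040] at hfact
    exact Nat.dvd_of_mul_dvd_mul_right (by norm_num) hfact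
  have hmcases : m = 1 ∨ m = 2 ∨ m = 4 ∨ m = 5 ∨ m = 8 ∨ m = 10 ∨ m = 20 := by
    interval_cases m <;> first | omega | (exfalso; revert hmdvd; decide)
  -- normal subgroups
  have hnormal : ∀ K : Subgroup G, K.Normal → K ≠ ⊥ → 7 ∣ Nat.card K := by
    intro K hK hK1
    haveI := hK
    haveI := isPretransitive_normal_of_prim hprim K hK1
    obtain ⟨a⟩ : Nonempty α := by
      apply Fintype.card_pos_iff.mp
      rw [hα]
      norm_num
    have h1 := index_stabilizer_of_transitive K a
    rw [Nat.card_eq_fintype_card, hα] at h1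
    rw [← h1]
    exact Subgroup.index_dvd_card _
  -- the numbers
  have hnum : ∀ P : Sylow 7 G, ∃ d n : ℕ, d ∣ 6 ∧
      Nat.card (Subgroup.normalizer ((P : Subgroup G) : Set G)) = 7 * d ∧
      n % 7 = 1 ∧ n * (7 * d) = Nat.card G := by
    intro P
    have h1 := card_normalizer_dvd (α := α) hα P
    have h3 : 7 ∣ Nat.card (Subgroup.normalizer ((P : Subgroup G) : Set G)) := by
      have h4 := P.pow_dvd_card_of_pow_dvd_card (n := 1) (by
        rw [pow_one]
        rw [← hstab]
        exact Dvd.intro_left (m * 6) (by ring))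
      rw [pow_one] at h4
      exact h4.trans (Subgroup.card_dvd_of_le Subgroup.le_normalizer)
    obtain ⟨d, hd⟩ := h3
    refine ⟨d, Nat.card (Sylow 7 G), ?_, hd, ?_, ?_⟩
    · rw [hd] at h1
      exact Nat.dvd_of_mul_dvd_mul_left (by norm_num) h1
    · exact card_sylow_modEq_one 7 G
    · rw [← hd, P.card_eq_index_normalizer, mul_comm]
      exact Subgroup.card_mul_index _
  obtain ⟨P₀⟩ : Nonempty (Sylow 7 G) := inferInstance
  obtain ⟨d, n, hd6, hdN, hn7, hnd⟩ := hnum P₀
  have hd6' : d = 1 ∨ d = 2 ∨ d = 3 ∨ d = 6 := by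
    have := Nat.le_of_dvd (by norm_num) hd6
    interval_cases d <;> first | omega | (exfalso; revert hd6; decide)
  -- eliminate `m = 1, 5`
  have hsqf : ∀ c : ℕ, Nat.card G = c → Squarefree c → False := by
    intro c hc hs
    rw [← hc] at hs
    haveI := IsZGroup.of_squarefree hs
    apply hG
    infer_instance
  have hm4 : m = 4 := by
    rcases hmcases with h | h | h | h | h | h | h
    · subst h
      exact (hsqf 42 (by omega) sqf42).elim
    · subst h
      exfalso
      rcases hd6' with h | h | h | h <;> subst h <;> omega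
    · exact h
    · subst h
      exact (hsqf 210 (by omega) sqf210).elim
    · -- order 336
      subst h
      exfalso
      have hd' : d = 6 := by
        rcases hd6' with h | h | h | h <;> subst h <;> omega
      subst hd'
      have heven : Even (Nat.card (Subgroup.normalizer ((P₀ : Subgroup G) : Set G))) := by
        rw [hdN]
        decide
      have h3 := three_trans_of_even (p := 7) hα hG P₀ heven
      obtain ⟨b₃⟩ : Nonempty (Fin 3 ↪ α) := Function.Embedding.nonempty_of_card_le (by rw [hα]; simp)
      obtain ⟨S₃, -, h4⟩ := exists_stab_of_mult 3 h3 b₃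
      rw [hemb3, ← hstab] at h4
      omega
    · subst h
      exfalso
      rcases hd6' with h | h | h | h <;> subst h <;> omega
    · -- order 840
      subst h
      exfalso
      have hd' : d = 1 := by
        rcases hd6' with h | h | h | h <;> subst h <;> omega
      subst hd'
      have hPcard : Nat.card P₀ = 7 := by
        have h4 := P₀.pow_dvd_card_of_pow_dvd_card (n := 1) (by
          rw [pow_one, ← hstab]
          norm_num)
        rw [pow_one] at h4
        have h5 : Nat.card (P₀ : Subgroup G) ∣ 7 := by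
          have := Subgroup.card_dvd_of_le (Subgroup.le_normalizer (H := (P₀ : Subgroup G)))
          rw [hdN] at this
          simpa using this
        exact Nat.dvd_antisymm h5 h4
      obtain ⟨R, hR, hRc⟩ := complement_of_self_normalizing P₀ hPcard (by rw [hdN])
      have h4 := hRc.card_mul_card
      rw [hPcard, ← hstab] at h4
      have h5 : Nat.card R = 120 := by omega
      have hne : R ≠ ⊥ := by
        intro h
        rw [h, Subgroup.card_bot] at h5
        omega
      have := hnormal R hR hne
      rw [h5] at this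
      revert this
      decide
  subst hm4
  have hcard : Nat.card G = 168 := by omega
  refine ⟨hcard, ?_⟩
  have hN21 : ∀ P : Sylow 7 G, Nat.card (Subgroup.normalizer ((P : Subgroup G) : Set G)) = 21 := by
    intro P
    obtain ⟨d, n, hd6, hdN, hn7, hnd⟩ := hnum P
    have hd6' : d = 1 ∨ d = 2 ∨ d = 3 ∨ d = 6 := by
      have := Nat.le_of_dvd (by norm_num) hd6
      interval_cases d <;> first | omega | (exfalso; revert hd6; decide)
    rw [hdN]
    rcases hd6' with h | h | h | h <;> subst h <;> omega
  have hnontriv : Nontrivial G := by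
    apply Finite.one_lt_card_iff_nontrivial.mp
    omega
  refine { eq_bot_or_eq_top_of_normal := ?_ }
  intro K hK
  by_cases hK1 : K = ⊥
  · exact Or.inl hK1
  right
  have h7 := hnormal K hK hK1
  have hKdvd : Nat.card K ∣ 168 := by
    rw [← hcard]
    exact Subgroup.card_subgroup_dvd_card K
  obtain ⟨P₁⟩ : Nonempty (Sylow 7 K) := inferInstance
  have hP₁ : Nat.card P₁ = 7 := by
    have h4 := P₁.pow_dvd_card_of_pow_dvd_card (n := 1) (by rwa [pow_one])
    rw [pow_one] at h4
    obtain ⟨k, hk⟩ := IsPGroup.iff_card.mp P₁.isPGroup'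
    have h5 : Nat.card (P₁ : Subgroup K) ∣ 168 := (Subgroup.card_subgroup_dvd_card _).trans hKdvd
    change Nat.card (P₁ : Subgroup K) = 7
    rw [hk] at h4 h5 ⊢
    have hk1 : k = 1 := by
      have hk0 : k ≠ 0 := by
        rintro rfl
        revert h4
        decide
      by_contra hne
      have h6 : 7 ^ 2 ∣ 7 ^ k := pow_dvd_pow _ (by omega)
      have := h6.trans h5
      revert this
      decide
    rw [hk1, pow_one]
  let Q : Subgroup G := (P₁ : Subgroup K).map K.subtype
  have hQcard : Nat.card Q = 7 := by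
    rw [Subgroup.card_subtype]
    exact hP₁
  have hQp : IsPGroup 7 Q := by
    apply IsPGroup.of_card (n := 1)
    rw [hQcard, pow_one]
  have hQi : ¬ 7 ∣ Q.index := by
    have h1 := Subgroup.card_mul_index Q
    rw [hQcard, hcard] at h1
    have h3 : Q.index = 24 := by omega
    rw [h3]
    decide
  have hQN : Nat.card (Subgroup.normalizer (Q : Set G)) = 21 := hN21 (hQp.toSylow hQi)
  have hsup := Sylow.normalizer_sup_eq_top P₁
  have hcnt := Cfsg.Agent.H01.card_sup_mul_card_inf (Subgroup.normalizer (Q : Set G)) K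
  have hsup' : Subgroup.normalizer (Q : Set G) ⊔ K = ⊤ := hsup
  rw [hsup', Subgroup.card_top, hcard, hQN] at hcnt
  obtain ⟨t, ht⟩ : ∃ t, t = Nat.card (Subgroup.normalizer (Q : Set G) ⊓ K : Subgroup G) := ⟨_, rfl⟩
  rw [← ht] at hcnt
  have ht21 : t ∣ 21 := by
    rw [ht, ← hQN]
    exact Subgroup.card_dvd_of_le inf_le_left
  have hQle : Q ≤ Subgroup.normalizer (Q : Set G) ⊓ K :=
    le_inf Subgroup.le_normalizer (Subgroup.map_subtype_le _)
  have ht7 : 7 ∣ t := by
    rw [ht, ← hQcard]
    exact Subgroup.card_dvd_of_le hQle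
  have htcases : t = 7 ∨ t = 21 := by
    obtain ⟨s, rfl⟩ := ht7
    have h1 : s ∣ 3 := Nat.dvd_of_mul_dvd_mul_left (by norm_num) (show 7 * s ∣ 7 * 3 from ht21)
    rcases (Nat.dvd_prime Nat.prime_three).mp h1 with h | h <;> subst h <;> simp
  rcases htcases with h | h
  · -- `|K| = 56`
    exfalso
    subst h
    have hK56 : Nat.card K = 56 := by omega
    have hNK : Nat.card (Subgroup.normalizer ((P₁ : Subgroup K) : Set K)) = 7 := by
      apply le_antisymm
      · have h1 : (Subgroup.normalizer ((P₁ : Subgroup K) : Set K)).map K.subtype ≤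
            Subgroup.normalizer (Q : Set G) ⊓ K :=
          le_inf (Subgroup.le_normalizer_map _) (Subgroup.map_subtype_le _)
        have h3 := Subgroup.card_le_of_le h1
        rw [Subgroup.card_subtype, ← ht] at h3
        exact h3
      · have h3 := Subgroup.card_le_of_le (Subgroup.le_normalizer (H := (P₁ : Subgroup K)))
        have h4 : Nat.card (P₁ : Subgroup K) = 7 := hP₁
        omega
    obtain ⟨R, hR, hRc⟩ := complement_of_self_normalizing P₁ hP₁ hNK
    have h4 := hRc.card_mul_card
    have h4' : Nat.card R * Nat.card (P₁ : Subgroup K) = Nat.card K := h4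
    have h4'' : Nat.card (P₁ : Subgroup K) = 7 := hP₁
    rw [h4'', hK56] at h4'
    have hR8 : Nat.card R = 8 := by omega
    let R' : Subgroup G := R.map K.subtype
    have hR'card : Nat.card R' = 8 := by
      rw [Subgroup.card_subtype, hR8]
    have hR'n : R'.Normal := by
      refine ⟨fun n hn g => ?_⟩
      obtain ⟨r, hr, rfl⟩ := hn
      have hmemK : g * (r : G) * g⁻¹ ∈ K := hK.conj_mem _ r.2 g
      refine ⟨⟨_, hmemK⟩, ?_, rfl⟩
      change (⟨_, hmemK⟩ : K) ∈ R
      rw [Cfsg.Agent.H01.mem_normal_complement_iff P₁ R hRc]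
      have hr' := (Cfsg.Agent.H01.mem_normal_complement_iff P₁ R hRc r).mp hr
      rw [Subgroup.orderOf_mk]
      have h5 : orderOf (g * (r : G) * g⁻¹) = orderOf (r : G) := by
        have := MulEquiv.orderOf_eq (MulAut.conj g) (r : G)
        rw [MulAut.conj_apply] at this
        exact this
      rw [h5, Subgroup.orderOf_coe]
      exact hr'
    have hne : R' ≠ ⊥ := by
      intro h
      rw [h, Subgroup.card_bot] at hR'card
      omega
    have := hnormal R' hR'n hne
    rw [hR'card] at this
    revert this
    decide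
  · subst h
    apply Subgroup.eq_top_of_card_eq
    omega

end main

end Cfsg.Agent.H03
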