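import Mathlib

set_option autoImplicit false

namespace Cfsg.Agent.H03.HP

universe u v

variable {q : ℕ} [hq : Fact q.Prime] {V : Type u} [AddCommGroup V] [Module (ZMod q) V]
  {G : Type v} [Group G]

/-- the image of `g` in the endomorphism ring. -/
abbrev toE (ρ : G →* (V ≃ₗ[ZMod q] V)) (g : G) : Module.End (ZMod q) V :=
  ((ρ g : V ≃ₗ[ZMod q] V) : V →ₗ[ZMod q] V)

theorem rho_mul (ρ : G →* (V ≃ₗ[ZMod q] V)) (g h : G) (v : V) : ρ (g * h) v = ρ g (ρ h v) := by
  rw [map_mul]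
  rfl

theorem rho_one (ρ : G →* (V ≃ₗ[ZMod q] V)) (v : V) : ρ 1 v = v := by
  rw [map_one]
  rfl

theorem rho_inv (ρ : G →* (V ≃ₗ[ZMod q] V)) (g : G) (v : V) : ρ g⁻¹ (ρ g v) = v := by
  rw [← rho_mul, inv_mul_cancel, rho_one]

theorem rho_inv' (ρ : G →* (V ≃ₗ[ZMod q] V)) (g : G) (v : V) : ρ g (ρ g⁻¹ v) = v := by
  rw [← rho_mul, mul_inv_cancel, rho_one]

theorem toE_apply (ρ : G →* (V ≃ₗ[ZMod q] V)) (g : G) (v : V) : toE ρ g v = ρ g v := rfl

theorem toE_mul (ρ : G →* (V ≃ₗ[ZMod q] V)) (g h : G) : toE ρ (g * h) = toE ρ g * toE ρ h := by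
  ext v
  exact rho_mul ρ g h v

theorem toE_one (ρ : G →* (V ≃ₗ[ZMod q] V)) : toE ρ 1 = 1 := by
  ext v
  exact rho_one ρ v

theorem toE_inv_mul (ρ : G →* (V ≃ₗ[ZMod q] V)) (g : G) : toE ρ g⁻¹ * toE ρ g = 1 := by
  rw [← toE_mul, inv_mul_cancel, toE_one]

/-- the algebra generated by `A`. -/
def RA (ρ : G →* (V ≃ₗ[ZMod q] V)) (A : Subgroup G) :
    Subalgebra (ZMod q) (Module.End (ZMod q) V) :=
  Algebra.adjoin (ZMod q) {f | ∃ a ∈ A, f = toE ρ a}

theorem gens_comm (ρ : G →* (V ≃ₗ[ZMod q] V)) {A : Subgroup G}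
    (hab : ∀ a ∈ A, ∀ b ∈ A, a * b = b * a) :
    ∀ x ∈ {f : Module.End (ZMod q) V | ∃ a ∈ A, f = toE ρ a},
      ∀ y ∈ {f : Module.End (ZMod q) V | ∃ a ∈ A, f = toE ρ a}, x * y = y * x := by
  rintro _ ⟨a, ha, rfl⟩ _ ⟨b, hb, rfl⟩
  rw [← toE_mul, ← toE_mul, hab a ha b hb]

theorem RA_comm (ρ : G →* (V ≃ₗ[ZMod q] V)) {A : Subgroup G}
    (hab : ∀ a ∈ A, ∀ b ∈ A, a * b = b * a) {r s : Module.End (ZMod q) V}
    (hr : r ∈ RA ρ A) (hs : s ∈ RA ρ A) : r * s = s * r := by
  have h1 := Algebra.isMulCommutative_adjoin (ZMod q) (gens_comm ρ hab)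
  have h2 := h1.is_comm.comm (⟨r, hr⟩ : (RA ρ A)) ⟨s, hs⟩
  exact congrArg Subtype.val h2

theorem conj_mem (ρ : G →* (V ≃ₗ[ZMod q] V)) {A : Subgroup G} (hA : A.Normal) (g : G)
    {r : Module.End (ZMod q) V} (hr : r ∈ RA ρ A) : toE ρ g * r * toE ρ g⁻¹ ∈ RA ρ A := by
  induction hr using Algebra.adjoin_induction with
  | mem x hx =>
    obtain ⟨a, ha, rfl⟩ := hx
    rw [← toE_mul, ← toE_mul]
    exact Algebra.subset_adjoin ⟨_, hA.conj_mem a ha g, rfl⟩
  | algebraMap c =>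
    have : toE ρ g * (algebraMap (ZMod q) (Module.End (ZMod q) V) c) * toE ρ g⁻¹
        = algebraMap (ZMod q) (Module.End (ZMod q) V) c := by
      ext v
      simp [Module.algebraMap_end_apply]
    rw [this]
    exact Subalgebra.algebraMap_mem _ c
  | add x y _ _ hx hy =>
    rw [mul_add, add_mul]
    exact Subalgebra.add_mem _ hx hy
  | mul x y _ _ hx hy =>
    have : toE ρ g * (x * y) * toE ρ g⁻¹ = (toE ρ g * x * toE ρ g⁻¹) * (toE ρ g * y * toE ρ g⁻¹) := by
      calc toE ρ g * (x * y) * toE ρ g⁻¹ = toE ρ g * x * 1 * y * toE ρ g⁻¹ := by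
            simp [mul_assoc]
        _ = toE ρ g * x * (toE ρ g⁻¹ * toE ρ g) * y * toE ρ g⁻¹ := by rw [toE_inv_mul]
        _ = _ := by simp only [mul_assoc]
    rw [this]
    exact Subalgebra.mul_mem _ hx hy

theorem RA_inj [Finite V] (ρ : G →* (V ≃ₗ[ZMod q] V))
    (htrans : ∀ v w : V, v ≠ 0 → w ≠ 0 → ∃ g : G, ρ g v = w) {A : Subgroup G} (hA : A.Normal)
    (hab : ∀ a ∈ A, ∀ b ∈ A, a * b = b * a) {r : Module.End (ZMod q) V} (hr : r ∈ RA ρ A)
    (hr0 : r ≠ 0) {u : V} (hu : r u = 0) : u = 0 := by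
  set S : V → Set V := fun v => {w | ∃ s ∈ RA ρ A, w = s v} with hS
  have hself : ∀ v, v ∈ S v := fun v => ⟨1, Subalgebra.one_mem _, rfl⟩
  have himg : ∀ (g : G) (v : V), S (ρ g v) = ρ g '' S v := by
    intro g v
    ext w
    constructor
    · rintro ⟨s, hs, rfl⟩
      refine ⟨(toE ρ g⁻¹ * s * toE ρ g) v, ?_, ?_⟩
      · refine ⟨toE ρ g⁻¹ * s * toE ρ g, ?_, rfl⟩
        have := conj_mem ρ hA g⁻¹ hs
        rwa [inv_inv] at this
      · simp [Module.End.mul_apply]
    · rintro ⟨_, ⟨s, hs, rfl⟩, rfl⟩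
      refine ⟨toE ρ g * s * toE ρ g⁻¹, conj_mem ρ hA g hs, ?_⟩
      simp [Module.End.mul_apply]
  have hcard : ∀ v w : V, v ≠ 0 → w ≠ 0 → (S w).ncard = (S v).ncard := by
    intro v w hv hw
    obtain ⟨g, rfl⟩ := htrans v w hv hw
    rw [himg]
    exact Set.ncard_image_of_injective _ (ρ g).injective
  have hsub : ∀ v w : V, w ∈ S v → S w ⊆ S v := by
    rintro v _ ⟨s, hs, rfl⟩ _ ⟨p, hp, rfl⟩
    exact ⟨p * s, Subalgebra.mul_mem _ hp hs, rfl⟩
  have heq : ∀ v w : V, v ≠ 0 → w ≠ 0 → w ∈ S v → S w = S v := by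
    intro v w hv hw hwv
    exact Set.eq_of_subset_of_ncard_le (hsub v w hwv) (le_of_eq (hcard w v hw hv)) (Set.toFinite _)
  by_contra hu0
  have hw : ∃ w, r w ≠ 0 := by
    by_contra hall
    push Not at hall
    exact hr0 (LinearMap.ext hall)
  obtain ⟨w, hw⟩ := hw
  have hw0 : w ≠ 0 := by
    rintro rfl
    exact hw (map_zero r)
  have hz0 : u + w ≠ 0 := by
    intro h
    have h1 : w = -u := by
      rw [eq_neg_iff_add_eq_zero, add_comm]
      exact h
    rw [h1, map_neg, hu, neg_zero] at hw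
    exact hw rfl
  have hrz : r (u + w) = r w := by rw [map_add, hu, zero_add]
  have hmem : r w ∈ S (u + w) := ⟨r, hr, hrz.symm⟩
  have h1 := heq (u + w) (r w) hz0 hw hmem
  have h2 : u + w ∈ S (r w) := by
    rw [h1]
    exact hself _
  obtain ⟨s, hs, hs2⟩ := h2
  have h3 : u + w ∈ S w := ⟨s * r, Subalgebra.mul_mem _ hs hr, hs2⟩
  have h4 : u ∈ S w := by
    obtain ⟨p, hp, hp2⟩ := h3
    refine ⟨p - 1, Subalgebra.sub_mem _ hp (Subalgebra.one_mem _), ?_⟩
    have : (p - 1) w = p w - w := rfl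
    rw [this, ← hp2]
    abel
  have h5 := heq w u hw0 hu0 h4
  have h6 : w ∈ S u := by
    rw [h5]
    exact hself _
  obtain ⟨p, hp, rfl⟩ := h6
  apply hw
  have h7 := RA_comm ρ hab hr hp
  have h8 : (r * p) u = (p * r) u := by rw [h7]
  have h9 : (p * r) u = p (r u) := rfl
  rw [h9, hu, map_zero] at h8
  exact h8

/-- The field generated by an abelian normal subgroup. -/
theorem exists_K [Finite V] [Nontrivial V] [Finite G] (ρ : G →* (V ≃ₗ[ZMod q] V))
    (hρ : Function.Injective ρ)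
    (htrans : ∀ v w : V, v ≠ 0 → w ≠ 0 → ∃ g : G, ρ g v = w) (A : Subgroup G) (hA : A.Normal)
    (hab : ∀ a ∈ A, ∀ b ∈ A, a * b = b * a) :
    ∃ (K : Type u) (_ : Field K) (_ : Finite K) (_ : Module K V) (_ : CharP K q)
      (κ : A →* Kˣ) (σ : G →* (K ≃+* K)),
      Function.Injective κ ∧ (∀ (a : A) (v : V), ρ a.1 v = (κ a : K) • v) ∧
      (∀ (g : G) (k : K) (v : V), ρ g (k • v) = σ g k • ρ g v) ∧
      (∀ g : G, (∀ a ∈ A, g * a = a * g) → σ g = 1) := by
  classical
  haveI hfinE : Finite (V →ₗ[ZMod q] V) := DFunLike.finite _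
  haveI hfinR : Finite (RA ρ A) := Finite.of_injective (fun x : RA ρ A => (x.1 : V →ₗ[ZMod q] V))
    Subtype.val_injective
  letI cr : CommRing (RA ρ A) :=
    { (inferInstance : Ring (RA ρ A)) with
      mul_comm := fun a b => Subtype.ext (RA_comm ρ hab a.2 b.2) }
  haveI hnt : Nontrivial (RA ρ A) := by
    obtain ⟨v, hv⟩ := exists_ne (0 : V)
    refine ⟨⟨1, 0, ?_⟩⟩
    intro h
    have h1 : ((1 : RA ρ A).1 : Module.End (ZMod q) V) = (0 : RA ρ A).1 := congrArg Subtype.val h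
    have h2 := congrArg (fun f : Module.End (ZMod q) V => f v) h1
    exact hv h2
  haveI hdom : IsDomain (RA ρ A) := by
    haveI : NoZeroDivisors (RA ρ A) := by
      constructor
      intro x y hxy
      by_cases hx : x = 0
      · exact Or.inl hx
      · right
        apply Subtype.ext
        ext v
        have hx0 : x.1 ≠ 0 := fun h => hx (Subtype.ext h)
        have h1 : (x.1 * y.1) v = 0 := by
          have : x.1 * y.1 = 0 := congrArg Subtype.val hxy
          rw [this]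
          rfl
        exact RA_inj ρ htrans hA hab x.2 hx0 h1
    exact NoZeroDivisors.to_isDomain _
  letI : Fintype (RA ρ A) := Fintype.ofFinite _
  letI fld : Field (RA ρ A) := Fintype.fieldOfDomain (RA ρ A)
  letI m : Module (RA ρ A) V :=
    { smul := fun r v => r.1 v
      one_smul := fun v => rfl
      mul_smul := fun x y v => rfl
      smul_zero := fun r => map_zero r.1
      smul_add := fun r a b => map_add r.1 a b
      add_smul := fun r s v => rfl
      zero_smul := fun v => rfl }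
  have hsmul : ∀ (r : RA ρ A) (v : V), r • v = r.1 v := fun r v => rfl
  have hchar : CharP (RA ρ A) q := by
    refine ⟨fun n => ?_⟩
    obtain ⟨v, hv⟩ := exists_ne (0 : V)
    have hnv : ∀ n : ℕ, ((n : RA ρ A).1) = ((n : ZMod q) • (1 : Module.End (ZMod q) V)) := by
      intro n
      induction n with
      | zero => simp
      | succ k ih =>
        have : ((k + 1 : ℕ) : RA ρ A) = (k : RA ρ A) + 1 := by push_cast; rfl
        rw [this]
        have h2 : ((k : RA ρ A) + 1).1 = (k : RA ρ A).1 + 1 := rfl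
        rw [h2, ih]
        push_cast
        rw [add_smul, one_smul]
    constructor
    · intro h
      have h1 := hnv n
      rw [h] at h1
      have h2 : (0 : RA ρ A).1 = (0 : Module.End (ZMod q) V) := rfl
      rw [h2] at h1
      have h3 := congrArg (fun f : Module.End (ZMod q) V => f v) h1
      have h4 : (0 : V) = (n : ZMod q) • v := h3
      have h5 := (smul_eq_zero.1 h4.symm).resolve_right hv
      exact (ZMod.natCast_eq_zero_iff n q).1 h5
    · intro h
      apply Subtype.ext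
      rw [hnv n, (ZMod.natCast_eq_zero_iff n q).2 h, zero_smul]
      rfl
  let aE : A → RA ρ A := fun a => ⟨toE ρ a.1, Algebra.subset_adjoin ⟨a.1, a.2, rfl⟩⟩
  have haE : ∀ a b : A, aE (a * b) = aE a * aE b := by
    intro a b
    apply Subtype.ext
    exact toE_mul ρ a.1 b.1
  have haE1 : aE 1 = 1 := by
    apply Subtype.ext
    exact toE_one ρ
  let κ : A →* (RA ρ A)ˣ :=
    { toFun := fun a =>
        ⟨aE a, aE a⁻¹, by rw [← haE, mul_inv_cancel, haE1], by rw [← haE, inv_mul_cancel, haE1]⟩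
      map_one' := by
        apply Units.ext
        exact haE1
      map_mul' := by
        intro a b
        apply Units.ext
        exact haE a b }
  have hcm : ∀ (g : G) (x y : Module.End (ZMod q) V),
      toE ρ g * (x * y) * toE ρ g⁻¹ = (toE ρ g * x * toE ρ g⁻¹) * (toE ρ g * y * toE ρ g⁻¹) := by
    intro g x y
    calc toE ρ g * (x * y) * toE ρ g⁻¹ = toE ρ g * x * 1 * y * toE ρ g⁻¹ := by
          simp [mul_assoc]
      _ = toE ρ g * x * (toE ρ g⁻¹ * toE ρ g) * y * toE ρ g⁻¹ := by rw [toE_inv_mul]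
      _ = _ := by simp only [mul_assoc]
  let cg : G → RA ρ A → RA ρ A := fun g r => ⟨toE ρ g * r.1 * toE ρ g⁻¹, conj_mem ρ hA g r.2⟩
  have hcg_inv : ∀ (g : G) (r : RA ρ A), cg g⁻¹ (cg g r) = r := by
    intro g r
    apply Subtype.ext
    show toE ρ g⁻¹ * (toE ρ g * r.1 * toE ρ g⁻¹) * toE ρ g⁻¹⁻¹ = r.1
    rw [inv_inv]
    calc toE ρ g⁻¹ * (toE ρ g * r.1 * toE ρ g⁻¹) * toE ρ g
        = (toE ρ g⁻¹ * toE ρ g) * r.1 * (toE ρ g⁻¹ * toE ρ g) := by simp only [mul_assoc]
      _ = r.1 := by rw [toE_inv_mul, one_mul, mul_one]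
  have hcg_inv' : ∀ (g : G) (r : RA ρ A), cg g (cg g⁻¹ r) = r := by
    intro g r
    have := hcg_inv g⁻¹ r
    rwa [inv_inv] at this
  let σ0 : G → ((RA ρ A) ≃+* (RA ρ A)) := fun g =>
    { toFun := cg g
      invFun := cg g⁻¹
      left_inv := hcg_inv g
      right_inv := hcg_inv' g
      map_mul' := fun x y => Subtype.ext (hcm g x.1 y.1)
      map_add' := fun x y => by
        apply Subtype.ext
        show toE ρ g * (x.1 + y.1) * toE ρ g⁻¹ = _ + _
        rw [mul_add, add_mul] }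
  let σ : G →* ((RA ρ A) ≃+* (RA ρ A)) :=
    { toFun := σ0
      map_one' := by
        refine RingEquiv.ext fun r => Subtype.ext ?_
        show ((toE ρ 1 * r.1 * toE ρ (1 : G)⁻¹ : Module.End (ZMod q) V)) = _
        rw [inv_one, toE_one, one_mul, mul_one]
        rfl
      map_mul' := by
        intro g h
        refine RingEquiv.ext fun r => Subtype.ext ?_
        show ((toE ρ (g * h) * r.1 * toE ρ (g * h)⁻¹ : Module.End (ZMod q) V))
          = toE ρ g * (toE ρ h * r.1 * toE ρ h⁻¹) * toE ρ g⁻¹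
        rw [mul_inv_rev, toE_mul, toE_mul]
        simp only [mul_assoc] }
  refine ⟨RA ρ A, fld, hfinR, m, hchar, κ, σ, ?_, ?_, ?_, ?_⟩
  · intro a b hab'
    have h1 : (κ a : RA ρ A) = κ b := congrArg Units.val hab'
    have h2 : toE ρ a.1 = toE ρ b.1 := congrArg Subtype.val h1
    apply Subtype.ext
    apply hρ
    ext v
    exact congrArg (fun f : Module.End (ZMod q) V => f v) h2
  · intro a v
    rfl
  · intro g k v
    show ρ g (k.1 v) = (toE ρ g * k.1 * toE ρ g⁻¹) (ρ g v)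
    simp [Module.End.mul_apply]
  · intro g hg
    refine RingEquiv.ext fun r => Subtype.ext ?_
    show toE ρ g * r.1 * toE ρ g⁻¹ = r.1
    have key : ∀ x ∈ RA ρ A, toE ρ g * x * toE ρ g⁻¹ = x := by
      intro x hx
      induction hx using Algebra.adjoin_induction with
      | mem y hy =>
        obtain ⟨a, ha, rfl⟩ := hy
        rw [← toE_mul, hg a ha, toE_mul, mul_assoc, ← toE_mul, mul_inv_cancel, toE_one, mul_one]
      | algebraMap c =>
        ext v
        simp [Module.algebraMap_end_apply]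
      | add x y _ _ hx hy =>
        rw [mul_add, add_mul, hx, hy]
      | mul x y _ _ hx hy =>
        rw [hcm, hx, hy]
    exact key r.1 r.2

end Cfsg.Agent.H03.HP
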