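import Mathlib
import Cfsg.Agent.Lib.H03.HP1

set_option autoImplicit false

namespace Cfsg.Agent.H03.HP

universe u v

/-- numeric core of the exceptional case. -/
theorem numeric_final {q f d : ℕ} (hq : q.Prime) (hq2 : q ≠ 2) (hf : f ≠ 0) (hd : 2 ≤ d)
    (h : (∑ i ∈ Finset.range d, (q ^ f) ^ i) ∣ 24 * f) :
    (q ^ f) ^ d ∈ ({9, 25, 49, 121, 529, 81} : Set ℕ) := by
  have hq3 : 3 ≤ q := by
    have := hq.two_le
    omega
  have hQ : 3 ^ f ≤ q ^ f := Nat.pow_le_pow_left hq3 f
  have hbig : ∀ n : ℕ, 5 ≤ n → 24 * n < 3 ^ n := by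
    intro n hn
    induction n, hn using Nat.le_induction with
    | base => norm_num
    | succ n hn ih =>
      rw [pow_succ]
      omega
  have hle : (∑ i ∈ Finset.range d, (q ^ f) ^ i) ≤ 24 * f :=
    Nat.le_of_dvd (by have := Nat.pos_of_ne_zero hf; omega) h
  have hge : ∀ i < d, (q ^ f) ^ i ≤ ∑ j ∈ Finset.range d, (q ^ f) ^ j := by
    intro i hi
    exact Finset.single_le_sum (f := fun j => (q ^ f) ^ j) (fun _ _ => Nat.zero_le _)
      (Finset.mem_range.2 hi)
  have h1 : q ^ f < 24 * f := by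
    have h2 : (∑ i ∈ Finset.range 2, (q ^ f) ^ i) ≤ ∑ j ∈ Finset.range d, (q ^ f) ^ j :=
      Finset.sum_le_sum_of_subset (Finset.range_subset_range.2 hd)
    simp [Finset.sum_range_succ] at h2
    omega
  have hf4 : f ≤ 4 := by
    by_contra hcon
    have := hbig f (by omega)
    omega
  have hqbound : q ^ f ≤ 24 * f := h1.le
  have hdcase : d = 2 ∨ 3 ≤ d := by omega
  rcases hdcase with rfl | hd3
  · have hdv : q ^ f + 1 ∣ 24 * f := by
      simpa [Finset.sum_range_succ, add_comm] using h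
    have hf' : f = 1 ∨ f = 2 ∨ f = 3 ∨ f = 4 := by omega
    rcases hf' with rfl | rfl | rfl | rfl
    · have hq24 : q ≤ 24 := by simpa using hqbound
      simp only [pow_one] at hdv ⊢
      interval_cases q <;> first
        | (exfalso; revert hq; norm_num; done)
        | (exfalso; revert hdv; norm_num; done)
        | (exfalso; omega)
        | simp
    · have hq7 : q ≤ 7 := by
        by_contra hc
        have : 8 ^ 2 ≤ q ^ 2 := Nat.pow_le_pow_left (by omega) 2
        omega
      interval_cases q <;> first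
        | (exfalso; revert hq; norm_num; done)
        | (exfalso; revert hdv; norm_num; done)
        | (exfalso; omega)
    · have hq5 : q ≤ 5 := by
        by_contra hc
        have : 6 ^ 3 ≤ q ^ 3 := Nat.pow_le_pow_left (by omega) 3
        omega
      interval_cases q <;> first
        | (exfalso; revert hq; norm_num; done)
        | (exfalso; revert hdv; norm_num; done)
        | (exfalso; omega)
    · have hq5 : q ≤ 3 := by
        by_contra hc
        have : 4 ^ 4 ≤ q ^ 4 := Nat.pow_le_pow_left (by omega) 4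
        omega
      interval_cases q <;> first
        | (exfalso; revert hq; norm_num; done)
        | (exfalso; revert hdv; norm_num; done)
        | (exfalso; omega)
  · exfalso
    have h3 : (q ^ f) ^ 2 ≤ ∑ j ∈ Finset.range d, (q ^ f) ^ j := hge 2 (by omega)
    have hsum3 : (∑ i ∈ Finset.range 3, (q ^ f) ^ i) ≤ ∑ j ∈ Finset.range d, (q ^ f) ^ j :=
      Finset.sum_le_sum_of_subset (Finset.range_subset_range.2 hd3)
    have hf1 : f = 1 := by
      by_contra hne
      have hf2 : 2 ≤ f := by omega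
      have hpow : 3 ^ f * 3 ^ f ≤ (q ^ f) ^ 2 := by
        rw [pow_two]
        exact Nat.mul_le_mul hQ hQ
      have h81 : ∀ n : ℕ, 2 ≤ n → 24 * n < 3 ^ n * 3 ^ n := by
        intro n hn
        induction n, hn using Nat.le_induction with
        | base => norm_num
        | succ n hn ih =>
          rw [pow_succ]
          nlinarith
      have := h81 f hf2
      omega
    subst hf1
    simp only [pow_one, mul_one] at h hle hsum3 hge
    have hq5 : q = 3 := by
      by_contra hne
      have hq5 : 5 ≤ q := by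
        by_contra hlt
        have : q = 4 := by omega
        subst this
        revert hq
        norm_num
      simp [Finset.sum_range_succ] at hsum3
      nlinarith
    subst hq5
    have hd34 : d = 3 ∨ 4 ≤ d := by omega
    rcases hd34 with rfl | hd4
    · revert h
      decide
    · have hsum4 : (∑ i ∈ Finset.range 4, 3 ^ i) ≤ ∑ j ∈ Finset.range d, 3 ^ j :=
        Finset.sum_le_sum_of_subset (Finset.range_subset_range.2 hd4)
      simp [Finset.sum_range_succ] at hsum4
      omega


variable {q : ℕ} [hq : Fact q.Prime] {V : Type u} [AddCommGroup V] [Module (ZMod q) V]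
  {G : Type v} [Group G]

/-- context data. -/
structure Ctx (ρ : G →* (V ≃ₗ[ZMod q] V)) (A : Subgroup G) {K : Type u} [Field K] [Module K V]
    (κ : A →* Kˣ) (σ : G →* (K ≃+* K)) : Prop where
  hρ : Function.Injective ρ
  htrans : ∀ v w : V, v ≠ 0 → w ≠ 0 → ∃ g : G, ρ g v = w
  hA : A.Normal
  hab : ∀ a ∈ A, ∀ b ∈ A, a * b = b * a
  inj : Function.Injective κ
  sc : ∀ (a : A) (v : V), ρ a.1 v = (κ a : K) • v
  semi : ∀ (g : G) (k : K) (v : V), ρ g (k • v) = σ g k • ρ g v
  cent : ∀ g : G, (∀ a ∈ A, g * a = a * g) → σ g = 1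

section ctx

variable {ρ : G →* (V ≃ₗ[ZMod q] V)} {A : Subgroup G} {K : Type u} [Field K] [Module K V]
    {κ : A →* Kˣ} {σ : G →* (K ≃+* K)}

theorem Ctx.sigma_centr (C : Ctx ρ A κ σ) {g : G} (hg : σ g = 1) : ∀ a ∈ A, g * a = a * g := by
  intro a ha
  apply C.hρ
  ext v
  have h1 : ρ (g * a) v = ρ g (ρ a v) := rho_mul ρ g a v
  have h2 : ρ (a * g) v = ρ a (ρ g v) := rho_mul ρ a g v
  show ρ (g * a) v = ρ (a * g) v
  rw [h1, h2]
  have h3 := C.sc ⟨a, ha⟩ v
  have h4 := C.sc ⟨a, ha⟩ (ρ g v)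
  simp only at h3 h4
  rw [h3, h4, C.semi, hg]
  rfl

theorem Ctx.semireg (C : Ctx ρ A κ σ) {a : G} (ha : a ∈ A) {v : V} (hv : v ≠ 0)
    (hfix : ρ a v = v) : a = 1 := by
  have h3 := C.sc ⟨a, ha⟩ v
  simp only at h3
  rw [hfix] at h3
  have h4 : ((κ ⟨a, ha⟩ : K) - 1) • v = 0 := by
    rw [sub_smul, one_smul, ← h3, sub_self]
  have h5 := (smul_eq_zero.1 h4).resolve_right hv
  have h6 : κ ⟨a, ha⟩ = 1 := Units.ext (sub_eq_zero.1 h5)
  have h7 : (⟨a, ha⟩ : A) = 1 := C.inj (by rw [h6, map_one])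
  exact congrArg Subtype.val h7

theorem Ctx.card_A_dvd [Finite G] [Finite K] (C : Ctx ρ A κ σ) :
    Nat.card A ∣ Nat.card K - 1 := by
  have h1 : Nat.card A = Nat.card κ.range :=
    Nat.card_congr (MonoidHom.ofInjective C.inj).toEquiv
  rw [h1, ← Nat.card_units]
  exact Subgroup.card_subgroup_dvd_card _

end ctx

/-- Orbit counting. -/
theorem card_sub_one_dvd [Finite V] [Nontrivial V] [Finite G] (ρ : G →* (V ≃ₗ[ZMod q] V))
    (htrans : ∀ v w : V, v ≠ 0 → w ≠ 0 → ∃ g : G, ρ g v = w) :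
    Nat.card V - 1 ∣ Nat.card G := by
  classical
  obtain ⟨v₀, hv₀⟩ := exists_ne (0 : V)
  letI : MulAction G V :=
    { smul := fun g v => ρ g v
      one_smul := fun v => rho_one ρ v
      mul_smul := fun g h v => rho_mul ρ g h v }
  have hs : ∀ (g : G) (v : V), g • v = ρ g v := fun g v => rfl
  have horb : MulAction.orbit G v₀ = {v : V | v ≠ 0} := by
    ext w
    constructor
    · rintro ⟨g, rfl⟩
      show ρ g v₀ ≠ 0
      intro h
      exact hv₀ ((ρ g).map_eq_zero_iff.1 h)
    · intro hw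
      obtain ⟨g, hg⟩ := htrans v₀ w hv₀ hw
      exact ⟨g, hg⟩
  have h1 := MulAction.index_stabilizer G v₀
  have h2 : (MulAction.orbit G v₀).ncard = Nat.card V - 1 := by
    rw [horb]
    have h3 : ({v : V | v ≠ 0} : Set V) = {(0 : V)}ᶜ := by
      ext; simp
    rw [h3, Set.ncard_compl, Set.ncard_singleton]
  rw [← h2, ← h1]
  exact Subgroup.index_dvd_card _

/-- Number of ring automorphisms of a finite field. -/
theorem card_ringEquiv (K : Type u) [Field K] [Finite K] [Algebra (ZMod q) K] :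
    Nat.card (K ≃+* K) = Module.finrank (ZMod q) K := by
  rw [← IsGalois.card_aut_eq_finrank (ZMod q) K]
  refine Nat.card_congr ?_
  refine
    { toFun := fun r => AlgEquiv.ofRingEquiv (f := r) ?_
      invFun := fun r => r.toRingEquiv
      left_inv := fun r => ?_
      right_inv := fun r => ?_ }
  · intro c
    have h : (r : K →+* K).comp (algebraMap (ZMod q) K) = algebraMap (ZMod q) K :=
      RingHom.ext_zmod _ _
    exact congrArg (fun f : ZMod q →+* K => f c) h
  · ext x; rfl
  · ext x; rfl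


section gamma

variable {ρ : G →* (V ≃ₗ[ZMod q] V)} {A : Subgroup G} {K : Type u} [Field K] [Module K V]
    {κ : A →* Kˣ} {σ : G →* (K ≃+* K)}

theorem Ctx.card_G [Finite G] (_C : Ctx ρ A κ σ) :
    Nat.card G = Nat.card σ.ker * Nat.card σ.range := by
  rw [← Subgroup.index_ker, Subgroup.card_mul_index]

theorem Ctx.mem_ker_iff (C : Ctx ρ A κ σ) (g : G) :
    g ∈ σ.ker ↔ ∀ a ∈ A, g * a = a * g :=
  ⟨fun h => C.sigma_centr (MonoidHom.mem_ker.1 h), fun h => MonoidHom.mem_ker.2 (C.cent g h)⟩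

theorem card_V_eq [Finite V] [Finite K] : Nat.card V = Nat.card K ^ Module.finrank K V := by
  haveI : Module.Finite K V := Module.Finite.of_finite
  exact Module.natCard_eq_pow_finrank

theorem finrank_pos' [Finite V] [Nontrivial V] [Finite K] : 0 < Module.finrank K V := by
  haveI : Module.Finite K V := Module.Finite.of_finite
  exact Module.finrank_pos

/-- data on the prime field. -/
theorem exists_f [Finite K] [CharP K q] :
    ∃ f : ℕ, f ≠ 0 ∧ Nat.card K = q ^ f ∧ Nat.card (K ≃+* K) = f := by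
  letI : Algebra (ZMod q) K := ZMod.algebra K q
  refine ⟨Module.finrank (ZMod q) K, ?_, (FiniteField.pow_finrank_eq_natCard q K).symm,
    card_ringEquiv K⟩
  haveI : Module.Finite (ZMod q) K := Module.Finite.of_finite
  exact (Module.finrank_pos).ne'

theorem finrank_eq_one_of_centr [Finite V] [Nontrivial V] [Finite G] [Finite K] [CharP K q]
    (C : Ctx ρ A κ σ) (hC : ∀ g : G, (∀ a ∈ A, g * a = a * g) → g ∈ A) :
    Module.finrank K V = 1 := by
  obtain ⟨f, hf0, hQ, hfc⟩ := exists_f (q := q) (K := K)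
  have hd := finrank_pos' (K := K) (V := V)
  by_contra hd1
  have hd2 : 2 ≤ Module.finrank K V := by omega
  have hker : σ.ker ≤ A := fun g hg => hC g ((C.mem_ker_iff g).1 hg)
  have h1 : Nat.card σ.ker ≤ Nat.card A := Subgroup.card_le_of_le hker
  have h2 : Nat.card A ≤ Nat.card K - 1 := Nat.le_of_dvd (by
    have : 1 < Nat.card K := Finite.one_lt_card
    omega) C.card_A_dvd
  haveI : Finite (K ≃+* K) :=
    Finite.of_injective (fun r : K ≃+* K => (r : K → K)) (fun a b h => RingEquiv.ext (congrFun h))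
  have h3 : Nat.card σ.range ≤ f := by
    rw [← hfc]
    exact Nat.card_le_card_of_injective (fun x : σ.range => x.1) Subtype.val_injective
  have h4 := card_sub_one_dvd ρ C.htrans
  have h5 : Nat.card G ≤ (Nat.card K - 1) * f := by
    rw [C.card_G]
    exact Nat.mul_le_mul (h1.trans h2) h3
  have h6 : Nat.card V - 1 ≤ Nat.card G := Nat.le_of_dvd Nat.card_pos h4
  have h7 : Nat.card V = Nat.card K ^ Module.finrank K V := card_V_eq
  have hQ1 : 1 < Nat.card K := Finite.one_lt_card
  have h8 : Nat.card K ^ 2 ≤ Nat.card V := by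
    rw [h7]
    exact Nat.pow_le_pow_right (by omega) hd2
  have h9 : f < Nat.card K := by
    rw [hQ]
    exact Nat.lt_pow_self (Fact.out : q.Prime).one_lt
  set Q := Nat.card K with hQdef
  obtain ⟨Q', hQ'⟩ : ∃ Q', Q = Q' + 1 := ⟨Q - 1, by omega⟩
  rw [hQ'] at h5 h8 h9 hQ1
  simp only [Nat.add_sub_cancel] at h5
  have h10 : (Q' + 1) ^ 2 - 1 ≤ Q' * f := by
    have : (Q' + 1) ^ 2 - 1 ≤ Nat.card V - 1 := Nat.sub_le_sub_right h8 1
    omega
  have h11 : (Q' + 1) ^ 2 - 1 = Q' * (Q' + 2) := by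
    have : (Q' + 1) ^ 2 = Q' * (Q' + 2) + 1 := by ring
    omega
  rw [h11] at h10
  have h12 : Q' + 2 ≤ f := Nat.le_of_mul_le_mul_left h10 (by omega)
  omega

theorem gamma_form [Finite V] [Nontrivial V] [Finite G] [Finite K] [CharP K q]
    (C : Ctx ρ A κ σ) (hC : ∀ g : G, (∀ a ∈ A, g * a = a * g) → g ∈ A) :
    ∃ (F : Type) (_ : Field F) (_ : Fintype F) (e : V ≃+ F),
        ∀ g : G, ∃ (a : F) (σ' : F ≃+* F), ∀ v : V, e (ρ g v) = a * σ' (e v) := by
  classical
  obtain ⟨f, hf0, hQ, hfc⟩ := exists_f (q := q) (K := K)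
  have hd := finrank_eq_one_of_centr C hC
  obtain ⟨v₀, hv₀⟩ := exists_ne (0 : V)
  have hspan := (finrank_eq_one_iff_of_nonzero' (K := K) v₀ hv₀).1 hd
  let f₀ : K →+ V :=
    { toFun := fun k => k • v₀
      map_zero' := zero_smul _ _
      map_add' := fun a b => add_smul a b v₀ }
  have hbij : Function.Bijective f₀ := by
    constructor
    · intro a b hab
      exact smul_left_injective K hv₀ hab
    · intro w
      obtain ⟨c, hc⟩ := hspan w
      exact ⟨c, hc⟩
  let e₀ : K ≃+ V := AddEquiv.ofBijective f₀ hbij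
  have he₀ : ∀ k : K, e₀ k = k • v₀ := fun k => rfl
  have hcF : Nat.card (GaloisField q f) = q ^ f := GaloisField.card q f hf0
  haveI hfinF : Finite (GaloisField q f) := by
    apply Nat.finite_of_card_ne_zero
    rw [hcF]
    exact pow_ne_zero _ (Fact.out : q.Prime).ne_zero
  letI fF : Fintype (GaloisField q f) := Fintype.ofFinite _
  letI fK : Fintype K := Fintype.ofFinite _
  have hcc : Fintype.card K = Fintype.card (GaloisField q f) := by
    rw [← Nat.card_eq_fintype_card, ← Nat.card_eq_fintype_card, hcF, hQ]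
  let τ : K ≃+* GaloisField q f := FiniteField.ringEquivOfCardEq hcc
  refine ⟨GaloisField q f, inferInstance, fF, e₀.symm.trans τ.toAddEquiv, ?_⟩
  intro g
  obtain ⟨c, hc⟩ := hspan (ρ g v₀)
  refine ⟨τ c, τ.symm.trans ((σ g).trans τ), ?_⟩
  intro v
  obtain ⟨k, hk⟩ := hspan v
  have h1 : ρ g v = e₀ (σ g k * c) := by
    rw [he₀, ← hk, C.semi, ← hc, mul_smul]
  have h2 : v = e₀ k := by rw [he₀, hk]
  have h3 : e₀.symm (ρ g v) = σ g k * c := by rw [h1]; exact e₀.symm_apply_apply _
  have h4 : e₀.symm v = k := by rw [h2]; exact e₀.symm_apply_apply _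
  show τ (e₀.symm (ρ g v)) = τ c * τ (σ g (τ.symm (τ (e₀.symm v))))
  rw [h3, h4, τ.symm_apply_apply, map_mul, mul_comm]

end gamma

end Cfsg.Agent.H03.HP
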