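import Mathlib
import Cfsg.Agent.Lib.H03.HP2

set_option autoImplicit false

namespace Cfsg.Agent.H03.HP

universe u v

variable {q : ℕ} [hq : Fact q.Prime] {V : Type u} [AddCommGroup V] [Module (ZMod q) V]
  {G : Type v} [Group G]

variable {ρ : G →* (V ≃ₗ[ZMod q] V)} {A : Subgroup G} {K : Type u} [Field K] [Module K V]
    {κ : A →* Kˣ} {σ : G →* (K ≃+* K)}

open Classical in
/-- extended scalar. -/
noncomputable def kap (κ : A →* Kˣ) (g : G) : K := if h : g ∈ A then ((κ ⟨g, h⟩ : Kˣ) : K) else 1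

theorem kap_of_mem {g : G} (h : g ∈ A) : kap κ g = ((κ ⟨g, h⟩ : Kˣ) : K) := dif_pos h

theorem rho_kap (C : Ctx ρ A κ σ) {a : G} (h : a ∈ A) (v : V) : ρ a v = kap κ a • v := by
  rw [kap_of_mem h]
  exact C.sc ⟨a, h⟩ v

theorem kap_mul {a b : G} (ha : a ∈ A) (hb : b ∈ A) : kap κ (a * b) = kap κ a * kap κ b := by
  rw [kap_of_mem (A.mul_mem ha hb), kap_of_mem ha, kap_of_mem hb, ← Units.val_mul, ← map_mul]
  rfl

theorem kap_one : kap κ 1 = 1 := by
  rw [kap_of_mem A.one_mem]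
  have : (⟨1, A.one_mem⟩ : A) = 1 := rfl
  rw [this, map_one]
  rfl

theorem kap_ne_zero {a : G} (h : a ∈ A) : kap κ a ≠ 0 := by
  rw [kap_of_mem h]
  exact Units.ne_zero _

theorem kap_pow {a : G} (h : a ∈ A) (n : ℕ) : kap κ (a ^ n) = kap κ a ^ n := by
  induction n with
  | zero => simp [kap_one]
  | succ n ih => rw [pow_succ, kap_mul (A.pow_mem h n) h, ih, pow_succ]

theorem kap_inj (C : Ctx ρ A κ σ) {a b : G} (ha : a ∈ A) (hb : b ∈ A)
    (h : kap κ a = kap κ b) : a = b := by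
  rw [kap_of_mem ha, kap_of_mem hb] at h
  have h2 : (⟨a, ha⟩ : A) = ⟨b, hb⟩ := C.inj (Units.ext h)
  exact congrArg Subtype.val h2

theorem rho_pow_fix {x : G} {v : V} (h : ρ x v = v) (n : ℕ) : ρ (x ^ n) v = v := by
  induction n with
  | zero => simpa using rho_one ρ v
  | succ n ih => rw [pow_succ, rho_mul, h, ih]

/-- the class two context. -/
structure DC (ρ : G →* (V ≃ₗ[ZMod q] V)) (A : Subgroup G) (κ : A →* Kˣ) (σ : G →* (K ≃+* K))
    (D : Subgroup G) (r : ℕ) : Prop where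
  C : Ctx ρ A κ σ
  hr : r.Prime
  hD : D.Normal
  hAD : A ≤ D
  hDc : ∀ x ∈ D, ∀ a ∈ A, x * a = a * x
  hpow : ∀ x ∈ D, x ^ r ∈ A
  hcomm : ∀ x ∈ D, ∀ y ∈ D, x * y * x⁻¹ * y⁻¹ ∈ A
  hZ : ∀ x ∈ D, (∀ y ∈ D, x * y = y * x) → x ∈ A
  hne : ∃ x ∈ D, x ∉ A

/-- commutator scalar. -/
noncomputable def lam (κ : A →* Kˣ) (x y : G) : K := kap κ (x * y * x⁻¹ * y⁻¹)

section dc

variable {D : Subgroup G} {r : ℕ}

theorem DC.lin (H : DC ρ A κ σ D r) {x : G} (hx : x ∈ D) (k : K) (v : V) :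
    ρ x (k • v) = k • ρ x v := by
  rw [H.C.semi, H.C.cent x (H.hDc x hx)]
  rfl

theorem DC.comm_rel (H : DC ρ A κ σ D r) {x y : G} (hx : x ∈ D) (hy : y ∈ D) (v : V) :
    ρ x (ρ y v) = lam κ x y • ρ y (ρ x v) := by
  have h1 : x * y = (x * y * x⁻¹ * y⁻¹) * (y * x) := by group
  calc ρ x (ρ y v) = ρ (x * y) v := (rho_mul ρ x y v).symm
    _ = ρ ((x * y * x⁻¹ * y⁻¹) * (y * x)) v := by rw [← h1]
    _ = ρ (x * y * x⁻¹ * y⁻¹) (ρ (y * x) v) := rho_mul ρ _ _ v
    _ = lam κ x y • ρ (y * x) v := rho_kap H.C (H.hcomm x hx y hy) _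
    _ = _ := by rw [rho_mul]

theorem rho_ne_zero {x : G} {v : V} (hv : v ≠ 0) : ρ x v ≠ 0 := fun h =>
  hv ((ρ x).map_eq_zero_iff.1 h)

theorem DC.lam_mul_left [Nontrivial V] (H : DC ρ A κ σ D r) {x₁ x₂ y : G} (h₁ : x₁ ∈ D)
    (h₂ : x₂ ∈ D) (hy : y ∈ D) : lam κ (x₁ * x₂) y = lam κ x₁ y * lam κ x₂ y := by
  obtain ⟨v, hv⟩ := exists_ne (0 : V)
  have hw : ρ y (ρ (x₁ * x₂) v) ≠ 0 := rho_ne_zero (rho_ne_zero hv)
  apply smul_left_injective K hw
  show lam κ (x₁ * x₂) y • _ = (lam κ x₁ y * lam κ x₂ y) • _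
  rw [← H.comm_rel (D.mul_mem h₁ h₂) hy, rho_mul, H.comm_rel h₂ hy, H.lin h₁, H.comm_rel h₁ hy,
    rho_mul, smul_smul, mul_comm]

theorem DC.lam_mul_right [Nontrivial V] (H : DC ρ A κ σ D r) {x y₁ y₂ : G} (hx : x ∈ D)
    (h₁ : y₁ ∈ D) (h₂ : y₂ ∈ D) : lam κ x (y₁ * y₂) = lam κ x y₁ * lam κ x y₂ := by
  obtain ⟨v, hv⟩ := exists_ne (0 : V)
  have hw : ρ (y₁ * y₂) (ρ x v) ≠ 0 := rho_ne_zero (rho_ne_zero hv)
  apply smul_left_injective K hw
  show lam κ x (y₁ * y₂) • _ = (lam κ x y₁ * lam κ x y₂) • _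
  rw [← H.comm_rel hx (D.mul_mem h₁ h₂), rho_mul, H.comm_rel hx h₁, H.comm_rel hx h₂, H.lin h₁,
    rho_mul, smul_smul]

theorem lam_one_right : lam κ (1 : G) (1 : G) = 1 := by simp [lam, kap_one]

theorem lam_self_one {x : G} : lam κ x 1 = 1 := by simp [lam, kap_one]

theorem lam_one_self {x : G} : lam κ 1 x = 1 := by simp [lam, kap_one]

theorem lam_of_comm {x y : G} (h : x * y = y * x) : lam κ x y = 1 := by
  have : x * y * x⁻¹ * y⁻¹ = 1 := by rw [h]; group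
  rw [lam, this, kap_one]

theorem DC.comm_of_lam (H : DC ρ A κ σ D r) {x y : G} (hx : x ∈ D) (hy : y ∈ D)
    (h : lam κ x y = 1) : x * y = y * x := by
  have h1 : kap κ (x * y * x⁻¹ * y⁻¹) = kap κ (1 : G) := by rw [kap_one]; exact h
  have h2 := kap_inj H.C (H.hcomm x hx y hy) A.one_mem h1
  have h3 : x * y = (x * y * x⁻¹ * y⁻¹) * (y * x) := by group
  rw [h3, h2, one_mul]

theorem DC.lam_inv_right [Nontrivial V] (H : DC ρ A κ σ D r) {x y : G} (hx : x ∈ D) (hy : y ∈ D) :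
    lam κ x y⁻¹ * lam κ x y = 1 := by
  rw [← H.lam_mul_right hx (D.inv_mem hy) hy, inv_mul_cancel, lam_self_one]

theorem DC.lam_swap [Nontrivial V] (H : DC ρ A κ σ D r) {x y : G} (hx : x ∈ D) (hy : y ∈ D) :
    lam κ x y * lam κ y x = 1 := by
  obtain ⟨v, hv⟩ := exists_ne (0 : V)
  have hw : ρ x (ρ y v) ≠ 0 := rho_ne_zero (rho_ne_zero hv)
  apply smul_left_injective K hw
  show (lam κ x y * lam κ y x) • _ = (1 : K) • _
  rw [← smul_smul, ← H.comm_rel hy hx, ← H.comm_rel hx hy, one_smul]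

theorem DC.lam_pow_left [Nontrivial V] (H : DC ρ A κ σ D r) {x y : G} (hx : x ∈ D) (hy : y ∈ D)
    (n : ℕ) : lam κ (x ^ n) y = lam κ x y ^ n := by
  induction n with
  | zero => simp [lam_one_self]
  | succ n ih => rw [pow_succ, H.lam_mul_left (D.pow_mem hx n) hx hy, ih, pow_succ]

theorem DC.lam_pow_r [Nontrivial V] (H : DC ρ A κ σ D r) {x y : G} (hx : x ∈ D) (hy : y ∈ D) :
    lam κ x y ^ r = 1 := by
  rw [← H.lam_pow_left hx hy]
  exact lam_of_comm (H.hDc y hy _ (H.hpow x hx)).symm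

theorem DC.exists_noncomm (H : DC ρ A κ σ D r) {x : G} (hx : x ∈ D) (hxA : x ∉ A) :
    ∃ y ∈ D, lam κ x y ≠ 1 := by
  by_contra hcon
  push Not at hcon
  exact hxA (H.hZ x hx fun y hy => H.comm_of_lam hx hy (hcon y hy))

/-- fixed points. -/
def DC.Fx (H : DC ρ A κ σ D r) {x : G} (hx : x ∈ D) : Submodule K V where
  carrier := {v | ρ x v = v}
  add_mem' := by
    intro a b ha hb
    show ρ x (a + b) = a + b
    rw [map_add, show ρ x a = a from ha, show ρ x b = b from hb]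
  zero_mem' := map_zero (ρ x)
  smul_mem' := by
    intro k a ha
    show ρ x (k • a) = k • a
    rw [H.lin hx, show ρ x a = a from ha]

theorem DC.mem_Fx (H : DC ρ A κ σ D r) {x : G} (hx : x ∈ D) (v : V) :
    v ∈ H.Fx hx ↔ ρ x v = v := Iff.rfl

theorem DC.fix_pow (H : DC ρ A κ σ D r) {x : G} (hx : x ∈ D) {v : V} (hv : v ≠ 0)
    (hfix : ρ x v = v) : x ^ r = 1 :=
  H.C.semireg (H.hpow x hx) hv (rho_pow_fix hfix r)

/-- the linear map. -/
def DC.toLin (H : DC ρ A κ σ D r) {x : G} (hx : x ∈ D) : V →ₗ[K] V where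
  toFun := ρ x
  map_add' := map_add _
  map_smul' := H.lin hx

theorem DC.toLin_apply (H : DC ρ A κ σ D r) {x : G} (hx : x ∈ D) (v : V) :
    H.toLin hx v = ρ x v := rfl

theorem DC.linInd [Nontrivial V] [Finite V] (H : DC ρ A κ σ D r)
    {ι : Type*} (y : ι → G) (hy : ∀ i, y i ∈ D)
    (hne : ∀ i j, i ≠ j → y i * (y j)⁻¹ ∉ A) :
    LinearIndependent K (fun i => H.toLin (hy i)) := by
  classical
  let χ : ι → (↥D →* K) := fun i =>
    { toFun := fun h => lam κ h.1 (y i)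
      map_one' := lam_one_self
      map_mul' := fun a b => H.lam_mul_left a.2 b.2 (hy i) }
  have hχ : Function.Injective χ := by
    intro i j hij
    by_contra hne'
    apply hne i j hne'
    apply H.hZ _ (D.mul_mem (hy i) (D.inv_mem (hy j)))
    intro h hh
    have h1 : lam κ h (y i) = lam κ h (y j) :=
      congrArg (fun f : ↥D →* K => f ⟨h, hh⟩) hij
    have h2 : lam κ h (y i * (y j)⁻¹) = 1 := by
      rw [H.lam_mul_right hh (hy i) (D.inv_mem (hy j)), h1, mul_comm,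
        H.lam_inv_right hh (hy j)]
    exact (H.comm_of_lam hh (D.mul_mem (hy i) (D.inv_mem (hy j))) h2).symm
  have LI := (linearIndependent_monoidHom (↥D) K).comp χ hχ
  rw [linearIndependent_iff'] at LI ⊢
  intro s g hg i₀ hi₀
  obtain ⟨v, hv⟩ := exists_ne (0 : V)
  have hw₀ : ρ (y i₀) v ≠ 0 := rho_ne_zero hv
  obtain ⟨φ, hφ⟩ : ∃ φ : Module.Dual K V, φ (ρ (y i₀) v) ≠ 0 := by
    by_contra hcon
    push Not at hcon
    exact hw₀ ((Module.forall_dual_apply_eq_zero_iff K _).1 hcon)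
  have key : ∑ i ∈ s, (g i * φ (ρ (y i) v)) • ((χ i : ↥D → K)) = 0 := by
    funext h
    have h1 := congrArg (fun f : V →ₗ[K] V => ρ h.1 (f (ρ h.1⁻¹ v))) hg
    simp only [LinearMap.sum_apply, LinearMap.smul_apply, DC.toLin_apply, LinearMap.zero_apply,
      map_zero, map_sum] at h1
    have h2 : ∀ i ∈ s, ρ h.1 (g i • ρ (y i) (ρ h.1⁻¹ v)) = (g i * lam κ h.1 (y i)) • ρ (y i) v := by
      intro i _
      rw [H.lin h.2, H.comm_rel h.2 (hy i), rho_inv', smul_smul]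
    rw [Finset.sum_congr rfl h2] at h1
    have h3 := congrArg φ h1
    simp only [map_sum, map_smul, map_zero, smul_eq_mul] at h3
    simp only [Finset.sum_apply, Pi.smul_apply, smul_eq_mul, Pi.zero_apply]
    rw [← h3]
    refine Finset.sum_congr rfl fun i _ => ?_
    show g i * φ (ρ (y i) v) * lam κ h.1 (y i) = _
    ring
  have h4 := LI s (fun i => g i * φ (ρ (y i) v)) key i₀ hi₀
  exact (mul_eq_zero.1 h4).resolve_right hφ


theorem DC.pow_not_mem (H : DC ρ A κ σ D r) {x : G} (hx : x ∈ D) (hxA : x ∉ A) {k : ℕ}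
    (hk : ¬ r ∣ k) : x ^ k ∉ A := by
  intro hmem
  have hc : Nat.Coprime k r := ((Nat.Prime.coprime_iff_not_dvd H.hr).2 hk).symm
  obtain ⟨m, hm⟩ := Nat.exists_mul_mod_eq_one_of_coprime hc H.hr.one_lt
  have h1 : k * m = r * (k * m / r) + 1 := by
    have := Nat.div_add_mod (k * m) r
    omega
  have h2 : x ^ (k * m) = (x ^ r) ^ (k * m / r) * x := by
    conv_lhs => rw [h1]
    rw [pow_succ, pow_mul]
  have h3 : (x ^ r) ^ (k * m / r) * x ∈ A := by
    rw [← h2, pow_mul]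
    exact A.pow_mem hmem m
  exact hxA ((Subgroup.mul_mem_cancel_left A (A.pow_mem (H.hpow x hx) _)).1 h3)

/-- elements of order `r` outside `A` have fixed points. -/
theorem DC.exists_fix [Nontrivial V] [Finite V] (H : DC ρ A κ σ D r) {w : G} (hw : w ∈ D)
    (hwA : w ∉ A) (hwr : w ^ r = 1) : ∃ v : V, v ≠ 0 ∧ ρ w v = v := by
  classical
  let y : Fin r → G := fun i => w ^ (i : ℕ)
  have hy : ∀ i, y i ∈ D := fun i => D.pow_mem hw _
  have hne : ∀ i j, i ≠ j → y i * (y j)⁻¹ ∉ A := by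
    intro i j hij hmem
    have hij' : (i : ℕ) ≠ j := fun h => hij (Fin.ext h)
    rcases lt_or_gt_of_ne hij' with hlt | hlt
    · have h1 : y i * (y j)⁻¹ = (w ^ ((j : ℕ) - i))⁻¹ := by
        show w ^ (i : ℕ) * (w ^ (j : ℕ))⁻¹ = _
        have : w ^ (j : ℕ) = w ^ (i : ℕ) * w ^ ((j : ℕ) - i) := by
          rw [← pow_add]; congr 1; omega
        rw [this]
        group
      rw [h1, inv_mem_iff] at hmem
      refine H.pow_not_mem hw hwA (k := (j : ℕ) - i) ?_ hmem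
      intro hd
      have := Nat.le_of_dvd (by omega) hd
      omega
    · have h1 : y i * (y j)⁻¹ = w ^ ((i : ℕ) - j) := by
        show w ^ (i : ℕ) * (w ^ (j : ℕ))⁻¹ = _
        have : w ^ (i : ℕ) = w ^ ((i : ℕ) - j) * w ^ (j : ℕ) := by
          rw [← pow_add]; congr 1; omega
        rw [this]
        group
      rw [h1] at hmem
      refine H.pow_not_mem hw hwA (k := (i : ℕ) - j) ?_ hmem
      intro hd
      have := Nat.le_of_dvd (by omega) hd
      omega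
  have LI := H.linInd y hy hne
  rw [Fintype.linearIndependent_iff] at LI
  have hrpos : 0 < r := H.hr.pos
  have hsum : ∃ u : V, ∑ i ∈ Finset.range r, ρ (w ^ i) u ≠ 0 := by
    by_contra hcon
    push Not at hcon
    have h0 := LI (fun _ => (1 : K)) (by
      ext u
      simp only [one_smul, LinearMap.sum_apply, DC.toLin_apply, LinearMap.zero_apply]
      rw [← hcon u]
      exact Fin.sum_univ_eq_sum_range (fun i => ρ (w ^ i) u) r) ⟨0, hrpos⟩
    exact one_ne_zero h0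
  obtain ⟨u, hu⟩ := hsum
  refine ⟨_, hu, ?_⟩
  rw [map_sum]
  have h1 : ∀ i ∈ Finset.range r, ρ w (ρ (w ^ i) u) = ρ (w ^ (i + 1)) u := by
    intro i _
    rw [← rho_mul, pow_succ']
  rw [Finset.sum_congr rfl h1]
  have h2 := Finset.sum_range_succ' (fun i => ρ (w ^ i) u) r
  have h3 := Finset.sum_range_succ (fun i => ρ (w ^ i) u) r
  simp only [pow_zero, hwr] at h2 h3
  rw [h2] at h3
  exact add_right_cancel h3

theorem DC.cover (H : DC ρ A κ σ D r) {x₀ : G} (hx₀ : x₀ ∈ D) (hx₀A : x₀ ∉ A) {v₀ : V}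
    (hv₀ : v₀ ≠ 0) (hfix : ρ x₀ v₀ = v₀) :
    ∀ v : V, v ≠ 0 → ∃ x ∈ D, x ∉ A ∧ ρ x v = v := by
  intro v hv
  obtain ⟨g, rfl⟩ := H.C.htrans v₀ v hv₀ hv
  refine ⟨g * x₀ * g⁻¹, H.hD.conj_mem x₀ hx₀ g, ?_, ?_⟩
  · intro hmem
    have := H.C.hA.conj_mem _ hmem g⁻¹
    apply hx₀A
    convert this using 1
    group
  · rw [rho_mul, rho_mul, rho_inv, hfix]

/-- the double counting bound. -/
theorem DC.count [Finite V] [Finite G] (H : DC ρ A κ σ D r) (Nset : Finset G)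
    (hN : ∀ x, x ∈ Nset ↔ x ∈ D ∧ x ∉ A ∧ x ^ r = 1) (M : ℕ)
    (hM : ∀ (x : G) (hx : x ∈ D), x ∉ A → x ^ r = 1 → Nat.card (H.Fx hx) ≤ M)
    (hcov : ∀ v : V, v ≠ 0 → ∃ x ∈ D, x ∉ A ∧ ρ x v = v) :
    (Nat.card V - 1) * (r - 1) ≤ Nset.card * (M - 1) := by
  classical
  letI : Fintype V := Fintype.ofFinite V
  let Vs : Finset V := Finset.univ.erase 0
  have hVs : Vs.card = Nat.card V - 1 := by
    rw [Finset.card_erase_of_mem (Finset.mem_univ _), Finset.card_univ, Nat.card_eq_fintype_card]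
  let R : G → V → Prop := fun x v => ρ x v = v
  have hdc := Finset.sum_card_bipartiteAbove_eq_sum_card_bipartiteBelow (s := Nset) (t := Vs) R
  have hup : ∀ x ∈ Nset, (Finset.bipartiteAbove R Vs x).card ≤ M - 1 := by
    intro x hx
    obtain ⟨hxD, hxA, hxr⟩ := (hN x).1 hx
    have h1 := hM x hxD hxA hxr
    have h2 : (insert (0 : V) (Finset.bipartiteAbove R Vs x)).card ≤ Nat.card (H.Fx hxD) := by
      have h3 : Nat.card (H.Fx hxD) = ((H.Fx hxD : Set V)).ncard := Nat.card_coe_set_eq _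
      rw [h3, ← Set.ncard_coe_finset]
      apply Set.ncard_le_ncard _ (Set.toFinite _)
      intro w hw
      rw [Finset.mem_coe, Finset.mem_insert] at hw
      rcases hw with rfl | hw
      · exact (H.Fx hxD).zero_mem
      · exact ((Finset.mem_bipartiteAbove R).1 hw).2
    have h4 : (0 : V) ∉ Finset.bipartiteAbove R Vs x := by
      intro h0
      exact (Finset.mem_erase.1 ((Finset.mem_bipartiteAbove R).1 h0).1).1 rfl
    rw [Finset.card_insert_of_notMem h4] at h2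
    omega
  have hlow : ∀ v ∈ Vs, r - 1 ≤ (Finset.bipartiteBelow R Nset v).card := by
    intro v hv
    have hv0 : v ≠ 0 := (Finset.mem_erase.1 hv).1
    obtain ⟨x₀, hx₀, hx₀A, hfix⟩ := hcov v hv0
    have hr1 : x₀ ^ r = 1 := H.fix_pow hx₀ hv0 hfix
    haveI : Fact r.Prime := ⟨H.hr⟩
    have hne1 : x₀ ≠ 1 := fun h => hx₀A (h ▸ A.one_mem)
    have ho : orderOf x₀ = r := orderOf_eq_prime hr1 hne1
    have hc : (Finset.Ico 1 r).card = r - 1 := by simp
    rw [← hc]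
    apply Finset.card_le_card_of_injOn (fun i => x₀ ^ i)
    · intro i hi
      have hi' := Finset.mem_Ico.1 (Finset.mem_coe.1 hi)
      rw [Finset.mem_coe, Finset.mem_bipartiteBelow R, hN]
      refine ⟨⟨D.pow_mem hx₀ _, ?_, ?_⟩, ?_⟩
      · refine H.pow_not_mem hx₀ hx₀A ?_
        intro hd
        have := Nat.le_of_dvd (by omega) hd
        omega
      · rw [← pow_mul, mul_comm, pow_mul, hr1, one_pow]
      · exact rho_pow_fix hfix i
    · intro i hi j hj hij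
      have hi' := Finset.mem_Ico.1 (Finset.mem_coe.1 hi)
      have hj' := Finset.mem_Ico.1 (Finset.mem_coe.1 hj)
      exact pow_injOn_Iio_orderOf (by rw [ho]; exact hi'.2) (by rw [ho]; exact hj'.2) hij
  calc (Nat.card V - 1) * (r - 1) = ∑ v ∈ Vs, (r - 1) := by
        rw [Finset.sum_const, hVs, smul_eq_mul]
    _ ≤ ∑ v ∈ Vs, (Finset.bipartiteBelow R Nset v).card := Finset.sum_le_sum hlow
    _ = ∑ x ∈ Nset, (Finset.bipartiteAbove R Vs x).card := hdc.symm
    _ ≤ ∑ x ∈ Nset, (M - 1) := Finset.sum_le_sum hup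
    _ = Nset.card * (M - 1) := by rw [Finset.sum_const, smul_eq_mul]

/-- the set of cosets. -/
def DBar (A D : Subgroup G) : Set (G ⧸ A) := QuotientGroup.mk '' (D : Set G)

theorem DC.card_N_le [Finite G] [Nontrivial V] (H : DC ρ A κ σ D r) (Nset : Finset G)
    (hN : ∀ x, x ∈ Nset ↔ x ∈ D ∧ x ∉ A ∧ x ^ r = 1) :
    Nset.card ≤ r * ((DBar A D).ncard - 1) := by
  classical
  have hrpos := H.hr.pos
  let mk : G → G ⧸ A := QuotientGroup.mk
  have hfib : ∀ b ∈ Nset.image mk, (Nset.filter (fun a => mk a = b)).card ≤ r := by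
    intro b hb
    obtain ⟨x₀, hx₀, rfl⟩ := Finset.mem_image.1 hb
    obtain ⟨hx₀D, hx₀A, hx₀r⟩ := (hN x₀).1 hx₀
    have hroots : (Polynomial.nthRootsFinset r (1 : K)).card ≤ r := by
      refine (Multiset.toFinset_card_le _).trans ?_
      exact Polynomial.card_nthRoots r 1
    refine le_trans ?_ hroots
    apply Finset.card_le_card_of_injOn (fun x => kap κ (x₀⁻¹ * x))
    · intro x hx
      have hx' := Finset.mem_filter.1 (Finset.mem_coe.1 hx)
      obtain ⟨hxD, hxA, hxr⟩ := (hN x).1 hx'.1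
      have ha : x₀⁻¹ * x ∈ A := QuotientGroup.eq.1 hx'.2.symm
      rw [Finset.mem_coe, Polynomial.mem_nthRootsFinset hrpos, ← kap_pow ha]
      have hcomm : Commute x₀⁻¹ x := by
        have h1 := H.hDc x₀ hx₀D _ ha
        have h2 : x₀ * x = x * x₀ := by
          have h3 : x₀ * (x₀⁻¹ * x) = x := by group
          rw [h3] at h1
          have h4 : (x₀⁻¹ * x) * x₀ = x₀⁻¹ * (x * x₀) := by group
          rw [h4] at h1
          have h5 : x₀ * x = x₀ * (x₀⁻¹ * (x * x₀)) := by rw [← h1]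
          rw [h5]
          group
        show x₀⁻¹ * x = x * x₀⁻¹
        rw [inv_mul_eq_iff_eq_mul, ← mul_assoc, h2, mul_assoc, mul_inv_cancel, mul_one]
      rw [hcomm.mul_pow, inv_pow, hx₀r, hxr, inv_one, one_mul, kap_one]
    · intro x hx x' hx' hxx
      have hx1 := Finset.mem_filter.1 (Finset.mem_coe.1 hx)
      have hx2 := Finset.mem_filter.1 (Finset.mem_coe.1 hx')
      have ha : x₀⁻¹ * x ∈ A := QuotientGroup.eq.1 hx1.2.symm
      have ha' : x₀⁻¹ * x' ∈ A := QuotientGroup.eq.1 hx2.2.symm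
      exact mul_left_cancel (kap_inj H.C ha ha' hxx)
  have h1 := Finset.card_le_mul_card_image (f := mk) Nset r hfib
  refine h1.trans (Nat.mul_le_mul_left r ?_)
  have hsub : ((Nset.image mk : Finset (G ⧸ A)) : Set (G ⧸ A)) ⊆ DBar A D \ {mk 1} := by
    intro b hb
    obtain ⟨x, hx, rfl⟩ := Finset.mem_image.1 (Finset.mem_coe.1 hb)
    obtain ⟨hxD, hxA, _⟩ := (hN x).1 hx
    refine ⟨⟨x, hxD, rfl⟩, ?_⟩
    intro h
    have h2 : mk x = mk 1 := h
    have h3 := QuotientGroup.eq.1 h2.symm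
    apply hxA
    simpa using h3
  have h4 : (DBar A D \ {mk 1}).ncard = (DBar A D).ncard - 1 :=
    Set.ncard_sdiff_singleton_of_mem ⟨1, D.one_mem, rfl⟩
  rw [← h4, ← Set.ncard_coe_finset]
  exact Set.ncard_le_ncard hsub (Set.toFinite _)

theorem DC.e_le [Finite G] [Finite K] [Finite V] [Nontrivial V] (H : DC ρ A κ σ D r) :
    (DBar A D).ncard ≤ Module.finrank K V ^ 2 := by
  classical
  haveI : Module.Finite K V := Module.Finite.of_finite
  have hex : ∀ i : DBar A D, ∃ x ∈ D, (QuotientGroup.mk x : G ⧸ A) = i.1 := by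
    rintro ⟨_, x, hx, rfl⟩
    exact ⟨x, hx, rfl⟩
  choose y hy hyi using hex
  have hne : ∀ i j, i ≠ j → y i * (y j)⁻¹ ∉ A := by
    intro i j hij hmem
    apply hij
    apply Subtype.ext
    rw [← hyi i, ← hyi j]
    apply QuotientGroup.eq.2
    have := A.inv_mem (H.C.hA.conj_mem _ hmem (y j)⁻¹)
    convert this using 1
    group
  have LI := H.linInd y hy hne
  letI : Fintype (DBar A D) := Fintype.ofFinite _
  have h1 := LI.fintype_card_le_finrank
  rw [Module.finrank_linearMap] at h1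
  rw [← Nat.card_coe_set_eq, Nat.card_eq_fintype_card, pow_two]
  exact h1

end dc

end Cfsg.Agent.H03.HP
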