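import Mathlib
import Cfsg.Agent.Lib.H03.HP3

set_option autoImplicit false

namespace Cfsg.Agent.H03.HP

universe u v

theorem pow_mul_class2 {G : Type*} [Group G] {x y c : G} (hcx : c * x = x * c) (hcy : c * y = y * c)
    (hyx : y * x = c * (x * y)) (n : ℕ) : (x * y) ^ n = x ^ n * y ^ n * c ^ (n.choose 2) := by
  have cx : ∀ k : ℕ, c ^ k * x = x * c ^ k := fun k => ((Commute.pow_left (show Commute c x from hcx) k)).eq
  have cy : ∀ k : ℕ, c ^ k * y = y * c ^ k := fun k => ((Commute.pow_left (show Commute c y from hcy) k)).eq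
  have cym : ∀ k m : ℕ, c ^ k * y ^ m = y ^ m * c ^ k := fun k m =>
    ((Commute.pow_pow (show Commute c y from hcy) k m)).eq
  have h1 : ∀ n : ℕ, y ^ n * x = c ^ n * (x * y ^ n) := by
    intro n
    induction n with
    | zero => simp
    | succ n ih =>
      have hc : y ^ n * c = c * y ^ n := (by simpa using (cym 1 n).symm)
      calc y ^ (n + 1) * x = y ^ n * (y * x) := by rw [pow_succ, mul_assoc]
        _ = y ^ n * c * (x * y) := by rw [hyx, mul_assoc]
        _ = c * (y ^ n * x) * y := by rw [hc]; simp only [mul_assoc]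
        _ = c * (c ^ n * (x * y ^ n)) * y := by rw [ih]
        _ = c ^ (n + 1) * (x * y ^ (n + 1)) := by
          rw [pow_succ' c, pow_succ y]; simp only [mul_assoc]
  induction n with
  | zero => simp
  | succ n ih =>
    have hch : (n + 1).choose 2 = n + n.choose 2 := by
      rw [Nat.choose_succ_succ' n 1, Nat.choose_one_right]
    set T := n.choose 2 with hT
    calc (x * y) ^ (n + 1) = (x * y) ^ n * (x * y) := pow_succ _ _
      _ = x ^ n * y ^ n * c ^ T * (x * y) := by rw [ih]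
      _ = x ^ n * y ^ n * (c ^ T * x) * y := by simp only [mul_assoc]
      _ = x ^ n * (y ^ n * x) * (c ^ T * y) := by rw [cx]; simp only [mul_assoc]
      _ = x ^ n * (c ^ n * (x * y ^ n)) * (y * c ^ T) := by rw [h1, cy]
      _ = x ^ n * (c ^ n * x) * y ^ n * y * c ^ T := by simp only [mul_assoc]
      _ = x ^ n * x * (c ^ n * y ^ n) * y * c ^ T := by rw [cx]; simp only [mul_assoc]
      _ = x ^ n * x * y ^ n * (c ^ n * y) * c ^ T := by rw [cym]; simp only [mul_assoc]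
      _ = x ^ n * x * y ^ n * y * c ^ n * c ^ T := by rw [cy]; simp only [mul_assoc]
      _ = x ^ (n + 1) * y ^ (n + 1) * c ^ ((n + 1).choose 2) := by
        rw [hch, pow_add c, pow_succ x, pow_succ y]; simp only [mul_assoc]

theorem numeric_odd {P M r e d Q N : ℕ} (hP : P = Q ^ d) (hQ : 4 ≤ Q) (hM3 : M ^ 3 ≤ P)
    (hM2 : 2 ≤ M) (hdvd : M ∣ P) (hr3 : 3 ≤ r) (hc : (P - 1) * (r - 1) ≤ N * (M - 1))
    (hN : N ≤ r * (e - 1)) (he : e ≤ d ^ 2) (hd : 1 ≤ d) : False := by
  obtain ⟨M', hM'⟩ := hdvd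
  have hPpos : 0 < P := by rw [hP]; positivity
  have hM'pos : 0 < M' := Nat.pos_of_ne_zero (by rintro rfl; simp at hM'; omega)
  have h1 : (M - 1) * M' ≤ P - 1 := by
    obtain ⟨m, rfl⟩ : ∃ m, M = m + 1 := ⟨M - 1, by omega⟩
    obtain ⟨m', rfl⟩ : ∃ m', M' = m' + 1 := ⟨M' - 1, by omega⟩
    simp only [Nat.add_sub_cancel]
    have : P = m * (m' + 1) + m' + 1 := by rw [hM']; ring
    omega
  obtain ⟨r', rfl⟩ : ∃ r', r = r' + 1 := ⟨r - 1, by omega⟩
  simp only [Nat.add_sub_cancel] at hc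
  have h2 : (M - 1) * (M' * r') ≤ (M - 1) * ((r' + 1) * (e - 1)) := by
    calc (M - 1) * (M' * r') = ((M - 1) * M') * r' := by ring
      _ ≤ (P - 1) * r' := Nat.mul_le_mul_right _ h1
      _ ≤ N * (M - 1) := hc
      _ ≤ (r' + 1) * (e - 1) * (M - 1) := Nat.mul_le_mul_right _ hN
      _ = _ := by ring
  have h3 : M' * r' ≤ (r' + 1) * (e - 1) := Nat.le_of_mul_le_mul_left h2 (by omega)
  have h4 : 2 * M' ≤ 3 * (e - 1) := by
    have h5 : (r' + 1) * (2 * M') ≤ (r' + 1) * (3 * (e - 1)) := by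
      have : (r' + 1) * (2 * M') ≤ 3 * (M' * r') := by nlinarith
      nlinarith
    exact Nat.le_of_mul_le_mul_left h5 (by omega)
  have hd2 : 1 ≤ d ^ 2 := Nat.one_le_pow _ _ hd
  have h6 : 2 * M' < 3 * d ^ 2 := by omega
  have h7 : 8 * M' ^ 3 < 27 * d ^ 6 := by
    have := Nat.pow_lt_pow_left h6 (n := 3) (by norm_num)
    calc 8 * M' ^ 3 = (2 * M') ^ 3 := by ring
      _ < (3 * d ^ 2) ^ 3 := this
      _ = _ := by ring
  have h8 : P ^ 2 ≤ M' ^ 3 := by
    have h9 : P ^ 3 ≤ M' ^ 3 * P := by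
      calc P ^ 3 = M ^ 3 * M' ^ 3 := by rw [hM']; ring
        _ ≤ P * M' ^ 3 := Nat.mul_le_mul_right _ hM3
        _ = M' ^ 3 * P := by ring
    have h10 : P * P ^ 2 ≤ P * M' ^ 3 := by
      calc P * P ^ 2 = P ^ 3 := by ring
        _ ≤ M' ^ 3 * P := h9
        _ = _ := by ring
    exact Nat.le_of_mul_le_mul_left h10 hPpos
  have h11 : 16 ^ d ≤ P ^ 2 := by
    rw [hP, ← pow_mul, mul_comm d 2, pow_mul]
    exact Nat.pow_le_pow_left (by nlinarith) d
  have h12 : 8 * 16 ^ d < 27 * d ^ 6 := by omega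
  have hnum : ∀ n : ℕ, 3 ≤ n → 27 * n ^ 6 ≤ 8 * 16 ^ n := by
    intro n hn
    induction n, hn using Nat.le_induction with
    | base => norm_num
    | succ n hn ih =>
      have h3' : (n + 1) ^ 3 ≤ 4 * n ^ 3 := by
        have : 3 * n ^ 2 ≤ n ^ 3 := by nlinarith
        have : 3 * n + 1 ≤ n ^ 3 := by nlinarith
        nlinarith
      have h6' : (n + 1) ^ 6 ≤ 16 * n ^ 6 := by
        have := Nat.pow_le_pow_left h3' 2
        calc (n + 1) ^ 6 = ((n + 1) ^ 3) ^ 2 := by ring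
          _ ≤ (4 * n ^ 3) ^ 2 := this
          _ = _ := by ring
      rw [pow_succ 16]
      omega
  have hd3 : d = 1 ∨ d = 2 ∨ 3 ≤ d := by omega
  rcases hd3 with rfl | rfl | hd3
  · norm_num at h12
  · norm_num at h12
  · have := hnum d hd3
    omega


variable {q : ℕ} [hq : Fact q.Prime] {V : Type u} [AddCommGroup V] [Module (ZMod q) V]
  {G : Type v} [Group G]

variable {ρ : G →* (V ≃ₗ[ZMod q] V)} {A : Subgroup G} {K : Type u} [Field K] [Module K V]
    {κ : A →* Kˣ} {σ : G →* (K ≃+* K)}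

section dc

variable {D : Subgroup G} {r : ℕ}

theorem DC.doubling [Nontrivial V] (H : DC ρ A κ σ D r) {x h : G} (hx : x ∈ D) (hh : h ∈ D)
    (hx2 : x ^ 2 = 1) (hl : lam κ x h = -1) (hne : (-1 : K) ≠ 1) (W : Submodule K V)
    (hWx : ∀ w ∈ W, ρ x w ∈ W) (hWh : ∀ w ∈ W, ρ h w ∈ W) (hWh' : ∀ w ∈ W, ρ h⁻¹ w ∈ W) :
    Nat.card W = Nat.card (W ⊓ H.Fx hx : Submodule K V) ^ 2 := by
  have h2 : (2 : K) ≠ 0 := by
    intro h20
    apply hne
    have : (1 : K) + 1 = 0 := by rw [one_add_one_eq_two]; exact h20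
    exact neg_eq_of_add_eq_zero_left this
  have hxx : ∀ v : V, ρ x (ρ x v) = v := by
    intro v
    rw [← rho_mul, ← pow_two, hx2, rho_one]
  have hxh : ∀ v : V, ρ x v = v → ρ x (ρ h v) = - ρ h v := by
    intro v hv
    rw [H.comm_rel hx hh, hl, hv, neg_smul, one_smul]
  have hlinv : lam κ x h⁻¹ = -1 := by
    have h1 := H.lam_inv_right (x := x) (y := h) hx hh
    rw [hl] at h1
    have : lam κ x h⁻¹ = - (lam κ x h⁻¹ * -1) := by ring
    rw [this, h1]
  set T : Submodule K V := W ⊓ H.Fx hx with hT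
  let Φ : T × T → W := fun p => ⟨p.1.1 + ρ h p.2.1,
    W.add_mem p.1.2.1 (hWh _ p.2.2.1)⟩
  have hbij : Function.Bijective Φ := by
    constructor
    · rintro ⟨a, b⟩ ⟨a', b'⟩ hΦ
      have h1 : a.1 + ρ h b.1 = a'.1 + ρ h b'.1 := congrArg Subtype.val hΦ
      have h3 := congrArg (ρ x) h1
      rw [map_add, map_add, a.2.2, a'.2.2, hxh _ b.2.2, hxh _ b'.2.2] at h3
      have h4 : (2 : K) • a.1 = (2 : K) • a'.1 := by
        rw [two_smul, two_smul]
        calc a.1 + a.1 = (a.1 + ρ h b.1) + (a.1 + - ρ h b.1) := by abel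
          _ = (a'.1 + ρ h b'.1) + (a'.1 + - ρ h b'.1) := by rw [h1, h3]
          _ = _ := by abel
      have h5 : a.1 = a'.1 := smul_right_injective V h2 h4
      have h6 : ρ h b.1 = ρ h b'.1 := by
        rw [h5] at h1
        exact add_left_cancel h1
      have h7 : b.1 = b'.1 := (ρ h).injective h6
      exact Prod.ext (Subtype.ext h5) (Subtype.ext h7)
    · rintro ⟨w, hw⟩
      set t : K := (2 : K)⁻¹ with ht
      have htt : t + t = 1 := by
        rw [ht, ← two_mul, mul_inv_cancel₀ h2]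
      have hxlin : ∀ (k : K) (v : V), ρ x (k • v) = k • ρ x v := H.lin hx
      have ha : t • (w + ρ x w) ∈ T := by
        refine ⟨W.smul_mem _ (W.add_mem hw (hWx w hw)), ?_⟩
        show ρ x (t • (w + ρ x w)) = t • (w + ρ x w)
        rw [hxlin, map_add, hxx, add_comm]
      have hu : ρ x (t • (w - ρ x w)) = - (t • (w - ρ x w)) := by
        rw [hxlin, map_sub, hxx, ← smul_neg, neg_sub]
      have hb : ρ h⁻¹ (t • (w - ρ x w)) ∈ T := by
        refine ⟨hWh' _ (W.smul_mem _ (W.sub_mem hw (hWx w hw))), ?_⟩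
        show ρ x (ρ h⁻¹ (t • (w - ρ x w))) = ρ h⁻¹ (t • (w - ρ x w))
        rw [H.comm_rel hx (D.inv_mem hh), hlinv, hu, map_neg, neg_smul, one_smul, neg_neg]
      refine ⟨(⟨_, ha⟩, ⟨_, hb⟩), ?_⟩
      apply Subtype.ext
      show t • (w + ρ x w) + ρ h (ρ h⁻¹ (t • (w - ρ x w))) = w
      rw [rho_inv', smul_add, smul_sub]
      have : t • w + t • ρ x w + (t • w - t • ρ x w) = (t + t) • w := by
        rw [add_smul]; abel
      rw [this, htt, one_smul]
  rw [← Nat.card_congr (Equiv.ofBijective Φ hbij), Nat.card_prod, pow_two]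

theorem DC.triple [Finite V] (H : DC ρ A κ σ D r) {x h : G} (hx : x ∈ D) (hh : h ∈ D)
    (hl0 : lam κ x h ≠ 0) (hl1 : lam κ x h ≠ 1) (hl2 : lam κ x h ^ 2 ≠ 1) :
    Nat.card (H.Fx hx) ^ 3 ≤ Nat.card V := by
  set l := lam κ x h with hl
  set T := H.Fx hx with hT
  let Φ : (T × T × T) →+ V :=
    { toFun := fun p => p.1.1 + ρ h p.2.1.1 + ρ h (ρ h p.2.2.1)
      map_zero' := by simp
      map_add' := by
        intro a b
        simp only [Prod.fst_add, Prod.snd_add, Submodule.coe_add, map_add]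
        abel }
  have hinj : Function.Injective Φ := by
    rw [injective_iff_map_eq_zero]
    rintro ⟨a, b, c⟩ h0
    have hx1 : ρ x a.1 = a.1 := a.2
    have hxb : ρ x (ρ h b.1) = l • ρ h b.1 := by
      rw [H.comm_rel hx hh, show ρ x b.1 = b.1 from b.2]
    have hxc : ρ x (ρ h (ρ h c.1)) = (l ^ 2) • ρ h (ρ h c.1) := by
      have hc1 : ρ x (ρ h c.1) = l • ρ h c.1 := by
        rw [H.comm_rel hx hh, show ρ x c.1 = c.1 from c.2]
      rw [H.comm_rel hx hh, hc1, H.lin hh, smul_smul, pow_two]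
    set B := ρ h b.1 with hB
    set E := ρ h (ρ h c.1) with hE
    have h1 : a.1 + B + E = 0 := h0
    have h2 : a.1 + l • B + (l ^ 2) • E = 0 := by
      have := congrArg (ρ x) h1
      rwa [map_add, map_add, hx1, hxb, hxc, map_zero] at this
    have h3 : a.1 + (l ^ 2) • B + (l ^ 4) • E = 0 := by
      have := congrArg (ρ x) h2
      rw [map_add, map_add, hx1, H.lin hx, H.lin hx, hxb, hxc, smul_smul, smul_smul, map_zero]
        at this
      convert this using 3 <;> ring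
    have h4 : (l * (l - 1) * (l ^ 2 - 1)) • E = 0 := by
      linear_combination (norm := module) h3 - (l + 1) • h2 + l • h1
    have hE0 : E = 0 := by
      have hne : l * (l - 1) * (l ^ 2 - 1) ≠ 0 :=
        mul_ne_zero (mul_ne_zero hl0 (sub_ne_zero.2 hl1)) (sub_ne_zero.2 hl2)
      exact (smul_eq_zero.1 h4).resolve_left hne
    rw [hE0] at h1 h2
    have h5 : (l - 1) • B = 0 := by
      linear_combination (norm := module) h2 - h1
    have hB0 : B = 0 := (smul_eq_zero.1 h5).resolve_left (sub_ne_zero.2 hl1)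
    rw [hB0] at h1
    have ha0 : a = 0 := Subtype.ext (by simpa using h1)
    have hb0 : b = 0 := Subtype.ext ((ρ h).map_eq_zero_iff.1 hB0)
    have hc0 : c = 0 := Subtype.ext
      ((ρ h).map_eq_zero_iff.1 ((ρ h).map_eq_zero_iff.1 hE0))
    rw [ha0, hb0, hc0]
    rfl
  have h1 := Nat.card_le_card_of_injective Φ hinj
  rw [Nat.card_prod, Nat.card_prod] at h1
  calc Nat.card T ^ 3 = Nat.card T * (Nat.card T * Nat.card T) := by ring
    _ ≤ _ := h1

end dc

end Cfsg.Agent.H03.HP
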