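import Mathlib
import Cfsg.Agent.Lib.H03.HP4

set_option autoImplicit false

namespace Cfsg.Agent.H03.HP

universe u v

variable {q : ℕ} [hq : Fact q.Prime] {V : Type u} [AddCommGroup V] [Module (ZMod q) V]
  {G : Type v} [Group G]

variable {ρ : G →* (V ≃ₗ[ZMod q] V)} {A : Subgroup G} {K : Type u} [Field K] [Module K V]
    {κ : A →* Kˣ} {σ : G →* (K ≃+* K)}

theorem Ctx.exists_gen [Finite G] (C : Ctx ρ A κ σ) :
    ∃ a₀ ∈ A, ∀ a ∈ A, ∃ k : ℤ, a₀ ^ k = a := by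
  classical
  haveI : IsCyclic A := isCyclic_of_subgroup_isDomain ((Units.coeHom K).comp κ)
    (fun a b h => C.inj (Units.ext h))
  obtain ⟨g, hg⟩ := IsCyclic.exists_generator (α := A)
  refine ⟨g.1, g.2, fun a ha => ?_⟩
  obtain ⟨k, hk⟩ := Subgroup.mem_zpowers_iff.1 (hg ⟨a, ha⟩)
  refine ⟨k, ?_⟩
  have := congrArg Subtype.val hk
  simpa using this

theorem prime_dvd_card_sub_one [Finite K] {r : ℕ} (hr : r.Prime) {l : K} (hl0 : l ≠ 0)
    (hl1 : l ≠ 1) (hlr : l ^ r = 1) : r ∣ Nat.card K - 1 := by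
  haveI : Fact r.Prime := ⟨hr⟩
  let u : Kˣ := Units.mk0 l hl0
  have hu1 : u ≠ 1 := fun h => hl1 (congrArg Units.val h)
  have hur : u ^ r = 1 := Units.ext (by simpa [u] using hlr)
  have ho : orderOf u = r := orderOf_eq_prime hur hu1
  rw [← Nat.card_units, ← ho]
  exact orderOf_dvd_natCard u

section dc

variable {D : Subgroup G} {r : ℕ}

theorem DC.lam_ne_zero (H : DC ρ A κ σ D r) {x h : G} (hx : x ∈ D) (hh : h ∈ D) :
    lam κ x h ≠ 0 := kap_ne_zero (H.hcomm x hx h hh)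

/-- `r`-th powers are multiplicative for odd `r`. -/
theorem DC.pow_mul_odd [Nontrivial V] (H : DC ρ A κ σ D r) (hr2 : r ≠ 2) {u w : G} (hu : u ∈ D)
    (hw : w ∈ D) : (u * w) ^ r = u ^ r * w ^ r := by
  have hc := H.hcomm w hw u hu
  set c := w * u * w⁻¹ * u⁻¹ with hcdef
  have h1 := pow_mul_class2 (x := u) (y := w) (c := c) (H.hDc u hu c hc).symm (H.hDc w hw c hc).symm
    (by rw [hcdef]; group) r
  rw [h1]
  have hcr : c ^ r = 1 := by
    apply kap_inj H.C (A.pow_mem hc r) A.one_mem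
    rw [kap_pow hc, kap_one]
    exact H.lam_pow_r hw hu
  have hr3 : 2 < r := lt_of_le_of_ne H.hr.two_le (Ne.symm hr2)
  obtain ⟨t, ht⟩ := H.hr.dvd_choose_self (k := 2) (by norm_num) hr3
  rw [ht, pow_mul, hcr, one_pow, mul_one]

theorem DC.exists_N_odd [Finite G] [Nontrivial V] (H : DC ρ A κ σ D r) (hr2 : r ≠ 2) :
    ∃ w ∈ D, w ∉ A ∧ w ^ r = 1 := by
  obtain ⟨x, hx, hxA⟩ := H.hne
  obtain ⟨y, hy, hl⟩ := H.exists_noncomm hx hxA
  obtain ⟨a₀, ha₀, hgen⟩ := H.C.exists_gen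
  obtain ⟨u, hu⟩ := hgen _ (H.hpow x hx)
  obtain ⟨v, hv⟩ := hgen _ (H.hpow y hy)
  have hclaim : ∃ z ∈ D, z ∉ A ∧ ∃ t : ℤ, z ^ r = a₀ ^ ((r : ℤ) * t) := by
    by_cases hd : (r : ℤ) ∣ u
    · obtain ⟨t, rfl⟩ := hd
      exact ⟨x, hx, hxA, t, hu.symm⟩
    · have hp : Prime (r : ℤ) := Nat.prime_iff_prime_int.1 H.hr
      have hcop : IsCoprime (r : ℤ) u := (Prime.coprime_iff_not_dvd hp).2 hd
      obtain ⟨a, b, hab⟩ := hcop
      refine ⟨x ^ (-b * v) * y, D.mul_mem (D.zpow_mem hx _) hy, ?_, v * a, ?_⟩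
      · intro hmem
        apply hl
        have h1 : lam κ x (x ^ (-b * v) * y) = 1 :=
          lam_of_comm (H.hDc x hx _ hmem)
        rw [H.lam_mul_right hx (D.zpow_mem hx _) hy] at h1
        have h2 : lam κ x (x ^ (-b * v)) = 1 :=
          lam_of_comm (by
            have := (Commute.refl x).zpow_right (-b * v)
            exact this.eq)
        rwa [h2, one_mul] at h1
      · rw [H.pow_mul_odd hr2 (D.zpow_mem hx _) hy, ← hv]
        have h3 : (x ^ (-b * v)) ^ r = a₀ ^ (u * (-b * v)) := by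
          rw [← zpow_natCast, ← zpow_mul, mul_comm, zpow_mul, zpow_natCast, ← hu, ← zpow_mul]
        rw [h3, ← zpow_add]
        congr 1
        linear_combination (-v) * hab
  obtain ⟨z, hz, hzA, t, ht⟩ := hclaim
  have hat : a₀ ^ t ∈ A := A.zpow_mem ha₀ t
  refine ⟨z * (a₀ ^ t)⁻¹, D.mul_mem hz (D.inv_mem (H.hAD hat)), ?_, ?_⟩
  · intro hmem
    apply hzA
    have := A.mul_mem hmem hat
    simpa using this
  · have hcomm : Commute z (a₀ ^ t)⁻¹ := by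
      have h1 : Commute z (a₀ ^ t) := H.hDc z hz _ hat
      exact h1.inv_right
    rw [hcomm.mul_pow, ht, inv_pow, ← zpow_natCast (a₀ ^ t), ← zpow_mul, mul_comm t,
      mul_inv_cancel]

theorem DC.odd_false [Finite G] [Finite K] [Finite V] [Nontrivial V] (H : DC ρ A κ σ D r)
    (hr2 : r ≠ 2) : False := by
  classical
  letI : Fintype G := Fintype.ofFinite G
  have hr3 : 3 ≤ r := by
    have := H.hr.two_le
    omega
  let Nset : Finset G := Finset.univ.filter (fun x => x ∈ D ∧ x ∉ A ∧ x ^ r = 1)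
  have hN : ∀ x, x ∈ Nset ↔ x ∈ D ∧ x ∉ A ∧ x ^ r = 1 := by
    intro x
    simp [Nset]
  obtain ⟨w, hw, hwA, hwr⟩ := H.exists_N_odd hr2
  have hnon : Nset.Nonempty := ⟨w, (hN w).2 ⟨hw, hwA, hwr⟩⟩
  obtain ⟨v₀, hv₀, hfix⟩ := H.exists_fix hw hwA hwr
  have hcov := H.cover hw hwA hv₀ hfix
  let c : G → ℕ := fun x => if hx : x ∈ D then Nat.card (H.Fx hx) else 0
  obtain ⟨x₁, hx₁, hmax⟩ := Finset.exists_max_image Nset c hnon
  obtain ⟨hx₁D, hx₁A, hx₁r⟩ := (hN x₁).1 hx₁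
  have hM : ∀ (x : G) (hx : x ∈ D), x ∉ A → x ^ r = 1 →
      Nat.card (H.Fx hx) ≤ Nat.card (H.Fx hx₁D) := by
    intro x hx hxA hxr
    have := hmax x ((hN x).2 ⟨hx, hxA, hxr⟩)
    simp only [c, dif_pos hx, dif_pos hx₁D] at this
    exact this
  obtain ⟨h, hh, hl⟩ := H.exists_noncomm hx₁D hx₁A
  have hl0 := H.lam_ne_zero hx₁D hh
  have hlr := H.lam_pow_r hx₁D hh
  have hl2 : lam κ x₁ h ^ 2 ≠ 1 := by
    intro hsq
    obtain ⟨m, hm⟩ := H.hr.eq_one_or_self_of_dvd 2 |> fun _ => (H.hr.odd_of_ne_two hr2)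
    apply hl
    rw [hm, pow_succ, pow_mul, hsq, one_pow, one_mul] at hlr
    exact hlr
  have hM3 := H.triple hx₁D hh hl0 hl hl2
  obtain ⟨v₁, hv₁, hfix₁⟩ := H.exists_fix hx₁D hx₁A hx₁r
  have hM2 : 2 ≤ Nat.card (H.Fx hx₁D) := by
    haveI : Nontrivial (H.Fx hx₁D) := ⟨⟨⟨v₁, hfix₁⟩, 0, fun h0 => hv₁ (congrArg Subtype.val h0)⟩⟩
    exact Finite.one_lt_card
  have hdvd : Nat.card (H.Fx hx₁D) ∣ Nat.card V :=
    AddSubgroup.card_addSubgroup_dvd_card (H.Fx hx₁D).toAddSubgroup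
  have hrdvd := prime_dvd_card_sub_one H.hr hl0 hl hlr
  have hQ1 : 1 < Nat.card K := Finite.one_lt_card
  have hQ4 : 4 ≤ Nat.card K := by
    have := Nat.le_of_dvd (by omega) hrdvd
    omega
  exact numeric_odd (P := Nat.card V) (Q := Nat.card K) (d := Module.finrank K V)
    card_V_eq hQ4 hM3 hM2 hdvd hr3 (H.count Nset hN _ hM hcov) (H.card_N_le Nset hN) H.e_le
    (finrank_pos' (K := K) (V := V))

end dc

end Cfsg.Agent.H03.HP
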