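import Mathlib
import Cfsg.Agent.Lib.H03.HP5

set_option autoImplicit false

namespace Cfsg.Agent.H03.HP

universe u v

theorem card_fix_modEq {α : Type*} [Finite α] (f : α → α) (ℓ : ℕ) [Fact ℓ.Prime]
    (hf : f^[ℓ] = id) : Nat.card α ≡ Nat.card {a // f a = a} [MOD ℓ] := by
  classical
  letI : Fintype α := Fintype.ofFinite α
  let f' : Function.End α := f
  have h1 : f' ^ ℓ ^ 1 = 1 := by
    rw [pow_one]
    exact (hom_coe_pow (fun g : Function.End α => (g : α → α)) rfl (fun g h => rfl) f' ℓ).trans hf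
  have h2 := Equiv.Perm.card_fixedPoints_modEq (α := α) (f := f') (p := ℓ) (n := 1) h1
  have h3 : Nat.card {a // f a = a} = Fintype.card ↑(Function.fixedPoints f') := by
    rw [← Nat.card_eq_fintype_card]
    rfl
  rw [Nat.card_eq_fintype_card, h3]
  exact h2

theorem aux_dvd_25 : ∀ n : ℕ, n ∣ 25 → n ≡ 25 [MOD 13] → n = 25 := by
  intro n h1 h2
  have : n ≤ 25 := Nat.le_of_dvd (by norm_num) h1
  interval_cases n <;> first
    | rfl
    | (exfalso; revert h1; decide)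
    | (exfalso; revert h2; decide)

theorem aux_dvd_81 : ∀ n : ℕ, n ∣ 81 → n ≡ 81 [MOD 41] → n = 81 := by
  intro n h1 h2
  have : n ≤ 81 := Nat.le_of_dvd (by norm_num) h1
  interval_cases n <;> first
    | rfl
    | (exfalso; revert h1; decide)
    | (exfalso; revert h2; decide)

theorem aux_two_13 : ∀ i j : ℕ, i ≤ j → j ≤ 6 → 2 ^ i ≡ 2 ^ j [MOD 13] → i = j := by
  intro i j hij hj h
  interval_cases j <;> interval_cases i <;> first
    | rfl
    | (exfalso; revert h; decide)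

theorem aux_two_41 : ∀ i j : ℕ, i ≤ j → j ≤ 7 → 2 ^ i ≡ 2 ^ j [MOD 41] → i = j := by
  intro i j hij hj h
  interval_cases j <;> interval_cases i <;> first
    | rfl
    | (exfalso; revert h; decide)

theorem numeric_list {Q c : ℕ} (hQ3 : 3 ≤ Q) (hodd : Q ≠ 4) (hc : 1 ≤ c)
    (h : Q ^ c + 1 ≤ 2 * ((2 * c) ^ 2 - 1)) :
    Q ^ (2 * c) ∈ ({9, 25, 49, 121, 529, 81} : Set ℕ) ∨ (Q = 5 ∧ c = 2) ∨ (Q = 3 ∧ c = 3) ∨
      (Q = 3 ∧ c = 4) := by
  have hbig : ∀ n : ℕ, 5 ≤ n → 2 * (2 * n) ^ 2 < 3 ^ n + 1 := by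
    intro n hn
    induction n, hn using Nat.le_induction with
    | base => norm_num
    | succ n hn ih =>
      have h3 : 3 ^ (n + 1) = 3 * 3 ^ n := by ring
      rw [h3]
      nlinarith
  have hc4 : c ≤ 4 := by
    by_contra hcon
    have h1 := hbig c (by omega)
    have h2 : 3 ^ c ≤ Q ^ c := Nat.pow_le_pow_left hQ3 c
    omega
  interval_cases c
  · left
    norm_num at h
    have hQ5 : Q = 3 ∨ Q = 5 := by omega
    rcases hQ5 with rfl | rfl <;> simp
  · norm_num at h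
    have hQ5 : Q ≤ 5 := by
      by_contra hcon
      have : 6 ^ 2 ≤ Q ^ 2 := Nat.pow_le_pow_left (by omega) 2
      omega
    have hQ5' : Q = 3 ∨ Q = 5 := by omega
    rcases hQ5' with rfl | rfl
    · left; simp
    · right; left; simp
  · right; right; left
    norm_num at h
    have hQ5 : Q ≤ 4 := by
      by_contra hcon
      have : 5 ^ 3 ≤ Q ^ 3 := Nat.pow_le_pow_left (by omega) 3
      omega
    have : Q = 3 := by omega
    simp [this]
  · right; right; right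
    norm_num at h
    have hQ5 : Q ≤ 3 := by
      by_contra hcon
      have : 4 ^ 4 ≤ Q ^ 4 := Nat.pow_le_pow_left (by omega) 4
      omega
    have : Q = 3 := by omega
    simp [this]

variable {q : ℕ} [hq : Fact q.Prime] {V : Type u} [AddCommGroup V] [Module (ZMod q) V]
  {G : Type v} [Group G]

variable {ρ : G →* (V ≃ₗ[ZMod q] V)} {A : Subgroup G} {K : Type u} [Field K] [Module K V]
    {κ : A →* Kˣ} {σ : G →* (K ≃+* K)}

section dc

variable {D : Subgroup G}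

theorem DC.lam_two [Nontrivial V] (H : DC ρ A κ σ D 2) {x y : G} (hx : x ∈ D) (hy : y ∈ D) :
    lam κ x y = 1 ∨ lam κ x y = -1 := by
  have h := H.lam_pow_r hx hy
  rw [pow_two] at h
  exact mul_self_eq_one_iff.1 h

theorem DC.neg_one_ne [Nontrivial V] (H : DC ρ A κ σ D 2) : (-1 : K) ≠ 1 := by
  obtain ⟨x, hx, hxA⟩ := H.hne
  obtain ⟨y, hy, hl⟩ := H.exists_noncomm hx hxA
  have := (H.lam_two hx hy).resolve_left hl
  rw [this] at hl
  exact hl

theorem DC.exists_h [Nontrivial V] (H : DC ρ A κ σ D 2) {x : G} (hx : x ∈ D) (hxA : x ∉ A) :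
    ∃ h ∈ D, lam κ x h = -1 := by
  obtain ⟨y, hy, hl⟩ := H.exists_noncomm hx hxA
  exact ⟨y, hy, (H.lam_two hx hy).resolve_left hl⟩

theorem DC.lam_inv_two [Nontrivial V] (H : DC ρ A κ σ D 2) {x h : G} (hx : x ∈ D) (hh : h ∈ D)
    (hl : lam κ x h = -1) : lam κ x h⁻¹ = -1 := by
  have h1 := H.lam_inv_right (x := x) (y := h) hx hh
  rw [hl] at h1
  have : lam κ x h⁻¹ = - (lam κ x h⁻¹ * -1) := by ring
  rw [this, h1]

theorem DC.decomp [Nontrivial V] (H : DC ρ A κ σ D 2) {x h : G} (hx : x ∈ D) (hh : h ∈ D)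
    (hx2 : x ^ 2 = 1) (hl : lam κ x h = -1) (v : V) :
    ∃ a ∈ H.Fx hx, ∃ b ∈ H.Fx hx, v = a + ρ h b := by
  have h2 : (2 : K) ≠ 0 := by
    intro h20
    apply H.neg_one_ne
    have : (1 : K) + 1 = 0 := by rw [one_add_one_eq_two]; exact h20
    exact neg_eq_of_add_eq_zero_left this
  have hxx : ∀ v : V, ρ x (ρ x v) = v := by
    intro v
    rw [← rho_mul, ← pow_two, hx2, rho_one]
  have hlinv := H.lam_inv_two hx hh hl
  set t : K := (2 : K)⁻¹ with ht
  have htt : t + t = 1 := by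
    rw [ht, ← two_mul, mul_inv_cancel₀ h2]
  have hxlin : ∀ (k : K) (v : V), ρ x (k • v) = k • ρ x v := H.lin hx
  have hu : ρ x (t • (v - ρ x v)) = - (t • (v - ρ x v)) := by
    rw [hxlin, map_sub, hxx, ← smul_neg, neg_sub]
  refine ⟨t • (v + ρ x v), ?_, ρ h⁻¹ (t • (v - ρ x v)), ?_, ?_⟩
  · show ρ x (t • (v + ρ x v)) = t • (v + ρ x v)
    rw [hxlin, map_add, hxx, add_comm]
  · show ρ x (ρ h⁻¹ (t • (v - ρ x v))) = ρ h⁻¹ (t • (v - ρ x v))
    rw [H.comm_rel hx (D.inv_mem hh), hlinv, hu, map_neg, neg_smul, one_smul, neg_neg]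
  · rw [rho_inv', smul_add, smul_sub]
    have : t • v + t • ρ x v + (t • v - t • ρ x v) = (t + t) • v := by
      rw [add_smul]; abel
    rw [this, htt, one_smul]

theorem DC.fix_sq [Finite V] [Nontrivial V] (H : DC ρ A κ σ D 2) {x : G} (hx : x ∈ D)
    (hxA : x ∉ A) (hx2 : x ^ 2 = 1) : Nat.card V = Nat.card (H.Fx hx) ^ 2 := by
  obtain ⟨h, hh, hl⟩ := H.exists_h hx hxA
  have h1 := H.doubling hx hh hx2 hl H.neg_one_ne ⊤ (fun _ _ => trivial) (fun _ _ => trivial)
    (fun _ _ => trivial)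
  rw [top_inf_eq] at h1
  rw [← h1]
  exact Nat.card_congr (Equiv.subtypeUnivEquiv (fun _ => trivial)).symm

theorem DC.excl_ell [Finite G] [Finite V] [Nontrivial V] (H : DC ρ A κ σ D 2) {w : G}
    (hw : w ∈ D) (hwA : w ∉ A) (hwr : w ^ 2 = 1) (ℓ : ℕ) (hℓ : ℓ.Prime)
    (hdvd : ℓ ∣ Nat.card V - 1) (j : ℕ) (hD : Nat.card D = 2 ^ j)
    (h2 : ∀ i, i ≤ j → 2 ^ i ≡ 2 ^ j [MOD ℓ] → i = j)
    (hM : ∀ n, n ∣ Nat.card (H.Fx hw) → n ≡ Nat.card (H.Fx hw) [MOD ℓ] →
      n = Nat.card (H.Fx hw)) : False := by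
  classical
  haveI : Fact ℓ.Prime := ⟨hℓ⟩
  obtain ⟨θ, hθ⟩ := exists_prime_orderOf_dvd_card' ℓ (hdvd.trans (card_sub_one_dvd ρ H.C.htrans))
  have hθℓ : θ ^ ℓ = 1 := by rw [← hθ]; exact pow_orderOf_eq_one θ
  -- θ centralizes D
  have hθD : ∀ y ∈ D, θ * y = y * θ := by
    let f : D → D := fun y => ⟨θ * y.1 * θ⁻¹, H.hD.conj_mem y.1 y.2 θ⟩
    have hit : ∀ (n : ℕ) (y : D), (f^[n] y).1 = θ ^ n * y.1 * (θ ^ n)⁻¹ := by
      intro n y
      induction n with
      | zero => simp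
      | succ n ih =>
        rw [Function.iterate_succ_apply']
        show θ * (f^[n] y).1 * θ⁻¹ = _
        rw [ih, pow_succ']
        group
    have hf : f^[ℓ] = id := by
      funext y
      apply Subtype.ext
      rw [hit, hθℓ]
      simp
    have h3 := card_fix_modEq f ℓ hf
    let C : Subgroup G := D ⊓ Subgroup.centralizer {θ}
    have hmemC : ∀ y, y ∈ C ↔ y ∈ D ∧ θ * y = y * θ := by
      intro y
      constructor
      · rintro ⟨h1, h2⟩
        exact ⟨h1, (Subgroup.mem_centralizer_iff.1 h2 θ rfl)⟩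
      · rintro ⟨h1, h2⟩
        exact ⟨h1, Subgroup.mem_centralizer_iff.2 (fun t ht => by
          rw [Set.mem_singleton_iff.1 ht]; exact h2)⟩
    have h4 : Nat.card {a : D // f a = a} = Nat.card C := by
      refine Nat.card_congr ⟨fun a => ⟨a.1.1, (hmemC _).2 ⟨a.1.2, ?_⟩⟩,
        fun b => ⟨⟨b.1, ((hmemC _).1 b.2).1⟩, ?_⟩, fun a => rfl, fun b => rfl⟩
      · have := congrArg Subtype.val a.2
        have h5 : θ * a.1.1 * θ⁻¹ = a.1.1 := this
        exact mul_inv_eq_iff_eq_mul.1 h5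
      · apply Subtype.ext
        show θ * b.1 * θ⁻¹ = b.1
        rw [((hmemC _).1 b.2).2]
        group
    rw [h4] at h3
    have hle : C ≤ D := inf_le_left
    have hdv : Nat.card C ∣ 2 ^ j := hD ▸ Subgroup.card_dvd_of_le hle
    obtain ⟨i, hij, hi⟩ := (Nat.dvd_prime_pow Nat.prime_two).1 hdv
    rw [hi, hD] at h3
    have hij' := h2 i hij h3.symm
    have hCD : C = D := by
      apply Subgroup.eq_of_le_of_card_ge hle
      rw [hi, hD, hij']
    intro y hy
    rw [← hCD] at hy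
    exact ((hmemC y).1 hy).2
  -- θ fixes Fx w
  have hθF : ∀ a ∈ H.Fx hw, ρ θ a = a := by
    have hst : ∀ a ∈ H.Fx hw, ρ θ a ∈ H.Fx hw := by
      intro a ha
      show ρ w (ρ θ a) = ρ θ a
      rw [← rho_mul, ← hθD w hw, rho_mul, show ρ w a = a from ha]
    let f : H.Fx hw → H.Fx hw := fun a => ⟨ρ θ a.1, hst a.1 a.2⟩
    have hit : ∀ (n : ℕ) (a : H.Fx hw), (f^[n] a).1 = ρ (θ ^ n) a.1 := by
      intro n a
      induction n with
      | zero => simp [rho_one]
      | succ n ih =>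
        rw [Function.iterate_succ_apply']
        show ρ θ (f^[n] a).1 = _
        rw [ih, pow_succ', rho_mul]
    have hf : f^[ℓ] = id := by
      funext a
      apply Subtype.ext
      rw [hit, hθℓ, rho_one]
      rfl
    have h3 := card_fix_modEq f ℓ hf
    let S : AddSubgroup V :=
      { carrier := {v | v ∈ H.Fx hw ∧ ρ θ v = v}
        zero_mem' := ⟨(H.Fx hw).zero_mem, map_zero _⟩
        add_mem' := by
          rintro a b ⟨ha, ha'⟩ ⟨hb, hb'⟩
          exact ⟨(H.Fx hw).add_mem ha hb, by rw [map_add, ha', hb']⟩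
        neg_mem' := by
          rintro a ⟨ha, ha'⟩
          exact ⟨(H.Fx hw).neg_mem ha, by rw [map_neg, ha']⟩ }
    have h4 : Nat.card {a : H.Fx hw // f a = a} = Nat.card S := by
      refine Nat.card_congr ⟨fun a => ⟨a.1.1, a.1.2, congrArg Subtype.val a.2⟩,
        fun b => ⟨⟨b.1, b.2.1⟩, Subtype.ext b.2.2⟩, fun a => rfl, fun b => rfl⟩
    rw [h4] at h3
    have hle : S ≤ (H.Fx hw).toAddSubgroup := fun v hv => hv.1
    have hdv : Nat.card S ∣ Nat.card (H.Fx hw) := AddSubgroup.card_dvd_of_le hle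
    have heq := hM _ hdv h3.symm
    have hSF : S = (H.Fx hw).toAddSubgroup := by
      apply AddSubgroup.eq_of_le_of_card_ge hle
      rw [heq]
      rfl
    intro a ha
    have : a ∈ S := by rw [hSF]; exact ha
    exact this.2
  -- conclusion
  obtain ⟨h, hh, hl⟩ := H.exists_h hw hwA
  have hθ1 : θ = 1 := by
    apply H.C.hρ
    ext v
    obtain ⟨a, ha, b, hb, rfl⟩ := H.decomp hw hh hwr hl v
    show ρ θ (a + ρ h b) = ρ 1 (a + ρ h b)
    rw [rho_one, map_add, hθF a ha, ← rho_mul, hθD h hh, rho_mul, hθF b hb]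
  rw [hθ1, orderOf_one] at hθ
  exact hℓ.one_lt.ne hθ

end dc

end Cfsg.Agent.H03.HP
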