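import Mathlib
import Cfsg.Agent.Lib.H03.HP6

set_option autoImplicit false

namespace Cfsg.Agent.H03.HP

universe u v

variable {q : ℕ} [hq : Fact q.Prime] {V : Type u} [AddCommGroup V] [Module (ZMod q) V]
  {G : Type v} [Group G]

variable {ρ : G →* (V ≃ₗ[ZMod q] V)} {A : Subgroup G} {K : Type u} [Field K] [Module K V]
    {κ : A →* Kˣ} {σ : G →* (K ≃+* K)}

section dc

variable {D : Subgroup G} {r : ℕ}

theorem DC.card_D_le [Finite G] (_H : DC ρ A κ σ D r) :
    Nat.card D ≤ Nat.card A * (DBar A D).ncard := by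
  classical
  letI : Fintype G := Fintype.ofFinite G
  let Ds : Finset G := Finset.univ.filter (fun x => x ∈ D)
  let As : Finset G := Finset.univ.filter (fun x => x ∈ A)
  have hDs : Ds.card = Nat.card D := by
    rw [Nat.card_eq_fintype_card, Fintype.card_subtype]
  have hAs : As.card = Nat.card A := by
    rw [Nat.card_eq_fintype_card, Fintype.card_subtype]
  let mk : G → G ⧸ A := QuotientGroup.mk
  have hfib : ∀ b ∈ Ds.image mk, (Ds.filter (fun a => mk a = b)).card ≤ Nat.card A := by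
    intro b hb
    obtain ⟨x₀, _, rfl⟩ := Finset.mem_image.1 hb
    rw [← hAs]
    apply Finset.card_le_card_of_injOn (fun x => x₀⁻¹ * x)
    · intro x hx
      have hx' := Finset.mem_filter.1 (Finset.mem_coe.1 hx)
      have ha : x₀⁻¹ * x ∈ A := QuotientGroup.eq.1 hx'.2.symm
      simp [As, ha]
    · intro x _ x' _ hxx
      exact mul_left_cancel hxx
  have h1 := Finset.card_le_mul_card_image (f := mk) Ds (Nat.card A) hfib
  rw [hDs] at h1
  refine h1.trans (Nat.mul_le_mul_left _ ?_)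
  rw [← Set.ncard_coe_finset]
  apply Set.ncard_le_ncard _ (Set.toFinite _)
  intro b hb
  obtain ⟨x, hx, rfl⟩ := Finset.mem_image.1 (Finset.mem_coe.1 hb)
  exact ⟨x, (Finset.mem_filter.1 hx).2, rfl⟩

theorem DC.two_group [Finite G] (H : DC ρ A κ σ D 2) (m : ℕ) (hA : Nat.card A ∣ 2 ^ m) :
    ∃ j, Nat.card D = 2 ^ j := by
  haveI : Fact (Nat.Prime 2) := ⟨Nat.prime_two⟩
  have hp : IsPGroup 2 D := by
    intro g
    refine ⟨m + 1, ?_⟩
    apply Subtype.ext
    have h1 : (⟨g.1 ^ 2, H.hpow g.1 g.2⟩ : A) ^ Nat.card A = 1 := pow_card_eq_one'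
    have h2 : (g.1 ^ 2) ^ Nat.card A = 1 := congrArg Subtype.val h1
    obtain ⟨t, ht⟩ := hA
    show g.1 ^ 2 ^ (m + 1) = 1
    rw [pow_succ', ht, pow_mul, pow_mul, h2, one_pow]
  exact IsPGroup.iff_card.1 hp


theorem DC.stab_Fx [Nontrivial V] (H : DC ρ A κ σ D 2) {w t : G} (hw : w ∈ D) (ht : t ∈ D)
    (hl : lam κ w t = 1) {a : V} (ha : a ∈ H.Fx hw) : ρ t a ∈ H.Fx hw := by
  show ρ w (ρ t a) = ρ t a
  rw [H.comm_rel hw ht, hl, one_smul, show ρ w a = a from ha]

theorem DC.excl_729 [Finite G] [Finite K] [Finite V] [Nontrivial V] (H : DC ρ A κ σ D 2) {w : G}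
    (hw : w ∈ D) (hwA : w ∉ A) (hQ : Nat.card K = 3)
    (hM : Nat.card (H.Fx hw) = 27) (he : 4 < (DBar A D).ncard) : False := by
  classical
  haveI hAn : A.Normal := H.C.hA
  have hmk2 : ∀ z ∈ D, (z : G ⧸ A) * z = 1 := by
    intro z hz
    rw [← QuotientGroup.mk_mul, ← pow_two]
    exact (QuotientGroup.eq_one_iff _).2 (H.hpow z hz)
  have hne := H.neg_one_ne
  obtain ⟨h, hh, hl⟩ := H.exists_h hw hwA
  -- an element outside the four cosets
  obtain ⟨y', hy', h1, h2, h3, h4⟩ : ∃ y' ∈ D, (y' : G ⧸ A) ≠ ((1 : G) : G ⧸ A) ∧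
      (y' : G ⧸ A) ≠ (w : G ⧸ A) ∧ (y' : G ⧸ A) ≠ (h : G ⧸ A) ∧
      (y' : G ⧸ A) ≠ ((w * h : G) : G ⧸ A) := by
    by_contra hcon
    push Not at hcon
    have hsub : DBar A D ⊆ (({((1 : G) : G ⧸ A), (w : G ⧸ A), (h : G ⧸ A),
        ((w * h : G) : G ⧸ A)} : Finset (G ⧸ A)) : Set (G ⧸ A)) := by
      rintro _ ⟨y', hy', rfl⟩
      simp only [Finset.coe_insert, Finset.coe_singleton, Set.mem_insert_iff, Set.mem_singleton_iff]
      by_cases h1 : (y' : G ⧸ A) = ((1 : G) : G ⧸ A)
      · exact Or.inl h1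
      by_cases h2 : (y' : G ⧸ A) = (w : G ⧸ A)
      · exact Or.inr (Or.inl h2)
      by_cases h3 : (y' : G ⧸ A) = (h : G ⧸ A)
      · exact Or.inr (Or.inr (Or.inl h3))
      · exact Or.inr (Or.inr (Or.inr (hcon y' hy' h1 h2 h3)))
    have := Set.ncard_le_ncard hsub (Set.toFinite _)
    rw [Set.ncard_coe_finset] at this
    have h5 := Finset.card_le_four (a := ((1 : G) : G ⧸ A)) (b := (w : G ⧸ A)) (c := (h : G ⧸ A))
      (d := ((w * h : G) : G ⧸ A))
    omega
  -- adjust it to commute with w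
  obtain ⟨y, hy, hly, hy1, hy2⟩ : ∃ y ∈ D, lam κ w y = 1 ∧ (y : G ⧸ A) ≠ 1 ∧
      (y : G ⧸ A) ≠ (w : G ⧸ A) := by
    rcases H.lam_two hw hy' with hc | hc
    · exact ⟨y', hy', hc, h1, h2⟩
    · refine ⟨y' * h, D.mul_mem hy' hh, ?_, ?_, ?_⟩
      · rw [H.lam_mul_right hw hy' hh, hc, hl]
        ring
      · rw [QuotientGroup.mk_mul]
        intro hc2
        apply h3
        calc (y' : G ⧸ A) = y' * (h * h) := by
              rw [hmk2 h hh, mul_one]
          _ = (y' * h) * h := by rw [mul_assoc]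
          _ = h := by rw [hc2, one_mul]
      · rw [QuotientGroup.mk_mul]
        intro hc2
        apply h4
        rw [QuotientGroup.mk_mul]
        calc (y' : G ⧸ A) = y' * (h * h) := by
              rw [hmk2 h hh, mul_one]
          _ = (y' * h) * h := by rw [mul_assoc]
          _ = w * h := by rw [hc2]
  have hyA : y ∉ A := fun hmem => hy1 ((QuotientGroup.eq_one_iff _).2 hmem)
  -- squares in F_3
  have hsq : ∀ z : K, z ≠ 0 → z = 1 ∨ z = -1 := by
    intro z hz
    have h5 : (Units.mk0 z hz) ^ Nat.card Kˣ = 1 := pow_card_eq_one'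
    rw [Nat.card_units, hQ] at h5
    have h6 : z ^ 2 = 1 := by
      have := congrArg Units.val h5
      simpa using this
    rw [pow_two] at h6
    exact mul_self_eq_one_iff.1 h6
  have hfr : Module.finrank K (H.Fx hw) = 3 := by
    haveI : Module.Finite K (H.Fx hw) := Module.Finite.of_finite
    have h5 : Nat.card (H.Fx hw) = Nat.card K ^ Module.finrank K (H.Fx hw) :=
      Module.natCard_eq_pow_finrank
    rw [hM, hQ] at h5
    have h6 : (3 : ℕ) ^ 3 = 3 ^ Module.finrank K (H.Fx hw) := by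
      rw [← h5]
      norm_num
    exact (Nat.pow_right_injective (by norm_num : 2 ≤ 3) h6).symm
  have hyy : ∀ a : V, ρ y (ρ y a) = kap κ (y ^ 2) • a := by
    intro a
    rw [← rho_mul, ← pow_two]
    exact rho_kap H.C (H.hpow y hy) a
  rcases hsq _ (kap_ne_zero (H.hpow y hy)) with hμ | hμ
  · -- y² = 1
    have hy21 : y ^ 2 = 1 := kap_inj H.C (H.hpow y hy) A.one_mem (by rw [hμ, kap_one])
    -- find z commuting with w, not with y
    have hz : ∃ z ∈ D, lam κ w z = 1 ∧ lam κ y z = -1 := by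
      by_contra hcon
      push Not at hcon
      have hc1 : ∀ z ∈ D, lam κ w z = 1 → lam κ y z = 1 := by
        intro z hz hz1
        exact (H.lam_two hy hz).resolve_right (hcon z hz hz1)
      have hc2 : ∀ z ∈ D, lam κ w z = -1 → lam κ y z * lam κ y h = 1 := by
        intro z hz hz1
        rw [← H.lam_mul_right hy hz hh]
        apply hc1 _ (D.mul_mem hz hh)
        rw [H.lam_mul_right hw hz hh, hz1, hl]
        ring
      rcases H.lam_two hy hh with hyh | hyh
      · apply hyA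
        apply H.hZ y hy
        intro z hz
        apply H.comm_of_lam hy hz
        rcases H.lam_two hw hz with hz1 | hz1
        · exact hc1 z hz hz1
        · have := hc2 z hz hz1
          rwa [hyh, mul_one] at this
      · apply hy2
        have hmem : w * y ∈ A := by
          apply H.hZ _ (D.mul_mem hw hy)
          intro z hz
          apply H.comm_of_lam (D.mul_mem hw hy) hz
          rw [H.lam_mul_left hw hy hz]
          rcases H.lam_two hw hz with hz1 | hz1
          · rw [hz1, hc1 z hz hz1, one_mul]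
          · have := hc2 z hz hz1
            rw [hyh] at this
            have h5 : lam κ y z = -1 := by
              have h6 : lam κ y z = - (lam κ y z * -1) := by ring
              rw [h6, this]
            rw [hz1, h5]
            ring
        have h5 := (QuotientGroup.eq_one_iff _).2 hmem
        rw [QuotientGroup.mk_mul] at h5
        calc (y : G ⧸ A) = (w * w) * y := by rw [hmk2 w hw, one_mul]
          _ = w * (w * y) := by rw [mul_assoc]
          _ = w := by rw [h5, mul_one]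
    obtain ⟨z, hzD, hz1, hz2⟩ := hz
    have hz1' : lam κ w z⁻¹ = 1 := by
      have := H.lam_inv_right (x := w) (y := z) hw hzD
      rwa [hz1, mul_one] at this
    have hdb := H.doubling (x := y) (h := z) hy hzD hy21 hz2 hne (H.Fx hw)
      (fun a ha => H.stab_Fx hw hy hly ha) (fun a ha => H.stab_Fx hw hzD hz1 ha)
      (fun a ha => H.stab_Fx hw (D.inv_mem hzD) hz1' ha)
    rw [hM] at hdb
    set n := Nat.card ↥(H.Fx hw ⊓ H.Fx hy : Submodule K V)
    have hn : n ≤ 5 := by
      by_contra hc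
      have : 6 ^ 2 ≤ n ^ 2 := Nat.pow_le_pow_left (by omega) 2
      omega
    interval_cases n <;> omega
  · -- y² = -1: determinant
    let J : (H.Fx hw) →ₗ[K] (H.Fx hw) :=
      (H.toLin hy).restrict (fun a ha => H.stab_Fx hw hy hly ha)
    have hJJ : J * J = (-1 : K) • (1 : (H.Fx hw) →ₗ[K] (H.Fx hw)) := by
      ext a
      show ρ y (ρ y a.1) = _
      rw [hyy, hμ]
      rfl
    have hdet := congrArg LinearMap.det hJJ
    rw [map_mul, LinearMap.det_smul, map_one, mul_one, hfr] at hdet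
    have h5 : LinearMap.det J * LinearMap.det J = -1 := by
      rw [hdet]
      ring
    by_cases hd0 : LinearMap.det J = 0
    · rw [hd0, mul_zero] at h5
      exact neg_ne_zero.2 (one_ne_zero (α := K)) h5.symm
    · have h6 := mul_self_eq_one_iff.2 (hsq _ hd0)
      rw [h5] at h6
      exact hne h6


theorem DC.two_N_list [Finite G] [Finite K] [Finite V] [Nontrivial V] [CharP K q]
    (H : DC ρ A κ σ D 2) {w : G} (hw : w ∈ D) (hwA : w ∉ A) (hwr : w ^ 2 = 1) :
    Nat.card V ∈ ({9, 25, 49, 121, 529, 81} : Set ℕ) := by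
  classical
  letI : Fintype G := Fintype.ofFinite G
  let Nset : Finset G := Finset.univ.filter (fun x => x ∈ D ∧ x ∉ A ∧ x ^ 2 = 1)
  have hN : ∀ x, x ∈ Nset ↔ x ∈ D ∧ x ∉ A ∧ x ^ 2 = 1 := by
    intro x
    simp [Nset]
  obtain ⟨v₀, hv₀, hfix⟩ := H.exists_fix hw hwA hwr
  have hcov := H.cover hw hwA hv₀ hfix
  have hP : Nat.card V = Nat.card (H.Fx hw) ^ 2 := H.fix_sq hw hwA hwr
  have hM : ∀ (x : G) (hx : x ∈ D), x ∉ A → x ^ 2 = 1 →
      Nat.card (H.Fx hx) ≤ Nat.card (H.Fx hw) := by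
    intro x hx hxA hxr
    have h1 := H.fix_sq hx hxA hxr
    rw [hP] at h1
    exact (Nat.pow_le_pow_iff_left (by norm_num)).1 (le_of_eq h1.symm)
  have hM2 : 2 ≤ Nat.card (H.Fx hw) := by
    haveI : Nontrivial (H.Fx hw) := ⟨⟨⟨v₀, hfix⟩, 0, fun h0 => hv₀ (congrArg Subtype.val h0)⟩⟩
    exact Finite.one_lt_card
  have h1 := H.count Nset hN _ hM hcov
  have hN2 := H.card_N_le Nset hN
  have he := H.e_le (K := K)
  obtain ⟨f, hf0, hQ, _⟩ := exists_f (q := q) (K := K)
  have hq2 : q ≠ 2 := by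
    rintro rfl
    exact H.neg_one_ne (CharTwo.neg_eq (R := K) 1)
  have hqodd : Odd q := (Fact.out : q.Prime).odd_of_ne_two hq2
  have hQodd : Odd (Nat.card K) := by rw [hQ]; exact hqodd.pow
  have hQ1 : 1 < Nat.card K := Finite.one_lt_card
  have hQ3 : 3 ≤ Nat.card K := by
    obtain ⟨t, ht⟩ := hQodd
    omega
  have hQ4 : Nat.card K ≠ 4 := by
    intro h4
    rw [h4] at hQodd
    revert hQodd
    decide
  haveI : Module.Finite K (H.Fx hw) := Module.Finite.of_finite
  have hMc : Nat.card (H.Fx hw) = Nat.card K ^ Module.finrank K (H.Fx hw) :=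
    Module.natCard_eq_pow_finrank
  have hPd : Nat.card V = Nat.card K ^ Module.finrank K V := card_V_eq
  set c := Module.finrank K (H.Fx hw) with hc
  set d := Module.finrank K V with hd
  set Q := Nat.card K with hQdef
  set M := Nat.card (H.Fx hw) with hMdef
  have hd2 : d = 2 * c := by
    apply Nat.pow_right_injective (by omega : 2 ≤ Q)
    show Q ^ d = Q ^ (2 * c)
    rw [← hPd, hP, hMc, ← pow_mul, mul_comm]
  have hc1 : 1 ≤ c := by
    by_contra hc0
    have : c = 0 := by omega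
    rw [this, pow_zero] at hMc
    omega
  have hMN : M + 1 ≤ Nset.card := by
    have h2 : (M + 1) * (M - 1) ≤ Nset.card * (M - 1) := by
      refine le_trans (le_of_eq ?_) h1
      rw [hP]
      obtain ⟨m, hm⟩ : ∃ m, M = m + 1 := ⟨M - 1, by omega⟩
      rw [hm]
      simp only [Nat.add_sub_cancel, Nat.reduceSub, mul_one]
      have : (m + 1) ^ 2 = (m + 1 + 1) * m + 1 := by ring
      omega
    exact Nat.le_of_mul_le_mul_right h2 (by omega)
  have hmain : Q ^ c + 1 ≤ 2 * ((2 * c) ^ 2 - 1) := by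
    have h3 : (DBar A D).ncard - 1 ≤ (2 * c) ^ 2 - 1 := by
      rw [← hd2]
      exact Nat.sub_le_sub_right he 1
    rw [← hMc]
    omega
  have hA_le : Nat.card A ∣ Q - 1 := H.C.card_A_dvd
  have he' : 2 ≤ (DBar A D).ncard := by omega
  rcases numeric_list hQ3 hQ4 hc1 hmain with hlist | ⟨hQ5, hc2⟩ | ⟨hQ5, hc3⟩ | ⟨hQ5, hc4⟩
  · rw [hPd, hd2]
    exact hlist
  · exfalso
    rw [hQ5] at hA_le
    obtain ⟨j, hj⟩ := H.two_group 2 hA_le
    have hd4 : d = 4 := by omega
    have hMe : M = 25 := by rw [hMc, hQ5, hc2]; norm_num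
    have hPe : Nat.card V = 625 := by rw [hP, hMe]; norm_num
    have hle := H.card_D_le
    have hA4 : Nat.card A ≤ 4 := Nat.le_of_dvd (by norm_num) hA_le
    have he16 : (DBar A D).ncard ≤ 16 := by rw [hd4] at he; simpa using he
    have h64 : 2 ^ j ≤ 2 ^ 6 := by
      rw [← hj]
      refine hle.trans ?_
      have := Nat.mul_le_mul hA4 he16
      omega
    have hj6 : j ≤ 6 := (Nat.pow_le_pow_iff_right (by norm_num)).1 h64
    refine H.excl_ell hw hwA hwr 13 (by norm_num) (by rw [hPe]; norm_num) j hj ?_ ?_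
    · intro i hi hmod
      exact aux_two_13 i j hi hj6 hmod
    · intro n hn hmod
      rw [← hMdef, hMe] at hn hmod ⊢
      exact aux_dvd_25 n hn hmod
  · exfalso
    have hMe : M = 27 := by rw [hMc, hQ5, hc3]; norm_num
    refine H.excl_729 hw hwA hQ5 hMe ?_
    rw [hMe] at hMN
    omega
  · exfalso
    rw [hQ5] at hA_le
    obtain ⟨j, hj⟩ := H.two_group 1 hA_le
    have hd8 : d = 8 := by omega
    have hMe : M = 81 := by rw [hMc, hQ5, hc4]; norm_num
    have hPe : Nat.card V = 6561 := by rw [hP, hMe]; norm_num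
    have hle := H.card_D_le
    have hA4 : Nat.card A ≤ 2 := Nat.le_of_dvd (by norm_num) hA_le
    have he16 : (DBar A D).ncard ≤ 64 := by rw [hd8] at he; simpa using he
    have h64 : 2 ^ j ≤ 2 ^ 7 := by
      rw [← hj]
      refine hle.trans ?_
      have := Nat.mul_le_mul hA4 he16
      omega
    have hj6 : j ≤ 7 := (Nat.pow_le_pow_iff_right (by norm_num)).1 h64
    refine H.excl_ell hw hwA hwr 41 (by norm_num) (by rw [hPe]; norm_num) j hj ?_ ?_
    · intro i hi hmod
      exact aux_two_41 i j hi hj6 hmod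
    · intro n hn hmod
      rw [← hMdef, hMe] at hn hmod ⊢
      exact aux_dvd_81 n hn hmod

/-- the semiregular case: at most four cosets. -/
theorem DC.cover4 [Finite G] [Nontrivial V] (H : DC ρ A κ σ D 2)
    (hNone : ∀ w ∈ D, w ∉ A → w ^ 2 ≠ 1) {g h x : G} (hg : g ∈ D) (hh : h ∈ D)
    (hgh : g * h ≠ h * g) (hx : x ∈ D) :
    (x : G ⧸ A) = ((1 : G) : G ⧸ A) ∨ (x : G ⧸ A) = (g : G ⧸ A) ∨ (x : G ⧸ A) = (h : G ⧸ A) ∨
      (x : G ⧸ A) = ((g * h : G) : G ⧸ A) := by
  classical
  haveI hAn : A.Normal := H.C.hA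
  by_contra hcon
  push Not at hcon
  obtain ⟨hx1, hxg, hxh, hxgh⟩ := hcon
  have hmk2 : ∀ z ∈ D, (z : G ⧸ A) * z = 1 := by
    intro z hz
    rw [← QuotientGroup.mk_mul, ← pow_two]
    exact (QuotientGroup.eq_one_iff _).2 (H.hpow z hz)
  have hlgh : lam κ g h = -1 :=
    (H.lam_two hg hh).resolve_left (fun h1 => hgh (H.comm_of_lam hg hh h1))
  obtain ⟨l, hl, hlg, hl1, hl2⟩ : ∃ l ∈ D, lam κ g l = 1 ∧ (l : G ⧸ A) ≠ 1 ∧
      (l : G ⧸ A) ≠ (g : G ⧸ A) := by
    rcases H.lam_two hg hx with hc | hc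
    · exact ⟨x, hx, hc, hx1, hxg⟩
    · refine ⟨x * h, D.mul_mem hx hh, ?_, ?_, ?_⟩
      · rw [H.lam_mul_right hg hx hh, hc, hlgh]
        ring
      · rw [QuotientGroup.mk_mul]
        intro hc2
        apply hxh
        calc (x : G ⧸ A) = x * (h * h) := by
              rw [hmk2 h hh, mul_one]
          _ = (x * h) * h := by rw [mul_assoc]
          _ = h := by rw [hc2, one_mul]
      · rw [QuotientGroup.mk_mul]
        intro hc2
        apply hxgh
        rw [QuotientGroup.mk_mul]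
        calc (x : G ⧸ A) = x * (h * h) := by
              rw [hmk2 h hh, mul_one]
          _ = (x * h) * h := by rw [mul_assoc]
          _ = g * h := by rw [hc2]
  obtain ⟨a₀, ha₀, hgen⟩ := H.C.exists_gen
  have hodd : ∀ z ∈ D, z ∉ A → ∀ t : ℤ, z ^ 2 ≠ a₀ ^ (2 * t) := by
    intro z hz hzA t ht
    have hat : a₀ ^ t ∈ A := A.zpow_mem ha₀ t
    apply hNone (z * (a₀ ^ t)⁻¹) (D.mul_mem hz (D.inv_mem (H.hAD hat)))
    · intro hmem
      apply hzA
      have := A.mul_mem hmem hat
      simpa using this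
    · have hcomm : Commute z (a₀ ^ t)⁻¹ := by
        have h1 : Commute z (a₀ ^ t) := H.hDc z hz _ hat
        exact h1.inv_right
      rw [hcomm.mul_pow, ht, inv_pow, ← zpow_natCast (a₀ ^ t), ← zpow_mul]
      have : t * ((2 : ℕ) : ℤ) = 2 * t := by push_cast; ring
      rw [this, mul_inv_cancel]
  have hgA : g ∉ A := fun hmem => hgh (H.hDc h hh g hmem).symm
  have hlA : l ∉ A := fun hmem => hl1 ((QuotientGroup.eq_one_iff _).2 hmem)
  have hglA : g * l ∉ A := by
    intro hmem
    have h5 := (QuotientGroup.eq_one_iff _).2 hmem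
    rw [QuotientGroup.mk_mul] at h5
    apply hl2
    calc (l : G ⧸ A) = (g * g) * l := by rw [hmk2 g hg, one_mul]
      _ = g * (g * l) := by rw [mul_assoc]
      _ = g := by rw [h5, mul_one]
  obtain ⟨u, hu⟩ := hgen _ (H.hpow g hg)
  obtain ⟨v, hv⟩ := hgen _ (H.hpow l hl)
  have hcomm : Commute g l := H.comm_of_lam hg hl hlg
  have huo : ¬ Even u := by
    rintro ⟨t, rfl⟩
    exact hodd g hg hgA t (by rw [← hu, two_mul])
  have hvo : ¬ Even v := by
    rintro ⟨t, rfl⟩
    exact hodd l hl hlA t (by rw [← hv, two_mul])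
  have huv : Even (u + v) := by
    rw [Int.even_add]
    exact iff_of_false huo hvo
  obtain ⟨t, ht⟩ := huv
  apply hodd (g * l) (D.mul_mem hg hl) hglA t
  rw [hcomm.mul_pow, ← hu, ← hv, ← zpow_add, ht, two_mul]

end dc

end Cfsg.Agent.H03.HP
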