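import Mathlib
import Cfsg.Agent.Lib.H03.HP7

set_option autoImplicit false

namespace Cfsg.Agent.H03.HP

universe u v

/-- a small normal section. -/
theorem exists_D {G : Type*} [Group G] [Finite G] (hsol : Group.IsSolvable G) (A C : Subgroup G)
    [hA : A.Normal] (hC : C.Normal) (hAC : A ≤ C) (hne : ∃ x ∈ C, x ∉ A) :
    ∃ D : Subgroup G, D.Normal ∧ A ≤ D ∧ D ≤ C ∧ (∃ x ∈ D, x ∉ A) ∧ ∃ r : ℕ, r.Prime ∧
      (∀ x ∈ D, x ^ r ∈ A) ∧ (∀ x ∈ D, ∀ y ∈ D, x * y * x⁻¹ * y⁻¹ ∈ A) := by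
  classical
  let P : Subgroup G → Prop := fun D => D.Normal ∧ A ≤ D ∧ D ≤ C ∧ ∃ x ∈ D, x ∉ A
  have hfin : ({D | P D} : Set (Subgroup G)).Finite := Set.toFinite _
  obtain ⟨D, hD⟩ := hfin.exists_minimal ⟨C, hC, hAC, le_refl _, hne⟩
  obtain ⟨hDn, hAD, hDC, x₀, hx₀, hx₀A⟩ : P D := hD.prop
  let π : G →* G ⧸ A := QuotientGroup.mk' A
  have hπ : Function.Surjective π := QuotientGroup.mk'_surjective A
  have hπ1 : ∀ z, π z = 1 ↔ z ∈ A := fun z => QuotientGroup.eq_one_iff z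
  have hminimal : ∀ E : Subgroup G, E.Normal → A ≤ E → E ≤ D → (∃ x ∈ E, x ∉ A) → D ≤ E := by
    intro E h1 h2 h3 h4
    exact hD.le_of_le (y := E) ⟨h1, h2, h3.trans hDC, h4⟩ h3
  let Db : Subgroup (G ⧸ A) := D.map π
  haveI hDbn : Db.Normal := hDn.map π hπ
  have hDbne : Db ≠ ⊥ := by
    intro h
    have : π x₀ ∈ Db := ⟨x₀, hx₀, rfl⟩
    rw [h] at this
    exact hx₀A ((hπ1 x₀).1 this)
  have hlt : ⁅Db, Db⁆ < Db := Group.IsSolvable.commutator_lt_of_ne_bot hDbne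
  have hcombot : ⁅Db, Db⁆ = ⊥ := by
    by_contra hnb
    obtain ⟨⟨b, hb⟩, hb1'⟩ := (Subgroup.ne_bot_iff_exists_ne_one).1 hnb
    have hb1 : b ≠ 1 := fun h => hb1' (Subtype.ext h)
    obtain ⟨z, rfl⟩ := hπ b
    let E : Subgroup G := (⁅Db, Db⁆).comap π
    have hEn : E.Normal := (Subgroup.commutator_normal Db Db).comap π
    have hAE : A ≤ E := by
      intro a ha
      show π a ∈ ⁅Db, Db⁆
      rw [(hπ1 a).2 ha]
      exact Subgroup.one_mem _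
    have hED : E ≤ D := by
      intro y hy
      obtain ⟨y', hy', hyy⟩ := hlt.le hy
      have h1 : y'⁻¹ * y ∈ A := by
        rw [← hπ1, map_mul, map_inv, ← hyy, inv_mul_cancel]
      have h2 := D.mul_mem hy' (hAD h1)
      simpa using h2
    have hzE : z ∈ E := hb
    have hzA : z ∉ A := fun h => hb1 ((hπ1 z).2 h)
    have hDE := hminimal E hEn hAE hED ⟨z, hzE, hzA⟩
    have hge : Db ≤ ⁅Db, Db⁆ := by
      rintro _ ⟨y, hy, rfl⟩
      exact hDE hy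
    exact hlt.not_ge hge
  have hcomm : ∀ x ∈ D, ∀ y ∈ D, x * y * x⁻¹ * y⁻¹ ∈ A := by
    intro x hx y hy
    rw [← hπ1]
    have h1 := Subgroup.commutator_mem_commutator (g₁ := π x) (g₂ := π y) (H₁ := Db) (H₂ := Db)
      ⟨x, hx, rfl⟩ ⟨y, hy, rfl⟩
    rw [hcombot, Subgroup.mem_bot, commutatorElement_def] at h1
    simpa using h1
  have hcommπ : ∀ x ∈ D, ∀ y ∈ D, Commute (π x) (π y) := by
    intro x hx y hy
    have h1 := (hπ1 _).2 (hcomm x hx y hy)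
    simp only [map_mul, map_inv] at h1
    show π x * π y = π y * π x
    calc π x * π y = (π x * π y * (π x)⁻¹ * (π y)⁻¹) * (π y * π x) := by group
      _ = _ := by rw [h1, one_mul]
  -- the prime
  have hx₀1 : π x₀ ≠ 1 := fun h => hx₀A ((hπ1 x₀).1 h)
  have hord : orderOf (π x₀) ≠ 0 := (orderOf_pos (π x₀)).ne'
  have hord1 : orderOf (π x₀) ≠ 1 := fun h => hx₀1 (orderOf_eq_one_iff.1 h)
  set n := orderOf (π x₀) with hn
  let r := n.minFac
  have hr : r.Prime := Nat.minFac_prime hord1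
  have hrn : r ∣ n := Nat.minFac_dvd n
  have hordy : orderOf (π (x₀ ^ (n / r))) = r := by
    rw [map_pow]
    exact orderOf_pow_orderOf_div hord hrn
  have hy1 : x₀ ^ (n / r) ∉ A := by
    intro hmem
    rw [(hπ1 _).2 hmem, orderOf_one] at hordy
    exact hr.one_lt.ne hordy
  have hyr : (x₀ ^ (n / r)) ^ r ∈ A := by
    rw [← hπ1, map_pow]
    have := pow_orderOf_eq_one (π (x₀ ^ (n / r)))
    rwa [hordy] at this
  let E : Subgroup G :=
    { carrier := {z | z ∈ D ∧ z ^ r ∈ A}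
      one_mem' := ⟨D.one_mem, by simp [A.one_mem]⟩
      mul_mem' := by
        rintro a b ⟨ha, ha'⟩ ⟨hb, hb'⟩
        refine ⟨D.mul_mem ha hb, ?_⟩
        rw [← hπ1, map_pow, map_mul, (hcommπ a ha b hb).mul_pow, ← map_pow, ← map_pow,
          (hπ1 _).2 ha', (hπ1 _).2 hb', one_mul]
      inv_mem' := by
        rintro a ⟨ha, ha'⟩
        exact ⟨D.inv_mem ha, by rw [inv_pow]; exact A.inv_mem ha'⟩ }
  have hEn : E.Normal := by
    constructor
    rintro z ⟨hz, hz'⟩ g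
    refine ⟨hDn.conj_mem z hz g, ?_⟩
    rw [conj_pow]
    exact hA.conj_mem _ hz' g
  have hAE : A ≤ E := fun a ha => ⟨hAD ha, A.pow_mem ha r⟩
  have hED : E ≤ D := fun z hz => hz.1
  have hDE := hminimal E hEn hAE hED
    ⟨x₀ ^ (n / r), ⟨D.pow_mem hx₀ _, hyr⟩, hy1⟩
  exact ⟨D, hDn, hAD, hDC, ⟨x₀, hx₀, hx₀A⟩, r, hr, fun x hx => (hDE hx).2, hcomm⟩

variable {q : ℕ} [hq : Fact q.Prime] {V : Type u} [AddCommGroup V] [Module (ZMod q) V]
  {G : Type v} [Group G]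

variable {ρ : G →* (V ≃ₗ[ZMod q] V)} {A : Subgroup G} {K : Type u} [Field K] [Module K V]
    {κ : A →* Kˣ} {σ : G →* (K ≃+* K)}

/-- build the context from maximality. -/
theorem mkDC (C : Ctx ρ A κ σ)
    (hmax : ∀ B : Subgroup G, B.Normal → (∀ a ∈ B, ∀ b ∈ B, a * b = b * a) → A ≤ B → B ≤ A)
    {D : Subgroup G} {r : ℕ} (hD : D.Normal) (hAD : A ≤ D) (hDc : ∀ x ∈ D, ∀ a ∈ A, x * a = a * x)
    (hr : r.Prime) (hpow : ∀ x ∈ D, x ^ r ∈ A) (hcomm : ∀ x ∈ D, ∀ y ∈ D, x * y * x⁻¹ * y⁻¹ ∈ A)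
    (hne : ∃ x ∈ D, x ∉ A) : DC ρ A κ σ D r := by
  refine ⟨C, hr, hD, hAD, hDc, hpow, hcomm, ?_, hne⟩
  intro x hx hcen
  let Z : Subgroup G := D ⊓ Subgroup.centralizer (D : Set G)
  haveI := hD
  have hZn : Z.Normal := Subgroup.normal_inf_normal D (Subgroup.centralizer (D : Set G))
  have hZab : ∀ a ∈ Z, ∀ b ∈ Z, a * b = b * a := by
    rintro a ⟨ha, _⟩ b ⟨_, hb⟩
    exact (Subgroup.mem_centralizer_iff.1 hb a ha)
  have hAZ : A ≤ Z := by
    intro a ha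
    refine ⟨hAD ha, Subgroup.mem_centralizer_iff.2 ?_⟩
    intro y hy
    exact hDc y hy a ha
  apply hmax Z hZn hZab hAZ
  refine ⟨hx, Subgroup.mem_centralizer_iff.2 ?_⟩
  intro y hy
  exact (hcen y hy).symm

end Cfsg.Agent.H03.HP
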