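import Mathlib
import Cfsg.Agent.Lib.H03.HP8

set_option autoImplicit false

namespace Cfsg.Agent.H03.HP

universe u v

theorem card_subgroup_of_hom {G : Type*} [Group G] [Finite G] {H₁ H₂ : Subgroup G} {T : Type*}
    [Group T] (f : H₁ →* T) (hle : H₂ ≤ H₁) (hker : ∀ x : H₁, f x = 1 ↔ x.1 ∈ H₂) :
    Nat.card H₁ = Nat.card H₂ * Nat.card f.range := by
  have h1 : f.ker = H₂.subgroupOf H₁ := by
    ext x
    rw [MonoidHom.mem_ker, hker, Subgroup.mem_subgroupOf]
  have h2 := Subgroup.card_mul_index f.ker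
  rw [Subgroup.index_ker, h1] at h2
  rw [← h2]
  congr 1
  exact Nat.card_congr (Subgroup.subgroupOfEquivOfLe hle).toEquiv

/-- the three-element set. -/
def Alpha {G : Type*} [Group G] (A D : Subgroup G) [A.Normal] : Set (G ⧸ A) :=
  {x | x ∈ D.map (QuotientGroup.mk' A) ∧ x ≠ 1}

theorem exists_psi {G : Type*} [Group G] (A D : Subgroup G) [A.Normal] (hD : D.Normal) :
    ∃ ψ : G →* Equiv.Perm (Alpha A D), ∀ (t : G) (x : Alpha A D),
      (ψ t x).1 = (t : G ⧸ A) * x.1 * (t : G ⧸ A)⁻¹ := by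
  have hDb : (D.map (QuotientGroup.mk' A)).Normal := hD.map _ (QuotientGroup.mk'_surjective A)
  let φ : G → Equiv.Perm (Alpha A D) := fun t =>
    { toFun := fun x => ⟨(t : G ⧸ A) * x.1 * (t : G ⧸ A)⁻¹, hDb.conj_mem x.1 x.2.1 _,
        mt conj_eq_one_iff.1 x.2.2⟩
      invFun := fun x => ⟨(t : G ⧸ A)⁻¹ * x.1 * (t : G ⧸ A)⁻¹⁻¹, hDb.conj_mem x.1 x.2.1 _,
        mt conj_eq_one_iff.1 x.2.2⟩
      left_inv := fun x => Subtype.ext (by group)
      right_inv := fun x => Subtype.ext (by group) }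
  refine ⟨{ toFun := φ, map_one' := ?_, map_mul' := ?_ }, fun t x => rfl⟩
  · ext x
    show ((1 : G) : G ⧸ A) * x.1 * ((1 : G) : G ⧸ A)⁻¹ = x.1
    rw [QuotientGroup.mk_one]
    group
  · intro s t
    ext x
    show ((s * t : G) : G ⧸ A) * x.1 * ((s * t : G) : G ⧸ A)⁻¹
      = (s : G ⧸ A) * ((t : G ⧸ A) * x.1 * (t : G ⧸ A)⁻¹) * (s : G ⧸ A)⁻¹
    rw [QuotientGroup.mk_mul]
    group

variable {q : ℕ} [hq : Fact q.Prime] {V : Type u} [AddCommGroup V] [Module (ZMod q) V]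
  {G : Type v} [Group G]

variable {ρ : G →* (V ≃ₗ[ZMod q] V)} {A : Subgroup G} {K : Type u} [Field K] [Module K V]
    {κ : A →* Kˣ} {σ : G →* (K ≃+* K)}

section dc

variable {D : Subgroup G}

theorem DC.exists_fz [Nontrivial V] (H : DC ρ A κ σ D 2) (K₁ : Subgroup G)
    (hK₁ : ∀ t ∈ K₁, ∀ a ∈ A, t * a = a * t) {z : G} (hz : z ∈ D)
    (hzK : ∀ t ∈ K₁, t * z * t⁻¹ * z⁻¹ ∈ A) :
    ∃ F : K₁ →* rootsOfUnity 2 K, ∀ t : K₁, (F t = 1 ↔ t.1 * z = z * t.1) := by
  have hω2 : ∀ t ∈ K₁, (t * z * t⁻¹ * z⁻¹) ^ 2 = 1 := by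
    intro t ht
    have hω := hzK t ht
    set ω := t * z * t⁻¹ * z⁻¹ with hωdef
    have h1 : t * z * t⁻¹ = ω * z := by rw [hωdef]; group
    have h2 : (t * z * t⁻¹) ^ 2 = z ^ 2 := by
      rw [conj_pow, hK₁ t ht _ (H.hpow z hz)]
      group
    have h3 : Commute ω z := (H.hDc z hz ω hω).symm
    rw [h1, h3.mul_pow] at h2
    exact mul_eq_right.1 h2
  let F : K₁ →* rootsOfUnity 2 K :=
    { toFun := fun t => ⟨κ ⟨t.1 * z * t.1⁻¹ * z⁻¹, hzK t.1 t.2⟩, by
        rw [mem_rootsOfUnity, ← map_pow]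
        have : (⟨t.1 * z * t.1⁻¹ * z⁻¹, hzK t.1 t.2⟩ : A) ^ 2 = 1 :=
          Subtype.ext (hω2 t.1 t.2)
        rw [this, map_one]⟩
      map_one' := by
        apply Subtype.ext
        show κ ⟨(1 : G) * z * (1 : G)⁻¹ * z⁻¹, _⟩ = 1
        have : (⟨(1 : G) * z * (1 : G)⁻¹ * z⁻¹, hzK 1 K₁.one_mem⟩ : A) = 1 :=
          Subtype.ext (by simp)
        rw [this, map_one]
      map_mul' := by
        intro s t
        apply Subtype.ext
        show κ ⟨(s.1 * t.1) * z * (s.1 * t.1)⁻¹ * z⁻¹, _⟩ =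
          κ ⟨s.1 * z * s.1⁻¹ * z⁻¹, _⟩ * κ ⟨t.1 * z * t.1⁻¹ * z⁻¹, _⟩
        rw [← map_mul]
        congr 1
        apply Subtype.ext
        show (s.1 * t.1) * z * (s.1 * t.1)⁻¹ * z⁻¹ =
          (s.1 * z * s.1⁻¹ * z⁻¹) * (t.1 * z * t.1⁻¹ * z⁻¹)
        have hωt := hzK t.1 t.2
        have h1 : (s.1 * t.1) * z * (s.1 * t.1)⁻¹ * z⁻¹ =
            (s.1 * (t.1 * z * t.1⁻¹ * z⁻¹)) * z * s.1⁻¹ * z⁻¹ := by group
        rw [h1, hK₁ s.1 s.2 _ hωt, H.C.hab _ (hzK s.1 s.2) _ hωt]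
        group }
  refine ⟨F, fun t => ?_⟩
  constructor
  · intro ht
    have h1 : κ ⟨t.1 * z * t.1⁻¹ * z⁻¹, hzK t.1 t.2⟩ = 1 := congrArg Subtype.val ht
    have h2 : (⟨t.1 * z * t.1⁻¹ * z⁻¹, hzK t.1 t.2⟩ : A) = 1 :=
      H.C.inj (by rw [h1, map_one])
    have h3 : t.1 * z * t.1⁻¹ * z⁻¹ = 1 := congrArg Subtype.val h2
    calc t.1 * z = (t.1 * z * t.1⁻¹ * z⁻¹) * (z * t.1) := by group
      _ = _ := by rw [h3, one_mul]
  · intro ht
    apply Subtype.ext
    show κ ⟨t.1 * z * t.1⁻¹ * z⁻¹, _⟩ = 1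
    have h2 : (⟨t.1 * z * t.1⁻¹ * z⁻¹, hzK t.1 t.2⟩ : A) = 1 :=
      Subtype.ext (by show t.1 * z * t.1⁻¹ * z⁻¹ = 1; rw [ht]; group)
    rw [h2, map_one]

theorem DC.card_C2_dvd [Finite G] [Finite V] [Nontrivial V] [Finite K] (H : DC ρ A κ σ D 2)
    (hNone : ∀ w ∈ D, w ∉ A → w ^ 2 ≠ 1)
    (hC₁ : ∀ y : G, (∀ x ∈ D, x * y = y * x) → y ∈ A) {g h : G} (hg : g ∈ D) (hh : h ∈ D)
    (hgh : g * h ≠ h * g) :
    Nat.card (Subgroup.centralizer (A : Set G)) ∣ Nat.card A * 24 := by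
  classical
  haveI hAn : A.Normal := H.C.hA
  obtain ⟨ψ, hψ⟩ := exists_psi A D H.hD
  let C₂ : Subgroup G := Subgroup.centralizer (A : Set G)
  have hmemC₂ : ∀ t, t ∈ C₂ ↔ ∀ a ∈ A, t * a = a * t := by
    intro t
    constructor
    · intro ht a ha
      exact (Subgroup.mem_centralizer_iff.1 ht a ha).symm
    · intro ht
      exact Subgroup.mem_centralizer_iff.2 (fun a ha => (ht a ha).symm)
  let K₁ : Subgroup G := C₂ ⊓ ψ.ker
  let f₁ : C₂ →* Equiv.Perm (Alpha A D) := ψ.comp C₂.subtype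
  have e₁ : Nat.card C₂ = Nat.card K₁ * Nat.card f₁.range := by
    refine card_subgroup_of_hom f₁ inf_le_left ?_
    intro x
    constructor
    · intro hx
      exact ⟨x.2, hx⟩
    · intro hx
      exact hx.2
  have hK₁c : ∀ t ∈ K₁, ∀ a ∈ A, t * a = a * t := fun t ht a ha => (hmemC₂ t).1 ht.1 a ha
  have hK₁z : ∀ z ∈ D, ∀ t ∈ K₁, t * z * t⁻¹ * z⁻¹ ∈ A := by
    intro z hz t ht
    by_cases hzA : z ∈ A
    · rw [hK₁c t ht z hzA]
      have : z * t * t⁻¹ * z⁻¹ = 1 := by group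
      rw [this]
      exact A.one_mem
    · have hz1 : (z : G ⧸ A) ≠ 1 := fun h1 => hzA ((QuotientGroup.eq_one_iff _).1 h1)
      let x : Alpha A D := ⟨(z : G ⧸ A), ⟨z, hz, rfl⟩, hz1⟩
      have h1 : ψ t x = x := by
        have : ψ t = 1 := ht.2
        rw [this]
        rfl
      have h2 := hψ t x
      rw [h1] at h2
      rw [← QuotientGroup.eq_one_iff, QuotientGroup.mk_mul, QuotientGroup.mk_mul,
        QuotientGroup.mk_mul, QuotientGroup.mk_inv, QuotientGroup.mk_inv, ← h2]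
      exact mul_inv_cancel _
  obtain ⟨Fg, hFg⟩ := H.exists_fz K₁ hK₁c hg (hK₁z g hg)
  obtain ⟨Fh, hFh⟩ := H.exists_fz K₁ hK₁c hh (hK₁z h hh)
  let f₂ : K₁ →* (rootsOfUnity 2 K × rootsOfUnity 2 K) := MonoidHom.prod Fg Fh
  have hAK₁ : A ≤ K₁ := by
    intro a ha
    refine ⟨(hmemC₂ a).2 (fun b hb => H.C.hab a ha b hb), ?_⟩
    show ψ a = 1
    ext x
    rw [hψ, (QuotientGroup.eq_one_iff a).2 ha]
    simp
  have e₂ : Nat.card K₁ = Nat.card A * Nat.card f₂.range := by
    refine card_subgroup_of_hom f₂ hAK₁ ?_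
    intro t
    constructor
    · intro ht
      have h1 : Fg t = 1 := congrArg Prod.fst ht
      have h2 : Fh t = 1 := congrArg Prod.snd ht
      have h3 := (hFg t).1 h1
      have h4 := (hFh t).1 h2
      apply hC₁
      intro x hx
      have hcov := H.cover4 hNone hg hh hgh hx
      have hcomma : ∀ z : G, t.1 * z = z * t.1 → (z : G ⧸ A) = (x : G ⧸ A) →
          x * t.1 = t.1 * x := by
        intro z hz hzx
        have hb : z⁻¹ * x ∈ A := QuotientGroup.eq.1 hzx
        have h5 := hK₁c t.1 t.2 _ hb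
        have hx' : x = z * (z⁻¹ * x) := by group
        rw [hx']
        generalize z⁻¹ * x = b at h5
        calc z * b * t.1 = z * (b * t.1) := mul_assoc _ _ _
          _ = z * (t.1 * b) := by rw [h5]
          _ = (z * t.1) * b := (mul_assoc _ _ _).symm
          _ = (t.1 * z) * b := by rw [hz]
          _ = _ := mul_assoc _ _ _
      rcases hcov with h5 | h5 | h5 | h5
      · exact hcomma 1 (by simp) h5.symm
      · exact hcomma g h3 h5.symm
      · exact hcomma h h4 h5.symm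
      · refine hcomma (g * h) ?_ h5.symm
        calc t.1 * (g * h) = (t.1 * g) * h := (mul_assoc _ _ _).symm
          _ = (g * t.1) * h := by rw [h3]
          _ = g * (t.1 * h) := mul_assoc _ _ _
          _ = g * (h * t.1) := by rw [h4]
          _ = _ := (mul_assoc _ _ _).symm
    · intro ht
      have h3 : Fg t = 1 := (hFg t).2 (H.hDc g hg _ ht).symm
      have h4 : Fh t = 1 := (hFh t).2 (H.hDc h hh _ ht).symm
      exact Prod.ext h3 h4
  -- sizes of the ranges
  have hAlpha : Nat.card (Alpha A D) ≤ 3 := by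
    rw [Nat.card_coe_set_eq]
    have hsub : Alpha A D ⊆ (({(g : G ⧸ A), (h : G ⧸ A), ((g * h : G) : G ⧸ A)} :
        Finset (G ⧸ A)) : Set (G ⧸ A)) := by
      rintro _ ⟨⟨x, hx, rfl⟩, hne⟩
      simp only [Finset.coe_insert, Finset.coe_singleton, Set.mem_insert_iff, Set.mem_singleton_iff]
      rcases H.cover4 hNone hg hh hgh hx with h5 | h5 | h5 | h5
      · exact absurd h5 hne
      · exact Or.inl h5
      · exact Or.inr (Or.inl h5)
      · exact Or.inr (Or.inr h5)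
    have h6 := Set.ncard_le_ncard hsub (Set.toFinite _)
    rw [Set.ncard_coe_finset] at h6
    exact h6.trans Finset.card_le_three
  have ha : Nat.card f₁.range ∣ 6 := by
    have h1 : Nat.card f₁.range ∣ Nat.card (Equiv.Perm (Alpha A D)) :=
      Subgroup.card_subgroup_dvd_card _
    rw [Nat.card_perm] at h1
    exact h1.trans (Nat.factorial_dvd_factorial hAlpha)
  have hb : Nat.card f₂.range ∣ 4 := by
    have h1 : Nat.card f₂.range ∣ Nat.card (rootsOfUnity 2 K × rootsOfUnity 2 K) :=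
      Subgroup.card_subgroup_dvd_card _
    rw [Nat.card_prod] at h1
    have h2 : Nat.card (rootsOfUnity 2 K) ≤ 2 := card_rootsOfUnity K 2
    have h3 : 0 < Nat.card (rootsOfUnity 2 K) := Nat.card_pos
    refine h1.trans ?_
    have h4 : Nat.card (rootsOfUnity 2 K) = 1 ∨ Nat.card (rootsOfUnity 2 K) = 2 := by omega
    rcases h4 with h4 | h4 <;> rw [h4] <;> norm_num
  show Nat.card C₂ ∣ _
  rw [e₁, e₂, mul_assoc]
  exact Nat.mul_dvd_mul_left _ (Nat.mul_dvd_mul hb ha)


/-- numeric consequence when `C_G(D) = A`. -/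
theorem DC.order_case [Finite G] [Finite V] [Nontrivial V] [Finite K] [CharP K q]
    (H : DC ρ A κ σ D 2) (hNone : ∀ w ∈ D, w ∉ A → w ^ 2 ≠ 1)
    (hC₁ : ∀ y : G, (∀ x ∈ D, x * y = y * x) → y ∈ A) {g h : G} (hg : g ∈ D) (hh : h ∈ D)
    (hgh : g * h ≠ h * g) :
    Nat.card V ∈ ({9, 25, 49, 121, 529, 81} : Set ℕ) := by
  classical
  have hdvd := H.card_C2_dvd hNone hC₁ hg hh hgh
  obtain ⟨f, hf0, hQ, hfc⟩ := exists_f (q := q) (K := K)
  have hq2 : q ≠ 2 := by
    rintro rfl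
    exact H.neg_one_ne (CharTwo.neg_eq (R := K) 1)
  have hkerσ : σ.ker = Subgroup.centralizer (A : Set G) := by
    ext t
    rw [H.C.mem_ker_iff, Subgroup.mem_centralizer_iff]
    constructor
    · intro ht a ha
      exact (ht a ha).symm
    · intro ht a ha
      exact (ht a ha).symm
  have hG : Nat.card G = Nat.card (Subgroup.centralizer (A : Set G)) * Nat.card σ.range := by
    rw [← hkerσ]
    exact H.C.card_G
  haveI : Finite (K ≃+* K) :=
    Finite.of_injective (fun r : K ≃+* K => (r : K → K)) (fun a b h => RingEquiv.ext (congrFun h))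
  have hf' : Nat.card σ.range ∣ f := hfc ▸ Subgroup.card_subgroup_dvd_card _
  have hPG := card_sub_one_dvd ρ H.C.htrans
  have hPd : Nat.card V = Nat.card K ^ Module.finrank K V := card_V_eq
  have hd0 := finrank_pos' (K := K) (V := V)
  have hAdvd := H.C.card_A_dvd
  have hQ1 : 1 < Nat.card K := Finite.one_lt_card
  -- `d ≥ 2`
  have hd2 : 2 ≤ Module.finrank K V := by
    by_contra hlt
    have hd1 : Module.finrank K V = 1 := by omega
    have he := H.e_le (K := K)
    rw [hd1] at he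
    have hgA : g ∉ A := fun hmem => hgh (H.hDc h hh g hmem).symm
    have hsub : (({((1 : G) : G ⧸ A), (g : G ⧸ A)} : Finset (G ⧸ A)) : Set (G ⧸ A)) ⊆ DBar A D := by
      intro b hb
      simp only [Finset.coe_insert, Finset.coe_singleton, Set.mem_insert_iff,
        Set.mem_singleton_iff] at hb
      rcases hb with rfl | rfl
      · exact ⟨1, D.one_mem, rfl⟩
      · exact ⟨g, hg, rfl⟩
    have h6 := Set.ncard_le_ncard hsub (Set.toFinite _)
    rw [Set.ncard_coe_finset, Finset.card_pair] at h6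
    · omega
    · intro hcon
      apply hgA
      have := QuotientGroup.eq.1 hcon
      simpa using this
  set d := Module.finrank K V with hd
  set Q := Nat.card K with hQdef
  obtain ⟨x, hx⟩ : ∃ x, Q = x + 1 := ⟨Q - 1, by omega⟩
  obtain ⟨w, hw⟩ := hAdvd
  have hxw : x = Nat.card A * w := by
    rw [hx] at hw
    simpa using hw
  set M := ∑ i ∈ Finset.range d, (x + 1) ^ i with hM
  have hgeom : M * x + 1 = (x + 1) ^ d := geom_sum_mul_add x d
  have hP1 : Nat.card V - 1 = M * x := by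
    rw [hPd, hx, ← hgeom]
    simp
  rw [hP1, hG] at hPG
  have hAcard : 0 < Nat.card A := Nat.card_pos
  have h24 : M ∣ 24 * f := by
    have h2 : M * x ∣ Nat.card A * 24 * Nat.card σ.range :=
      hPG.trans (Nat.mul_dvd_mul_right hdvd _)
    rw [hxw] at h2
    have h1 : Nat.card A * (M * w) ∣ Nat.card A * (24 * Nat.card σ.range) := by
      convert h2 using 1 <;> ring
    have h3 := Nat.dvd_of_mul_dvd_mul_left hAcard h1
    have h4 : M ∣ 24 * Nat.card σ.range := (Dvd.intro _ rfl).trans h3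
    exact h4.trans (Nat.mul_dvd_mul_left 24 hf')
  have hfinal := numeric_final (q := q) (f := f) (d := d) (Fact.out : q.Prime) hq2 hf0 hd2 (by
    rw [← hQ, hx]
    exact h24)
  rw [hPd, hQ]
  exact hfinal

/-- the semiregular case. -/
theorem DC.semireg_list [Finite G] [Finite K] [Finite V] [Nontrivial V] [CharP K q]
    (hsol : Group.IsSolvable G) (H : DC ρ A κ σ D 2)
    (hmax : ∀ B : Subgroup G, B.Normal → (∀ a ∈ B, ∀ b ∈ B, a * b = b * a) → A ≤ B → B ≤ A)
    (hNone : ∀ w ∈ D, w ∉ A → w ^ 2 ≠ 1) :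
    Nat.card V ∈ ({9, 25, 49, 121, 529, 81} : Set ℕ) := by
  classical
  haveI hAn : A.Normal := H.C.hA
  haveI hDn : D.Normal := H.hD
  obtain ⟨g, hg, hgA⟩ := H.hne
  obtain ⟨h, hh, hl⟩ := H.exists_noncomm hg hgA
  have hgh : g * h ≠ h * g := fun hc => hl (lam_of_comm hc)
  let C₁ : Subgroup G := Subgroup.centralizer (D : Set G)
  have hmemC₁ : ∀ y, y ∈ C₁ ↔ ∀ x ∈ D, x * y = y * x := fun y =>
    Subgroup.mem_centralizer_iff
  have hC₁n : C₁.Normal := Subgroup.normal_centralizer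
  have hAC₁ : A ≤ C₁ := by
    intro a ha
    rw [hmemC₁]
    intro x hx
    exact H.hDc x hx a ha
  by_cases hC₁ : ∃ y ∈ C₁, y ∉ A
  · obtain ⟨D', hD'n, hAD', hD'C, hne', r', hr', hpow', hcomm'⟩ :=
      exists_D hsol A C₁ hC₁n hAC₁ hC₁
    have hD'c : ∀ x ∈ D', ∀ a ∈ A, x * a = a * x := by
      intro x hx a ha
      exact ((hmemC₁ x).1 (hD'C hx) a (H.hAD ha)).symm
    have H' : DC ρ A κ σ D' r' := mkDC H.C hmax hD'n hAD' hD'c hr' hpow' hcomm' hne'
    by_cases hr2 : r' = 2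
    · subst hr2
      haveI := hD'n
      have hcommu : ∀ u ∈ D, ∀ v ∈ D', Commute u v := by
        intro u hu v hv
        exact (hmemC₁ v).1 (hD'C hv) u hu
      have hmem3 : ∀ x, x ∈ D ⊔ D' ↔ ∃ u ∈ D, ∃ v ∈ D', u * v = x := by
        intro x
        rw [← SetLike.mem_coe, Subgroup.mul_normal, Set.mem_mul]
        rfl
      let π : G →* G ⧸ A := QuotientGroup.mk' A
      have hπ1 : ∀ z, π z = 1 ↔ z ∈ A := fun z => QuotientGroup.eq_one_iff z
      have hcommπ : ∀ (E : Subgroup G), (∀ x ∈ E, ∀ y ∈ E, x * y * x⁻¹ * y⁻¹ ∈ A) →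
          ∀ x ∈ E, ∀ y ∈ E, Commute (π x) (π y) := by
        intro E hE x hx y hy
        have h1 := (hπ1 _).2 (hE x hx y hy)
        simp only [map_mul, map_inv] at h1
        show π x * π y = π y * π x
        calc π x * π y = (π x * π y * (π x)⁻¹ * (π y)⁻¹) * (π y * π x) := by group
          _ = _ := by rw [h1, one_mul]
      have H₃ : DC ρ A κ σ (D ⊔ D') 2 := by
        refine mkDC H.C hmax (Subgroup.sup_normal D D') (H.hAD.trans le_sup_left) ?_ Nat.prime_two
          ?_ ?_ ⟨g, (le_sup_left : D ≤ D ⊔ D') hg, hgA⟩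
        · intro x hx a ha
          obtain ⟨u, hu, v, hv, rfl⟩ := (hmem3 x).1 hx
          calc u * v * a = u * (v * a) := mul_assoc _ _ _
            _ = u * (a * v) := by rw [hD'c v hv a ha]
            _ = (u * a) * v := (mul_assoc _ _ _).symm
            _ = (a * u) * v := by rw [H.hDc u hu a ha]
            _ = _ := mul_assoc _ _ _
        · intro x hx
          obtain ⟨u, hu, v, hv, rfl⟩ := (hmem3 x).1 hx
          rw [(hcommu u hu v hv).mul_pow]
          exact A.mul_mem (H.hpow u hu) (H'.hpow v hv)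
        · intro x hx y hy
          obtain ⟨u, hu, v, hv, rfl⟩ := (hmem3 x).1 hx
          obtain ⟨u', hu', v', hv', rfl⟩ := (hmem3 y).1 hy
          rw [← hπ1]
          have huu := hcommπ D H.hcomm u hu u' hu'
          have hvv := hcommπ D' H'.hcomm v hv v' hv'
          have huv : Commute (π u) (π v') := (hcommu u hu v' hv').map π
          have hvu : Commute (π v) (π u') := ((hcommu u' hu' v hv).map π).symm
          have hc : Commute (π u * π v) (π u' * π v') :=
            Commute.mul_left (Commute.mul_right huu huv) (Commute.mul_right hvu hvv)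
          simp only [map_mul, map_inv]
          calc π u * π v * (π u' * π v') * (π u * π v)⁻¹ * (π u' * π v')⁻¹
              = (π u' * π v') * (π u * π v) * (π u * π v)⁻¹ * (π u' * π v')⁻¹ := by
                rw [hc.eq]
            _ = 1 := by group
      by_cases hN₃ : ∃ w ∈ D ⊔ D', w ∉ A ∧ w ^ 2 = 1
      · obtain ⟨w, hw, hwA, hwr⟩ := hN₃
        exact H₃.two_N_list hw hwA hwr
      · exfalso
        push Not at hN₃
        obtain ⟨y', hy', hy'A⟩ := hne'
        have hyc : ∀ u ∈ D, u * y' = y' * u := fun u hu => (hcommu u hu y' hy').eq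
        have hcase : ∀ z : G, (y' : G ⧸ A) = (z : G ⧸ A) → ∀ u ∈ D, u * z = z * u := by
          intro z hyz u hu
          have ha : y'⁻¹ * z ∈ A := QuotientGroup.eq.1 hyz
          have hz : z = y' * (y'⁻¹ * z) := by group
          rw [hz]
          generalize y'⁻¹ * z = a at ha
          calc u * (y' * a) = (u * y') * a := (mul_assoc _ _ _).symm
            _ = (y' * u) * a := by rw [hyc u hu]
            _ = y' * (u * a) := mul_assoc _ _ _
            _ = y' * (a * u) := by rw [H.hDc u hu a ha]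
            _ = _ := (mul_assoc _ _ _).symm
        rcases H₃.cover4 hN₃ ((le_sup_left : D ≤ D ⊔ D') hg) ((le_sup_left : D ≤ D ⊔ D') hh) hgh
          ((le_sup_right : D' ≤ D ⊔ D') hy') with h5 | h5 | h5 | h5
        · apply hy'A
          rw [QuotientGroup.mk_one] at h5
          exact (QuotientGroup.eq_one_iff y').1 h5
        · exact hgh (hcase g h5 h hh).symm
        · exact hgh (hcase h h5 g hg)
        · have hc := hcase (g * h) h5 g hg
          apply hgh
          rw [mul_assoc] at hc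
          exact mul_left_cancel hc
    · exact (H'.odd_false hr2).elim
  · push Not at hC₁
    refine H.order_case hNone ?_ hg hh hgh
    intro y hy
    exact hC₁ y ((hmemC₁ y).2 hy)

end dc

/-- Huppert's theorem. -/
theorem huppert (q : ℕ) [Fact q.Prime] {V : Type u} [AddCommGroup V] [Module (ZMod q) V] [Finite V]
    [Nontrivial V] {G : Type v} [Group G] [Finite G] (hsol : Group.IsSolvable G)
    (ρ : G →* (V ≃ₗ[ZMod q] V)) (hρ : Function.Injective ρ)
    (htrans : ∀ v w : V, v ≠ 0 → w ≠ 0 → ∃ g : G, ρ g v = w) :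
    (∃ (F : Type) (_ : Field F) (_ : Fintype F) (e : V ≃+ F),
        ∀ g : G, ∃ (a : F) (σ : F ≃+* F), ∀ v : V, e (ρ g v) = a * σ (e v)) ∨
    Nat.card V ∈ ({9, 25, 49, 121, 529, 81} : Set ℕ) := by
  classical
  let P : Subgroup G → Prop := fun B => B.Normal ∧ ∀ a ∈ B, ∀ b ∈ B, a * b = b * a
  have hfin : ({B | P B} : Set (Subgroup G)).Finite := Set.toFinite _
  have hbot : (⊥ : Subgroup G) ∈ {B | P B} := by
    refine ⟨inferInstance, ?_⟩
    intro a ha b hb
    rw [Subgroup.mem_bot] at ha hb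
    rw [ha, hb]
  obtain ⟨A, hAmax⟩ := hfin.exists_maximal ⟨_, hbot⟩
  obtain ⟨hAn, hab⟩ : P A := hAmax.prop
  have hmax : ∀ B : Subgroup G, B.Normal → (∀ a ∈ B, ∀ b ∈ B, a * b = b * a) → A ≤ B → B ≤ A :=
    fun B h1 h2 h3 => hAmax.le_of_ge (y := B) ⟨h1, h2⟩ h3
  obtain ⟨K, _, _, _, _, κ, σ, hinj, hsc, hsemi, hcent⟩ := exists_K ρ hρ htrans A hAn hab
  have C : Ctx ρ A κ σ := ⟨hρ, htrans, hAn, hab, hinj, hsc, hsemi, hcent⟩
  by_cases hC : ∀ g : G, (∀ a ∈ A, g * a = a * g) → g ∈ A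
  · left
    exact gamma_form C hC
  · right
    push Not at hC
    obtain ⟨g₀, hg₀, hg₀A⟩ := hC
    let C₂ : Subgroup G := Subgroup.centralizer (A : Set G)
    have hmemC₂ : ∀ t, t ∈ C₂ ↔ ∀ a ∈ A, t * a = a * t := by
      intro t
      constructor
      · intro ht a ha
        exact (Subgroup.mem_centralizer_iff.1 ht a ha).symm
      · intro ht
        exact Subgroup.mem_centralizer_iff.2 (fun a ha => (ht a ha).symm)
    have hC₂n : C₂.Normal := Subgroup.normal_centralizer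
    have hAC₂ : A ≤ C₂ := fun a ha => (hmemC₂ a).2 (fun b hb => hab a ha b hb)
    obtain ⟨D, hDn, hAD, hDC, hne, r, hr, hpow, hcomm⟩ :=
      exists_D hsol A C₂ hC₂n hAC₂ ⟨g₀, (hmemC₂ g₀).2 hg₀, hg₀A⟩
    have H : DC ρ A κ σ D r := mkDC C hmax hDn hAD
      (fun x hx a ha => (hmemC₂ x).1 (hDC hx) a ha) hr hpow hcomm hne
    by_cases hr2 : r = 2
    · subst hr2
      by_cases hN : ∃ w ∈ D, w ∉ A ∧ w ^ 2 = 1
      · obtain ⟨w, hw, hwA, hwr⟩ := hN
        exact H.two_N_list hw hwA hwr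
      · push Not at hN
        exact H.semireg_list hsol hmax hN
    · exact (H.odd_false hr2).elim

end Cfsg.Agent.H03.HP
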