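import Mathlib

set_option autoImplicit false

namespace Cfsg.Agent.H03.HQ

/-- abbreviation for the target group. -/
abbrev T := Matrix.SpecialLinearGroup (Fin 2) (ZMod 3)

/-- the relations of `SL(2,3)`. -/
structure QR {E : Type*} [Group E] (u v t : E) : Prop where
  hu4 : u ^ 4 = 1
  hv2 : v ^ 2 = u ^ 2
  hvu : v * u = u ^ 3 * v
  ht3 : t ^ 3 = 1
  htu : t * u = v * t
  htv : t * v = u * v * t

/-- first generator. -/
def u₀ : T := ⟨!![0, 1; 2, 0], by decide⟩
/-- second generator. -/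
def v₀ : T := ⟨!![1, 2; 2, 2], by decide⟩
/-- third generator. -/
def t₀ : T := ⟨!![1, 2; 0, 1], by decide⟩

set_option maxRecDepth 100000 in
theorem qr₀ : QR u₀ v₀ t₀ := ⟨by decide, by decide, by decide, by decide, by decide, by decide⟩

set_option maxRecDepth 100000 in
theorem u₀_ne : u₀ ^ 2 ≠ 1 := by decide

set_option maxRecDepth 1000000 in
theorem nf_surj : ∀ x : T, ∃ a : Fin 4, ∃ b : Fin 2, ∃ c : Fin 3,
    x = u₀ ^ a.val * v₀ ^ b.val * t₀ ^ c.val := by decide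

set_option maxRecDepth 1000000 in
theorem nf_inj : ∀ a : Fin 4, ∀ b : Fin 2, ∀ c : Fin 3,
    u₀ ^ a.val * v₀ ^ b.val * t₀ ^ c.val = 1 → a = 0 ∧ b = 0 ∧ c = 0 := by decide

set_option maxRecDepth 1000000 in
theorem ker_aux : ∀ x : T, x ≠ 1 → x = u₀ ^ 2 ∨ x ^ 2 = u₀ ^ 2 ∨ x ^ 3 = u₀ ^ 2 ∨
    (x * u₀ * x⁻¹ * u₀⁻¹) ^ 2 = u₀ ^ 2 ∨ (x * v₀ * x⁻¹ * v₀⁻¹) ^ 2 = u₀ ^ 2 := by decide

set_option maxRecDepth 100000 in
theorem card_T : Nat.card T = 24 := by
  rw [Nat.card_eq_fintype_card]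
  decide


section rules

variable {Y : Type*} [Group Y] {U V W : Y}

theorem QR.mem_step (h : QR U V W) (S : Set Y)
    (hS : S = {y | ∃ a b c : ℕ, b < 2 ∧ c < 3 ∧ y = U ^ a * V ^ b * W ^ c}) :
    (∀ x ∈ S, x * U ∈ S) ∧ (∀ x ∈ S, x * V ∈ S) ∧ (∀ x ∈ S, x * W ∈ S) := by
  subst hS
  have hWU : W * U = V * W := h.htu
  have hVU : V * U = U ^ 3 * V := h.hvu
  have hVV : V * V = U ^ 2 := by rw [← pow_two, h.hv2]
  have hWV : W * V = U * V * W := h.htv
  have hU5 : U ^ 5 = U := by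
    have : U ^ 5 = U ^ 4 * U := pow_succ _ _
    rw [this, h.hu4, one_mul]
  have i3 : V * W * U = U ^ 2 * W := by
    rw [mul_assoc, hWU, ← mul_assoc, hVV]
  have i4 : W ^ 2 * U = U * V * W ^ 2 := by
    rw [pow_two, mul_assoc, hWU, ← mul_assoc, hWV]
    simp only [mul_assoc]
  have i5 : V * W ^ 2 * U = U ^ 5 * W ^ 2 := by
    rw [mul_assoc, i4, ← mul_assoc, ← mul_assoc, hVU, mul_assoc (U ^ 3), hVV, ← pow_add]
  have j3 : V * W * V = U ^ 5 * W := by
    rw [mul_assoc, hWV, ← mul_assoc, ← mul_assoc, hVU, mul_assoc (U ^ 3), hVV, ← pow_add]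
  have j4 : W ^ 2 * V = U * W ^ 2 := by
    rw [pow_two, mul_assoc, hWV, ← mul_assoc, ← mul_assoc, hWU, mul_assoc V, hWV, ← mul_assoc,
      ← mul_assoc, ← mul_assoc, hVU, mul_assoc (U ^ 3), hVV, ← pow_add]
    show U ^ 5 * W * W = _
    rw [hU5, mul_assoc]
  have j5 : V * W ^ 2 * V = U ^ 3 * V * W ^ 2 := by
    rw [mul_assoc, j4, ← mul_assoc, hVU]
  have hcomb : ∀ (a k b' c' : ℕ) (x : Y), x = U ^ k * V ^ b' * W ^ c' →
      U ^ a * x = U ^ (a + k) * V ^ b' * W ^ c' := by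
    intro a k b' c' x hx
    rw [hx, pow_add]
    simp only [mul_assoc]
  refine ⟨?_, ?_, ?_⟩
  · rintro x ⟨a, b, c, hb, hc, rfl⟩
    have hb' : b = 0 ∨ b = 1 := by omega
    have hc' : c = 0 ∨ c = 1 ∨ c = 2 := by omega
    rcases hb' with rfl | rfl <;> rcases hc' with rfl | rfl | rfl
    · exact ⟨a + 1, 0, 0, by norm_num, by norm_num, by simp [pow_succ]⟩
    · refine ⟨a, 1, 1, by norm_num, by norm_num, ?_⟩
      simp only [pow_zero, mul_one, pow_one]
      rw [mul_assoc, hWU, mul_assoc]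
    · refine ⟨a + 1, 1, 2, by norm_num, by norm_num, ?_⟩
      simp only [pow_zero, mul_one, pow_one]
      rw [mul_assoc, i4, pow_succ U a]
      simp only [mul_assoc]
    · refine ⟨a + 3, 1, 0, by norm_num, by norm_num, ?_⟩
      simp only [pow_one, pow_zero, mul_one]
      rw [mul_assoc, hVU, pow_add, mul_assoc]
    · refine ⟨a + 2, 0, 1, by norm_num, by norm_num, ?_⟩
      simp only [pow_zero, mul_one, pow_one]
      rw [mul_assoc, mul_assoc, ← mul_assoc V, i3, pow_add, mul_assoc]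
    · refine ⟨a + 5, 0, 2, by norm_num, by norm_num, ?_⟩
      simp only [pow_zero, mul_one, pow_one]
      rw [mul_assoc, mul_assoc, ← mul_assoc V, i5, pow_add, mul_assoc]
  · rintro x ⟨a, b, c, hb, hc, rfl⟩
    have hb' : b = 0 ∨ b = 1 := by omega
    have hc' : c = 0 ∨ c = 1 ∨ c = 2 := by omega
    rcases hb' with rfl | rfl <;> rcases hc' with rfl | rfl | rfl
    · exact ⟨a, 1, 0, by norm_num, by norm_num, by simp⟩
    · refine ⟨a + 1, 1, 1, by norm_num, by norm_num, ?_⟩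
      simp only [pow_zero, mul_one, pow_one]
      rw [mul_assoc, hWV, pow_succ]
      simp only [mul_assoc]
    · refine ⟨a + 1, 0, 2, by norm_num, by norm_num, ?_⟩
      simp only [pow_zero, mul_one, pow_one]
      rw [mul_assoc (U ^ a), j4, pow_succ U a, mul_assoc]
    · refine ⟨a + 2, 0, 0, by norm_num, by norm_num, ?_⟩
      simp only [pow_zero, mul_one, pow_one]
      rw [mul_assoc, hVV, pow_add]
    · refine ⟨a + 5, 0, 1, by norm_num, by norm_num, ?_⟩
      simp only [pow_zero, mul_one, pow_one]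
      rw [mul_assoc, mul_assoc, ← mul_assoc V, j3, pow_add, mul_assoc]
    · refine ⟨a + 3, 1, 2, by norm_num, by norm_num, ?_⟩
      simp only [pow_zero, mul_one, pow_one]
      rw [mul_assoc, mul_assoc, ← mul_assoc V, j5, pow_add]
      simp only [mul_assoc]
  · rintro x ⟨a, b, c, hb, hc, rfl⟩
    have hc' : c = 0 ∨ c = 1 ∨ c = 2 := by omega
    rcases hc' with rfl | rfl | rfl
    · exact ⟨a, b, 1, hb, by norm_num, by simp⟩
    · refine ⟨a, b, 2, hb, by norm_num, ?_⟩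
      rw [mul_assoc, pow_one, pow_two]
    · refine ⟨a, b, 0, hb, by norm_num, ?_⟩
      have h3 : W ^ 2 * W = 1 := by rw [← pow_succ]; exact h.ht3
      rw [mul_assoc, h3, pow_zero]

theorem QR.closure_nf (h : QR U V W) {y : Y} (hy : y ∈ Subgroup.closure ({U, V, W} : Set Y)) :
    ∃ a b c : ℕ, b < 2 ∧ c < 3 ∧ y = U ^ a * V ^ b * W ^ c := by
  obtain ⟨hU, hV, hW⟩ := h.mem_step _ rfl
  have hinvU : U⁻¹ = U * U * U := by
    rw [inv_eq_iff_mul_eq_one]
    have : U * (U * U * U) = U ^ 4 := by simp only [pow_succ, pow_zero, one_mul, mul_assoc]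
    rw [this, h.hu4]
  have hV4 : V ^ 4 = 1 := by
    have : V ^ 4 = (V ^ 2) ^ 2 := by rw [← pow_mul]
    rw [this, h.hv2, ← pow_mul]
    exact h.hu4
  have hinvV : V⁻¹ = V * V * V := by
    rw [inv_eq_iff_mul_eq_one]
    have : V * (V * V * V) = V ^ 4 := by simp only [pow_succ, pow_zero, one_mul, mul_assoc]
    rw [this, hV4]
  have hinvW : W⁻¹ = W * W := by
    rw [inv_eq_iff_mul_eq_one]
    have : W * (W * W) = W ^ 3 := by simp only [pow_succ, pow_zero, one_mul, mul_assoc]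
    rw [this, h.ht3]
  induction hy using Subgroup.closure_induction_right with
  | one => exact ⟨0, 0, 0, by norm_num, by norm_num, by simp⟩
  | mul_right x _ g hg ih =>
    rcases hg with rfl | rfl | rfl
    · exact hU _ ih
    · exact hV _ ih
    · exact hW _ ih
  | mul_inv_cancel x _ g hg ih =>
    rcases hg with rfl | rfl | rfl
    · rw [hinvU, ← mul_assoc, ← mul_assoc]
      exact hU _ (hU _ (hU _ ih))
    · rw [hinvV, ← mul_assoc, ← mul_assoc]
      exact hV _ (hV _ (hV _ ih))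
    · rw [hinvW, ← mul_assoc]
      exact hW _ (hW _ ih)

end rules

/-- Recognition of `SL(2,3)` inside a group. -/
theorem exists_SL_hom {E : Type*} [Group E] {u v t : E} (hR : QR u v t) (hz : u ^ 2 ≠ 1) :
    ∃ F : T →* E, Function.Injective F := by
  classical
  let U : T × E := (u₀, u)
  let V : T × E := (v₀, v)
  let W : T × E := (t₀, t)
  have hQ : QR U V W := by
    have h0 := qr₀
    exact ⟨Prod.ext h0.hu4 hR.hu4, Prod.ext h0.hv2 hR.hv2, Prod.ext h0.hvu hR.hvu,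
      Prod.ext h0.ht3 hR.ht3, Prod.ext h0.htu hR.htu, Prod.ext h0.htv hR.htv⟩
  let B : Subgroup (T × E) := Subgroup.closure ({U, V, W} : Set (T × E))
  have hU : U ∈ B := Subgroup.subset_closure (by simp)
  have hV : V ∈ B := Subgroup.subset_closure (by simp)
  have hW : W ∈ B := Subgroup.subset_closure (by simp)
  let p : B →* T := (MonoidHom.fst T E).comp B.subtype
  have hmem : ∀ a b c : ℕ, (u₀ ^ a * v₀ ^ b * t₀ ^ c, u ^ a * v ^ b * t ^ c) ∈ B := by
    intro a b c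
    have : (u₀ ^ a * v₀ ^ b * t₀ ^ c, u ^ a * v ^ b * t ^ c) = U ^ a * V ^ b * W ^ c := by
      apply Prod.ext <;> simp [U, V, W]
    rw [this]
    exact B.mul_mem (B.mul_mem (B.pow_mem hU a) (B.pow_mem hV b)) (B.pow_mem hW c)
  have hpinj : Function.Injective p := by
    rw [injective_iff_map_eq_one]
    rintro ⟨⟨x, y⟩, hxy⟩ hp
    have hx : x = 1 := hp
    obtain ⟨a, b, c, hb, hc, heq⟩ := hQ.closure_nf hxy
    have h1 : x = u₀ ^ a * v₀ ^ b * t₀ ^ c := by
      have := congrArg Prod.fst heq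
      simpa [U, V, W] using this
    have h2 : y = u ^ a * v ^ b * t ^ c := by
      have := congrArg Prod.snd heq
      simpa [U, V, W] using this
    have ha4 : u₀ ^ a = u₀ ^ (a % 4) := pow_eq_pow_mod a qr₀.hu4
    have ha4' : u ^ a = u ^ (a % 4) := pow_eq_pow_mod a hR.hu4
    have h3 := nf_inj ⟨a % 4, Nat.mod_lt _ (by norm_num)⟩ ⟨b, hb⟩ ⟨c, hc⟩ (by
      show u₀ ^ (a % 4) * v₀ ^ b * t₀ ^ c = 1
      rw [← ha4, ← h1, hx])
    have ha0 : a % 4 = 0 := congrArg Fin.val h3.1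
    have hb0 : b = 0 := congrArg Fin.val h3.2.1
    have hc0 : c = 0 := congrArg Fin.val h3.2.2
    apply Subtype.ext
    apply Prod.ext
    · exact hx
    · show y = 1
      rw [h2, ha4', ha0, hb0, hc0]
      simp
  have hpsurj : Function.Surjective p := by
    intro x
    obtain ⟨a, b, c, rfl⟩ := nf_surj x
    exact ⟨⟨_, hmem a.val b.val c.val⟩, rfl⟩
  let e : B ≃* T := MulEquiv.ofBijective p ⟨hpinj, hpsurj⟩
  let F : T →* E := (MonoidHom.snd T E).comp (B.subtype.comp e.symm.toMonoidHom)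
  have hF : ∀ (x : T) (y : E), (x, y) ∈ B → F x = y := by
    intro x y hxy
    have h1 : e ⟨(x, y), hxy⟩ = x := rfl
    show (e.symm x).1.2 = y
    rw [← h1, e.symm_apply_apply]
  have hFu : F u₀ = u := hF _ _ hU
  have hFv : F v₀ = v := hF _ _ hV
  refine ⟨F, ?_⟩
  rw [injective_iff_map_eq_one]
  intro x hx
  by_contra hne
  apply hz
  have hFu2 : F (u₀ ^ 2) = u ^ 2 := by rw [map_pow, hFu]
  rw [← hFu2]
  rcases ker_aux x hne with h | h | h | h | h
  · rw [← h, hx]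
  · rw [← h, map_pow, hx, one_pow]
  · rw [← h, map_pow, hx, one_pow]
  · rw [← h, map_pow, map_mul, map_mul, map_mul, map_inv, map_inv, hx, hFu]
    simp
  · rw [← h, map_pow, map_mul, map_mul, map_mul, map_inv, map_inv, hx, hFv]
    simp

end Cfsg.Agent.H03.HQ
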