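import Mathlib
import Cfsg.Agent.Lib.H03.HP9
import Cfsg.Agent.Lib.H03.HQ1

set_option autoImplicit false

namespace Cfsg.Agent.H03.HP

universe u v

open Cfsg.Agent.H03.HQ

theorem isSquare_mul_iff {F : Type*} [Field F] [Fintype F] {x y : F} (hx : x ≠ 0) (hy : y ≠ 0) :
    IsSquare (x * y) ↔ (IsSquare x ↔ IsSquare y) := by
  classical
  have h0 : x * y ≠ 0 := mul_ne_zero hx hy
  have h1 := map_mul (quadraticChar F) x y
  rw [← quadraticChar_one_iff_isSquare h0, ← quadraticChar_one_iff_isSquare hx,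
    ← quadraticChar_one_iff_isSquare hy, h1]
  rcases quadraticChar_dichotomy hx with h2 | h2 <;> rcases quadraticChar_dichotomy hy with h3 | h3 <;>
    rw [h2, h3] <;> norm_num

theorem index_two_of_hom {G : Type*} [Group G] (χ : G →* ℤˣ) {g : G} (hg : χ g = -1) :
    ∃ N : Subgroup G, N.Normal ∧ N.index = 2 := by
  refine ⟨χ.ker, inferInstance, ?_⟩
  rw [Subgroup.index_ker]
  have htop : χ.range = ⊤ := by
    rw [eq_top_iff]
    intro x _
    rcases Int.units_eq_one_or x with rfl | rfl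
    · exact Subgroup.one_mem _
    · exact ⟨g, hg⟩
  rw [htop, Subgroup.card_top, Nat.card_eq_fintype_card]
  rfl

variable {q : ℕ} [hq : Fact q.Prime] {V : Type u} [AddCommGroup V] [Module (ZMod q) V]
  {G : Type v} [Group G]

theorem index_two_of_semilinear [Finite V] [Nontrivial V] (hq2 : q ≠ 2)
    (ρ : G →* (V ≃ₗ[ZMod q] V)) (htrans : ∀ v w : V, v ≠ 0 → w ≠ 0 → ∃ g : G, ρ g v = w)
    {F : Type} [Field F] [Fintype F] (e : V ≃+ F)
    (h : ∀ g : G, ∃ (a : F) (σ : F ≃+* F), ∀ v : V, e (ρ g v) = a * σ (e v)) :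
    ∃ N : Subgroup G, N.Normal ∧ N.index = 2 := by
  classical
  have hchar : ringChar F ≠ 2 := by
    intro h2
    have h20 : (2 : F) = 0 := by
      have := ringChar.Nat.cast_ringChar (R := F)
      rw [h2] at this
      exact_mod_cast this
    obtain ⟨v, hv⟩ := exists_ne (0 : V)
    have h3 : v + v = 0 := by
      apply e.injective
      rw [map_add, map_zero, ← two_mul, h20, zero_mul]
    have h4 : (2 : ZMod q) • v = 0 := by rw [two_smul, h3]
    have h5 := (smul_eq_zero.1 h4).resolve_right hv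
    have h6 : ((2 : ℕ) : ZMod q) = 0 := by exact_mod_cast h5
    have h7 := (ZMod.natCast_eq_zero_iff 2 q).1 h6
    have h8 := (Nat.prime_dvd_prime_iff_eq (Fact.out : q.Prime) Nat.prime_two).1 h7
    exact hq2 h8
  obtain ⟨b, hb⟩ := FiniteField.exists_nonsquare hchar
  have hb0 : b ≠ 0 := by
    rintro rfl
    exact hb IsSquare.zero
  let w₁ : V := e.symm 1
  have hw₁ : w₁ ≠ 0 := by
    intro h0
    have : e w₁ = 1 := e.apply_symm_apply 1
    rw [h0, map_zero] at this
    exact zero_ne_one this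
  let a : G → F := fun g => e (ρ g w₁)
  have ha0 : ∀ g, a g ≠ 0 := by
    intro g h0
    have : ρ g w₁ = 0 := e.injective (by rw [map_zero]; exact h0)
    exact hw₁ ((ρ g).map_eq_zero_iff.1 this)
  have hmul : ∀ g g' : G, ∃ σ : F ≃+* F, a (g * g') = a g * σ (a g') := by
    intro g g'
    obtain ⟨c, σ, hc⟩ := h g
    have h1 : a g = c := by
      have := hc w₁
      have h2 : e w₁ = 1 := e.apply_symm_apply 1
      rw [h2, map_one, mul_one] at this
      exact this
    refine ⟨σ, ?_⟩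
    show e (ρ (g * g') w₁) = _
    rw [rho_mul, hc, h1]
  have hsq : ∀ (σ : F ≃+* F) (x : F), IsSquare (σ x) ↔ IsSquare x := by
    intro σ x
    constructor
    · intro hs
      have := hs.map σ.symm
      simpa using this
    · intro hs
      exact hs.map σ
  let χ : G →* ℤˣ := MonoidHom.mk' (fun g => if IsSquare (a g) then 1 else -1) (by
    intro g g'
    obtain ⟨σ, hσ⟩ := hmul g g'
    have h0 : σ (a g') ≠ 0 := (map_ne_zero σ).2 (ha0 g')
    have h1 := isSquare_mul_iff (ha0 g) h0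
    rw [hsq] at h1
    rw [hσ]
    by_cases h2 : IsSquare (a g) <;> by_cases h3 : IsSquare (a g') <;> simp_all)
  obtain ⟨g, hg⟩ := htrans w₁ (e.symm b) hw₁ (fun h0 => hb0 (by
    have := e.apply_symm_apply b
    rw [h0, map_zero] at this
    exact this.symm))
  have hag : a g = b := by
    show e (ρ g w₁) = b
    rw [hg]
    exact e.apply_symm_apply b
  refine index_two_of_hom χ (g := g) ?_
  show (if IsSquare (a g) then (1 : ℤˣ) else -1) = -1
  rw [hag, if_neg hb]

theorem card_G_regular [Finite V] [Nontrivial V] [Finite G] (ρ : G →* (V ≃ₗ[ZMod q] V))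
    (htrans : ∀ v w : V, v ≠ 0 → w ≠ 0 → ∃ g : G, ρ g v = w)
    (hreg : ∀ v : V, v ≠ 0 → ∀ g : G, ρ g v = v → g = 1) : Nat.card G = Nat.card V - 1 := by
  classical
  obtain ⟨v₀, hv₀⟩ := exists_ne (0 : V)
  let f : G → {v : V // v ≠ 0} := fun g => ⟨ρ g v₀, rho_ne_zero hv₀⟩
  have hbij : Function.Bijective f := by
    constructor
    · intro a b hab
      have h1 : ρ a v₀ = ρ b v₀ := congrArg Subtype.val hab
      have h2 : ρ (b⁻¹ * a) v₀ = v₀ := by rw [rho_mul, h1, rho_inv]
      have h3 := hreg v₀ hv₀ _ h2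
      exact (inv_mul_eq_one.1 h3).symm
    · rintro ⟨w, hw⟩
      obtain ⟨g, hg⟩ := htrans v₀ w hv₀ hw
      exact ⟨g, Subtype.ext hg⟩
  rw [Nat.card_congr (Equiv.ofBijective f hbij)]
  have h3 : ({v : V | v ≠ 0} : Set V) = {(0 : V)}ᶜ := by
    ext; simp
  have h4 : Nat.card {v : V // v ≠ 0} = ({v : V | v ≠ 0} : Set V).ncard := Nat.card_coe_set_eq _
  rw [h4, h3, Set.ncard_compl, Set.ncard_singleton]

end Cfsg.Agent.H03.HP
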