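import Mathlib
import Cfsg.Agent.Lib.H03.HQ2

set_option autoImplicit false

namespace Cfsg.Agent.H03.HP

universe u v

open Cfsg.Agent.H03.HQ

variable {q : ℕ} [hq : Fact q.Prime] {V : Type u} [AddCommGroup V] [Module (ZMod q) V]
  {G : Type v} [Group G]

variable {ρ : G →* (V ≃ₗ[ZMod q] V)} {A : Subgroup G} {K : Type u} [Field K] [Module K V]
    {κ : A →* Kˣ} {σ : G →* (K ≃+* K)}

section dc

variable {D : Subgroup G}

theorem DC.C1_of_regular [Finite G] [Finite K] [Finite V] [Nontrivial V]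
    (hsol : Group.IsSolvable G) (H : DC ρ A κ σ D 2)
    (hmax : ∀ B : Subgroup G, B.Normal → (∀ a ∈ B, ∀ b ∈ B, a * b = b * a) → A ≤ B → B ≤ A)
    (hreg : ∀ v : V, v ≠ 0 → ∀ g : G, ρ g v = v → g = 1) {g h : G} (hg : g ∈ D) (hh : h ∈ D)
    (hgh : g * h ≠ h * g) : ∀ y : G, (∀ x ∈ D, x * y = y * x) → y ∈ A := by
  classical
  haveI hAn : A.Normal := H.C.hA
  haveI hDn : D.Normal := H.hD
  let C₁ : Subgroup G := Subgroup.centralizer (D : Set G)
  have hmemC₁ : ∀ y, y ∈ C₁ ↔ ∀ x ∈ D, x * y = y * x := fun y =>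
    Subgroup.mem_centralizer_iff
  have hC₁n : C₁.Normal := Subgroup.normal_centralizer
  have hAC₁ : A ≤ C₁ := by
    intro a ha
    rw [hmemC₁]
    intro x hx
    exact H.hDc x hx a ha
  have hgA : g ∉ A := fun hmem => hgh (H.hDc h hh g hmem).symm
  intro y₀ hy₀
  by_contra hy₀A
  have hC₁ : ∃ y ∈ C₁, y ∉ A := ⟨y₀, (hmemC₁ y₀).2 hy₀, hy₀A⟩
  · obtain ⟨D', hD'n, hAD', hD'C, hne', r', hr', hpow', hcomm'⟩ :=
      exists_D hsol A C₁ hC₁n hAC₁ hC₁
    have hD'c : ∀ x ∈ D', ∀ a ∈ A, x * a = a * x := by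
      intro x hx a ha
      exact ((hmemC₁ x).1 (hD'C hx) a (H.hAD ha)).symm
    have H' : DC ρ A κ σ D' r' := mkDC H.C hmax hD'n hAD' hD'c hr' hpow' hcomm' hne'
    by_cases hr2 : r' = 2
    · subst hr2
      haveI := hD'n
      have hcommu : ∀ u ∈ D, ∀ v ∈ D', Commute u v := by
        intro u hu v hv
        exact (hmemC₁ v).1 (hD'C hv) u hu
      have hmem3 : ∀ x, x ∈ D ⊔ D' ↔ ∃ u ∈ D, ∃ v ∈ D', u * v = x := by
        intro x
        rw [← SetLike.mem_coe, Subgroup.mul_normal, Set.mem_mul]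
        rfl
      let π : G →* G ⧸ A := QuotientGroup.mk' A
      have hπ1 : ∀ z, π z = 1 ↔ z ∈ A := fun z => QuotientGroup.eq_one_iff z
      have hcommπ : ∀ (E : Subgroup G), (∀ x ∈ E, ∀ y ∈ E, x * y * x⁻¹ * y⁻¹ ∈ A) →
          ∀ x ∈ E, ∀ y ∈ E, Commute (π x) (π y) := by
        intro E hE x hx y hy
        have h1 := (hπ1 _).2 (hE x hx y hy)
        simp only [map_mul, map_inv] at h1
        show π x * π y = π y * π x
        calc π x * π y = (π x * π y * (π x)⁻¹ * (π y)⁻¹) * (π y * π x) := by group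
          _ = _ := by rw [h1, one_mul]
      have H₃ : DC ρ A κ σ (D ⊔ D') 2 := by
        refine mkDC H.C hmax (Subgroup.sup_normal D D') (H.hAD.trans le_sup_left) ?_ Nat.prime_two
          ?_ ?_ ⟨g, (le_sup_left : D ≤ D ⊔ D') hg, hgA⟩
        · intro x hx a ha
          obtain ⟨u, hu, v, hv, rfl⟩ := (hmem3 x).1 hx
          calc u * v * a = u * (v * a) := mul_assoc _ _ _
            _ = u * (a * v) := by rw [hD'c v hv a ha]
            _ = (u * a) * v := (mul_assoc _ _ _).symm
            _ = (a * u) * v := by rw [H.hDc u hu a ha]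
            _ = _ := mul_assoc _ _ _
        · intro x hx
          obtain ⟨u, hu, v, hv, rfl⟩ := (hmem3 x).1 hx
          rw [(hcommu u hu v hv).mul_pow]
          exact A.mul_mem (H.hpow u hu) (H'.hpow v hv)
        · intro x hx y hy
          obtain ⟨u, hu, v, hv, rfl⟩ := (hmem3 x).1 hx
          obtain ⟨u', hu', v', hv', rfl⟩ := (hmem3 y).1 hy
          rw [← hπ1]
          have huu := hcommπ D H.hcomm u hu u' hu'
          have hvv := hcommπ D' H'.hcomm v hv v' hv'
          have huv : Commute (π u) (π v') := (hcommu u hu v' hv').map π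
          have hvu : Commute (π v) (π u') := ((hcommu u' hu' v hv).map π).symm
          have hc : Commute (π u * π v) (π u' * π v') :=
            Commute.mul_left (Commute.mul_right huu huv) (Commute.mul_right hvu hvv)
          simp only [map_mul, map_inv]
          calc π u * π v * (π u' * π v') * (π u * π v)⁻¹ * (π u' * π v')⁻¹
              = (π u' * π v') * (π u * π v) * (π u * π v)⁻¹ * (π u' * π v')⁻¹ := by
                rw [hc.eq]
            _ = 1 := by group
      have hN₃ : ∀ w ∈ D ⊔ D', w ∉ A → w ^ 2 ≠ 1 := by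
        intro w hw hwA hwr
        obtain ⟨v, hv, hfix⟩ := H₃.exists_fix hw hwA hwr
        exact hwA ((hreg v hv w hfix) ▸ A.one_mem)
      have hfalse : False := by
        obtain ⟨y', hy', hy'A⟩ := hne'
        have hyc : ∀ u ∈ D, u * y' = y' * u := fun u hu => (hcommu u hu y' hy').eq
        have hcase : ∀ z : G, (y' : G ⧸ A) = (z : G ⧸ A) → ∀ u ∈ D, u * z = z * u := by
          intro z hyz u hu
          have ha : y'⁻¹ * z ∈ A := QuotientGroup.eq.1 hyz
          have hz : z = y' * (y'⁻¹ * z) := by group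
          rw [hz]
          generalize y'⁻¹ * z = a at ha
          calc u * (y' * a) = (u * y') * a := (mul_assoc _ _ _).symm
            _ = (y' * u) * a := by rw [hyc u hu]
            _ = y' * (u * a) := mul_assoc _ _ _
            _ = y' * (a * u) := by rw [H.hDc u hu a ha]
            _ = _ := (mul_assoc _ _ _).symm
        rcases H₃.cover4 hN₃ ((le_sup_left : D ≤ D ⊔ D') hg) ((le_sup_left : D ≤ D ⊔ D') hh) hgh
          ((le_sup_right : D' ≤ D ⊔ D') hy') with h5 | h5 | h5 | h5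
        · apply hy'A
          rw [QuotientGroup.mk_one] at h5
          exact (QuotientGroup.eq_one_iff y').1 h5
        · exact hgh (hcase g h5 h hh).symm
        · exact hgh (hcase h h5 g hg)
        · have hc := hcase (g * h) h5 g hg
          apply hgh
          rw [mul_assoc] at hc
          exact mul_left_cancel hc
      exact hfalse
    · exact (H'.odd_false hr2).elim

theorem DC.no_fixed [Nontrivial V] (H : DC ρ A κ σ D 2) [hAn : A.Normal]
    (hmax : ∀ B : Subgroup G, B.Normal → (∀ a ∈ B, ∀ b ∈ B, a * b = b * a) → A ≤ B → B ≤ A)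
    {z : G} (hz : z ∈ D) (hzA : z ∉ A)
    (hfix : ∀ s : G, (s : G ⧸ A) * (z : G ⧸ A) * (s : G ⧸ A)⁻¹ = (z : G ⧸ A)) : False := by
  have hxx : (z : G ⧸ A) * (z : G ⧸ A) = 1 := by
    rw [← QuotientGroup.mk_mul, ← pow_two]
    exact (QuotientGroup.eq_one_iff _).2 (H.hpow z hz)
  have hxinv : (z : G ⧸ A)⁻¹ = (z : G ⧸ A) := inv_eq_of_mul_eq_one_left hxx
  let B : Subgroup G :=
    { carrier := {t | (t : G ⧸ A) = 1 ∨ (t : G ⧸ A) = (z : G ⧸ A)}
      one_mem' := Or.inl (QuotientGroup.mk_one _)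
      mul_mem' := by
        rintro a b (ha | ha) (hb | hb)
        · left; show ((a * b : G) : G ⧸ A) = 1; rw [QuotientGroup.mk_mul, ha, hb, one_mul]
        · right; show ((a * b : G) : G ⧸ A) = _; rw [QuotientGroup.mk_mul, ha, hb, one_mul]
        · right; show ((a * b : G) : G ⧸ A) = _; rw [QuotientGroup.mk_mul, ha, hb, mul_one]
        · left; show ((a * b : G) : G ⧸ A) = 1; rw [QuotientGroup.mk_mul, ha, hb, hxx]
      inv_mem' := by
        rintro a (ha | ha)
        · left; show ((a⁻¹ : G) : G ⧸ A) = 1; rw [QuotientGroup.mk_inv, ha, inv_one]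
        · right; show ((a⁻¹ : G) : G ⧸ A) = _; rw [QuotientGroup.mk_inv, ha, hxinv] }
  have hBn : B.Normal := by
    constructor
    rintro t (ht | ht) s
    · left
      show ((s * t * s⁻¹ : G) : G ⧸ A) = 1
      rw [QuotientGroup.mk_mul, QuotientGroup.mk_mul, QuotientGroup.mk_inv, ht, mul_one,
        mul_inv_cancel]
    · right
      show ((s * t * s⁻¹ : G) : G ⧸ A) = _
      rw [QuotientGroup.mk_mul, QuotientGroup.mk_mul, QuotientGroup.mk_inv, ht]
      exact hfix s
  have hform : ∀ a ∈ B, ∃ (i : ℕ) (a' : G), a' ∈ A ∧ a = z ^ i * a' := by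
    rintro a (ha | ha)
    · exact ⟨0, a, (QuotientGroup.eq_one_iff a).1 ha, by simp⟩
    · refine ⟨1, z⁻¹ * a, QuotientGroup.eq.1 ha.symm, by simp⟩
  have hBab : ∀ a ∈ B, ∀ b ∈ B, a * b = b * a := by
    intro a ha b hb
    obtain ⟨i, a', ha', rfl⟩ := hform a ha
    obtain ⟨j, b', hb', rfl⟩ := hform b hb
    have h1 : Commute (z ^ i) (z ^ j) := (Commute.refl z).pow_pow i j
    have h2 : Commute (z ^ i) b' := Commute.pow_left (H.hDc z hz b' hb') i
    have h3 : Commute a' (z ^ j) := Commute.pow_right (H.hDc z hz a' ha').symm j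
    have h4 : Commute a' b' := H.C.hab a' ha' b' hb'
    exact Commute.mul_left (Commute.mul_right h1 h2) (Commute.mul_right h3 h4)
  have hAB : A ≤ B := fun a ha => Or.inl ((QuotientGroup.eq_one_iff a).2 ha)
  exact hzA (hmax B hBn hBab hAB (Or.inr rfl))

end dc

end Cfsg.Agent.H03.HP
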