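import Mathlib
import Cfsg.Agent.Lib.H03.HQ3

set_option autoImplicit false

namespace Cfsg.Agent.H03.HP

universe u v

open Cfsg.Agent.H03.HQ

variable {q : ℕ} [hq : Fact q.Prime] {V : Type u} [AddCommGroup V] [Module (ZMod q) V]
  {G : Type v} [Group G]

variable {ρ : G →* (V ≃ₗ[ZMod q] V)} {A : Subgroup G} {K : Type u} [Field K] [Module K V]
    {κ : A →* Kˣ} {σ : G →* (K ≃+* K)}

section dc

variable {D : Subgroup G}

theorem DC.alpha_sub [Finite G] [Nontrivial V] (H : DC ρ A κ σ D 2) [hAn : A.Normal]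
    (hNone : ∀ w ∈ D, w ∉ A → w ^ 2 ≠ 1) {g h : G} (hg : g ∈ D) (hh : h ∈ D)
    (hgh : g * h ≠ h * g) {x : G ⧸ A} (hx : x ∈ Alpha A D) :
    x = (g : G ⧸ A) ∨ x = (h : G ⧸ A) ∨ x = ((g * h : G) : G ⧸ A) := by
  obtain ⟨⟨y, hy, rfl⟩, hne⟩ := hx
  rcases H.cover4 hNone hg hh hgh hy with h5 | h5 | h5 | h5
  · exact absurd (h5.trans (QuotientGroup.mk_one _)) hne
  · exact Or.inl h5
  · exact Or.inr (Or.inl h5)
  · exact Or.inr (Or.inr h5)

theorem DC.lam_congr [Nontrivial V] (H : DC ρ A κ σ D 2) {x y z : G} (hx : x ∈ D) (_hy : y ∈ D)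
    (hz : z ∈ D) (he : (x : G ⧸ A) = y) : lam κ z x = lam κ z y := by
  have ha : x⁻¹ * y ∈ A := QuotientGroup.eq.1 he
  have h1 : lam κ z (x⁻¹ * y) = 1 := lam_of_comm (H.hDc z hz _ ha)
  have h2 : y = x * (x⁻¹ * y) := by group
  conv_rhs => rw [h2]
  rw [H.lam_mul_right hz hx (H.hAD ha), h1, mul_one]

theorem DC.card_alpha [Finite G] [Nontrivial V] (H : DC ρ A κ σ D 2) [hAn : A.Normal]
    (hNone : ∀ w ∈ D, w ∉ A → w ^ 2 ≠ 1) {g h : G} (hg : g ∈ D) (hh : h ∈ D)
    (hgh : g * h ≠ h * g) : Nat.card (Alpha A D) = 3 := by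
  classical
  have hgA : g ∉ A := fun hmem => hgh (H.hDc h hh g hmem).symm
  have hhA : h ∉ A := fun hmem => hgh (H.hDc g hg h hmem)
  have hl : lam κ g h ≠ 1 := fun h0 => hgh (H.comm_of_lam hg hh h0)
  have hgg : lam κ g g = 1 := lam_of_comm rfl
  have h1 : (g : G ⧸ A) ≠ 1 := fun h0 => hgA ((QuotientGroup.eq_one_iff _).1 h0)
  have h2 : (h : G ⧸ A) ≠ 1 := fun h0 => hhA ((QuotientGroup.eq_one_iff _).1 h0)
  have h3 : ((g * h : G) : G ⧸ A) ≠ 1 := by
    intro h0
    have hmem := (QuotientGroup.eq_one_iff _).1 h0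
    have h4 : lam κ g (g * h) = 1 := lam_of_comm (H.hDc g hg _ hmem)
    rw [H.lam_mul_right hg hg hh, hgg, one_mul] at h4
    exact hl h4
  have h12 : (g : G ⧸ A) ≠ h := by
    intro he
    have := H.lam_congr hg hh hg he
    rw [hgg] at this
    exact hl this.symm
  have h13 : (g : G ⧸ A) ≠ ((g * h : G) : G ⧸ A) := by
    intro he
    have := QuotientGroup.eq.1 he
    apply hhA
    simpa using this
  have h23 : (h : G ⧸ A) ≠ ((g * h : G) : G ⧸ A) := by
    intro he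
    have := QuotientGroup.eq.1 he
    have h4 := hAn.conj_mem _ this h
    apply hgA
    convert h4 using 1
    group
  have hEq : Alpha A D = (({(g : G ⧸ A), (h : G ⧸ A), ((g * h : G) : G ⧸ A)} :
      Finset (G ⧸ A)) : Set (G ⧸ A)) := by
    apply Set.Subset.antisymm
    · intro x hx
      simp only [Finset.coe_insert, Finset.coe_singleton, Set.mem_insert_iff, Set.mem_singleton_iff]
      exact H.alpha_sub hNone hg hh hgh hx
    · intro x hx
      simp only [Finset.coe_insert, Finset.coe_singleton, Set.mem_insert_iff,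
        Set.mem_singleton_iff] at hx
      rcases hx with rfl | rfl | rfl
      · exact ⟨⟨g, hg, rfl⟩, h1⟩
      · exact ⟨⟨h, hh, rfl⟩, h2⟩
      · exact ⟨⟨g * h, D.mul_mem hg hh, rfl⟩, h3⟩
  rw [Nat.card_coe_set_eq, hEq, Set.ncard_coe_finset]
  exact Finset.card_eq_three.2 ⟨_, _, _, h12, h13, h23, rfl⟩

theorem DC.three_dvd [Finite G] [Nontrivial V] (H : DC ρ A κ σ D 2) [hAn : A.Normal]
    (hmax : ∀ B : Subgroup G, B.Normal → (∀ a ∈ B, ∀ b ∈ B, a * b = b * a) → A ≤ B → B ≤ A)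
    (hNone : ∀ w ∈ D, w ∉ A → w ^ 2 ≠ 1) {g h : G} (hg : g ∈ D) (hh : h ∈ D)
    (hgh : g * h ≠ h * g) (ψ : G →* Equiv.Perm (Alpha A D))
    (hψ : ∀ (t : G) (x : Alpha A D), (ψ t x).1 = (t : G ⧸ A) * x.1 * (t : G ⧸ A)⁻¹) :
    3 ∣ Nat.card ψ.range ∧ Nat.card ψ.range ∣ 6 := by
  classical
  have hc3 := H.card_alpha hNone hg hh hgh
  have hdv6 : Nat.card ψ.range ∣ 6 := by
    have h1 : Nat.card ψ.range ∣ Nat.card (Equiv.Perm (Alpha A D)) :=
      Subgroup.card_subgroup_dvd_card _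
    rw [Nat.card_perm, hc3] at h1
    exact h1
  refine ⟨?_, hdv6⟩
  by_contra h3
  haveI : Fact (Nat.Prime 2) := ⟨Nat.prime_two⟩
  have hpow : ∃ n, Nat.card ψ.range = 2 ^ n := by
    have hle := Nat.le_of_dvd (by norm_num) hdv6
    have hpos : 0 < Nat.card ψ.range := Nat.card_pos
    generalize Nat.card ψ.range = a at *
    interval_cases a
    · exact ⟨0, rfl⟩
    · exact ⟨1, rfl⟩
    · exact absurd (dvd_refl 3) h3
    · revert hdv6; decide
    · revert hdv6; decide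
    · exact absurd (by decide) h3
  obtain ⟨n, hn⟩ := hpow
  have hp : IsPGroup 2 ψ.range := IsPGroup.of_card hn
  have hmod := hp.card_modEq_card_fixedPoints (Alpha A D)
  rw [hc3] at hmod
  have hne : Nat.card (MulAction.fixedPoints ψ.range (Alpha A D)) ≠ 0 := by
    intro h0
    rw [h0] at hmod
    exact absurd hmod (by decide)
  obtain ⟨⟨x, hx⟩⟩ : Nonempty (MulAction.fixedPoints ψ.range (Alpha A D)) := by
    by_contra hem
    rw [not_nonempty_iff] at hem
    exact hne Nat.card_of_isEmpty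
  obtain ⟨⟨z, hz, hzx⟩, hne1⟩ := x.2
  have hzA : z ∉ A := fun hmem => hne1 (by rw [← hzx]; exact (QuotientGroup.eq_one_iff z).2 hmem)
  apply H.no_fixed hmax hz hzA
  intro s
  have h5 : (ψ s) x = x := hx ⟨ψ s, ⟨s, rfl⟩⟩
  have h6 := hψ s x
  rw [h5] at h6
  have hzx' : (z : G ⧸ A) = x.1 := hzx
  rw [hzx']
  exact h6.symm

theorem DC.card_ker_psi [Finite G] [Finite V] [Nontrivial V] (H : DC ρ A κ σ D 2) [hAn : A.Normal]
    (hNone : ∀ w ∈ D, w ∉ A → w ^ 2 ≠ 1)
    (hC₁ : ∀ y : G, (∀ x ∈ D, x * y = y * x) → y ∈ A)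
    (hcen : ∀ t : G, ∀ a ∈ A, t * a = a * t) {g h : G} (hg : g ∈ D) (hh : h ∈ D)
    (hgh : g * h ≠ h * g) (ψ : G →* Equiv.Perm (Alpha A D))
    (hψ : ∀ (t : G) (x : Alpha A D), (ψ t x).1 = (t : G ⧸ A) * x.1 * (t : G ⧸ A)⁻¹) :
    Nat.card ψ.ker = Nat.card A * 4 := by
  classical
  have hK₁z : ∀ z ∈ D, ∀ t ∈ ψ.ker, t * z * t⁻¹ * z⁻¹ ∈ A := by
    intro z hz t ht
    by_cases hzA : z ∈ A
    · rw [hcen t z hzA]
      have : z * t * t⁻¹ * z⁻¹ = 1 := by group
      rw [this]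
      exact A.one_mem
    · have hz1 : (z : G ⧸ A) ≠ 1 := fun h1 => hzA ((QuotientGroup.eq_one_iff _).1 h1)
      let x : Alpha A D := ⟨(z : G ⧸ A), ⟨z, hz, rfl⟩, hz1⟩
      have h1 : ψ t x = x := by
        have : ψ t = 1 := ht
        rw [this]
        rfl
      have h2 := hψ t x
      rw [h1] at h2
      rw [← QuotientGroup.eq_one_iff, QuotientGroup.mk_mul, QuotientGroup.mk_mul,
        QuotientGroup.mk_mul, QuotientGroup.mk_inv, QuotientGroup.mk_inv, ← h2]
      exact mul_inv_cancel _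
  obtain ⟨Fg, hFg⟩ := H.exists_fz ψ.ker (fun t _ a ha => hcen t a ha) hg (hK₁z g hg)
  obtain ⟨Fh, hFh⟩ := H.exists_fz ψ.ker (fun t _ a ha => hcen t a ha) hh (hK₁z h hh)
  let f₂ : ψ.ker →* (rootsOfUnity 2 K × rootsOfUnity 2 K) := MonoidHom.prod Fg Fh
  have hAK₁ : A ≤ ψ.ker := by
    intro a ha
    show ψ a = 1
    ext x
    rw [hψ, (QuotientGroup.eq_one_iff a).2 ha]
    simp
  have e₂ : Nat.card ψ.ker = Nat.card A * Nat.card f₂.range := by
    refine card_subgroup_of_hom f₂ hAK₁ ?_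
    intro t
    constructor
    · intro ht
      have h1 : Fg t = 1 := congrArg Prod.fst ht
      have h2 : Fh t = 1 := congrArg Prod.snd ht
      have h3 := (hFg t).1 h1
      have h4 := (hFh t).1 h2
      apply hC₁
      intro x hx
      have hcov := H.cover4 hNone hg hh hgh hx
      have hcomma : ∀ z : G, t.1 * z = z * t.1 → (z : G ⧸ A) = (x : G ⧸ A) →
          x * t.1 = t.1 * x := by
        intro z hz hzx
        have hb : z⁻¹ * x ∈ A := QuotientGroup.eq.1 hzx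
        have h5 := hcen t.1 _ hb
        have hx' : x = z * (z⁻¹ * x) := by group
        rw [hx']
        generalize z⁻¹ * x = b at h5
        calc z * b * t.1 = z * (b * t.1) := mul_assoc _ _ _
          _ = z * (t.1 * b) := by rw [h5]
          _ = (z * t.1) * b := (mul_assoc _ _ _).symm
          _ = (t.1 * z) * b := by rw [hz]
          _ = _ := mul_assoc _ _ _
      rcases hcov with h5 | h5 | h5 | h5
      · exact hcomma 1 (by simp) h5.symm
      · exact hcomma g h3 h5.symm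
      · exact hcomma h h4 h5.symm
      · refine hcomma (g * h) ?_ h5.symm
        calc t.1 * (g * h) = (t.1 * g) * h := (mul_assoc _ _ _).symm
          _ = (g * t.1) * h := by rw [h3]
          _ = g * (t.1 * h) := mul_assoc _ _ _
          _ = g * (h * t.1) := by rw [h4]
          _ = _ := (mul_assoc _ _ _).symm
    · intro ht
      have h3 : Fg t = 1 := (hFg t).2 (H.hDc g hg _ ht).symm
      have h4 : Fh t = 1 := (hFh t).2 (H.hDc h hh _ ht).symm
      exact Prod.ext h3 h4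
  have hb : Nat.card f₂.range ∣ 4 := by
    have h1 : Nat.card f₂.range ∣ Nat.card (rootsOfUnity 2 K × rootsOfUnity 2 K) :=
      Subgroup.card_subgroup_dvd_card _
    rw [Nat.card_prod] at h1
    have h2 : Nat.card (rootsOfUnity 2 K) ≤ 2 := card_rootsOfUnity K 2
    have h3 : 0 < Nat.card (rootsOfUnity 2 K) := Nat.card_pos
    refine h1.trans ?_
    have h4 : Nat.card (rootsOfUnity 2 K) = 1 ∨ Nat.card (rootsOfUnity 2 K) = 2 := by omega
    rcases h4 with h4 | h4 <;> rw [h4] <;> norm_num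
  have hDker : ∀ z ∈ D, z ∈ ψ.ker := by
    intro z hz
    show ψ z = 1
    ext x
    rw [hψ]
    obtain ⟨⟨y, hy, hyx⟩, _⟩ := x.2
    have h1 := (QuotientGroup.eq_one_iff _).2 (H.hcomm z hz y hy)
    rw [QuotientGroup.mk_mul, QuotientGroup.mk_mul, QuotientGroup.mk_mul, QuotientGroup.mk_inv,
      QuotientGroup.mk_inv] at h1
    have h2 : (y : G ⧸ A) = x.1 := hyx
    rw [h2] at h1
    exact mul_inv_eq_one.1 h1
  let g' : ψ.ker := ⟨g, hDker g hg⟩
  let h' : ψ.ker := ⟨h, hDker h hh⟩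
  have h1g : f₂ g' ≠ 1 := by
    intro h0
    have h2 : Fh g' = 1 := congrArg Prod.snd h0
    exact hgh ((hFh g').1 h2)
  have h1h : f₂ h' ≠ 1 := by
    intro h0
    have h2 : Fg h' = 1 := congrArg Prod.fst h0
    exact hgh ((hFg h').1 h2).symm
  have hgh' : f₂ g' ≠ f₂ h' := by
    intro h0
    have h2 : Fg g' = Fg h' := congrArg Prod.fst h0
    have h3 : Fg g' = 1 := (hFg g').2 rfl
    rw [h3] at h2
    exact hgh ((hFg h').1 h2.symm).symm
  have hthree : 3 ≤ Nat.card f₂.range := by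
    have hsub : (({(1 : rootsOfUnity 2 K × rootsOfUnity 2 K), f₂ g', f₂ h'} :
        Finset (rootsOfUnity 2 K × rootsOfUnity 2 K)) : Set (↥(rootsOfUnity 2 K) × ↥(rootsOfUnity 2 K))) ⊆ (f₂.range : Set (↥(rootsOfUnity 2 K) × ↥(rootsOfUnity 2 K))) := by
      intro b hb
      simp only [Finset.coe_insert, Finset.coe_singleton, Set.mem_insert_iff,
        Set.mem_singleton_iff] at hb
      rcases hb with rfl | rfl | rfl
      · exact f₂.range.one_mem
      · exact ⟨g', rfl⟩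
      · exact ⟨h', rfl⟩
    have h6 := Set.ncard_le_ncard hsub (Set.toFinite _)
    rw [Set.ncard_coe_finset] at h6
    have h7 : ({(1 : rootsOfUnity 2 K × rootsOfUnity 2 K), f₂ g', f₂ h'} :
        Finset (rootsOfUnity 2 K × rootsOfUnity 2 K)).card = 3 :=
      Finset.card_eq_three.2 ⟨_, _, _, h1g.symm, h1h.symm, hgh', rfl⟩
    rw [h7] at h6
    have h8 : Nat.card f₂.range = (f₂.range : Set (↥(rootsOfUnity 2 K) × ↥(rootsOfUnity 2 K))).ncard := Nat.card_coe_set_eq _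
    rw [h8]
    exact h6
  have h4 : Nat.card f₂.range = 4 := by
    have hle := Nat.le_of_dvd (by norm_num) hb
    generalize Nat.card f₂.range = a at *
    interval_cases a
    · revert hb; decide
    · rfl
  rw [e₂, h4]

end dc

end Cfsg.Agent.H03.HP
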