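import Mathlib
import Cfsg.Agent.Lib.H03.HQ4

set_option autoImplicit false

namespace Cfsg.Agent.H03.HP

universe u v

open Cfsg.Agent.H03.HQ

variable {q : ℕ} [hq : Fact q.Prime] {V : Type u} [AddCommGroup V] [Module (ZMod q) V]
  {G : Type v} [Group G]

variable {ρ : G →* (V ≃ₗ[ZMod q] V)} {A : Subgroup G} {K : Type u} [Field K] [Module K V]
    {κ : A →* Kˣ} {σ : G →* (K ≃+* K)}

theorem prime_sq_case {q f d p : ℕ} (hq : q.Prime) (hp : p.Prime) (hf : f ≠ 0) (hd : 2 ≤ d)
    (h : (q ^ f) ^ d = p ^ 2) : q = p ∧ f = 1 ∧ d = 2 := by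
  rw [← pow_mul] at h
  have hfd : f * d ≠ 0 := mul_ne_zero hf (by omega)
  have h1 : q ∣ p ^ 2 := by
    rw [← h]
    exact dvd_pow_self q hfd
  have h2 : q = p := (Nat.prime_dvd_prime_iff_eq hq hp).1 (hq.dvd_of_dvd_pow h1)
  subst h2
  have h3 : f * d = 2 := Nat.pow_right_injective hq.two_le h
  have h4 : d ≤ f * d := Nat.le_mul_of_pos_left d (Nat.pos_of_ne_zero hf)
  have h5 : d = 2 := by omega
  subst h5
  exact ⟨rfl, by omega, rfl⟩

theorem qr_of_central {E : Type*} [Group E] {u v t z : E} (_hzc : ∀ x : E, x * z = z * x)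
    (hz2 : z * z = 1) (hu : u ^ 2 = z) (hv : v ^ 2 = z) (hvu : v * u = z * (u * v))
    (ht : t ^ 3 = 1) (htu : t * u = v * t) (htv : t * v = u * v * t) : QR u v t := by
  refine ⟨?_, hv.trans hu.symm, ?_, ht, htu, htv⟩
  · have : u ^ 4 = u ^ 2 * u ^ 2 := by rw [← pow_add]
    rw [this, hu, hz2]
  · have : u ^ 3 = u ^ 2 * u := pow_succ _ _
    rw [this, hu, mul_assoc]
    exact hvu

section dc

variable {D : Subgroup G}

theorem DC.exists_F [Finite G] [Finite V] [Nontrivial V] (H : DC ρ A κ σ D 2) [hAn : A.Normal]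
    (hNone : ∀ w ∈ D, w ∉ A → w ^ 2 ≠ 1)
    (hcen : ∀ t : G, ∀ a ∈ A, t * a = a * t) {g h : G} (hg : g ∈ D) (hh : h ∈ D)
    (hgh : g * h ≠ h * g) (ψ : G →* Equiv.Perm (Alpha A D))
    (hψ : ∀ (t : G) (x : Alpha A D), (ψ t x).1 = (t : G ⧸ A) * x.1 * (t : G ⧸ A)⁻¹)
    (hker3 : ¬ 3 ∣ Nat.card ψ.ker) (h3G : 3 ∣ Nat.card G) {m : ℕ} (hm : Odd m)
    (hAm : Nat.card A = 2 * m) : ∃ F : T →* G, Function.Injective F := by
  classical
  have hne1 : (-1 : K) ≠ 1 := H.neg_one_ne
  have hl : lam κ g h = -1 :=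
    (H.lam_two hg hh).resolve_left (fun h1 => hgh (H.comm_of_lam hg hh h1))
  have hgg : lam κ g g = 1 := lam_of_comm rfl
  have hgA : g ∉ A := fun hmem => hgh (H.hDc h hh g hmem).symm
  set z := g * h * g⁻¹ * h⁻¹ with hzdef
  have hzA : z ∈ A := H.hcomm g hg h hh
  have hkz : kap κ z = -1 := hl
  have hzc : ∀ x : G, x * z = z * x := fun x => hcen x z hzA
  have hz2 : z * z = 1 := by
    apply kap_inj H.C (A.mul_mem hzA hzA) A.one_mem
    rw [kap_mul hzA hzA, hkz, kap_one]
    ring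
  have hz1 : z ≠ 1 := by
    intro h0
    rw [h0, kap_one] at hkz
    exact hne1 hkz.symm
  have hsqz : ∀ x ∈ D, x ∉ A → x ^ 4 = 1 → x ^ 2 = z := by
    intro x hx hxA hx4
    have hx2 := H.hpow x hx
    have h1 : kap κ (x ^ 2) * kap κ (x ^ 2) = 1 := by
      rw [← kap_mul hx2 hx2, ← pow_add, hx4, kap_one]
    rcases mul_self_eq_one_iff.1 h1 with h2 | h2
    · exfalso
      apply hNone x hx hxA
      apply kap_inj H.C hx2 A.one_mem
      rw [h2, kap_one]
    · apply kap_inj H.C hx2 hzA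
      rw [h2, hkz]
  haveI : Fact (Nat.Prime 3) := ⟨Nat.prime_three⟩
  obtain ⟨t, ht⟩ := exists_prime_orderOf_dvd_card' 3 h3G
  have ht3 : t ^ 3 = 1 := by rw [← ht]; exact pow_orderOf_eq_one t
  have hψt : ψ t ≠ 1 := by
    intro h0
    apply hker3
    have htk : t ∈ ψ.ker := h0
    have h1 : orderOf (⟨t, htk⟩ : ψ.ker) = 3 := by
      rw [Subgroup.orderOf_mk, ht]
    rw [← h1]
    exact orderOf_dvd_natCard _
  have hc3 := H.card_alpha hNone hg hh hgh
  have hnoFix : ∀ x : Alpha A D, ψ t x ≠ x := by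
    have hit : (⇑(ψ t))^[3] = id := by
      rw [← Equiv.Perm.coe_pow, ← map_pow, ht3, map_one]
      rfl
    have hmod := card_fix_modEq (⇑(ψ t)) 3 hit
    rw [hc3] at hmod
    obtain ⟨y, hy⟩ : ∃ y, ψ t y ≠ y := by
      by_contra hcon
      push Not at hcon
      exact hψt (Equiv.ext hcon)
    have hlt := Finite.card_subtype_lt (p := fun a => ψ t a = a) hy
    rw [hc3] at hlt
    have hN0 : Nat.card {a // ψ t a = a} = 0 := by
      have h1 : Nat.card {a // ψ t a = a} % 3 = 0 := by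
        have := hmod.symm
        unfold Nat.ModEq at this
        simpa using this
      omega
    intro x hx
    have hemp : IsEmpty {a // ψ t a = a} := Finite.card_eq_zero_iff.1 hN0
    exact hemp.false ⟨x, hx⟩
  have hmk2 : ∀ y ∈ D, (y : G ⧸ A) * y = 1 := by
    intro y hy
    rw [← QuotientGroup.mk_mul, ← pow_two]
    exact (QuotientGroup.eq_one_iff _).2 (H.hpow y hy)
  have hm' := hm
  obtain ⟨k, hk⟩ := hm'
  set u₀ := g ^ m with hu₀
  have hu₀D : u₀ ∈ D := D.pow_mem hg m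
  have hu₀mk : (u₀ : G ⧸ A) = g := by
    rw [hu₀, QuotientGroup.mk_pow, hk, pow_succ, pow_mul, pow_two, hmk2 g hg, one_pow, one_mul]
  have hu₀A : u₀ ∉ A := by
    intro hmem
    apply hgA
    rw [← QuotientGroup.eq_one_iff, ← hu₀mk]
    exact (QuotientGroup.eq_one_iff _).2 hmem
  have hu₀4 : u₀ ^ 4 = 1 := by
    have h1 : (⟨g ^ 2, H.hpow g hg⟩ : A) ^ Nat.card A = 1 := pow_card_eq_one'
    have h2 : (g ^ 2) ^ Nat.card A = 1 := congrArg Subtype.val h1
    rw [hAm] at h2
    rw [hu₀, ← pow_mul, ← h2, ← pow_mul]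
    congr 1
    ring
  have hconj : ∀ x ∈ D, x ∉ A → x ^ 4 = 1 →
      (t * x * t⁻¹ ∈ D ∧ t * x * t⁻¹ ∉ A ∧ (t * x * t⁻¹) ^ 4 = 1) := by
    intro x hx hxA hx4
    refine ⟨H.hD.conj_mem x hx t, ?_, ?_⟩
    · intro hmem
      apply hxA
      have := hAn.conj_mem _ hmem t⁻¹
      convert this using 1
      group
    · rw [conj_pow, hx4]
      group
  set v₀ := t * u₀ * t⁻¹ with hv₀
  obtain ⟨hv₀D, hv₀A, hv₀4⟩ := hconj u₀ hu₀D hu₀A hu₀4
  set w₀ := t * v₀ * t⁻¹ with hw₀
  obtain ⟨hw₀D, hw₀A, hw₀4⟩ := hconj v₀ hv₀D hv₀A hv₀4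
  have hu₀z := hsqz u₀ hu₀D hu₀A hu₀4
  have hv₀z := hsqz v₀ hv₀D hv₀A hv₀4
  have hw₀z := hsqz w₀ hw₀D hw₀A hw₀4
  have hne1mk : ∀ x : G, x ∉ A → (x : G ⧸ A) ≠ 1 := fun x hx h0 =>
    hx ((QuotientGroup.eq_one_iff _).1 h0)
  let aU : Alpha A D := ⟨(u₀ : G ⧸ A), ⟨u₀, hu₀D, rfl⟩, hne1mk u₀ hu₀A⟩
  have hstep : ∀ (a : Alpha A D) (x : G), a.1 = (x : G ⧸ A) →
      (ψ t a).1 = ((t * x * t⁻¹ : G) : G ⧸ A) := by
    intro a x hax
    rw [hψ, hax, QuotientGroup.mk_mul, QuotientGroup.mk_mul, QuotientGroup.mk_inv]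
  have haV : (ψ t aU).1 = (v₀ : G ⧸ A) := hstep aU u₀ rfl
  have haW : (ψ t (ψ t aU)).1 = (w₀ : G ⧸ A) := hstep _ v₀ haV
  have h3it : ∀ a : Alpha A D, ψ t (ψ t (ψ t a)) = a := by
    intro a
    have h1 : (ψ t) ^ 3 = 1 := by rw [← map_pow, ht3, map_one]
    have h2 := DFunLike.congr_fun h1 a
    simpa [pow_succ, Equiv.Perm.mul_apply] using h2
  have hvu : (v₀ : G ⧸ A) ≠ (u₀ : G ⧸ A) := by
    intro e
    exact hnoFix aU (Subtype.ext (haV.trans e))
  have hwv : (w₀ : G ⧸ A) ≠ (v₀ : G ⧸ A) := by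
    intro e
    exact hnoFix (ψ t aU) (Subtype.ext (haW.trans (e.trans haV.symm)))
  have hwu : (w₀ : G ⧸ A) ≠ (u₀ : G ⧸ A) := by
    intro e
    have h1 : ψ t (ψ t aU) = aU := Subtype.ext (haW.trans e)
    have h2 := h3it aU
    rw [h1] at h2
    exact hnoFix aU h2
  have hlgv : lam κ g v₀ = -1 := by
    rcases H.alpha_sub hNone hg hh hgh (ψ t aU).2 with e | e | e
    · exact absurd (haV.symm.trans (e.trans hu₀mk.symm)) hvu
    · rw [H.lam_congr hv₀D hh hg (haV.symm.trans e)]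
      exact hl
    · rw [H.lam_congr hv₀D (D.mul_mem hg hh) hg (haV.symm.trans e),
        H.lam_mul_right hg hg hh, hgg, one_mul]
      exact hl
  have hluv : lam κ u₀ v₀ = -1 := by
    rw [hu₀, H.lam_pow_left hg hv₀D m, hlgv]
    exact hm.neg_one_pow
  have hlvu : lam κ v₀ u₀ = -1 := by
    have h1 := H.lam_swap hu₀D hv₀D
    rw [hluv] at h1
    have h2 : lam κ v₀ u₀ = - (-1 * lam κ v₀ u₀) := by ring
    rw [h2, h1]
  have hnc : u₀ * v₀ ≠ v₀ * u₀ := by
    intro e
    have := lam_of_comm (κ := κ) e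
    rw [hluv] at this
    exact hne1 this
  have hcz : v₀ * u₀ * v₀⁻¹ * u₀⁻¹ = z := by
    apply kap_inj H.C (H.hcomm v₀ hv₀D u₀ hu₀D) hzA
    show lam κ v₀ u₀ = _
    rw [hlvu, hkz]
  have hvuz : v₀ * u₀ = z * (u₀ * v₀) := by
    rw [← hcz]
    group
  have hεex : ((u₀ * v₀)⁻¹ * w₀) ∈ A := by
    rcases H.alpha_sub hNone hu₀D hv₀D hnc (ψ t (ψ t aU)).2 with e | e | e
    · exact absurd (haW.symm.trans e) hwu
    · exact absurd (haW.symm.trans e) hwv
    · exact QuotientGroup.eq.1 (e.symm.trans haW)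
  set ε := (u₀ * v₀)⁻¹ * w₀ with hε
  have hw₀ε : w₀ = u₀ * v₀ * ε := by rw [hε]; group
  have hu2 : u₀ * u₀ = z := by rw [← pow_two]; exact hu₀z
  have hv2 : v₀ * v₀ = z := by rw [← pow_two]; exact hv₀z
  have huv2 : (u₀ * v₀) ^ 2 = z := by
    calc (u₀ * v₀) ^ 2 = u₀ * (v₀ * u₀) * v₀ := by rw [pow_two]; simp only [mul_assoc]
      _ = u₀ * (z * (u₀ * v₀)) * v₀ := by rw [hvuz]
      _ = (u₀ * z) * (u₀ * (v₀ * v₀)) := by simp only [mul_assoc]
      _ = (z * u₀) * (z * u₀) := by rw [hzc u₀, hv2, hzc u₀]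
      _ = z * (u₀ * z) * u₀ := by simp only [mul_assoc]
      _ = z * (z * u₀) * u₀ := by rw [hzc u₀]
      _ = (z * z) * (u₀ * u₀) := by simp only [mul_assoc]
      _ = z := by rw [hz2, hu2, one_mul]
  have hε2 : ε * ε = 1 := by
    have h1 : Commute (u₀ * v₀) ε := hcen _ ε hεex
    have h2 : w₀ ^ 2 = z * ε ^ 2 := by rw [hw₀ε, h1.mul_pow, huv2]
    rw [hw₀z] at h2
    have h3 : ε ^ 2 = 1 := mul_eq_left.1 h2.symm
    rw [← pow_two]
    exact h3
  have hεcase : ε = 1 ∨ ε = z := by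
    have h1 : kap κ ε * kap κ ε = 1 := by
      rw [← kap_mul hεex hεex, hε2, kap_one]
    rcases mul_self_eq_one_iff.1 h1 with h2 | h2
    · left
      apply kap_inj H.C hεex A.one_mem
      rw [h2, kap_one]
    · right
      apply kap_inj H.C hεex hzA
      rw [h2, hkz]
  have htu₀ : t * u₀ = v₀ * t := by rw [hv₀]; group
  have htv₀ : t * v₀ = w₀ * t := by rw [hw₀]; group
  rcases hεcase with he | he
  · have hq₀ : QR u₀ v₀ t := by
      refine qr_of_central hzc hz2 hu₀z hv₀z hvuz ht3 htu₀ ?_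
      rw [htv₀, hw₀ε, he, mul_one]
    exact exists_SL_hom hq₀ (by rw [hu₀z]; exact hz1)
  · have hzu : (z * u₀) ^ 2 = z := by
      have h1 : Commute z u₀ := (hzc u₀).symm
      rw [h1.mul_pow, hu₀z, pow_two, hz2, one_mul]
    have hzv : (z * v₀) ^ 2 = z := by
      have h1 : Commute z v₀ := (hzc v₀).symm
      rw [h1.mul_pow, hv₀z, pow_two, hz2, one_mul]
    have hzz : ∀ x : G, z * (z * x) = x := fun x => by rw [← mul_assoc, hz2, one_mul]
    have hprod : (z * u₀) * (z * v₀) = u₀ * v₀ := by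
      calc (z * u₀) * (z * v₀) = z * (u₀ * z) * v₀ := by simp only [mul_assoc]
        _ = z * (z * u₀) * v₀ := by rw [hzc u₀]
        _ = u₀ * v₀ := by rw [hzz]
    have hq₁ : QR (z * u₀) (z * v₀) t := by
      refine qr_of_central hzc hz2 hzu hzv ?_ ht3 ?_ ?_
      · rw [hprod]
        calc (z * v₀) * (z * u₀) = z * (v₀ * z) * u₀ := by simp only [mul_assoc]
          _ = z * (z * v₀) * u₀ := by rw [hzc v₀]
          _ = v₀ * u₀ := by rw [hzz]
          _ = _ := hvuz
      · calc t * (z * u₀) = (t * z) * u₀ := (mul_assoc _ _ _).symm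
          _ = z * (t * u₀) := by rw [hzc t, mul_assoc]
          _ = z * (v₀ * t) := by rw [htu₀]
          _ = _ := (mul_assoc _ _ _).symm
      · rw [hprod]
        calc t * (z * v₀) = (t * z) * v₀ := (mul_assoc _ _ _).symm
          _ = z * (t * v₀) := by rw [hzc t, mul_assoc]
          _ = z * (w₀ * t) := by rw [htv₀]
          _ = z * ((u₀ * v₀) * z * t) := by rw [hw₀ε, he]
          _ = z * (z * (u₀ * v₀) * t) := by rw [hzc (u₀ * v₀)]
          _ = z * (z * ((u₀ * v₀) * t)) := by rw [mul_assoc z]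
          _ = _ := hzz _
    exact exists_SL_hom hq₁ (by rw [hzu]; exact hz1)


/-- the final analysis of the regular case. -/
theorem DC.regular_final [Finite G] [Finite K] [Finite V] [Nontrivial V] [CharP K q]
    (hsol : Group.IsSolvable G) (H : DC ρ A κ σ D 2)
    (hmax : ∀ B : Subgroup G, B.Normal → (∀ a ∈ B, ∀ b ∈ B, a * b = b * a) → A ≤ B → B ≤ A)
    (hreg : ∀ v : V, v ≠ 0 → ∀ g : G, ρ g v = v → g = 1) :
    Nat.card V ∈ ({25, 49, 121, 529} : Set ℕ) ∧
    ((∃ N : Subgroup G, N.Normal ∧ N.index = 2) ∨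
      (Nat.card V = 25 ∧ Nonempty (G ≃* T)) ∨
      (Nat.card V = 121 ∧ Nonempty (G ≃* T × Multiplicative (ZMod 5)))) := by
  classical
  haveI hAn : A.Normal := H.C.hA
  have hNone : ∀ w ∈ D, w ∉ A → w ^ 2 ≠ 1 := by
    intro w hw hwA hwr
    obtain ⟨v, hv, hfix⟩ := H.exists_fix hw hwA hwr
    exact hwA ((hreg v hv w hfix) ▸ A.one_mem)
  obtain ⟨g, hg, hgA⟩ := H.hne
  obtain ⟨h, hh, hl⟩ := H.exists_noncomm hg hgA
  have hgh : g * h ≠ h * g := fun hc => hl (lam_of_comm hc)
  have hC₁ := H.C1_of_regular hsol hmax hreg hg hh hgh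
  have hlist := H.order_case hNone hC₁ hg hh hgh
  obtain ⟨ψ, hψ⟩ := exists_psi A D H.hD
  obtain ⟨h3, h6⟩ := H.three_dvd hmax hNone hg hh hgh ψ hψ
  have hGc := card_G_regular ρ H.C.htrans hreg
  have h3G : 3 ∣ Nat.card G := h3.trans (Subgroup.card_range_dvd ψ)
  have hP4 : Nat.card V ∈ ({25, 49, 121, 529} : Set ℕ) := by
    rcases hlist with e | e | e | e | e | e
    · rw [hGc, e] at h3G; exact absurd h3G (by decide)
    · simp [e]
    · simp [e]
    · simp [e]
    · simp [e]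
    · rw [hGc, e] at h3G; exact absurd h3G (by decide)
  refine ⟨hP4, ?_⟩
  have ha36 : Nat.card ψ.range = 3 ∨ Nat.card ψ.range = 6 := by
    have hle := Nat.le_of_dvd (by norm_num) h6
    have hpos : 0 < Nat.card ψ.range := Nat.card_pos
    generalize Nat.card ψ.range = a at *
    interval_cases a
    · revert h3; decide
    · revert h3; decide
    · exact Or.inl rfl
    · revert h6; decide
    · revert h3; decide
    · exact Or.inr rfl
  have hc3 := H.card_alpha hNone hg hh hgh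
  rcases ha36 with ha | ha
  · -- the order three case
    obtain ⟨f, hf0, hQ, hfc⟩ := exists_f (q := q) (K := K)
    have hPd : Nat.card V = Nat.card K ^ Module.finrank K V := card_V_eq
    have hd2 : 2 ≤ Module.finrank K V := by
      by_contra hlt
      have hd0 := finrank_pos' (K := K) (V := V)
      have hd1 : Module.finrank K V = 1 := by omega
      have he := H.e_le (K := K)
      rw [hd1] at he
      have hsub : (({((1 : G) : G ⧸ A), (g : G ⧸ A)} : Finset (G ⧸ A)) : Set (G ⧸ A)) ⊆ DBar A D := by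
        intro b hb
        simp only [Finset.coe_insert, Finset.coe_singleton, Set.mem_insert_iff,
          Set.mem_singleton_iff] at hb
        rcases hb with rfl | rfl
        · exact ⟨1, D.one_mem, rfl⟩
        · exact ⟨g, hg, rfl⟩
      have h6' := Set.ncard_le_ncard hsub (Set.toFinite _)
      rw [Set.ncard_coe_finset, Finset.card_pair] at h6'
      · omega
      · intro hcon
        apply hgA
        have := QuotientGroup.eq.1 hcon
        simpa using this
    have hqp : (Fact.out : q.Prime) = (Fact.out : q.Prime) := rfl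
    have hPq : ∀ p : ℕ, p.Prime → Nat.card V = p ^ 2 →
        q = p ∧ f = 1 ∧ Module.finrank K V = 2 := by
      intro p hp he
      apply prime_sq_case (Fact.out : q.Prime) hp hf0 hd2
      rw [← hQ, ← hPd, he]
    have hcent : f = 1 → ∀ t : G, ∀ a ∈ A, t * a = a * t := by
      intro hf1 t a ha
      haveI : Finite (K ≃+* K) :=
        Finite.of_injective (fun r : K ≃+* K => (r : K → K))
          (fun a b h => RingEquiv.ext (congrFun h))
      have h1 : Nat.card (K ≃+* K) = 1 := by rw [hfc, hf1]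
      obtain ⟨h2, _⟩ := (Nat.card_eq_one_iff_unique).1 h1
      exact H.C.sigma_centr (Subsingleton.elim (σ t) 1) a ha
    have hGk : Nat.card G = Nat.card ψ.ker * 3 := by
      have h1 := Subgroup.card_mul_index ψ.ker
      rw [Subgroup.index_ker, ha] at h1
      exact h1.symm
    have hAdvd := H.C.card_A_dvd
    have hfin : ∀ (hf1 : f = 1) {m : ℕ}, Odd m → Nat.card A = 2 * m → ¬ 3 ∣ 2 * m * 4 →
        ∃ F : T →* G, Function.Injective F := by
      intro hf1 m hm hAm hn3
      have hker := H.card_ker_psi hNone hC₁ (hcent hf1) hg hh hgh ψ hψ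
      refine H.exists_F hNone (hcent hf1) hg hh hgh ψ hψ ?_ h3G hm hAm
      rw [hker, hAm]
      exact hn3
    rcases hP4 with e | e | e | e
    · obtain ⟨hq5, hf1, _⟩ := hPq 5 (by norm_num) (by rw [e]; norm_num)
      have hker := H.card_ker_psi hNone hC₁ (hcent hf1) hg hh hgh ψ hψ
      have hA2 : Nat.card A = 2 * 1 := by
        rw [hGc, e, hker] at hGk
        omega
      obtain ⟨F, hF⟩ := hfin hf1 (m := 1) (by decide) hA2 (by norm_num)
      right; left
      refine ⟨e, ?_⟩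
      have hb : Function.Bijective F := hF.bijective_of_nat_card_le (by
        rw [card_T, hGc, e])
      exact ⟨(MulEquiv.ofBijective F hb).symm⟩
    · exfalso
      obtain ⟨hq7, hf1, _⟩ := hPq 7 (by norm_num) (by rw [e]; norm_num)
      have hker := H.card_ker_psi hNone hC₁ (hcent hf1) hg hh hgh ψ hψ
      have hA4 : Nat.card A = 4 := by
        rw [hGc, e, hker] at hGk
        omega
      rw [hQ, hf1, hq7, hA4] at hAdvd
      revert hAdvd
      decide
    · obtain ⟨hq11, hf1, _⟩ := hPq 11 (by norm_num) (by rw [e]; norm_num)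
      have hker := H.card_ker_psi hNone hC₁ (hcent hf1) hg hh hgh ψ hψ
      have hA10 : Nat.card A = 2 * 5 := by
        rw [hGc, e, hker] at hGk
        omega
      obtain ⟨F, hF⟩ := hfin hf1 (m := 5) (by decide) hA10 (by norm_num)
      right; right
      refine ⟨e, ?_⟩
      haveI : Fact (Nat.Prime 5) := ⟨by norm_num⟩
      obtain ⟨c, hc⟩ := exists_prime_orderOf_dvd_card' (G := A) 5 (by rw [hA10]; norm_num)
      have hcG : orderOf c.1 = 5 := by rw [Subgroup.orderOf_coe, hc]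
      have hc5 : c.1 ^ 5 = 1 := by rw [← hcG]; exact pow_orderOf_eq_one _
      have hcen' := hcent hf1
      let Y : Multiplicative (ZMod 5) →* G :=
        { toFun := fun y => c.1 ^ (Multiplicative.toAdd y).val
          map_one' := by simp
          map_mul' := by
            intro a b
            show c.1 ^ (Multiplicative.toAdd a + Multiplicative.toAdd b).val = _
            rw [ZMod.val_add, ← pow_eq_pow_mod _ hc5, pow_add] }
      have hYc : ∀ x y, Commute (F x) (Y y) := by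
        intro x y
        have h1 : Commute (F x) c.1 := hcen' (F x) c.1 c.2
        exact h1.pow_right _
      let Φ : T × Multiplicative (ZMod 5) →* G := MonoidHom.noncommCoprod F Y hYc
      have hΦ : Function.Injective Φ := by
        rw [injective_iff_map_eq_one]
        rintro ⟨x, y⟩ hxy
        have hxy' : F x * Y y = 1 := hxy
        have hx24 : (F x) ^ 24 = 1 := by
          rw [← map_pow]
          have : x ^ Nat.card T = 1 := pow_card_eq_one'
          rw [card_T] at this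
          rw [this, map_one]
        have hy24 : (Y y) ^ 24 = 1 := by
          have h1 := congrArg (· ^ 24) hxy'
          simp only [one_pow] at h1
          rw [(hYc x y).mul_pow, hx24, one_mul] at h1
          exact h1
        have hk : orderOf c.1 ∣ (Multiplicative.toAdd y).val * 24 := by
          apply orderOf_dvd_of_pow_eq_one
          rw [pow_mul]
          exact hy24
        rw [hcG] at hk
        have hk5 : 5 ∣ (Multiplicative.toAdd y).val :=
          (Nat.Coprime.dvd_of_dvd_mul_right (by norm_num) hk)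
        have hlt : (Multiplicative.toAdd y).val < 5 := ZMod.val_lt _
        have hk0 : (Multiplicative.toAdd y).val = 0 := by omega
        have hy1 : y = 1 := (ZMod.val_eq_zero _).1 hk0
        have hYy : Y y = 1 := by rw [hy1, map_one]
        rw [hYy, mul_one] at hxy'
        have hx1 : x = 1 := hF (by rw [hxy', map_one])
        rw [hx1, hy1]
        rfl
      have hb : Function.Bijective Φ := hΦ.bijective_of_nat_card_le (by
        rw [Nat.card_prod, card_T, Nat.card_congr Multiplicative.toAdd, Nat.card_zmod, hGc, e])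
      exact ⟨(MulEquiv.ofBijective Φ hb).symm⟩
    · exfalso
      obtain ⟨hq23, hf1, _⟩ := hPq 23 (by norm_num) (by rw [e]; norm_num)
      have hker := H.card_ker_psi hNone hC₁ (hcent hf1) hg hh hgh ψ hψ
      have hA44 : Nat.card A = 44 := by
        rw [hGc, e, hker] at hGk
        omega
      rw [hQ, hf1, hq23, hA44] at hAdvd
      revert hAdvd
      decide
  · left
    have htop : ψ.range = ⊤ := by
      apply Subgroup.eq_top_of_card_eq
      rw [ha, Nat.card_perm, hc3]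
      rfl
    haveI : Finite (Alpha A D) := Set.toFinite _
    letI : Fintype (Alpha A D) := Fintype.ofFinite _
    haveI : Nontrivial (Alpha A D) := by
      apply Finite.one_lt_card_iff_nontrivial.1
      rw [hc3]
      norm_num
    obtain ⟨p, hp⟩ := Equiv.Perm.sign_surjective (Alpha A D) (-1)
    have hpm : p ∈ ψ.range := by rw [htop]; trivial
    obtain ⟨s, rfl⟩ := hpm
    exact index_two_of_hom (Equiv.Perm.sign.comp ψ) (g := s) hp

end dc

/-- Huppert's theorem in the regular case. -/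
theorem huppert_regular (q : ℕ) [Fact q.Prime] {V : Type u} [AddCommGroup V] [Module (ZMod q) V]
    [Finite V] [Nontrivial V] {G : Type v} [Group G] [Finite G] (hsol : Group.IsSolvable G)
    (ρ : G →* (V ≃ₗ[ZMod q] V)) (hρ : Function.Injective ρ)
    (htrans : ∀ v w : V, v ≠ 0 → w ≠ 0 → ∃ g : G, ρ g v = w)
    (hreg : ∀ v : V, v ≠ 0 → ∀ g : G, ρ g v = v → g = 1) :
    ((∃ (F : Type) (_ : Field F) (_ : Fintype F) (e : V ≃+ F),
        ∀ g : G, ∃ (a : F) (σ : F ≃+* F), ∀ v : V, e (ρ g v) = a * σ (e v)) ∨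
      Nat.card V ∈ ({25, 49, 121, 529} : Set ℕ)) ∧
    (q ≠ 2 → (∃ N : Subgroup G, N.Normal ∧ N.index = 2) ∨
      (Nat.card V = 25 ∧ Nonempty (G ≃* Matrix.SpecialLinearGroup (Fin 2) (ZMod 3))) ∨
      (Nat.card V = 121 ∧ Nonempty (G ≃* Matrix.SpecialLinearGroup (Fin 2) (ZMod 3) × Multiplicative (ZMod 5)))) := by
  classical
  let P : Subgroup G → Prop := fun B => B.Normal ∧ ∀ a ∈ B, ∀ b ∈ B, a * b = b * a
  have hfin : ({B | P B} : Set (Subgroup G)).Finite := Set.toFinite _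
  have hbot : (⊥ : Subgroup G) ∈ {B | P B} := by
    refine ⟨inferInstance, ?_⟩
    intro a ha b hb
    rw [Subgroup.mem_bot] at ha hb
    rw [ha, hb]
  obtain ⟨A, hAmax⟩ := hfin.exists_maximal ⟨_, hbot⟩
  obtain ⟨hAn, hab⟩ : P A := hAmax.prop
  have hmax : ∀ B : Subgroup G, B.Normal → (∀ a ∈ B, ∀ b ∈ B, a * b = b * a) → A ≤ B → B ≤ A :=
    fun B h1 h2 h3 => hAmax.le_of_ge (y := B) ⟨h1, h2⟩ h3
  obtain ⟨K, _, _, _, _, κ, σ, hinj, hsc, hsemi, hcent⟩ := exists_K ρ hρ htrans A hAn hab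
  have C : Ctx ρ A κ σ := ⟨hρ, htrans, hAn, hab, hinj, hsc, hsemi, hcent⟩
  by_cases hC : ∀ g : G, (∀ a ∈ A, g * a = a * g) → g ∈ A
  · obtain ⟨F, _, _, e, he⟩ := gamma_form C hC
    exact ⟨Or.inl ⟨F, inferInstance, inferInstance, e, he⟩,
      fun hq2 => Or.inl (index_two_of_semilinear hq2 ρ htrans e he)⟩
  · push Not at hC
    obtain ⟨g₀, hg₀, hg₀A⟩ := hC
    let C₂ : Subgroup G := Subgroup.centralizer (A : Set G)
    have hmemC₂ : ∀ t, t ∈ C₂ ↔ ∀ a ∈ A, t * a = a * t := by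
      intro t
      constructor
      · intro ht a ha
        exact (Subgroup.mem_centralizer_iff.1 ht a ha).symm
      · intro ht
        exact Subgroup.mem_centralizer_iff.2 (fun a ha => (ht a ha).symm)
    have hC₂n : C₂.Normal := Subgroup.normal_centralizer
    have hAC₂ : A ≤ C₂ := fun a ha => (hmemC₂ a).2 (fun b hb => hab a ha b hb)
    obtain ⟨D, hDn, hAD, hDC, hne, r, hr, hpow, hcomm⟩ :=
      exists_D hsol A C₂ hC₂n hAC₂ ⟨g₀, (hmemC₂ g₀).2 hg₀, hg₀A⟩
    have H : DC ρ A κ σ D r := mkDC C hmax hDn hAD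
      (fun x hx a ha => (hmemC₂ x).1 (hDC hx) a ha) hr hpow hcomm hne
    by_cases hr2 : r = 2
    · subst hr2
      obtain ⟨h1, h2⟩ := H.regular_final hsol hmax hreg
      exact ⟨Or.inr h1, fun _ => h2⟩
    · exact (H.odd_false hr2).elim

end Cfsg.Agent.H03.HP
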