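import Mathlib

set_option autoImplicit false

namespace Cfsg.Agent.H03

variable {F : Type*} [Field F] [Fintype F]

/-- If `|F| = q²`, then `x ↦ x ^ q` is a ring homomorphism. -/
theorem exists_frob {q : ℕ} (hF : Fintype.card F = q ^ 2) :
    ∃ φ : F →+* F, ∀ x, φ x = x ^ q := by
  obtain ⟨p, hp⟩ := CharP.exists F
  obtain ⟨n, hpp, hcard⟩ := FiniteField.card F p
  have hq : q ∣ p ^ (n : ℕ) := by
    rw [← hcard, hF]; exact Dvd.intro_left (q ^ 1) (by ring)
  obtain ⟨k, _, rfl⟩ := (Nat.dvd_prime_pow hpp).1 hq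
  have : Fact p.Prime := ⟨hpp⟩
  have : ExpChar F p := ExpChar.prime hpp
  exact ⟨iterateFrobenius F p k, fun x => iterateFrobenius_def p k x⟩

theorem frob_frob {q : ℕ} (hF : Fintype.card F = q ^ 2) (x : F) : (x ^ q) ^ q = x := by
  rw [← pow_mul, ← sq, ← hF, FiniteField.pow_card]

end Cfsg.Agent.H03
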