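import Cfsg.Agent.Lib.H03.Basic

set_option autoImplicit false

namespace Cfsg.Agent.H03

/-- A nontrivial normal subgroup of a finite `p`-group contains a central element of order `p`. -/
theorem exists_central_of_order_p {G : Type*} [Group G] [Finite G] {p : ℕ} [hp : Fact p.Prime]
    (hG : IsPGroup p G) (K : Subgroup G) [K.Normal] (hK : K ≠ ⊥) :
    ∃ z ∈ K, z ∈ Subgroup.center G ∧ orderOf z = p := by
  classical
  have hact : IsPGroup p (ConjAct G) := hG
  have hK' : IsPGroup p K := hG.to_subgroup K
  have hdvd : p ∣ Nat.card K := by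
    rcases hK'.card_eq_or_dvd with h | h
    · exfalso
      apply hK
      exact (Subgroup.card_eq_one).mp h
    · exact h
  have hfix : (1 : K) ∈ MulAction.fixedPoints (ConjAct G) K := by
    intro g
    exact smul_one g
  obtain ⟨b, hb, hne⟩ := hact.exists_fixed_point_of_prime_dvd_card_of_fixed_point K hdvd hfix
  have hb1 : (b : G) ≠ 1 := by
    intro h
    exact hne (Subtype.ext (by simpa using h.symm))
  have hbz : (b : G) ∈ Subgroup.center G := by
    rw [Subgroup.mem_center_iff]
    intro g
    have := hb (ConjAct.toConjAct g)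
    have h2 := congrArg Subtype.val this
    have h3 : g * (b : G) * g⁻¹ = b := by
      rw [ConjAct.Subgroup.val_conj_smul, ConjAct.toConjAct_smul] at h2
      exact h2
    calc g * (b : G) = g * (b : G) * g⁻¹ * g := by group
      _ = b * g := by rw [h3]
  -- take a power of order `p`
  obtain ⟨k, hk⟩ := (hG).exists_orderOf_eq_pow (b : G)
  have hk0 : k ≠ 0 := by
    intro h
    rw [h, pow_zero] at hk
    exact hb1 (orderOf_eq_one_iff.mp hk)
  obtain ⟨j, rfl⟩ := Nat.exists_eq_succ_of_ne_zero hk0
  refine ⟨(b : G) ^ (p ^ j), K.pow_mem b.2 _, Subgroup.pow_mem _ hbz _, ?_⟩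
  rw [orderOf_pow' _ (pow_ne_zero _ hp.out.ne_zero), hk]
  rw [Nat.gcd_eq_right (pow_dvd_pow _ (Nat.le_succ j))]
  rw [pow_succ]
  exact Nat.mul_div_cancel_left _ (pow_pos hp.out.pos j)

end Cfsg.Agent.H03
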