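import Mathlib
import Cfsg.Prelude.Def_PLocal
import Cfsg.Prelude.Def_OddOrderLocal
import Cfsg.Agent.Lib.H03.Metacyclic
import Cfsg.Agent.Lib.H03.PGroup
import Cfsg.Agent.Lib.H01.Basic
import Cfsg.Agent.Lib.H18.HallPet
import Cfsg.Agent.Lib.H20.Regular

/-! Huppert: an odd `p`-group `G` with `|G : ℧₁(G)| ≤ p²` is metacyclic. -/

set_option autoImplicit false
set_option linter.unusedSectionVars false
set_option linter.unusedSimpArgs false
set_option linter.unusedVariables false
set_option linter.style.haveILetI false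

namespace Cfsg.Agent.H03.Hup

open Cfsg
open scoped commutatorElement

universe u

section basic

variable {G : Type u} [Group G] [Finite G] {p : ℕ} [hp : Fact p.Prime]

/-- The subgroup generated by `p`-th powers. -/
abbrev W (p : ℕ) (G : Type u) [Group G] : Subgroup G := powerClosure p 1 (⊤ : Subgroup G)

lemma W_le_frattini (hG : IsPGroup p G) : W p G ≤ frattini G := by
  rw [W, powerClosure, Subgroup.closure_le]
  rintro _ ⟨x, _, rfl⟩
  rw [pow_one]
  exact H01.pow_mem_frattini_of_isPGroup hG x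

lemma eq_top_of_sup (hG : IsPGroup p G) {H : Subgroup G} (h : H ⊔ W p G = ⊤) : H = ⊤ := by
  apply frattini_nongenerating
  rw [eq_top_iff, ← h]
  exact sup_le_sup_left (W_le_frattini hG) H

lemma pow_mem_W (x : G) : x ^ p ∈ W p G :=
  Subgroup.subset_closure ⟨x, Subgroup.mem_top x, by rw [pow_one]⟩

lemma index_step (hG : IsPGroup p G) {A B : Subgroup G} (h : A < B) : p * B.index ∣ A.index := by
  have h1 := Subgroup.relIndex_mul_index h.le
  rw [← h1]
  apply mul_dvd_mul_right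
  have h2 : A.relIndex B ≠ 1 := by
    rw [Ne, Subgroup.relIndex_eq_one]
    exact not_le_of_gt h
  have h3 : A.relIndex B ∣ Nat.card B := by
    exact Subgroup.index_dvd_card (A.subgroupOf B)
  obtain ⟨k, hk⟩ := IsPGroup.iff_card.1 (hG.to_subgroup B)
  rw [hk] at h3
  obtain ⟨j, hj, e⟩ := (Nat.dvd_prime_pow hp.out).1 h3
  rw [e] at h2 ⊢
  have hj0 : j ≠ 0 := by
    rintro rfl
    exact h2 (pow_zero p)
  exact dvd_pow_self p hj0

lemma exists_two (hG : IsPGroup p G) (hW : (W p G).index ≤ p ^ 2) {v : G} (hv : v ∉ W p G) :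
    ∃ t : G, Subgroup.closure ({v, t} : Set G) = ⊤ := by
  have hp0 : 0 < p := hp.out.pos
  by_cases hH1 : Subgroup.zpowers v ⊔ W p G = ⊤
  · refine ⟨1, eq_top_of_sup hG ?_⟩
    rw [eq_top_iff, ← hH1]
    apply sup_le_sup_right
    rw [Subgroup.zpowers_le]
    exact Subgroup.subset_closure (by simp)
  · obtain ⟨t, ht⟩ : ∃ t, t ∉ Subgroup.zpowers v ⊔ W p G := by
      by_contra hcon
      push Not at hcon
      exact hH1 (eq_top_iff.2 (fun x _ => hcon x))
    refine ⟨t, eq_top_of_sup hG ?_⟩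
    have h1 : W p G < Subgroup.zpowers v ⊔ W p G := by
      refine lt_of_le_of_ne le_sup_right ?_
      intro e
      apply hv
      rw [e]
      exact (le_sup_left : Subgroup.zpowers v ≤ _) (Subgroup.mem_zpowers v)
    have hle : Subgroup.zpowers v ≤ Subgroup.closure ({v, t} : Set G) := by
      rw [Subgroup.zpowers_le]
      exact Subgroup.subset_closure (by simp)
    have h2 : Subgroup.zpowers v ⊔ W p G < Subgroup.closure ({v, t} : Set G) ⊔ W p G := by
      refine lt_of_le_of_ne (sup_le_sup_right hle _) ?_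
      intro e
      apply ht
      rw [e]
      exact (le_sup_left : Subgroup.closure ({v, t} : Set G) ≤ _) (Subgroup.subset_closure (by simp))
    have h3 := index_step hG h1
    have h4 := index_step hG h2
    have h5 : p * (p * (Subgroup.closure ({v, t} : Set G) ⊔ W p G).index) ∣ (W p G).index :=
      (mul_dvd_mul_left p h4).trans h3
    have h6 : (W p G).index ≠ 0 := Subgroup.index_ne_zero_of_finite
    have h7 := Nat.le_of_dvd (Nat.pos_of_ne_zero h6) h5
    have h8 : p * (p * (Subgroup.closure ({v, t} : Set G) ⊔ W p G).index) ≤ p * p * 1 := by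
      rw [mul_one, ← pow_two]
      exact h7.trans hW
    rw [← mul_assoc] at h8
    have h9 := Nat.le_of_mul_le_mul_left h8 (by positivity)
    have h10 : (Subgroup.closure ({v, t} : Set G) ⊔ W p G).index ≠ 0 := Subgroup.index_ne_zero_of_finite
    have h11 : (Subgroup.closure ({v, t} : Set G) ⊔ W p G).index = 1 := by omega
    exact Subgroup.index_eq_one.1 h11

/-- The base case: class at most two and derived subgroup of exponent `p`. -/
theorem base_case (hp2 : p ≠ 2) (hG : IsPGroup p G) (hW : (W p G).index ≤ p ^ 2)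
    (hK : powerClosure p 1 (commutator G) = ⊥) (hK3 : (⊤ : Subgroup G).lowerCentralSeries 2 = ⊥) : IsMetacyclic G := by
  classical
  have hpp := hp.out
  have hp3 : 3 ≤ p := by
    have := hpp.two_le
    omega
  have hexp : ∀ g ∈ commutator G, g ^ p = 1 := by
    intro g hg
    have h1 : g ^ (p ^ 1) ∈ powerClosure p 1 (commutator G) := Subgroup.subset_closure ⟨g, hg, rfl⟩
    rw [hK, Subgroup.mem_bot, pow_one] at h1
    exact h1
  have hcen : ∀ g ∈ commutator G, ∀ x : G, g * x = x * g := by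
    intro g hg x
    have h1 : ⁅g, x⁆ ∈ (⊤ : Subgroup G).lowerCentralSeries 2 := by
      apply Subgroup.commutator_mem_commutator
      · rw [Subgroup.top_lowerCentralSeries_one]
        exact hg
      · exact Subgroup.mem_top x
    rw [hK3, Subgroup.mem_bot] at h1
    exact commutatorElement_eq_one_iff_mul_comm.1 h1
  have hpow : ∀ x y : G, (x * y) ^ p = x ^ p * y ^ p := by
    refine H18.mul_pow_of_class_lt hpp ?_ ?_
    · have h1 := Subgroup.lowerCentralSeries_antitone (⊤ : Subgroup G) (show 2 ≤ p - 1 by omega)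
      rw [hK3] at h1
      exact le_bot_iff.1 h1
    · rw [Subgroup.top_lowerCentralSeries_one]
      exact hexp
  let f : G →* G := { toFun := fun x => x ^ p, map_one' := one_pow p, map_mul' := hpow }
  have hWf : ∀ z ∈ W p G, ∃ x, z = x ^ p := by
    have h1 : W p G ≤ f.range := by
      rw [W, powerClosure, Subgroup.closure_le]
      rintro _ ⟨x, _, rfl⟩
      exact ⟨x, by simp [f]⟩
    intro z hz
    obtain ⟨x, hx⟩ := h1 hz
    exact ⟨x, hx.symm⟩
  by_cases htop : W p G = ⊤
  · -- trivial group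
    have h1 : (⊥ : Subgroup G) = ⊤ := eq_top_of_sup hG (by rw [htop, sup_top_eq])
    have h2 : Subsingleton G := by
      rw [← Subgroup.subsingleton_iff]
      exact subsingleton_of_bot_eq_top h1
    refine ⟨⊥, inferInstance, inferInstance, ?_⟩
    exact isCyclic_of_subsingleton
  obtain ⟨a, ha⟩ : ∃ a, a ∉ W p G := by
    by_contra hcon
    push Not at hcon
    exact htop (eq_top_iff.2 (fun x _ => hcon x))
  obtain ⟨b, hab⟩ := exists_two hG hW ha
  obtain ⟨c, hc⟩ : ∃ c, c = a * b * a⁻¹ * b⁻¹ := ⟨_, rfl⟩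
  have hcG : c ∈ commutator G := by
    have : ⁅a, b⁆ ∈ commutator G := Subgroup.commutator_mem_commutator (Subgroup.mem_top a) (Subgroup.mem_top b)
    rw [hc]
    exact this
  have hzc : ∀ u ∈ Subgroup.zpowers c, ∀ g : G, g * u * g⁻¹ = u := by
    intro u hu g
    obtain ⟨k, rfl⟩ := Subgroup.mem_zpowers_iff.1 hu
    have h1 : Commute g c := (hcen c hcG g).symm
    rw [(h1.zpow_right k).eq, mul_inv_cancel_right]
  have hle : commutator G ≤ Subgroup.zpowers c := by
    have h1 := H20.commutator_closure_pair_le (T := Subgroup.zpowers c) (a := a) (b := b) ?_ ?_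
    · rw [hab] at h1
      exact h1
    · intro g _ t ht
      rw [hzc t ht g]
      exact ht
    · intro g hg
      induction hg using Subgroup.closure_induction with
      | mem g hg =>
        rcases hg with rfl | hg
        · simp
        · rw [Set.mem_singleton_iff] at hg
          subst hg
          rw [← hc]
          exact Subgroup.mem_zpowers c
      | one => simp
      | mul g₁ g₂ _ _ ih₁ ih₂ =>
        have e : a * (g₁ * g₂) * a⁻¹ * (g₁ * g₂)⁻¹ = (a * g₁ * a⁻¹ * g₁⁻¹) * (g₁ * (a * g₂ * a⁻¹ * g₂⁻¹) * g₁⁻¹) := by group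
        rw [e]
        refine (Subgroup.zpowers c).mul_mem ih₁ ?_
        rw [hzc _ ih₂ g₁]
        exact ih₂
      | inv g _ ih =>
        have e : a * g⁻¹ * a⁻¹ * g⁻¹⁻¹ = g⁻¹ * (a * g * a⁻¹ * g⁻¹)⁻¹ * g⁻¹⁻¹ := by group
        rw [e, hzc _ ((Subgroup.zpowers c).inv_mem ih) g⁻¹]
        exact (Subgroup.zpowers c).inv_mem ih
  -- a generator of maximal order
  haveI : Nonempty {v : G // c ∈ Subgroup.zpowers v} := ⟨⟨c, Subgroup.mem_zpowers c⟩⟩
  obtain ⟨⟨v, hcv⟩, hvmax⟩ := Finite.exists_max (fun w : {v : G // c ∈ Subgroup.zpowers v} => orderOf w.1)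
  have hvW : v ∉ W p G := by
    intro hv
    obtain ⟨x, rfl⟩ := hWf v hv
    have h1 : c ∈ Subgroup.zpowers x := by
      have h2 : Subgroup.zpowers (x ^ p) ≤ Subgroup.zpowers x := by
        rw [Subgroup.zpowers_le]
        exact Subgroup.pow_mem _ (Subgroup.mem_zpowers x) p
      exact h2 hcv
    have h3 := hvmax ⟨x, h1⟩
    simp only at h3
    by_cases hx1 : x = 1
    · subst hx1
      rw [one_pow, Subgroup.zpowers_one_eq_bot, Subgroup.mem_bot] at hcv
      have h4 := hvmax ⟨a, by rw [hcv]; exact one_mem _⟩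
      simp only [one_pow, orderOf_one] at h4
      have h5 : a = 1 := orderOf_eq_one_iff.1 (le_antisymm h4 (orderOf_pos a))
      exact ha (by rw [h5]; exact one_mem _)
    · obtain ⟨k, hk⟩ := (IsPGroup.iff_orderOf.1 hG) x
      have hk0 : k ≠ 0 := by
        rintro rfl
        exact hx1 (orderOf_eq_one_iff.1 (by rw [hk, pow_zero]))
      have h6 : p ∣ orderOf x := by
        rw [hk]
        exact dvd_pow_self p hk0
      have h7 := orderOf_pow_of_dvd (x := x) hpp.ne_zero h6
      rw [h7] at h3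
      have h8 : orderOf x / p < orderOf x := Nat.div_lt_self (orderOf_pos x) hpp.one_lt
      omega
  obtain ⟨t, hvt⟩ := exists_two hG hW hvW
  have hcomm : commutator G ≤ Subgroup.zpowers v := by
    refine hle.trans ?_
    rwa [Subgroup.zpowers_le]
  have hn : (Subgroup.zpowers v).Normal := by
    constructor
    intro u hu g
    have h1 : ⁅g, u⁆ ∈ commutator G := Subgroup.commutator_mem_commutator (Subgroup.mem_top g) (Subgroup.mem_top u)
    have e : g * u * g⁻¹ = ⁅g, u⁆ * u := by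
      rw [commutatorElement_def]
      group
    rw [e]
    exact (Subgroup.zpowers v).mul_mem (hcomm h1) hu
  refine ⟨Subgroup.zpowers v, hn, inferInstance, ?_⟩
  refine ⟨⟨((t : G) : G ⧸ Subgroup.zpowers v), ?_⟩⟩
  have hall : Subgroup.comap (QuotientGroup.mk' (Subgroup.zpowers v)) (Subgroup.zpowers ((t : G) : G ⧸ Subgroup.zpowers v)) = ⊤ := by
    rw [eq_top_iff, ← hvt, Subgroup.closure_le]
    rintro x (rfl | hx)
    · have : (QuotientGroup.mk' (Subgroup.zpowers x)) x = 1 := by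
        rw [QuotientGroup.mk'_apply, QuotientGroup.eq_one_iff]
        exact Subgroup.mem_zpowers x
      rw [SetLike.mem_coe, Subgroup.mem_comap, this]
      exact one_mem _
    · rw [Set.mem_singleton_iff] at hx
      subst hx
      exact Subgroup.mem_zpowers _
  intro x
  obtain ⟨g, rfl⟩ := QuotientGroup.mk_surjective x
  have : g ∈ Subgroup.comap (QuotientGroup.mk' (Subgroup.zpowers v)) (Subgroup.zpowers ((t : G) : G ⧸ Subgroup.zpowers v)) := by
    rw [hall]
    trivial
  exact this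

/-- The lifting step (Blackburn). -/
theorem lift_metacyclic (hG : IsPGroup p G) {z : G} (hz : z ∈ Subgroup.center G) (N : Subgroup G) [N.Normal]
    (hNz : N = Subgroup.zpowers z) (hzo : z ^ p = 1) (hQ : IsMetacyclic (G ⧸ N))
    (hzK : z ∈ powerClosure p 1 (commutator G) ⊔ (⊤ : Subgroup G).lowerCentralSeries 2) : IsMetacyclic G := by
  classical
  obtain ⟨Ab, hAn, hAc, hQc⟩ := hQ
  obtain ⟨A, hA⟩ : ∃ A, A = Ab.comap (QuotientGroup.mk' N) := ⟨_, rfl⟩
  have hAnn : A.Normal := by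
    rw [hA]
    infer_instance
  have hmemA : ∀ x, x ∈ A ↔ ((x : G) : G ⧸ N) ∈ Ab := by
    intro x
    rw [hA]
    rfl
  -- generators
  obtain ⟨bq, hbq⟩ := IsCyclic.exists_generator (α := (G ⧸ N) ⧸ Ab)
  obtain ⟨bq', rfl⟩ := QuotientGroup.mk_surjective bq
  obtain ⟨b, rfl⟩ := QuotientGroup.mk_surjective bq'
  have hb : ∀ g : G, ∃ k : ℤ, g * (b ^ k)⁻¹ ∈ A := by
    intro g
    obtain ⟨k, hk⟩ := Subgroup.mem_zpowers_iff.1 (hbq (((g : G) : G ⧸ N) : (G ⧸ N) ⧸ Ab))
    refine ⟨k, ?_⟩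
    rw [hmemA]
    have h1 : (((b ^ k : G) : G ⧸ N) : (G ⧸ N) ⧸ Ab) = (((g : G) : G ⧸ N) : (G ⧸ N) ⧸ Ab) := by
      rw [← hk]
      rfl
    have h2 := (QuotientGroup.eq.1 h1.symm)
    have h3 : (((g * (b ^ k)⁻¹ : G) : G ⧸ N)) = ((g : G) : G ⧸ N) * (((b ^ k : G) : G ⧸ N))⁻¹ := rfl
    rw [h3]
    have h4 := Ab.inv_mem (hAn.conj_mem _ h2 ((g : G) : G ⧸ N))
    convert h4 using 1
    group
  obtain ⟨⟨aq, haq⟩, hag⟩ := IsCyclic.exists_generator (α := Ab)
  obtain ⟨a, rfl⟩ := QuotientGroup.mk_surjective aq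
  have haA : a ∈ A := (hmemA a).2 haq
  have hNA : N ≤ A := by
    intro n hn
    rw [hmemA]
    have : ((n : G) : G ⧸ N) = 1 := (QuotientGroup.eq_one_iff n).2 hn
    rw [this]
    exact one_mem _
  have hzN : z ∈ N := by
    rw [hNz]
    exact Subgroup.mem_zpowers z
  have hNcen : ∀ n ∈ N, ∀ g : G, n * g = g * n := by
    intro n hn g
    rw [hNz] at hn
    obtain ⟨k, rfl⟩ := Subgroup.mem_zpowers_iff.1 hn
    have h1 : Commute z g := (Subgroup.mem_center_iff.1 hz g).symm
    exact (h1.zpow_left k).eq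
  have ha : ∀ x ∈ A, ∃ i : ℤ, ∃ n ∈ N, x = a ^ i * n := by
    intro x hx
    have hx' := (hmemA x).1 hx
    obtain ⟨i, hi⟩ := Subgroup.mem_zpowers_iff.1 (hag ⟨_, hx'⟩)
    refine ⟨i, (a ^ i)⁻¹ * x, ?_, by group⟩
    have h1 : ((a ^ i : G) : G ⧸ N) = ((x : G) : G ⧸ N) := by
      have h2 := congrArg Subtype.val hi
      rw [Subgroup.coe_zpow] at h2
      exact h2
    exact QuotientGroup.eq.1 h1
  have hcycq : IsCyclic (G ⧸ A) := by
    haveI := hAnn
    refine ⟨⟨((b : G) : G ⧸ A), ?_⟩⟩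
    intro x
    obtain ⟨g, rfl⟩ := QuotientGroup.mk_surjective x
    obtain ⟨k, hk⟩ := hb g
    refine Subgroup.mem_zpowers_iff.2 ⟨k, ?_⟩
    have h1 : ((g * (b ^ k)⁻¹ : G) : G ⧸ A) = 1 := (QuotientGroup.eq_one_iff _).2 hk
    have h2 : ((g * (b ^ k)⁻¹ : G) : G ⧸ A) = ((g : G) : G ⧸ A) * (((b : G) : G ⧸ A) ^ k)⁻¹ := rfl
    rw [h2] at h1
    exact (mul_inv_eq_one.1 h1).symm
  by_cases hza : z ∈ Subgroup.zpowers a
  · refine ⟨A, hAnn, ?_, hcycq⟩
    refine ⟨⟨⟨a, haA⟩, ?_⟩⟩
    rintro ⟨x, hx⟩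
    obtain ⟨i, n, hn, e⟩ := ha x hx
    have h1 : n ∈ Subgroup.zpowers a := by
      rw [hNz] at hn
      exact (Subgroup.zpowers_le.2 hza) hn
    obtain ⟨j, rfl⟩ := Subgroup.mem_zpowers_iff.1 h1
    refine Subgroup.mem_zpowers_iff.2 ⟨i + j, ?_⟩
    apply Subtype.ext
    rw [Subgroup.coe_zpow]
    simp only
    rw [e, zpow_add]
  exfalso
  apply hza
  -- `A` is abelian
  have hAab : ∀ x ∈ A, ∀ y ∈ A, x * y = y * x := by
    intro x hx y hy
    obtain ⟨i, n, hn, rfl⟩ := ha x hx
    obtain ⟨j, m, hm, rfl⟩ := ha y hy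
    have h1 : Commute (a ^ i) (a ^ j) := (Commute.refl a).zpow_zpow i j
    have h2 : Commute (a ^ i) m := (hNcen m hm _).symm
    have h3 : Commute n (a ^ j) := hNcen n hn _
    have h4 : Commute n m := hNcen n hn _
    exact (h1.mul_left h3).mul_right (h2.mul_left h4)
  have hconjA : ∀ x ∈ A, b * x * b⁻¹ ∈ A := fun x hx => hAnn.conj_mem x hx b
  obtain ⟨c, hc⟩ : ∃ c, c = a * b * a⁻¹ * b⁻¹ := ⟨_, rfl⟩
  have hδA : ∀ x ∈ A, x * b * x⁻¹ * b⁻¹ ∈ A := by
    intro x hx
    have e : x * b * x⁻¹ * b⁻¹ = x * (b * x⁻¹ * b⁻¹) := by group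
    rw [e]
    exact A.mul_mem hx (hconjA _ (A.inv_mem hx))
  have hcA : c ∈ A := by
    rw [hc]
    exact hδA a haA
  -- the commutator map
  have hδmul : ∀ x ∈ A, ∀ y ∈ A, (x * y) * b * (x * y)⁻¹ * b⁻¹ = (x * b * x⁻¹ * b⁻¹) * (y * b * y⁻¹ * b⁻¹) := by
    intro x hx y hy
    have h1 := hAab x hx _ (hδA y hy)
    calc (x * y) * b * (x * y)⁻¹ * b⁻¹ = (x * (y * b * y⁻¹ * b⁻¹)) * (b * x⁻¹ * b⁻¹) := by group
      _ = ((y * b * y⁻¹ * b⁻¹) * x) * (b * x⁻¹ * b⁻¹) := by rw [h1]
      _ = (y * b * y⁻¹ * b⁻¹) * (x * b * x⁻¹ * b⁻¹) := by group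
      _ = _ := (hAab _ (hδA y hy) _ (hδA x hx))
  let δ : A →* G := MonoidHom.mk' (fun x => (x : G) * b * (x : G)⁻¹ * b⁻¹) (fun x y => hδmul x x.2 y y.2)
  have hδa : ∀ i : ℤ, (a ^ i) * b * (a ^ i)⁻¹ * b⁻¹ = c ^ i := by
    intro i
    have h1 := map_zpow δ ⟨a, haA⟩ i
    have h2 : δ ⟨a, haA⟩ = c := by rw [hc]; rfl
    rw [h2] at h1
    rw [← h1]
    rfl
  have hF1 : ∀ x ∈ A, x * b * x⁻¹ * b⁻¹ ∈ Subgroup.zpowers c := by
    intro x hx
    obtain ⟨i, n, hn, rfl⟩ := ha x hx
    have hn' : Commute n b := hNcen n hn b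
    have e : (a ^ i * n) * b * (a ^ i * n)⁻¹ * b⁻¹ = (a ^ i) * b * (a ^ i)⁻¹ * b⁻¹ := by
      rw [mul_inv_rev, mul_assoc (a ^ i) n b, hn'.eq]
      group
    rw [e, hδa]
    exact Subgroup.zpow_mem_zpowers c i
  -- normality of `⟨c⟩`
  have hP : ∀ g : G, ∀ u ∈ Subgroup.zpowers c, g * u * g⁻¹ ∈ Subgroup.zpowers c := by
    have hPA : ∀ x ∈ A, ∀ u ∈ Subgroup.zpowers c, x * u * x⁻¹ ∈ Subgroup.zpowers c := by
      intro x hx u hu
      have h1 : u ∈ A := (Subgroup.zpowers_le.2 hcA) hu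
      rw [hAab x hx u h1, mul_inv_cancel_right]
      exact hu
    have hPb : ∀ u ∈ Subgroup.zpowers c, b * u * b⁻¹ ∈ Subgroup.zpowers c := by
      intro u hu
      obtain ⟨k, rfl⟩ := Subgroup.mem_zpowers_iff.1 hu
      have e : b * c ^ k * b⁻¹ = (b * c * b⁻¹) ^ k := by rw [conj_zpow]
      rw [e]
      apply Subgroup.zpow_mem
      have e2 : b * c * b⁻¹ = (b * a * b⁻¹) * b * (b * a * b⁻¹)⁻¹ * b⁻¹ := by
        rw [hc]
        group
      rw [e2]
      exact hF1 _ (hconjA a haA)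
    have hPbn : ∀ n : ℕ, ∀ u ∈ Subgroup.zpowers c, b ^ n * u * (b ^ n)⁻¹ ∈ Subgroup.zpowers c := by
      intro n
      induction n with
      | zero => simp
      | succ n ih =>
        intro u hu
        have e : b ^ (n + 1) * u * (b ^ (n + 1))⁻¹ = b ^ n * (b * u * b⁻¹) * (b ^ n)⁻¹ := by
          rw [pow_succ]
          group
        rw [e]
        exact ih _ (hPb u hu)
    intro g u hu
    obtain ⟨k, hk⟩ := hb g
    have h1 : b ^ k ∈ Submonoid.powers b := by
      rw [mem_powers_iff_mem_zpowers]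
      exact Subgroup.zpow_mem_zpowers b k
    obtain ⟨n, hn⟩ := h1
    simp only at hn
    have e : g * u * g⁻¹ = (g * (b ^ k)⁻¹) * ((b ^ k) * u * (b ^ k)⁻¹) * (g * (b ^ k)⁻¹)⁻¹ := by group
    rw [e]
    apply hPA _ hk
    rw [← hn]
    exact hPbn n u hu
  haveI hCn : (Subgroup.zpowers c).Normal := ⟨fun u hu g => hP g u hu⟩
  -- the commutator subgroup
  have hF4 : commutator G ≤ Subgroup.zpowers c := by
    have key : ∀ g h : G, Commute ((g : G) : G ⧸ Subgroup.zpowers c) ((h : G) : G ⧸ Subgroup.zpowers c) := by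
      have hAb : ∀ x ∈ A, Commute ((x : G) : G ⧸ Subgroup.zpowers c) ((b : G) : G ⧸ Subgroup.zpowers c) := by
        intro x hx
        have h1 := (QuotientGroup.eq_one_iff _).2 (hF1 x hx)
        have h2 : ((x * b * x⁻¹ * b⁻¹ : G) : G ⧸ Subgroup.zpowers c) = ⁅((x : G) : G ⧸ Subgroup.zpowers c), ((b : G) : G ⧸ Subgroup.zpowers c)⁆ := rfl
        rw [h2] at h1
        exact commutatorElement_eq_one_iff_commute.1 h1
      have hAA : ∀ x ∈ A, ∀ y ∈ A, Commute ((x : G) : G ⧸ Subgroup.zpowers c) ((y : G) : G ⧸ Subgroup.zpowers c) := by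
        intro x hx y hy
        exact congrArg (fun t : G => (t : G ⧸ Subgroup.zpowers c)) (hAab x hx y hy)
      intro g h
      obtain ⟨k, hk⟩ := hb g
      obtain ⟨l, hl⟩ := hb h
      have eg : ((g : G) : G ⧸ Subgroup.zpowers c) = ((g * (b ^ k)⁻¹ : G) : G ⧸ Subgroup.zpowers c) * ((b : G) : G ⧸ Subgroup.zpowers c) ^ k := by
        rw [show ((b : G) : G ⧸ Subgroup.zpowers c) ^ k = ((b ^ k : G) : G ⧸ Subgroup.zpowers c) from rfl, ← QuotientGroup.mk_mul, inv_mul_cancel_right]
      have eh : ((h : G) : G ⧸ Subgroup.zpowers c) = ((h * (b ^ l)⁻¹ : G) : G ⧸ Subgroup.zpowers c) * ((b : G) : G ⧸ Subgroup.zpowers c) ^ l := by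
        rw [show ((b : G) : G ⧸ Subgroup.zpowers c) ^ l = ((b ^ l : G) : G ⧸ Subgroup.zpowers c) from rfl, ← QuotientGroup.mk_mul, inv_mul_cancel_right]
      rw [eg, eh]
      apply Commute.mul_left
      · apply Commute.mul_right (hAA _ hk _ hl)
        exact (hAb _ hk).zpow_right l
      · apply Commute.mul_right
        · exact ((hAb _ hl).zpow_right k).symm
        · exact (Commute.refl _).zpow_zpow k l
    rw [_root_.commutator_def, Subgroup.commutator_le]
    intro g _ h _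
    rw [← QuotientGroup.eq_one_iff]
    exact commutatorElement_eq_one_iff_commute.2 (key g h)
  -- `K ≤ ⟨c^p⟩`
  have hF5 : powerClosure p 1 (commutator G) ⊔ (⊤ : Subgroup G).lowerCentralSeries 2 ≤ Subgroup.zpowers (c ^ p) := by
    apply sup_le
    · rw [powerClosure, Subgroup.closure_le]
      rintro _ ⟨x, hx, rfl⟩
      obtain ⟨i, rfl⟩ := Subgroup.mem_zpowers_iff.1 (hF4 hx)
      have e : (c ^ i) ^ p ^ 1 = (c ^ p) ^ i := by
        rw [pow_one, ← zpow_natCast (c ^ i) p, ← zpow_mul, mul_comm, zpow_mul, zpow_natCast]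
      rw [e]
      exact Subgroup.zpow_mem_zpowers _ i
    · rw [Subgroup.lowerCentralSeries_succ, Subgroup.top_lowerCentralSeries_one, Subgroup.commutator_le]
      intro u hu g _
      obtain ⟨i, rfl⟩ := Subgroup.mem_zpowers_iff.1 (hF4 hu)
      by_cases hc1 : c = 1
      · simp [hc1]
      obtain ⟨e, he⟩ := (IsPGroup.iff_orderOf.1 hG) c
      have he0 : e ≠ 0 := by
        rintro rfl
        exact hc1 (orderOf_eq_one_iff.1 (by rw [he, pow_zero]))
      obtain ⟨r, hr, hr1⟩ := exists_conj_eq_pow hG (fun g => hP g c (Subgroup.mem_zpowers c)) he0 he g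
      have h1 : ((r : ℤ) - 1 : ℤ) = p * (((r : ℤ) - 1) / p) := by
        have h2 : (((r : ℤ) - 1 : ℤ) : ZMod p) = 0 := by
          push_cast
          rw [hr1, sub_self]
        have h3 := (ZMod.intCast_zmod_eq_zero_iff_dvd _ p).1 h2
        exact (Int.mul_ediv_cancel' h3).symm
      obtain ⟨s, hs⟩ : ∃ s : ℤ, s = ((r : ℤ) - 1) / p := ⟨_, rfl⟩
      rw [← hs] at h1
      have e1 : ⁅c ^ i, g⁆ = (c ^ p) ^ (-(s * i)) := by
        rw [commutatorElement_def]
        have e2 : g * (c ^ i)⁻¹ * g⁻¹ = (c ^ (r : ℤ)) ^ (-i) := by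
          have : g * c * g⁻¹ = c ^ (r : ℤ) := by rw [hr, zpow_natCast]
          rw [← this, ← zpow_neg, conj_zpow]
        rw [mul_assoc, mul_assoc, ← mul_assoc g, e2, ← zpow_mul, ← zpow_add, ← zpow_natCast c p, ← zpow_mul]
        congr 1
        have : (r : ℤ) = 1 + p * s := by rw [← h1]; ring
        rw [this]
        ring
      rw [e1]
      exact Subgroup.zpow_mem_zpowers _ _
  -- conclusion
  have h6 := hF5 hzK
  obtain ⟨j, hj⟩ := Subgroup.mem_zpowers_iff.1 h6
  obtain ⟨i, n, hn, hcn⟩ := ha c hcA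
  have hnp : n ^ p = 1 := by
    rw [hNz] at hn
    obtain ⟨k, rfl⟩ := Subgroup.mem_zpowers_iff.1 hn
    rw [← zpow_natCast, ← zpow_mul, mul_comm, zpow_mul, zpow_natCast, hzo, one_zpow]
  have h7 : c ^ p = (a ^ i) ^ p := by
    rw [hcn, (show Commute (a ^ i) n from (hNcen n hn _).symm).mul_pow, hnp, mul_one]
  rw [← hj, h7]
  exact Subgroup.zpow_mem _ (Subgroup.pow_mem _ (Subgroup.zpow_mem_zpowers a i) p) j

/-- **Huppert.** An odd `p`-group `G` with `|G : ℧₁(G)| ≤ p²` is metacyclic. -/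
theorem metacyclic_of_index (hp2 : p ≠ 2) (hG : IsPGroup p G) (hW : (W p G).index ≤ p ^ 2) : IsMetacyclic G := by
  classical
  induction h : Nat.card G using Nat.strong_induction_on generalizing G with
  | _ n ih =>
    by_cases hK : powerClosure p 1 (commutator G) ⊔ (⊤ : Subgroup G).lowerCentralSeries 2 = ⊥
    · rw [sup_eq_bot_iff] at hK
      exact base_case hp2 hG hW hK.1 hK.2
    · haveI hKn : (powerClosure p 1 (commutator G) ⊔ (⊤ : Subgroup G).lowerCentralSeries 2).Normal := by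
        haveI h1 : (powerClosure p 1 (commutator G)).Normal := by
          constructor
          intro x hx g
          unfold powerClosure at hx ⊢
          have : Subgroup.closure {y : G | ∃ x ∈ commutator G, y = x ^ p ^ 1} ≤ (Subgroup.closure {y : G | ∃ x ∈ commutator G, y = x ^ p ^ 1}).comap (MulAut.conj g).toMonoidHom := by
            rw [Subgroup.closure_le]
            rintro _ ⟨x, hx, rfl⟩
            apply Subgroup.subset_closure
            refine ⟨g * x * g⁻¹, (Subgroup.commutator_normal _ _).conj_mem x hx g, ?_⟩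
            simp [conj_pow]
          exact this hx
        haveI h2 : ((⊤ : Subgroup G).lowerCentralSeries 2).Normal := H20.lowerCentralSeries_normal _ _
        infer_instance
      obtain ⟨z, hzK, hzc, hzo⟩ := exists_central_of_order_p hG _ hK
      obtain ⟨N, hN⟩ : ∃ N, N = Subgroup.zpowers z := ⟨_, rfl⟩
      haveI hNn : N.Normal := by
        constructor
        intro x hx g
        rw [hN] at hx ⊢
        obtain ⟨k, rfl⟩ := Subgroup.mem_zpowers_iff.1 hx
        have h1 : Commute g z := Subgroup.mem_center_iff.1 hzc g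
        rw [(h1.zpow_right k).eq, mul_inv_cancel_right]
        exact hx
      have hzN : z ∈ N := by rw [hN]; exact Subgroup.mem_zpowers z
      have hz1 : z ≠ 1 := by
        rintro rfl
        rw [orderOf_one] at hzo
        exact hp.out.one_lt.ne hzo
      have hNbot : N ≠ ⊥ := by
        intro e
        rw [e, Subgroup.mem_bot] at hzN
        exact hz1 hzN
      have hcard : Nat.card (G ⧸ N) < n := by
        rw [← h]
        have h1 := Subgroup.card_eq_card_quotient_mul_card_subgroup N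
        have h2 : 1 < Nat.card N := by
          have : Nontrivial N := (Subgroup.nontrivial_iff_ne_bot N).2 hNbot
          exact Finite.one_lt_card
        rw [h1]
        have h3 : 0 < Nat.card (G ⧸ N) := Nat.card_pos
        nlinarith
      have hQ : IsMetacyclic (G ⧸ N) := by
        refine ih _ hcard (G := G ⧸ N) (hG.to_quotient N) ?_ rfl
        have h1 : (W p G) ≤ (W p (G ⧸ N)).comap (QuotientGroup.mk' N) := by
          rw [W, powerClosure, Subgroup.closure_le]
          rintro _ ⟨x, _, rfl⟩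
          change ((x ^ p ^ 1 : G) : G ⧸ N) ∈ W p (G ⧸ N)
          rw [QuotientGroup.mk_pow]
          exact Subgroup.subset_closure ⟨_, Subgroup.mem_top _, rfl⟩
        have h2 := Subgroup.index_dvd_of_le h1
        rw [Subgroup.index_comap_of_surjective _ (QuotientGroup.mk'_surjective N)] at h2
        exact (Nat.le_of_dvd (Nat.pos_of_ne_zero Subgroup.index_ne_zero_of_finite) h2).trans hW
      have hzo' : z ^ p = 1 := by
        rw [← hzo]
        exact pow_orderOf_eq_one z
      exact lift_metacyclic hG hzc N hN hzo' hQ hzK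

end basic

end Cfsg.Agent.H03.Hup
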