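import Mathlib
import Cfsg.Agent.Lib.H03.Hup1
import Cfsg.Agent.Lib.H29.RegP

/-! Groups with few elements of order `p` are regular (`p ≥ 5`), hence metacyclic. -/

set_option autoImplicit false
set_option linter.unusedSectionVars false
set_option linter.unusedSimpArgs false
set_option linter.unusedVariables false
set_option linter.style.haveILetI false

namespace Cfsg.Agent.H03.Hup

open Cfsg
open scoped commutatorElement
open Cfsg.Agent.H29.RegP (regular_of_single single_of_regular closure_pow_of powers_eq)

universe u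

section main

variable {G : Type u} [Group G] [Finite G] {p : ℕ} [hp : Fact p.Prime]

/-- `|G : ℧₁(G)| ≤ |Ω₁(G)|` in a regular `p`-group. -/
lemma index_W_le (hG : IsRegularPGroup p G) : (W p G).index ≤ Nat.card (omegaOne p (⊤ : Subgroup G)) := by
  classical
  obtain ⟨Om, hOm⟩ : ∃ Om, Om = H20.regOmega hG 1 := ⟨_, rfl⟩
  have hmem : ∀ x, x ∈ Om ↔ x ^ p ^ 1 = 1 := by
    intro x
    rw [hOm]
    exact H20.mem_regOmega hG 1 x
  have hle : Om ≤ omegaOne p (⊤ : Subgroup G) := by
    intro x hx
    apply Subgroup.subset_closure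
    refine ⟨Subgroup.mem_top x, ?_⟩
    have := (hmem x).1 hx
    rwa [pow_one] at this
  have h1 : Nat.card Om ≤ Nat.card (omegaOne p (⊤ : Subgroup G)) := Subgroup.card_le_of_le hle
  have h2 : Nat.card (G ⧸ Om) ≤ Nat.card (W p G) := by
    let f : W p G → G ⧸ Om := fun y => if h : ∃ x : G, x ^ p ^ 1 = y then ((h.choose : G) : G ⧸ Om) else ((1 : G) : G ⧸ Om)
    refine Nat.card_le_card_of_surjective f ?_
    intro q
    obtain ⟨a, rfl⟩ := QuotientGroup.mk_surjective q
    have ha : a ^ p ^ 1 ∈ W p G := Subgroup.subset_closure ⟨a, Subgroup.mem_top a, rfl⟩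
    refine ⟨⟨a ^ p ^ 1, ha⟩, ?_⟩
    have hex : ∃ x : G, x ^ p ^ 1 = a ^ p ^ 1 := ⟨a, rfl⟩
    simp only [f]
    rw [dif_pos hex]
    apply QuotientGroup.eq.2
    rw [hmem]
    exact H20.reg_fwd hG 1 _ _ hex.choose_spec
  have h3 := Subgroup.card_eq_card_quotient_mul_card_subgroup Om
  have h4 := Subgroup.card_mul_index (W p G)
  have h5 : 0 < Nat.card (W p G) := Nat.card_pos
  have h6 : Nat.card (W p G) * (W p G).index ≤ Nat.card (W p G) * Nat.card (omegaOne p (⊤ : Subgroup G)) := by
    rw [h4, h3]
    exact Nat.mul_le_mul h2 h1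
  exact Nat.le_of_mul_le_mul_left h6 h5

lemma omega_sub (K : Subgroup G) : Nat.card (omegaOne p (⊤ : Subgroup K)) ≤ Nat.card (omegaOne p (⊤ : Subgroup G)) := by
  have h1 : (omegaOne p (⊤ : Subgroup K)).map K.subtype ≤ omegaOne p (⊤ : Subgroup G) := by
    rw [omegaOne, MonoidHom.map_closure, Subgroup.closure_le]
    rintro _ ⟨x, ⟨_, hx⟩, rfl⟩
    apply Subgroup.subset_closure
    refine ⟨Subgroup.mem_top _, ?_⟩
    exact congrArg Subtype.val hx
  have h2 := Subgroup.card_le_of_le h1
  rwa [Subgroup.card_map_of_injective K.subtype_injective] at h2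

lemma lcs_lt (hG : IsPGroup p G) (k : ℕ) (h : (⊤ : Subgroup G).lowerCentralSeries k ≠ ⊥) :
    (⊤ : Subgroup G).lowerCentralSeries (k + 1) < (⊤ : Subgroup G).lowerCentralSeries k := by
  refine lt_of_le_of_ne (Subgroup.lowerCentralSeries_antitone _ (Nat.le_succ k)) ?_
  intro e
  apply h
  have hj : ∀ j, (⊤ : Subgroup G).lowerCentralSeries (k + j) = (⊤ : Subgroup G).lowerCentralSeries k := by
    intro j
    induction j with
    | zero => rfl
    | succ j ih =>
      rw [← add_assoc, Subgroup.lowerCentralSeries_succ, ih, ← Subgroup.lowerCentralSeries_succ, e]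
  have hnil : Group.IsNilpotent G := hG.isNilpotent
  obtain ⟨n, hn⟩ := Subgroup.nilpotent_iff_lowerCentralSeries.1 hnil
  have h1 := Subgroup.lowerCentralSeries_antitone (⊤ : Subgroup G) (show n ≤ k + n by omega)
  rw [hn, hj n] at h1
  exact le_bot_iff.1 h1

lemma card_step (hG : IsPGroup p G) {A B : Subgroup G} (h : A < B) : p * Nat.card A ≤ Nat.card B := by
  obtain ⟨i, hi⟩ := IsPGroup.iff_card.1 (hG.to_subgroup A)
  obtain ⟨j, hj⟩ := IsPGroup.iff_card.1 (hG.to_subgroup B)
  have h1 : Nat.card A < Nat.card B := by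
    have h2 := Subgroup.card_le_of_le h.le
    refine lt_of_le_of_ne h2 ?_
    intro e
    exact h.ne (Subgroup.eq_of_le_of_card_ge h.le e.ge)
  rw [hi, hj] at h1 ⊢
  have h3 : i < j := (Nat.pow_lt_pow_iff_right hp.out.one_lt).1 h1
  rw [← pow_succ']
  exact Nat.pow_le_pow_right hp.out.pos h3

lemma lcs_three (hG : IsPGroup p G) (h : Nat.card (commutator G) ≤ p ^ 2) : (⊤ : Subgroup G).lowerCentralSeries 3 = ⊥ := by
  by_contra hne
  have h3 : (⊤ : Subgroup G).lowerCentralSeries 2 ≠ ⊥ := by
    intro e
    apply hne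
    have := Subgroup.lowerCentralSeries_antitone (⊤ : Subgroup G) (show 2 ≤ 3 by omega)
    rw [e] at this
    exact le_bot_iff.1 this
  have h2 : (⊤ : Subgroup G).lowerCentralSeries 1 ≠ ⊥ := by
    intro e
    apply hne
    have := Subgroup.lowerCentralSeries_antitone (⊤ : Subgroup G) (show 1 ≤ 3 by omega)
    rw [e] at this
    exact le_bot_iff.1 this
  have a1 := card_step hG (lcs_lt hG 1 h2)
  have a2 := card_step hG (lcs_lt hG 2 h3)
  have a3 := card_step hG (lcs_lt hG 3 hne)
  have a4 : 0 < Nat.card ((⊤ : Subgroup G).lowerCentralSeries (3 + 1)) := Nat.card_pos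
  rw [Subgroup.top_lowerCentralSeries_one] at a1
  have hp0 : 0 < p := hp.out.pos
  have hc : p * 1 ≤ p * Nat.card ((⊤ : Subgroup G).lowerCentralSeries (3 + 1)) := Nat.mul_le_mul_left p a4
  have b1 : p * p ≤ p * Nat.card ((⊤ : Subgroup G).lowerCentralSeries 3) := Nat.mul_le_mul_left p (by omega)
  have b2 : p * (p * p) ≤ p * (p * Nat.card ((⊤ : Subgroup G).lowerCentralSeries 3)) := Nat.mul_le_mul_left p b1
  have b3 : p * (p * Nat.card ((⊤ : Subgroup G).lowerCentralSeries 3)) ≤ p * Nat.card ((⊤ : Subgroup G).lowerCentralSeries 2) :=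
    Nat.mul_le_mul_left p a2
  have b4 : p * (p * p) ≤ p * p := by
    calc p * (p * p) ≤ _ := b2.trans b3
      _ ≤ Nat.card (commutator G) := a1
      _ ≤ p ^ 2 := h
      _ = p * p := pow_two p
  have h5 : 1 < p := hp.out.one_lt
  have : p * p * 1 < p * p * p := by
    apply Nat.mul_lt_mul_of_pos_left h5
    positivity
  nlinarith

/-- **Regularity.** If `p ≥ 5` and `|Ω₁(G)| ≤ p²` then `G` is regular. -/
theorem regular_of_omega (hp3 : 3 < p) (hG : IsPGroup p G) (hO : Nat.card (omegaOne p (⊤ : Subgroup G)) ≤ p ^ 2) :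
    IsRegularPGroup p G := by
  classical
  induction h : Nat.card G using Nat.strong_induction_on generalizing G with
  | _ n ih =>
    have hsub : ∀ K : Subgroup G, K ≠ ⊤ → IsRegularPGroup p K := by
      intro K hK
      refine ih (Nat.card K) ?_ (hG.to_subgroup K) ((omega_sub K).trans hO) rfl
      rw [← h]
      refine lt_of_le_of_ne (Subgroup.card_le_card_group K) ?_
      intro e
      exact hK ((Subgroup.card_eq_iff_eq_top K).1 e)
    apply regular_of_single hG
    intro a b
    by_cases hK : Subgroup.closure ({a, b} : Set G) = ⊤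
    · -- the group is generated by `a` and `b`
      rw [hK]
      by_cases hnt : Nontrivial G
      · haveI : Group.IsNilpotent G := hG.isNilpotent
        haveI : Group.IsSolvable G := inferInstance
        have hDne : commutator G ≠ ⊤ := (Group.IsSolvable.commutator_lt_top_of_nontrivial G).ne
        have hDreg := hsub _ hDne
        obtain ⟨P, hP⟩ : ∃ P, P = powerClosure p 1 (commutator G) := ⟨_, rfl⟩
        haveI hPn : P.Normal := by
          constructor
          intro x hx g
          rw [hP] at hx ⊢
          unfold powerClosure at hx ⊢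
          have : Subgroup.closure {y : G | ∃ x ∈ commutator G, y = x ^ p ^ 1} ≤ (Subgroup.closure {y : G | ∃ x ∈ commutator G, y = x ^ p ^ 1}).comap (MulAut.conj g).toMonoidHom := by
            rw [Subgroup.closure_le]
            rintro _ ⟨x, hx, rfl⟩
            apply Subgroup.subset_closure
            refine ⟨g * x * g⁻¹, (Subgroup.commutator_normal _ _).conj_mem x hx g, ?_⟩
            simp [conj_pow]
          exact this hx
        have hPpow : ∀ z ∈ P, ∃ y ∈ commutator G, z = y ^ p ^ 1 := by
          intro z hz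
          rw [hP] at hz
          refine closure_pow_of ?_ hz
          intro u hu v hv
          -- use regularity of the derived subgroup
          have h1 : (⟨u, hu⟩ : commutator G) ^ p ^ 1 * (⟨v, hv⟩ : commutator G) ^ p ^ 1 ∈ powerClosure p 1 (⊤ : Subgroup (commutator G)) := by
            apply Subgroup.mul_mem
            · exact Subgroup.subset_closure ⟨_, Subgroup.mem_top _, rfl⟩
            · exact Subgroup.subset_closure ⟨_, Subgroup.mem_top _, rfl⟩
          have h2 : (⟨u, hu⟩ : commutator G) ^ p ^ 1 * (⟨v, hv⟩ : commutator G) ^ p ^ 1 ∈ {y : commutator G | ∃ x ∈ (⊤ : Subgroup (commutator G)), y = x ^ p ^ 1} := by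
            rw [powers_eq hDreg (⊤ : Subgroup (commutator G)) 1]
            exact h1
          obtain ⟨x, _, hx⟩ := h2
          exact ⟨x.1, x.2, congrArg Subtype.val hx⟩
        -- the quotient
        have hQ : IsPGroup p (G ⧸ P) := hG.to_quotient P
        have hcommQ : commutator (G ⧸ P) = (commutator G).map (QuotientGroup.mk' P) := by
          rw [_root_.commutator_def, _root_.commutator_def, Subgroup.map_commutator,
            Subgroup.map_top_of_surjective _ (QuotientGroup.mk'_surjective P)]
        have hcard : Nat.card (commutator (G ⧸ P)) ≤ p ^ 2 := by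
          let f : commutator G →* G ⧸ P := (QuotientGroup.mk' P).comp (commutator G).subtype
          have hfr : f.range = commutator (G ⧸ P) := by
            rw [hcommQ, MonoidHom.range_comp, Subgroup.range_subtype]
          have hker : W p (commutator G) ≤ f.ker := by
            rw [W, powerClosure, Subgroup.closure_le]
            rintro _ ⟨x, _, rfl⟩
            rw [SetLike.mem_coe, MonoidHom.mem_ker]
            change (((x : G) ^ p ^ 1 : G) : G ⧸ P) = 1
            rw [QuotientGroup.eq_one_iff, hP]
            exact Subgroup.subset_closure ⟨x.1, x.2, rfl⟩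
          have h1 := Subgroup.index_dvd_of_le hker
          rw [Subgroup.index_ker, hfr] at h1
          have h2 := Nat.le_of_dvd (Nat.pos_of_ne_zero Subgroup.index_ne_zero_of_finite) h1
          exact h2.trans ((index_W_le hDreg).trans ((omega_sub _).trans hO))
        have h3 := lcs_three hQ hcard
        have hcl : (⊤ : Subgroup (G ⧸ P)).lowerCentralSeries (p - 1) = ⊥ := by
          have h4 := Subgroup.lowerCentralSeries_antitone (⊤ : Subgroup (G ⧸ P)) (show 3 ≤ p - 1 by omega)
          rw [h3] at h4
          exact le_bot_iff.1 h4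
        have hexp : ∀ g ∈ (⊤ : Subgroup (G ⧸ P)).lowerCentralSeries 1, g ^ p = 1 := by
          rw [Subgroup.top_lowerCentralSeries_one, hcommQ]
          rintro _ ⟨x, hx, rfl⟩
          change ((x : G) : G ⧸ P) ^ p = 1
          rw [← QuotientGroup.mk_pow, QuotientGroup.eq_one_iff, hP]
          have : x ^ p = x ^ p ^ 1 := by rw [pow_one]
          rw [this]
          exact Subgroup.subset_closure ⟨x, hx, rfl⟩
        have hmul := H18.mul_pow_of_class_lt hp.out hcl hexp (a : G ⧸ P) (b : G ⧸ P)
        have h5 : (((a ^ p * b ^ p : G)) : G ⧸ P) = (((a * b) ^ p : G) : G ⧸ P) := by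
          rw [QuotientGroup.mk_mul, QuotientGroup.mk_pow, QuotientGroup.mk_pow, QuotientGroup.mk_pow, QuotientGroup.mk_mul, hmul]
        have h6 := QuotientGroup.eq.1 h5
        obtain ⟨y, hy, e⟩ := hPpow _ h6
        refine ⟨y, hy, ?_⟩
        rw [pow_one] at e
        rw [← e]
        group
      · rw [not_nontrivial_iff_subsingleton] at hnt
        refine ⟨1, one_mem _, Subsingleton.elim _ _⟩
    · -- a proper subgroup
      have hreg := hsub _ hK
      have haK : a ∈ Subgroup.closure ({a, b} : Set G) := Subgroup.subset_closure (by simp)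
      have hbK : b ∈ Subgroup.closure ({a, b} : Set G) := Subgroup.subset_closure (by simp)
      obtain ⟨c, hc, e⟩ := single_of_regular hreg ⟨a, haK⟩ ⟨b, hbK⟩
      have hmap : (Subgroup.closure ({⟨a, haK⟩, ⟨b, hbK⟩} : Set (Subgroup.closure ({a, b} : Set G)))).map (Subgroup.closure ({a, b} : Set G)).subtype = Subgroup.closure ({a, b} : Set G) := by
        rw [MonoidHom.map_closure, Set.image_pair]
        rfl
      refine ⟨c.1, ?_, ?_⟩
      · have h1 := Subgroup.mem_map_of_mem (Subgroup.closure ({a, b} : Set G)).subtype hc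
        rw [Subgroup.map_commutator, hmap] at h1
        exact h1
      · exact congrArg Subtype.val e

/-- **Huppert's criterion.** -/
theorem metacyclic_of_omega (hp3 : 3 < p) (hG : IsPGroup p G) (hO : Nat.card (omegaOne p (⊤ : Subgroup G)) ≤ p ^ 2) :
    IsMetacyclic G :=
  metacyclic_of_index (by omega) hG ((index_W_le (regular_of_omega hp3 hG hO)).trans hO)

end main

end Cfsg.Agent.H03.Hup
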