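import Mathlib

/-! Operators on `G → V`: left translation tensored with an endomorphism, and a Hecke-type
identity for sharply triply transitive groups. -/

set_option autoImplicit false

namespace Cfsg.Agent.H03.KT

open Module

section Lop
variable {G : Type*} [Group G] {V : Type*} [AddCommGroup V] [Module ℂ V]

/-- left translation tensored with an endomorphism -/
def Lop (g : G) (M : End ℂ V) : End ℂ (G → V) where
  toFun φ x := M (φ (g⁻¹ * x))
  map_add' φ ψ := by
    funext x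
    simp
  map_smul' c φ := by
    funext x
    simp

lemma Lop_apply (g : G) (M : End ℂ V) (φ : G → V) (x : G) : Lop g M φ x = M (φ (g⁻¹ * x)) := rfl

lemma Lop_mul (g g' : G) (M M' : End ℂ V) : Lop g M * Lop g' M' = Lop (g * g') (M * M') := by
  apply LinearMap.ext
  intro φ
  funext x
  simp only [Module.End.mul_apply, Lop_apply, mul_inv_rev, mul_assoc]

lemma Lop_one : Lop (1 : G) (1 : End ℂ V) = 1 := by
  apply LinearMap.ext
  intro φ
  funext x
  simp [Lop_apply]

lemma Lop_smul (g : G) (c : ℂ) (M : End ℂ V) : Lop g (c • M) = c • Lop g M := by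
  apply LinearMap.ext
  intro φ
  funext x
  simp [Lop_apply]

lemma Lop_sum {ι : Type*} (g : G) (s : Finset ι) (M : ι → End ℂ V) :
    Lop g (∑ i ∈ s, M i) = ∑ i ∈ s, Lop g (M i) := by
  apply LinearMap.ext
  intro φ
  funext x
  simp [Lop_apply, LinearMap.sum_apply, Finset.sum_apply]

theorem trace_Lop_ne [Fintype G] [DecidableEq G] [FiniteDimensional ℂ V] {g : G} (hg : g ≠ 1)
    (M : End ℂ V) : LinearMap.trace ℂ (G → V) (Lop g M) = 0 := by
  classical
  let b := Module.finBasis ℂ V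
  let B := Pi.basis (fun _ : G => b)
  rw [LinearMap.trace_eq_matrix_trace ℂ B]
  rw [Matrix.trace]
  apply Finset.sum_eq_zero
  rintro ⟨x, i⟩ -
  rw [Matrix.diag_apply, LinearMap.toMatrix_apply]
  have h1 : g⁻¹ * x ≠ x := by
    intro h
    apply hg
    have h2 : g⁻¹ = 1 := mul_eq_right.mp h
    exact inv_eq_one.mp h2
  have h2 : (B.repr (Lop g M (B ⟨x, i⟩))) ⟨x, i⟩ = b.repr ((Lop g M (B ⟨x, i⟩)) x) i := by
    simp [B, Pi.basis_repr]
  rw [h2, Lop_apply]
  have h3 : (B ⟨x, i⟩) (g⁻¹ * x) = 0 := by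
    simp only [B, Pi.basis_apply]
    rw [Pi.single_eq_of_ne h1]
  rw [h3]
  simp

theorem trace_Lop_one [Fintype G] [DecidableEq G] [FiniteDimensional ℂ V] (M : End ℂ V) :
    LinearMap.trace ℂ (G → V) (Lop (1 : G) M) = (Fintype.card G : ℂ) * LinearMap.trace ℂ V M := by
  classical
  let b := Module.finBasis ℂ V
  let B := Pi.basis (fun _ : G => b)
  rw [LinearMap.trace_eq_matrix_trace ℂ B, LinearMap.trace_eq_matrix_trace ℂ b]
  rw [Matrix.trace, Matrix.trace]
  rw [Fintype.sum_sigma]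
  have h : ∀ x : G, ∀ i, (Matrix.diag ((LinearMap.toMatrix B B) (Lop (1 : G) M))) ⟨x, i⟩ =
      (Matrix.diag ((LinearMap.toMatrix b b) M)) i := by
    intro x i
    rw [Matrix.diag_apply, LinearMap.toMatrix_apply, Matrix.diag_apply, LinearMap.toMatrix_apply]
    have h2 : (B.repr (Lop (1 : G) M (B ⟨x, i⟩))) ⟨x, i⟩ = b.repr ((Lop (1 : G) M (B ⟨x, i⟩)) x) i := by
      simp [B, Pi.basis_repr]
    rw [h2, Lop_apply]
    simp [B, Pi.basis_apply]
  simp only [h]
  rw [Finset.sum_const, Finset.card_univ]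
  simp

end Lop

section Core
variable {G : Type*} [Group G] [Fintype G] [DecidableEq G]
variable {V : Type*} [AddCommGroup V] [Module ℂ V]
variable (F H : Subgroup G) [Fintype F] [Fintype H]

/-- Average over `F` -/
noncomputable def Pop : End ℂ (G → V) := ((Fintype.card F : ℂ)⁻¹) • ∑ u : F, Lop (u : G) (1 : End ℂ V)

/-- Average over `H` twisted by `ρ` -/
noncomputable def Iop (ρ : H →* End ℂ V) : End ℂ (G → V) :=
  ((Fintype.card H : ℂ)⁻¹) • ∑ h : H, Lop (h : G) (ρ h)

variable {F H}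

lemma card_ne (K : Subgroup G) [Fintype K] : (Fintype.card K : ℂ) ≠ 0 := by
  exact_mod_cast Fintype.card_ne_zero

lemma Lop_mul_Pop {x : G} (hx : x ∈ F) : Lop x (1 : End ℂ V) * Pop (V := V) F = Pop F := by
  unfold Pop
  rw [mul_smul_comm, Finset.mul_sum]
  congr 1
  apply Fintype.sum_equiv (Equiv.mulLeft (⟨x, hx⟩ : F))
  intro u
  rw [Lop_mul, one_mul]
  rfl

lemma Pop_mul_Lop {x : G} (hx : x ∈ F) : Pop (V := V) F * Lop x (1 : End ℂ V) = Pop F := by
  unfold Pop
  rw [smul_mul_assoc, Finset.sum_mul]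
  congr 1
  apply Fintype.sum_equiv (Equiv.mulRight (⟨x, hx⟩ : F))
  intro u
  rw [Lop_mul, one_mul]
  rfl

lemma Pop_idem : Pop (V := V) F * Pop F = Pop F := by
  conv_lhs => lhs; unfold Pop
  rw [smul_mul_assoc, Finset.sum_mul]
  have h : ∀ u : F, Lop (u : G) (1 : End ℂ V) * Pop (V := V) F = Pop F := fun u => Lop_mul_Pop u.2
  simp only [h]
  rw [Finset.sum_const, Finset.card_univ, ← Nat.cast_smul_eq_nsmul ℂ, smul_smul,
    inv_mul_cancel₀ (card_ne F), one_smul]

lemma Lop_comm_Pop {g : G} (M : End ℂ V) (hg : ∀ u ∈ F, g * u * g⁻¹ ∈ F) :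
    Lop g M * Pop (V := V) F = Pop F * Lop g M := by
  unfold Pop
  rw [mul_smul_comm, smul_mul_assoc, Finset.mul_sum, Finset.sum_mul]
  congr 1
  have hb : Function.Bijective (fun u : F => (⟨g * u * g⁻¹, hg u u.2⟩ : F)) := by
    apply Function.Injective.bijective_of_finite
    intro a b hab
    have := congrArg Subtype.val hab
    apply Subtype.ext
    simpa using this
  rw [← hb.sum_comp (fun u : F => Lop (u : G) (1 : End ℂ V) * Lop g M)]
  apply Finset.sum_congr rfl
  intro u _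
  rw [Lop_mul, Lop_mul, one_mul, mul_one]
  congr 1
  group

section
variable (ρ : H →* End ℂ V)

lemma Lop_rho_mul_Iop (h : H) : Lop (h : G) (ρ h) * Iop H ρ = Iop H ρ := by
  unfold Iop
  rw [mul_smul_comm, Finset.mul_sum]
  congr 1
  apply Fintype.sum_equiv (Equiv.mulLeft h)
  intro u
  rw [Lop_mul, ← map_mul]
  rfl

lemma Iop_mul_Lop_rho (h : H) : Iop H ρ * Lop (h : G) (ρ h) = Iop H ρ := by
  unfold Iop
  rw [smul_mul_assoc, Finset.sum_mul]
  congr 1
  apply Fintype.sum_equiv (Equiv.mulRight h)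
  intro u
  rw [Lop_mul, ← map_mul]
  rfl

lemma Iop_idem : Iop H ρ * Iop H ρ = Iop H ρ := by
  conv_lhs => lhs; unfold Iop
  rw [smul_mul_assoc, Finset.sum_mul]
  simp only [Lop_rho_mul_Iop]
  rw [Finset.sum_const, Finset.card_univ, ← Nat.cast_smul_eq_nsmul ℂ, smul_smul,
    inv_mul_cancel₀ (card_ne H), one_smul]

lemma Lop_h_mul_Iop (h : H) : Lop (h : G) (1 : End ℂ V) * Iop H ρ = Lop (1 : G) (ρ h⁻¹) * Iop H ρ := by
  have h1 : Lop (h : G) (1 : End ℂ V) = Lop (1 : G) (ρ h⁻¹) * Lop (h : G) (ρ h) := by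
    rw [Lop_mul, one_mul, ← map_mul, inv_mul_cancel, map_one]
  rw [h1, mul_assoc, Lop_rho_mul_Iop]

lemma Pop_comm_Iop (hFn : ∀ h ∈ H, ∀ u ∈ F, h * u * h⁻¹ ∈ F) :
    Pop (V := V) F * Iop H ρ = Iop H ρ * Pop F := by
  unfold Iop
  rw [mul_smul_comm, smul_mul_assoc, Finset.mul_sum, Finset.sum_mul]
  congr 1
  apply Finset.sum_congr rfl
  intro h _
  exact (Lop_comm_Pop _ (hFn h h.2)).symm

lemma Lop_s_comm_Iop {s : G} {S : End ℂ V} (hs : s * s = 1) (hτ : ∀ h ∈ H, s * h * s ∈ H)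
    (hS : S * S = 1) (hSρ : ∀ h : H, S * ρ h * S = ρ ⟨s * h * s, hτ h h.2⟩) :
    Lop s S * Iop H ρ = Iop H ρ * Lop s S := by
  unfold Iop
  rw [mul_smul_comm, smul_mul_assoc, Finset.mul_sum, Finset.sum_mul]
  congr 1
  have hb : Function.Bijective (fun h : H => (⟨s * h * s, hτ h h.2⟩ : H)) := by
    apply Function.Injective.bijective_of_finite
    intro a b hab
    have h1 := congrArg Subtype.val hab
    apply Subtype.ext
    have h2 : s * a * s = s * b * s := h1
    exact mul_left_cancel (mul_right_cancel h2)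
  rw [← hb.sum_comp (fun h : H => Lop (h : G) (ρ h) * Lop s S)]
  apply Finset.sum_congr rfl
  intro h _
  rw [Lop_mul, Lop_mul, ← hSρ h]
  have e1 : (s * (h : G) * s) * s = s * h := by
    rw [mul_assoc, hs, mul_one]
  have e2 : S * ρ h * S * S = S * ρ h := by
    rw [mul_assoc, hS, mul_one]
  simp only [e1, e2]

end

section Main

variable (ρ : H →* End ℂ V) {s z : G} {S : End ℂ V}

/-- Main computation. -/
theorem hecke_square
    (hs : s * s = 1) (hτ : ∀ h ∈ H, s * h * s ∈ H) (hzH : z ∈ H)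
    (hFn : ∀ h ∈ H, ∀ u ∈ F, h * u * h⁻¹ ∈ F)
    (hS : S * S = 1) (hSρ : ∀ h : H, S * ρ h * S = ρ ⟨s * h * s, hτ h h.2⟩)
    (ζ : ℂ) (hζ : ρ ⟨z, hzH⟩⁻¹ = ζ • 1)
    (c : ℂ) (hc : ∑ y : H, ρ (⟨s * y * s, hτ y y.2⟩ * y⁻¹) = c • S)
    (v : H → F) (hv_inj : Function.Injective v) (hv_ne : ∀ y, v y ≠ 1)
    (hv_surj : ∀ u : F, u ≠ 1 → ∃ y, v y = u)
    (w : H → G) (hw : ∀ y, w y ∈ F)
    (hB : ∀ y : H, s * (v y : G) * s =
      w y * (s * z * ((y : G) * (s * (y : G)⁻¹ * s))) * w y) :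
    (Fintype.card F : ℂ) • ((Pop (V := V) F * Lop s S * Pop F * Iop H ρ) *
        (Pop (V := V) F * Lop s S * Pop F * Iop H ρ)) =
      Pop (V := V) F * Iop H ρ + (c * ζ) • (Pop (V := V) F * Lop s S * Pop F * Iop H ρ) := by
  set P := Pop (V := V) F with hP
  set I := Iop H ρ with hI
  set B := Lop s S with hBdef
  have hPI : P * I = I * P := Pop_comm_Iop ρ hFn
  have hBI : B * I = I * B := Lop_s_comm_Iop ρ hs hτ hS hSρ
  have hII : I * I = I := Iop_idem ρ
  have hPP : P * P = P := Pop_idem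
  -- first reduction
  have e1 : (P * B * P * I) * (P * B * P * I) = P * B * P * B * P * I := by
    have hIP : I * P = P * I := hPI.symm
    have hIB : I * B = B * I := hBI.symm
    calc (P * B * P * I) * (P * B * P * I)
        = P * B * P * (I * P) * B * P * I := by simp only [mul_assoc]
      _ = P * B * P * (P * I) * B * P * I := by rw [hIP]
      _ = P * B * (P * P) * (I * B) * P * I := by simp only [mul_assoc]
      _ = P * B * P * (B * I) * P * I := by rw [hPP, hIB]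
      _ = P * B * P * B * (I * P) * I := by simp only [mul_assoc]
      _ = P * B * P * B * (P * I) * I := by rw [hIP]
      _ = P * B * P * B * P * (I * I) := by simp only [mul_assoc]
      _ = P * B * P * B * P * I := by rw [hII]
  -- expansion of the middle average
  have e2 : P * B * P * B * P =
      ((Fintype.card F : ℂ)⁻¹) • ∑ u : F, P * Lop (s * (u : G) * s) (1 : End ℂ V) * P := by
    have h1 : ∀ u : F, B * Lop (u : G) (1 : End ℂ V) * B = Lop (s * (u : G) * s) 1 := by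
      intro u
      rw [hBdef, Lop_mul, Lop_mul, mul_one, hS]
    have h2 : P * B * P * B * P = P * (B * P * B) * P := by simp only [mul_assoc]
    rw [h2]
    conv_lhs => rw [show B * P * B = B * Pop (V := V) F * B from rfl]
    unfold Pop
    rw [mul_smul_comm, smul_mul_assoc, mul_smul_comm, smul_mul_assoc, Finset.mul_sum, Finset.sum_mul,
      Finset.mul_sum, Finset.sum_mul]
    congr 1
    apply Finset.sum_congr rfl
    intro u _
    rw [h1]
  -- split the sum
  have e3 : ∑ u : F, P * Lop (s * (u : G) * s) (1 : End ℂ V) * P =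
      P + ∑ y : H, P * Lop (s * z * ((y : G) * (s * (y : G)⁻¹ * s))) (1 : End ℂ V) * P := by
    classical
    rw [← Finset.add_sum_erase Finset.univ _ (Finset.mem_univ (1 : F))]
    congr 1
    · have h3 : s * ((1 : F) : G) * s = 1 := by simpa using hs
      rw [h3, Lop_one, mul_one, hPP]
    · symm
      apply Finset.sum_nbij (fun y => v y)
      · intro y _
        exact Finset.mem_erase.2 ⟨hv_ne y, Finset.mem_univ _⟩
      · intro a _ b _ hab
        exact hv_inj hab
      · intro u hu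
        have hu1 : u ≠ 1 := (Finset.mem_erase.1 hu).1
        obtain ⟨y, hy⟩ := hv_surj u hu1
        exact ⟨y, by simp, hy⟩
      · intro y _
        rw [hB y]
        have h4 : Lop (w y * (s * z * ((y : G) * (s * (y : G)⁻¹ * s))) * w y) (1 : End ℂ V) =
            Lop (w y) 1 * Lop (s * z * ((y : G) * (s * (y : G)⁻¹ * s))) 1 * Lop (w y) 1 := by
          rw [Lop_mul, Lop_mul, mul_one, mul_one]
        rw [h4]
        have h5 : P * Lop (w y) (1 : End ℂ V) = P := Pop_mul_Lop (hw y)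
        have h6 : Lop (w y) (1 : End ℂ V) * P = P := Lop_mul_Pop (hw y)
        calc P * Lop (s * z * ((y : G) * (s * (y : G)⁻¹ * s))) 1 * P
            = (P * Lop (w y) 1) * Lop (s * z * ((y : G) * (s * (y : G)⁻¹ * s))) 1 * (Lop (w y) 1 * P) := by
              rw [h5, h6]
          _ = _ := by simp only [mul_assoc]
  -- the sum over `y`
  have hτ' : ∀ y : H, ((y : G) * (s * (y : G)⁻¹ * s)) ∈ H := fun y =>
    mul_mem y.2 (hτ _ (inv_mem y.2))
  have e4 : ∀ y : H, P * Lop (s * z * ((y : G) * (s * (y : G)⁻¹ * s))) (1 : End ℂ V) * P * I =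
      P * Lop (s * z) 1 * P * Lop (1 : G) (ρ (⟨s * y * s, hτ y y.2⟩ * y⁻¹)) * I := by
    intro y
    set j : H := ⟨(y : G) * (s * (y : G)⁻¹ * s), hτ' y⟩ with hj
    have hjinv : j⁻¹ = ⟨s * y * s, hτ y y.2⟩ * y⁻¹ := by
      apply Subtype.ext
      show ((y : G) * (s * (y : G)⁻¹ * s))⁻¹ = (s * y * s) * (y : G)⁻¹
      have hsi : s⁻¹ = s := inv_eq_of_mul_eq_one_left hs
      simp only [mul_inv_rev, inv_inv, hsi, mul_assoc]
    have h7 : Lop (s * z * (j : G)) (1 : End ℂ V) = Lop (s * z) 1 * Lop (j : G) 1 := by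
      rw [Lop_mul, mul_one]
    have h8 : Lop (j : G) (1 : End ℂ V) * P = P * Lop (j : G) 1 :=
      Lop_comm_Pop _ (hFn j j.2)
    have h9 : Lop (j : G) (1 : End ℂ V) * I = Lop (1 : G) (ρ j⁻¹) * I := Lop_h_mul_Iop ρ j
    show P * Lop (s * z * (j : G)) (1 : End ℂ V) * P * I = _
    rw [h7, ← hjinv]
    calc P * (Lop (s * z) 1 * Lop (j : G) 1) * P * I
        = P * Lop (s * z) 1 * (Lop (j : G) 1 * P) * I := by simp only [mul_assoc]
      _ = P * Lop (s * z) 1 * P * (Lop (j : G) 1 * I) := by rw [h8]; simp only [mul_assoc]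
      _ = _ := by rw [h9]; simp only [mul_assoc]
  have e5 : ∑ y : H, P * Lop (s * z) (1 : End ℂ V) * P * Lop (1 : G) (ρ (⟨s * y * s, hτ y y.2⟩ * y⁻¹)) * I =
      c • (P * Lop (s * z) 1 * P * Lop (1 : G) S * I) := by
    rw [← Finset.sum_mul, ← Finset.mul_sum, ← Lop_sum, hc, Lop_smul, mul_smul_comm, smul_mul_assoc]
  have e6 : P * Lop (s * z) (1 : End ℂ V) * P * Lop (1 : G) S * I = ζ • (P * B * P * I) := by
    have h10 : P * Lop (1 : G) S = Lop (1 : G) S * P := (Lop_comm_Pop S (by simp)).symm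
    have h11 : Lop (s * z) (1 : End ℂ V) * Lop (1 : G) S = B * Lop z 1 := by
      rw [Lop_mul, hBdef, Lop_mul, mul_one, one_mul, mul_one]
    have h12 : Lop z (1 : End ℂ V) * P = P * Lop z 1 := Lop_comm_Pop _ (hFn z hzH)
    have h13 : Lop z (1 : End ℂ V) * I = ζ • I := by
      have h14 := Lop_h_mul_Iop ρ ⟨z, hzH⟩
      rw [show ((⟨z, hzH⟩ : H) : G) = z from rfl] at h14
      rw [h14, hζ, Lop_smul, Lop_one, smul_mul_assoc, one_mul]
    calc P * Lop (s * z) 1 * P * Lop (1 : G) S * I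
        = P * Lop (s * z) 1 * (P * Lop (1 : G) S) * I := by simp only [mul_assoc]
      _ = P * (Lop (s * z) 1 * Lop (1 : G) S) * P * I := by rw [h10]; simp only [mul_assoc]
      _ = P * B * (Lop z 1 * P) * I := by rw [h11]; simp only [mul_assoc]
      _ = P * B * P * (Lop z 1 * I) := by rw [h12]; simp only [mul_assoc]
      _ = ζ • (P * B * P * I) := by
        rw [h13, mul_smul_comm]
  -- conclusion
  rw [e1, e2]
  rw [smul_mul_assoc, smul_smul, mul_inv_cancel₀ (card_ne F), one_smul, e3, add_mul, Finset.sum_mul]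
  simp only [e4]
  rw [e5, e6, smul_smul]

/-- Rationality from the quadratic relation and traces. -/
theorem hecke_rational {Y : Type*} [AddCommGroup Y] [Module ℂ Y] [FiniteDimensional ℂ Y]
    (E T : End ℂ Y) (q : ℕ) (hq : q ≠ 0) (e : ℚ) (he0 : e ≠ 0)
    (hEE : E * E = E) (hET : E * T = T) (hTE : T * E = T)
    (hTT : (q : ℂ) • (T * T) = E + (e : ℂ) • T)
    (htrT : LinearMap.trace ℂ Y T = 0) (htrE : LinearMap.trace ℂ Y E ≠ 0) :
    ∃ r : ℚ, r ^ 2 = e ^ 2 + 4 * q := by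
  have hq' : (q : ℂ) ≠ 0 := by exact_mod_cast hq
  have he' : (e : ℂ) ≠ 0 := by exact_mod_cast he0
  obtain ⟨r, hr⟩ := IsAlgClosed.exists_pow_nat_eq ((e : ℂ) ^ 2 + 4 * q) (n := 2) (by norm_num)
  have hpos : (0 : ℚ) < e ^ 2 + 4 * q := by
    have h1 : (0 : ℚ) < e ^ 2 := by positivity
    have h2 : (0 : ℚ) ≤ 4 * q := by positivity
    linarith
  have hr0 : r ≠ 0 := by
    intro h
    rw [h] at hr
    have h3 : (((e ^ 2 + 4 * q : ℚ)) : ℂ) = 0 := by
      push_cast
      rw [← hr]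
      norm_num
    have h4 : (e ^ 2 + 4 * q : ℚ) = 0 := by exact_mod_cast h3
    linarith
  set a : ℂ := (1 - e / r) / 2 with ha
  set b : ℂ := q / r with hb
  have hT2 : T * T = (q : ℂ)⁻¹ • (E + (e : ℂ) • T) := by
    rw [← hTT, smul_smul, inv_mul_cancel₀ hq', one_smul]
  have c1 : a * a + b * b * (q : ℂ)⁻¹ = a := by
    rw [ha, hb]
    field_simp
    linear_combination (2 * (q : ℂ)) * 0 + (-1 : ℂ) * hr
  have c2 : 2 * a * b + b * b * (q : ℂ)⁻¹ * e = b := by
    rw [ha, hb]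
    field_simp
    ring
  set Pi0 : End ℂ Y := a • E + b • T with hPi0
  have hPi2 : Pi0 * Pi0 = Pi0 := by
    have e1 : a • E + b • T = (a * a + b * b * (q : ℂ)⁻¹) • E + (2 * a * b + b * b * (q : ℂ)⁻¹ * e) • T := by
      rw [c1, c2]
    have e2 : Pi0 * Pi0 = (a * a) • (E * E) + (a * b) • (E * T) + (b * a) • (T * E) + (b * b) • (T * T) := by
      rw [hPi0]
      simp only [add_mul, mul_add, smul_mul_smul_comm]
      abel
    rw [e2, hEE, hET, hTE, hT2, hPi0, e1]
    module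
  have hid : IsIdempotentElem Pi0 := hPi2
  have hidE : IsIdempotentElem E := hEE
  have t1 := (LinearMap.IsIdempotentElem.isProj_range Pi0 hid).trace
  have t2 := (LinearMap.IsIdempotentElem.isProj_range E hidE).trace
  have t3 : LinearMap.trace ℂ Y Pi0 = a * LinearMap.trace ℂ Y E := by
    rw [hPi0, map_add, map_smul, map_smul, htrT]
    simp
  set d : ℕ := Module.finrank ℂ (LinearMap.range Pi0) with hd
  set D : ℕ := Module.finrank ℂ (LinearMap.range E) with hD
  have hD0 : (D : ℂ) ≠ 0 := by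
    rw [← t2]
    exact htrE
  have t4 : a * D = d := by
    rw [← t1, t3, t2]
  have hDQ : (D : ℚ) ≠ 0 := by
    intro h
    apply hD0
    exact_mod_cast h
  set ξ : ℚ := 1 - 2 * d / D with hξ
  have t5 : (e : ℂ) = ξ * r := by
    have t6 : (ξ : ℂ) = 1 - 2 * d / D := by
      rw [hξ]
      push_cast
      rfl
    rw [t6, ← t4, ha]
    field_simp
    ring
  have hξ0 : ξ ≠ 0 := by
    intro h
    rw [h] at t5
    apply he'
    rw [t5]
    simp
  refine ⟨e / ξ, ?_⟩
  have t7 : ((e / ξ : ℚ) : ℂ) = r := by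
    push_cast
    rw [t5]
    have : (ξ : ℂ) ≠ 0 := by exact_mod_cast hξ0
    field_simp
  have t8 : (((e / ξ) ^ 2 : ℚ) : ℂ) = ((e ^ 2 + 4 * q : ℚ) : ℂ) := by
    push_cast
    push_cast at t7
    rw [t7, hr]
  exact_mod_cast t8

section Traces

variable (ρ : H →* End ℂ V) {s : G} {S : End ℂ V}

theorem trace_T_zero [FiniteDimensional ℂ V] (hne : ∀ u ∈ F, ∀ u' ∈ F, ∀ h ∈ H, u * s * u' * h ≠ 1) :
    LinearMap.trace ℂ (G → V) (Pop (V := V) F * Lop s S * Pop F * Iop H ρ) = 0 := by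
  unfold Pop Iop
  have h1 : ((Fintype.card F : ℂ)⁻¹ • ∑ u : F, Lop (u : G) (1 : End ℂ V)) * Lop s S *
        ((Fintype.card F : ℂ)⁻¹ • ∑ u : F, Lop (u : G) (1 : End ℂ V)) *
        ((Fintype.card H : ℂ)⁻¹ • ∑ h : H, Lop (h : G) (ρ h)) =
      ((Fintype.card F : ℂ)⁻¹ * ((Fintype.card F : ℂ)⁻¹ * (Fintype.card H : ℂ)⁻¹)) •
        ((∑ u : F, Lop (u : G) (1 : End ℂ V)) * Lop s S * (∑ u : F, Lop (u : G) (1 : End ℂ V)) *
          ∑ h : H, Lop (h : G) (ρ h)) := by
    simp only [smul_mul_assoc, mul_smul_comm, smul_smul]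
    congr 1
    ring
  rw [h1, map_smul]
  refine mul_eq_zero_of_right _ ?_
  simp only [Finset.sum_mul, Finset.mul_sum, map_sum, Lop_mul]
  exact Finset.sum_eq_zero fun h _ => Finset.sum_eq_zero fun u' _ => Finset.sum_eq_zero fun u _ =>
    trace_Lop_ne (hne u u.2 u' u'.2 h h.2) _

theorem trace_E_ne [FiniteDimensional ℂ V] [Nontrivial V] (hFH : ∀ u ∈ F, u ∈ H → u = 1) :
    LinearMap.trace ℂ (G → V) (Pop (V := V) F * Iop H ρ) ≠ 0 := by
  classical
  unfold Pop Iop
  have h1 : ((Fintype.card F : ℂ)⁻¹ • ∑ u : F, Lop (u : G) (1 : End ℂ V)) *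
        ((Fintype.card H : ℂ)⁻¹ • ∑ h : H, Lop (h : G) (ρ h)) =
      ((Fintype.card F : ℂ)⁻¹ * (Fintype.card H : ℂ)⁻¹) •
        ((∑ u : F, Lop (u : G) (1 : End ℂ V)) * ∑ h : H, Lop (h : G) (ρ h)) := by
    simp only [smul_mul_assoc, mul_smul_comm, smul_smul]
    congr 1
    ring
  rw [h1, map_smul]
  simp only [Finset.sum_mul, Finset.mul_sum, map_sum, Lop_mul]
  have hs1 : ∑ h : H, ∑ u : F, LinearMap.trace ℂ (G → V) (Lop ((u : G) * h) (1 * ρ h)) =
      (Fintype.card G : ℂ) * (Module.finrank ℂ V : ℂ) := by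
    rw [Finset.sum_eq_single (1 : H)]
    · rw [Finset.sum_eq_single (1 : F)]
      · simp only [OneMemClass.coe_one, mul_one, map_one]
        rw [trace_Lop_one]
        simp
      · intro u _ hu
        apply trace_Lop_ne
        intro h2
        apply hu
        apply Subtype.ext
        simpa using h2
      · simp
    · intro h _ hh
      apply Finset.sum_eq_zero
      intro u _
      apply trace_Lop_ne
      intro h2
      apply hh
      apply Subtype.ext
      have h3 : (h : G) = (u : G)⁻¹ := eq_inv_of_mul_eq_one_right h2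
      apply hFH h _ h.2
      rw [h3]
      exact inv_mem u.2
    · simp
  rw [hs1]
  have h1 : (Fintype.card F : ℂ)⁻¹ ≠ 0 := inv_ne_zero (card_ne F)
  have h2 : (Fintype.card H : ℂ)⁻¹ ≠ 0 := inv_ne_zero (card_ne H)
  have h3 : (Fintype.card G : ℂ) ≠ 0 := by exact_mod_cast Fintype.card_ne_zero
  have h4 : (Module.finrank ℂ V : ℂ) ≠ 0 := by
    have := Module.finrank_pos (R := ℂ) (M := V)
    exact_mod_cast this.ne'
  rw [smul_eq_mul]
  exact mul_ne_zero (mul_ne_zero h1 h2) (mul_ne_zero h3 h4)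

end Traces

/-- The core theorem: the discriminant of the Hecke relation is a rational square. -/
theorem hecke_core [FiniteDimensional ℂ V] [Nontrivial V] (ρ : H →* End ℂ V) {s z : G} {S : End ℂ V}
    (hs : s * s = 1) (hτ : ∀ h ∈ H, s * h * s ∈ H) (hzH : z ∈ H)
    (hFn : ∀ h ∈ H, ∀ u ∈ F, h * u * h⁻¹ ∈ F)
    (hS : S * S = 1) (hSρ : ∀ h : H, S * ρ h * S = ρ ⟨s * h * s, hτ h h.2⟩)
    (ζ : ℂ) (hζ : ρ ⟨z, hzH⟩⁻¹ = ζ • 1)
    (c : ℂ) (hc : ∑ y : H, ρ (⟨s * y * s, hτ y y.2⟩ * y⁻¹) = c • S)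
    (v : H → F) (hv_inj : Function.Injective v) (hv_ne : ∀ y, v y ≠ 1)
    (hv_surj : ∀ u : F, u ≠ 1 → ∃ y, v y = u)
    (w : H → G) (hw : ∀ y, w y ∈ F)
    (hB : ∀ y : H, s * (v y : G) * s =
      w y * (s * z * ((y : G) * (s * (y : G)⁻¹ * s))) * w y)
    (hne : ∀ u ∈ F, ∀ u' ∈ F, ∀ h ∈ H, u * s * u' * h ≠ 1)
    (hFH : ∀ u ∈ F, u ∈ H → u = 1)
    (e : ℚ) (he : (e : ℂ) = c * ζ) (he0 : e ≠ 0) :
    ∃ r : ℚ, r ^ 2 = e ^ 2 + 4 * (Fintype.card F : ℕ) := by
  have hsq := hecke_square ρ hs hτ hzH hFn hS hSρ ζ hζ c hc v hv_inj hv_ne hv_surj w hw hB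
  set P := Pop (V := V) F with hP
  set I := Iop H ρ with hI
  set B := Lop s S with hBdef
  have hPI : P * I = I * P := Pop_comm_Iop ρ hFn
  have hBI : B * I = I * B := Lop_s_comm_Iop ρ hs hτ hS hSρ
  have hII : I * I = I := Iop_idem ρ
  have hPP : P * P = P := Pop_idem
  have hIP : I * P = P * I := hPI.symm
  have hIB : I * B = B * I := hBI.symm
  refine hecke_rational (P * I) (P * B * P * I) (Fintype.card F) Fintype.card_ne_zero e he0 ?_ ?_ ?_ ?_ ?_ ?_
  · calc P * I * (P * I) = P * (I * P) * I := by simp only [mul_assoc]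
      _ = P * (P * I) * I := by rw [hIP]
      _ = (P * P) * (I * I) := by simp only [mul_assoc]
      _ = P * I := by rw [hPP, hII]
  · calc P * I * (P * B * P * I) = P * (I * P) * B * P * I := by simp only [mul_assoc]
      _ = P * (P * I) * B * P * I := by rw [hIP]
      _ = (P * P) * (I * B) * P * I := by simp only [mul_assoc]
      _ = P * (B * I) * P * I := by rw [hPP, hIB]
      _ = P * B * (I * P) * I := by simp only [mul_assoc]
      _ = P * B * (P * I) * I := by rw [hIP]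
      _ = P * B * P * (I * I) := by simp only [mul_assoc]
      _ = P * B * P * I := by rw [hII]
  · calc P * B * P * I * (P * I) = P * B * P * (I * P) * I := by simp only [mul_assoc]
      _ = P * B * P * (P * I) * I := by rw [hIP]
      _ = P * B * (P * P) * (I * I) := by simp only [mul_assoc]
      _ = P * B * P * I := by rw [hPP, hII]
  · rw [hsq, he]
  · exact trace_T_zero ρ hne
  · exact trace_E_ne ρ hFH

end Main

end Core

end Cfsg.Agent.H03.KT
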