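import Mathlib
import Cfsg.Agent.Lib.H22.Degree
import Cfsg.Agent.Lib.H03.KT1

/-! Number theory and a character with value `±1` at an involution. -/

set_option autoImplicit false

namespace Cfsg.Agent.H03.KT

open Cfsg Cfsg.Agent.H21 Module
open scoped ComplexConjugate

theorem nt_sq (p n e₀ R : ℕ) (hp : p.Prime) (hn : n ≠ 0) (he : e₀ ∣ p ^ n - 1) (he0 : e₀ ≠ 0)
    (hR : R ^ 2 = e₀ ^ 2 + 4 * p ^ n) : e₀ = p ^ n - 1 := by
  have hq : 0 < p ^ n := pow_pos hp.pos n
  have hlt : e₀ ≤ R := by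
    by_contra h
    push Not at h
    have h1 := Nat.pow_lt_pow_left h (two_ne_zero)
    omega
  have hpar : Even (R - e₀) := by
    rw [Nat.even_sub hlt]
    have h1 : Even (R ^ 2) ↔ Even (e₀ ^ 2) := by
      rw [hR, Nat.even_add]
      have h2 : Even (4 * p ^ n) := ⟨2 * p ^ n, by ring⟩
      simp [h2]
    simpa [Nat.even_pow] using h1
  obtain ⟨A, hA⟩ := hpar
  have hRe : R = e₀ + 2 * A := by omega
  subst hRe
  have hAB : A * (e₀ + A) = p ^ n := by nlinarith
  have hAd : A ∣ p ^ n := ⟨_, hAB.symm⟩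
  have hBd : (e₀ + A) ∣ p ^ n := ⟨A, by rw [mul_comm]; exact hAB.symm⟩
  obtain ⟨i, -, hi⟩ := (Nat.dvd_prime_pow hp).1 hAd
  obtain ⟨k, -, hk⟩ := (Nat.dvd_prime_pow hp).1 hBd
  by_cases hi0 : i = 0
  · subst hi0
    simp only [pow_zero] at hi
    subst hi
    have : e₀ + 1 = p ^ n := by simpa using hAB
    omega
  · exfalso
    have h1 : p ∣ A := by
      rw [hi]
      exact dvd_pow_self p hi0
    have hApos : 0 < A := by
      rw [hi]
      exact pow_pos hp.pos i
    have hk0 : k ≠ 0 := by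
      intro h
      rw [h, pow_zero] at hk
      omega
    have h2 : p ∣ e₀ + A := by
      rw [hk]
      exact dvd_pow_self p hk0
    have h3 : p ∣ e₀ := (Nat.dvd_add_left h1).1 h2
    have h4 : p ∣ p ^ n - 1 := h3.trans he
    have h5 : p ∣ p ^ n := dvd_pow_self p hn
    have h6 : p ∣ 1 := by
      have h7 := Nat.dvd_sub h5 h4
      have h8 : p ^ n - (p ^ n - 1) = 1 := by omega
      rwa [h8] at h7
    exact hp.one_lt.ne' (Nat.dvd_one.1 h6)

/-- Rational version. -/
theorem nt_rat (p n e₀ : ℕ) (hp : p.Prime) (hn : n ≠ 0) (he : e₀ ∣ p ^ n - 1) (he0 : e₀ ≠ 0)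
    (r : ℚ) (hr : r ^ 2 = (e₀ : ℚ) ^ 2 + 4 * ((p ^ n : ℕ) : ℚ)) : e₀ = p ^ n - 1 := by
  have h1 : IsSquare ((e₀ ^ 2 + 4 * p ^ n : ℕ) : ℚ) := by
    refine ⟨r, ?_⟩
    push_cast
    push_cast at hr
    rw [← hr]
    ring
  rw [Rat.isSquare_natCast_iff] at h1
  obtain ⟨R, hR⟩ := h1
  exact nt_sq p n e₀ R hp hn he he0 (by rw [sq R]; exact hR.symm)

/-- Traces of involutions -/
theorem trace_invol {n : ℕ} (M : End ℂ (Fin n → ℂ)) (hM : M * M = 1) :
    ∃ k : ℕ, k ≤ n ∧ LinearMap.trace ℂ (Fin n → ℂ) M = 2 * (k : ℂ) - n := by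
  set Q : End ℂ (Fin n → ℂ) := (1 / 2 : ℂ) • (1 + M) with hQ
  have hid : IsIdempotentElem Q := by
    show Q * Q = Q
    rw [hQ, smul_mul_smul_comm]
    have : (1 + M) * (1 + M) = 2 • (1 + M) := by
      rw [add_mul, mul_add, mul_add, hM, one_mul, one_mul, mul_one]
      abel
    rw [this, ← Nat.cast_smul_eq_nsmul ℂ, smul_smul]
    norm_num
  have t1 := (LinearMap.IsIdempotentElem.isProj_range Q hid).trace
  refine ⟨finrank ℂ (LinearMap.range Q), ?_, ?_⟩
  · calc finrank ℂ (LinearMap.range Q) ≤ finrank ℂ (Fin n → ℂ) := Submodule.finrank_le _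
      _ = n := by simp
  · rw [← t1, hQ, map_smul, map_add, LinearMap.trace_one]
    simp only [Module.finrank_fin_fun, smul_eq_mul]
    ring

theorem end_comm_one (A B : End ℂ (Fin 1 → ℂ)) : A * B = B * A := by
  apply (LinearMap.toMatrixAlgEquiv' (R := ℂ) (n := Fin 1)).injective
  rw [map_mul, map_mul]
  ext i j
  fin_cases i
  fin_cases j
  simp [Matrix.mul_apply, mul_comm]

section
universe u
variable {X : Type u} [Group X] [Fintype X]

theorem exists_char_aux (t : X) (ht : t * t = 1) (H : Subgroup X) (hX : ∀ x, x ∈ H ∨ t * x ∈ H)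
    (hJ : ∀ h ∈ H, h ∈ Subgroup.closure {g | ∃ y ∈ H, g = y * (t * y⁻¹ * t)})
    (hC3 : 3 ≤ Nat.card (Subgroup.centralizer ({t} : Set X)))
    (hC4 : Nat.card (Subgroup.centralizer ({t} : Set X)) ≤ 4) :
    ∃ (n : ℕ) (ρ : Representation ℂ X (Fin n → ℂ)), ρ.IsIrreducible ∧ n ≠ 1 ∧
      (LinearMap.trace ℂ _ (ρ t) = 1 ∨ LinearMap.trace ℂ _ (ρ t) = -1) := by
  classical
  haveI : Fintype (IrrCharacter X) := Fintype.ofFinite _
  have hρt : ∀ {n : ℕ} (ρ : Representation ℂ X (Fin n → ℂ)), ρ t * ρ t = 1 := by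
    intro n ρ
    rw [← map_mul, ht, map_one]
  have hm : ∀ χ : IrrCharacter X, ∃ m : ℤ, χ.1 t = (m : ℂ) := by
    rintro ⟨χ, n, ρ, -, rfl⟩
    obtain ⟨k, -, hk⟩ := trace_invol (ρ t) (hρt ρ)
    refine ⟨2 * k - n, ?_⟩
    push_cast
    exact hk
  choose m hm using hm
  have hsum : ∑ χ : IrrCharacter X, (m χ) ^ 2 = (Nat.card (Subgroup.centralizer ({t} : Set X)) : ℤ) := by
    have h1 := column_orthogonality_of_isConj (G := X) (IsConj.refl t)
    have h2 : ∀ χ : IrrCharacter X, χ.1 t * conj (χ.1 t) = (((m χ) ^ 2 : ℤ) : ℂ) := by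
      intro χ
      rw [hm χ]
      push_cast
      simp [sq]
    simp only [h2] at h1
    exact_mod_cast h1
  -- linear characters
  let L : Finset (IrrCharacter X) := Finset.univ.filter (fun χ => χ.1 1 = 1)
  have hLdesc : ∀ χ ∈ L, (∀ x ∈ H, χ.1 x = 1) ∧ (χ.1 t = 1 ∨ χ.1 t = -1) ∧
      (∀ x, t * x ∈ H → χ.1 x = χ.1 t) := by
    rintro ⟨χ, n, ρ, hirr, rfl⟩ hχ
    have h1 : (ρ.character 1 : ℂ) = 1 := (Finset.mem_filter.1 hχ).2
    have hn : n = 1 := by
      have h2 : (ρ.character 1 : ℂ) = n := by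
        simp [Representation.character, map_one]
      rw [h2] at h1
      exact_mod_cast h1
    subst hn
    have hkJ : ∀ g ∈ Subgroup.closure {g | ∃ y ∈ H, g = y * (t * y⁻¹ * t)}, ρ g = 1 := by
      intro g hg
      induction hg using Subgroup.closure_induction with
      | mem g hg =>
        obtain ⟨y, hy, rfl⟩ := hg
        have h4 : ρ (y * (t * y⁻¹ * t)) = ρ y * (ρ t * ρ y⁻¹ * ρ t) := by
          simp only [map_mul]
        rw [h4, end_comm_one (ρ t) (ρ y⁻¹), mul_assoc (ρ y⁻¹), hρt ρ, mul_one, ← map_mul]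
        simp
      | one => simp
      | mul a b _ _ ha hb => rw [map_mul, ha, hb, one_mul]
      | inv a _ ha =>
        have h5 : ρ a⁻¹ * ρ a = 1 := by rw [← map_mul]; simp
        rw [ha, mul_one] at h5
        exact h5
    have hkH : ∀ x ∈ H, ρ x = 1 := fun x hx => hkJ x (hJ x hx)
    refine ⟨?_, ?_, ?_⟩
    · intro x hx
      show LinearMap.trace ℂ _ (ρ x) = 1
      rw [hkH x hx, LinearMap.trace_one]
      simp
    · show LinearMap.trace ℂ _ (ρ t) = 1 ∨ LinearMap.trace ℂ _ (ρ t) = -1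
      obtain ⟨k, hk1, hk⟩ := trace_invol (ρ t) (hρt ρ)
      interval_cases k
      · right
        rw [hk]
        norm_num
      · left
        rw [hk]
        norm_num
    · intro x hx
      show LinearMap.trace ℂ _ (ρ x) = LinearMap.trace ℂ _ (ρ t)
      have h6 : x = t * (t * x) := by
        rw [← mul_assoc, ht, one_mul]
      have h7 : ρ x = ρ t := by
        rw [h6, map_mul, hkH _ hx, mul_one]
      rw [h7]
  have hLcard : L.card ≤ 2 := by
    have h8 : L.card ≤ (Finset.univ : Finset Bool).card := by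
      apply Finset.card_le_card_of_injOn (fun χ => decide (χ.1 t = 1)) (fun _ _ => Finset.mem_univ _)
      intro χ hχ χ' hχ' heq
      obtain ⟨h1, h2, h3⟩ := hLdesc χ hχ
      obtain ⟨h1', h2', h3'⟩ := hLdesc χ' hχ'
      have h9 : χ.1 t = χ'.1 t := by
        have heq' : decide (χ.1 t = 1) = decide (χ'.1 t = 1) := heq
        rcases h2 with h | h <;> rcases h2' with h' | h'
        · rw [h, h']
        · rw [h, h'] at heq'
          norm_num at heq'
        · rw [h, h'] at heq'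
          norm_num at heq'
        · rw [h, h']
      apply Subtype.ext
      funext x
      rcases hX x with hx | hx
      · rw [h1 x hx, h1' x hx]
      · rw [h3 x hx, h3' x hx, h9]
    simpa using h8
  have hLm : ∀ χ ∈ L, (m χ) ^ 2 = 1 := by
    intro χ hχ
    obtain ⟨-, h2, -⟩ := hLdesc χ hχ
    have h3 := hm χ
    rcases h2 with h | h
    · rw [h] at h3
      have h4 : m χ = 1 := by exact_mod_cast h3.symm
      rw [h4]
      norm_num
    · rw [h] at h3
      have h4 : m χ = -1 := by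
        have h5 : ((m χ : ℤ) : ℂ) = ((-1 : ℤ) : ℂ) := by
          rw [← h3]
          norm_num
        exact_mod_cast h5
      rw [h4]
      norm_num
  -- there is a non-linear character not vanishing at `t`
  have hex : ∃ χ, χ ∉ L ∧ m χ ≠ 0 := by
    by_contra hno
    push Not at hno
    have h10 : ∑ χ : IrrCharacter X, (m χ) ^ 2 = ∑ χ ∈ L, (m χ) ^ 2 := by
      symm
      apply Finset.sum_subset (Finset.subset_univ _)
      intro χ _ hχ
      rw [hno χ hχ]
      norm_num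
    rw [h10, Finset.sum_congr rfl hLm] at hsum
    simp only [Finset.sum_const, nsmul_eq_mul, mul_one] at hsum
    have h11 : L.card = Nat.card (Subgroup.centralizer ({t} : Set X)) := by exact_mod_cast hsum
    omega
  obtain ⟨χ₁, hχ₁L, hχ₁m⟩ := hex
  -- the trivial character
  let χ₀ : IrrCharacter X := ⟨fun _ => 1, isIrrCharacter_one⟩
  have hχ₀L : χ₀ ∈ L := by
    exact Finset.mem_filter.2 ⟨Finset.mem_univ _, rfl⟩
  have hne : χ₀ ≠ χ₁ := fun h => hχ₁L (h ▸ hχ₀L)
  have hle : (m χ₀) ^ 2 + (m χ₁) ^ 2 ≤ ∑ χ : IrrCharacter X, (m χ) ^ 2 := by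
    have h12 : ∑ χ ∈ ({χ₀, χ₁} : Finset (IrrCharacter X)), (m χ) ^ 2 = (m χ₀) ^ 2 + (m χ₁) ^ 2 := by
      rw [Finset.sum_pair hne]
    rw [← h12]
    exact Finset.sum_le_sum_of_subset_of_nonneg (Finset.subset_univ _) (fun _ _ _ => sq_nonneg _)
  have h13 := hLm χ₀ hχ₀L
  rw [hsum, h13] at hle
  have h14 : (m χ₁) ^ 2 ≤ 3 := by
    have : (Nat.card (Subgroup.centralizer ({t} : Set X)) : ℤ) ≤ 4 := by exact_mod_cast hC4
    linarith
  have h15 : m χ₁ = 1 ∨ m χ₁ = -1 := by
    have h16 : m χ₁ ≤ 1 := by nlinarith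
    have h17 : -1 ≤ m χ₁ := by nlinarith
    omega
  obtain ⟨n, ρ, hirr, hχ⟩ := χ₁.2
  refine ⟨n, ρ, hirr, ?_, ?_⟩
  · rintro rfl
    apply hχ₁L
    refine Finset.mem_filter.2 ⟨Finset.mem_univ _, ?_⟩
    rw [← hχ]
    simp [Representation.character, map_one]
  · have h18 : LinearMap.trace ℂ _ (ρ t) = χ₁.1 t := by
      rw [← hχ]
      rfl
    rw [h18, hm χ₁]
    rcases h15 with h | h
    · left
      rw [h]
      norm_num
    · right
      rw [h]
      norm_num

end

end Cfsg.Agent.H03.KT
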