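import Mathlib
import Cfsg.Agent.Lib.H03.KT2
import Cfsg.Agent.Lib.H03.PR3

/-! Structure of sharply triply transitive groups. -/

set_option autoImplicit false

namespace Cfsg.Agent.H03.KT

open Cfsg.Agent.H03.PR MulAction

universe u v

section
variable {G : Type u} {α : Type v} [Group G] [MulAction G α] [Fintype α] [DecidableEq α]

/-- The kernel of a point stabiliser. -/
theorem sharp3_kernel (hS : Sharp3 G α) (a b c : α) (hab : a ≠ b) (hac : a ≠ c) (hbc : b ≠ c) :
    ∃ (F : Subgroup G) (p j : ℕ), p.Prime ∧ 1 ≤ j ∧ Fintype.card α - 1 = p ^ j ∧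
      (∀ u ∈ F, u • a = a) ∧ (∀ g : G, g • a = a → ∀ u ∈ F, g * u * g⁻¹ ∈ F) ∧
      (∀ x ∈ F, ∀ y ∈ F, x * y = y * x) ∧
      (∀ y y' : α, y ≠ a → y' ≠ a → ∃ u ∈ F, u • y = y') ∧
      (∀ u ∈ F, ∀ y : α, y ≠ a → u • y = y → u = 1) := by
  classical
  letI := actY (G := G) a
  let Γ := MulAction.stabilizer G a
  let Y := {y : α // y ≠ a}
  have hsmul : ∀ (g : Γ) (y : Y), ((g • y : Y) : α) = g.1 • y.1 := fun _ _ => rfl
  have hcardY : Fintype.card Y = Fintype.card α - 1 := by
    rw [Fintype.card_subtype_compl, Fintype.card_subtype_eq]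
  have h3 : 3 ≤ Fintype.card α := by
    have : ({a, b, c} : Finset α).card = 3 := by
      rw [Finset.card_eq_three]
      exact ⟨a, b, c, hab, hac, hbc, rfl⟩
    rw [← this]
    exact Finset.card_le_univ _
  have hex : ∀ a' b' c' d' : Y, a' ≠ b' → c' ≠ d' → ∃ g : Γ, g • a' = c' ∧ g • b' = d' := by
    intro a' b' c' d' hab' hcd'
    have hab'' : a'.1 ≠ b'.1 := fun h => hab' (Subtype.ext h)
    have hcd'' : c'.1 ≠ d'.1 := fun h => hcd' (Subtype.ext h)
    obtain ⟨g, h4, h5, h6⟩ := hS.trans a a'.1 b'.1 a c'.1 d'.1 a'.2.symm b'.2.symm hab'' c'.2.symm d'.2.symm hcd''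
    exact ⟨⟨g, h4⟩, Subtype.ext h5, Subtype.ext h6⟩
  have hrig : ∀ (g : Γ) (a' b' : Y), a' ≠ b' → g • a' = a' → g • b' = b' → g = 1 := by
    intro g a' b' hab' h4 h5
    have hab'' : a'.1 ≠ b'.1 := fun h => hab' (Subtype.ext h)
    have h6 : g.1 • a'.1 = a'.1 := congrArg Subtype.val h4
    have h7 : g.1 • b'.1 = b'.1 := congrArg Subtype.val h5
    exact Subtype.ext (hS.rigid g.1 a a'.1 b'.1 a'.2.symm b'.2.symm hab'' g.2 h6 h7)
  obtain ⟨E, p, j, hp, hj, hcardE, hEn, hEab, -, hEt, hEs⟩ :=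
    sharp2_abstract (Γ := Γ) (Y := Y) (by omega) hex hrig
  refine ⟨E.map Γ.subtype, p, j, hp, hj, by rw [← hcardY]; exact hcardE, ?_, ?_, ?_, ?_, ?_⟩
  · rintro _ ⟨u, -, rfl⟩
    exact u.2
  · rintro g hg _ ⟨u, hu, rfl⟩
    refine ⟨⟨g, hg⟩ * u * ⟨g, hg⟩⁻¹, hEn.conj_mem u hu _, rfl⟩
  · rintro _ ⟨x, hx, rfl⟩ _ ⟨y, hy, rfl⟩
    exact congrArg Subtype.val (hEab x hx y hy)
  · intro y y' hy hy'
    obtain ⟨u, hu, huy⟩ := hEt ⟨y, hy⟩ ⟨y', hy'⟩
    exact ⟨u.1, ⟨u, hu, rfl⟩, congrArg Subtype.val huy⟩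
  · rintro _ ⟨u, hu, rfl⟩ y hy huy
    have := hEs u hu ⟨y, hy⟩ (Subtype.ext huy)
    rw [this]
    rfl

end

section
variable {G : Type u} {α : Type v} [Group G] [MulAction G α]

/-- Elements agreeing at three points coincide. -/
theorem sharp3_ext (hS : Sharp3 G α) {g g' : G} {a b c : α} (hab : a ≠ b) (hac : a ≠ c) (hbc : b ≠ c)
    (h1 : g • a = g' • a) (h2 : g • b = g' • b) (h3 : g • c = g' • c) : g = g' := by
  have h : g'⁻¹ * g = 1 := hS.rigid _ a b c hab hac hbc
    (by rw [mul_smul, h1, inv_smul_smul]) (by rw [mul_smul, h2, inv_smul_smul])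
    (by rw [mul_smul, h3, inv_smul_smul])
  exact (inv_mul_eq_one.mp h).symm

/-- The properties of the kernel. -/
structure KF (F : Subgroup G) (a : α) : Prop where
  fix : ∀ u ∈ F, u • a = a
  conj : ∀ g : G, g • a = a → ∀ u ∈ F, g * u * g⁻¹ ∈ F
  comm : ∀ x ∈ F, ∀ y ∈ F, x * y = y * x
  trans : ∀ y y' : α, y ≠ a → y' ≠ a → ∃ u ∈ F, u • y = y'
  free : ∀ u ∈ F, ∀ y : α, y ≠ a → u • y = y → u = 1

theorem mem_H2 {a b : α} {g : G} :
    g ∈ MulAction.stabilizer G a ⊓ MulAction.stabilizer G b ↔ g • a = a ∧ g • b = b := by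
  simp [Subgroup.mem_inf, MulAction.mem_stabilizer_iff]

/-- regularity of the two point stabiliser -/
theorem H2_trans (hS : Sharp3 G α) {a b y y' : α} (hab : a ≠ b) (h1 : y ≠ a) (h2 : y ≠ b) (h1' : y' ≠ a)
    (h2' : y' ≠ b) : ∃ h : G, h • a = a ∧ h • b = b ∧ h • y = y' := by
  exact hS.trans a b y a b y' hab h1.symm h2.symm hab h1'.symm h2'.symm

theorem card_F [Fintype α] [DecidableEq α] [Finite G] {F : Subgroup G} {a b : α} (hF : KF F a) (hab : a ≠ b) :
    Nat.card F + 1 = Fintype.card α := by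
  classical
  have hcardY : Nat.card {y : α // y ≠ a} = Fintype.card α - 1 := by
    rw [Nat.card_eq_fintype_card, Fintype.card_subtype_compl, Fintype.card_subtype_eq]
  have hpos : 1 ≤ Fintype.card α := Fintype.card_pos_iff.2 ⟨a⟩
  have hb : ∀ u : F, u.1 • b ≠ a := by
    intro u h
    have h1 := hF.fix u.1 u.2
    exact hab.symm (MulAction.injective u.1 (h.trans h1.symm))
  let φ : F → {y : α // y ≠ a} := fun u => ⟨u.1 • b, hb u⟩
  have hφ : Function.Bijective φ := by
    constructor
    · intro u u' h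
      have h1 : u.1 • b = u'.1 • b := congrArg Subtype.val h
      have h2 : u'.1⁻¹ * u.1 = 1 := hF.free _ (mul_mem (inv_mem u'.2) u.2) b hab.symm
        (by rw [mul_smul, h1, inv_smul_smul])
      exact Subtype.ext (inv_mul_eq_one.mp h2).symm
    · rintro ⟨y, hy⟩
      obtain ⟨u, hu, huy⟩ := hF.trans b y hab.symm hy
      exact ⟨⟨u, hu⟩, Subtype.ext huy⟩
  have := Nat.card_congr (Equiv.ofBijective φ hφ)
  omega

theorem card_H2 [Fintype α] [DecidableEq α] [Finite G] (hS : Sharp3 G α) {a b c : α}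
    (hab : a ≠ b) (hac : a ≠ c) (hbc : b ≠ c) :
    Nat.card (MulAction.stabilizer G a ⊓ MulAction.stabilizer G b : Subgroup G) + 2 = Fintype.card α := by
  classical
  set H := (MulAction.stabilizer G a ⊓ MulAction.stabilizer G b : Subgroup G) with hH
  have hcardY : Nat.card {y : α // y ≠ a ∧ y ≠ b} = Fintype.card α - 2 := by
    rw [Nat.card_eq_fintype_card, Fintype.card_subtype]
    have : (Finset.univ.filter fun y : α => y ≠ a ∧ y ≠ b) = Finset.univ \ {a, b} := by
      ext y
      simp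
    rw [this, Finset.card_sdiff_of_subset (Finset.subset_univ _), Finset.card_pair hab, Finset.card_univ]
  have hle : 2 ≤ Fintype.card α := by
    rw [← Finset.card_pair hab]
    exact Finset.card_le_univ _
  have hb : ∀ u : H, u.1 • c ≠ a ∧ u.1 • c ≠ b := by
    intro u
    have h1 := mem_H2.1 u.2
    refine ⟨fun h => hac.symm (MulAction.injective u.1 (h.trans h1.1.symm)),
      fun h => hbc.symm (MulAction.injective u.1 (h.trans h1.2.symm))⟩
  let φ : H → {y : α // y ≠ a ∧ y ≠ b} := fun u => ⟨u.1 • c, hb u⟩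
  have hφ : Function.Bijective φ := by
    constructor
    · intro u u' h
      have h1 : u.1 • c = u'.1 • c := congrArg Subtype.val h
      have h3 := mem_H2.1 u.2
      have h4 := mem_H2.1 u'.2
      exact Subtype.ext (sharp3_ext hS hab hac hbc (h3.1.trans h4.1.symm) (h3.2.trans h4.2.symm) h1)
    · rintro ⟨y, hy⟩
      obtain ⟨h, h1, h2, h3⟩ := H2_trans hS hab hac.symm hbc.symm hy.1 hy.2
      exact ⟨⟨h, mem_H2.2 ⟨h1, h2⟩⟩, Subtype.ext h3⟩
  have := Nat.card_congr (Equiv.ofBijective φ hφ)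
  omega

/-- commuting with a nontrivial element of the kernel forces triviality -/
theorem H2_comm_eq_one (hS : Sharp3 G α) {F : Subgroup G} {a b : α} (hF : KF F a) (hab : a ≠ b) {h u : G}
    (h1 : h • a = a) (h2 : h • b = b) (hu : u ∈ F) (hu1 : u ≠ 1) (hc : h * u * h⁻¹ = u) : h = 1 := by
  have h3 : u • b ≠ b := fun h' => hu1 (hF.free u hu b hab.symm h')
  have h4 : u • b ≠ a := by
    intro h'
    have h5 := hF.fix u hu
    exact hab.symm (MulAction.injective u (h'.trans h5.symm))
  have h5 : h * u = u * h := by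
    calc h * u = h * u * h⁻¹ * h := by group
      _ = u * h := by rw [hc]
  refine hS.rigid h a b (u • b) hab h4.symm h3.symm h1 h2 ?_
  rw [← mul_smul, h5, mul_smul, h2]

section invol
variable [Finite G] [Fintype α] [DecidableEq α] (hS : Sharp3 G α) {F : Subgroup G} {a b c : α}
  (hF : KF F a) (hab : a ≠ b) (hac : a ≠ c) (hbc : b ≠ c) (h6 : 6 ≤ Fintype.card α)
  (heven : Even (Fintype.card α))

include hS hF hab hac hbc h6 heven

/-- The kernel has a nontrivial element -/
theorem exists_F_base : ∃ u ∈ F, u • b = c := hF.trans b c hab.symm hac.symm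

/-- there is an involution in the two point stabiliser -/
theorem exists_H2_invol : ∃ z : G, z ≠ 1 ∧ z * z = 1 ∧ z • a = a ∧ z • b = b := by
  classical
  have h1 := card_H2 hS hab hac hbc
  set H := (MulAction.stabilizer G a ⊓ MulAction.stabilizer G b : Subgroup G) with hH
  have h2 : 2 ∣ Nat.card H := by
    obtain ⟨k, hk⟩ := heven
    have : Nat.card H = 2 * (k - 1) := by omega
    rw [this]
    exact dvd_mul_right _ _
  haveI : Fintype H := Fintype.ofFinite _
  rw [Nat.card_eq_fintype_card] at h2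
  obtain ⟨x, hx⟩ := exists_prime_orderOf_dvd_card 2 h2
  have h3 := mem_H2.1 x.2
  refine ⟨x.1, ?_, ?_, h3.1, h3.2⟩
  · intro h
    have : x = 1 := Subtype.ext h
    rw [this, orderOf_one] at hx
    omega
  · have := pow_orderOf_eq_one x
    rw [hx, pow_two] at this
    exact congrArg Subtype.val this

/-- an involution of the two point stabiliser inverts the kernel -/
theorem H2_invol_inverts {z : G} (hz : z ≠ 1) (hzz : z * z = 1) (hza : z • a = a) (hzb : z • b = b) :
    ∀ u ∈ F, z * u * z⁻¹ = u⁻¹ := by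
  refine inv_of_fpf F z hzz (fun h hh => hF.conj z hza h hh) ?_
  intro u hu huc
  by_contra hu1
  exact hz (H2_comm_eq_one hS hF hab hza hzb hu hu1 huc)

theorem F_base_ne {u : G} (hu : u • b = c) : u ≠ 1 := by
  rintro rfl
  rw [one_smul] at hu
  exact hbc hu

theorem H2_invol_unique {z z' : G} (hz : z ≠ 1) (hzz : z * z = 1) (hza : z • a = a) (hzb : z • b = b)
    (hz' : z' ≠ 1) (hzz' : z' * z' = 1) (hza' : z' • a = a) (hzb' : z' • b = b) : z' = z := by
  obtain ⟨u, hu, huc⟩ := hF.trans b c hab.symm hac.symm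
  have hu1 : u ≠ 1 := F_base_ne hS hF hab hac hbc h6 heven huc
  have h1 := H2_invol_inverts hS hF hab hac hbc h6 heven hz hzz hza hzb
  have h2 := H2_invol_inverts hS hF hab hac hbc h6 heven hz' hzz' hza' hzb'
  have h3 : (z * z') * u * (z * z')⁻¹ = u := by
    calc (z * z') * u * (z * z')⁻¹ = z * (z' * u * z'⁻¹) * z⁻¹ := by group
      _ = z * u⁻¹ * z⁻¹ := by rw [h2 u hu]
      _ = (z * u * z⁻¹)⁻¹ := by group
      _ = u := by rw [h1 u hu, inv_inv]
  have h4 : z * z' = 1 := H2_comm_eq_one hS hF hab (by rw [mul_smul, hza', hza])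
    (by rw [mul_smul, hzb', hzb]) hu hu1 h3
  have h5 : z⁻¹ = z := inv_eq_of_mul_eq_one_left hzz
  calc z' = z⁻¹ * (z * z') := by group
    _ = z := by rw [h4, mul_one, h5]

theorem H2_invol_central {z y : G} (hz : z ≠ 1) (hzz : z * z = 1) (hza : z • a = a) (hzb : z • b = b)
    (hya : y • a = a) (hyb : y • b = b) : y * z = z * y := by
  have hy'a : y⁻¹ • a = a := by rw [inv_smul_eq_iff, hya]
  have hy'b : y⁻¹ • b = b := by rw [inv_smul_eq_iff, hyb]
  have h := H2_invol_unique hS hF hab hac hbc h6 heven (z' := y * z * y⁻¹) hz hzz hza hzb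
    (fun h => hz (by
      have : z = y⁻¹ * (y * z * y⁻¹) * y := by group
      rw [this, h]; group))
    (by
      calc y * z * y⁻¹ * (y * z * y⁻¹) = y * (z * z) * y⁻¹ := by group
        _ = 1 := by rw [hzz]; group)
    (by rw [mul_smul, mul_smul, hy'a, hza, hya]) (by rw [mul_smul, mul_smul, hy'b, hzb, hyb])
  calc y * z = y * z * y⁻¹ * y := by group
    _ = z * y := by rw [h]

theorem swap_central {z s : G} (hz : z ≠ 1) (hzz : z * z = 1) (hza : z • a = a) (hzb : z • b = b)
    (hsa : s • a = b) (hsb : s • b = a) (hsc : s • c = c) : s * z = z * s := by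
  have hss : s * s = 1 := hS.rigid _ a b c hab hac hbc (by rw [mul_smul, hsa, hsb])
    (by rw [mul_smul, hsb, hsa]) (by rw [mul_smul, hsc, hsc])
  have hsi : s⁻¹ = s := inv_eq_of_mul_eq_one_left hss
  have h := H2_invol_unique hS hF hab hac hbc h6 heven (z' := s * z * s⁻¹) hz hzz hza hzb
    (fun h => hz (by
      have : z = s⁻¹ * (s * z * s⁻¹) * s := by group
      rw [this, h]; group))
    (by
      calc s * z * s⁻¹ * (s * z * s⁻¹) = s * (z * z) * s⁻¹ := by group
        _ = 1 := by rw [hzz]; group)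
    (by rw [hsi, mul_smul, mul_smul, hsa, hzb, hsb]) (by rw [hsi, mul_smul, mul_smul, hsb, hza, hsa])
  calc s * z = s * z * s⁻¹ * s := by group
    _ = z * s := by rw [h]

/-- the centraliser of the swap in the two point stabiliser -/
theorem H2_comm_swap {z s y : G} (hz : z ≠ 1) (hzz : z * z = 1) (hza : z • a = a) (hzb : z • b = b)
    (hsa : s • a = b) (hsb : s • b = a) (hsc : s • c = c) (hya : y • a = a) (hyb : y • b = b)
    (hy : s * y = y * s) : y = 1 ∨ y = z := by
  have hsz := swap_central hS hF hab hac hbc h6 heven hz hzz hza hzb hsa hsb hsc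
  by_cases h1 : y • c = c
  · left
    exact hS.rigid y a b c hab hac hbc hya hyb h1
  · right
    have hx : s • (y • c) = y • c := by rw [← mul_smul, hy, mul_smul, hsc]
    by_cases h2 : y • c = z • c
    · exact sharp3_ext hS hab hac hbc (hya.trans hza.symm) (hyb.trans hzb.symm) h2
    · exfalso
      have hzc : z • c ≠ c := fun h => hz (hS.rigid z a b c hab hac hbc hza hzb h)
      have hsd : s • (z • c) = z • c := by rw [← mul_smul, hsz, mul_smul, hsc]
      have hs1 : s = 1 := hS.rigid s c (z • c) (y • c) (Ne.symm hzc) (Ne.symm h1) (Ne.symm h2) hsc hsd hx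
      rw [hs1, one_smul] at hsa
      exact hab hsa

end invol

/-- The index two subgroup in the favourable case -/
theorem index_two_of_closure [Finite G] (H : Subgroup G) (s z : G) (hs : s * s = 1) (hzH : z ∈ H)
    (hτ : ∀ y ∈ H, s * y * s ∈ H)
    (hfib : ∀ y ∈ H, ∀ y' ∈ H, y * (s * y⁻¹ * s) = y' * (s * y'⁻¹ * s) → y = y' ∨ y = y' * z)
    (hne : Subgroup.closure {g | ∃ y ∈ H, g = y * (s * y⁻¹ * s)} ≠ H) :
    ∃ N : Subgroup G, N ≤ H ∧ (N.subgroupOf H).Normal ∧ N.relIndex H = 2 ∧ ∀ n ∈ N, s * n * s⁻¹ ∈ N := by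
  classical
  set N := Subgroup.closure {g | ∃ y ∈ H, g = y * (s * y⁻¹ * s)} with hN
  have hsi : s⁻¹ = s := inv_eq_of_mul_eq_one_left hs
  have hNH : N ≤ H := by
    rw [hN, Subgroup.closure_le]
    rintro _ ⟨y, hy, rfl⟩
    exact mul_mem hy (hτ _ (inv_mem hy))
  have hNs : ∀ n ∈ N, s * n * s⁻¹ ∈ N := by
    intro n hn
    rw [hN] at hn
    induction hn using Subgroup.closure_induction with
    | mem g hg =>
      obtain ⟨y, hy, rfl⟩ := hg
      have : s * (y * (s * y⁻¹ * s)) * s⁻¹ = (y * (s * y⁻¹ * s))⁻¹ := by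
        rw [hsi]
        simp only [mul_inv_rev, inv_inv, hsi, mul_assoc, hs, mul_one]
      rw [this]
      exact inv_mem (Subgroup.subset_closure ⟨y, hy, rfl⟩)
    | one => simp
    | mul x y _ _ hx hy =>
      have : s * (x * y) * s⁻¹ = (s * x * s⁻¹) * (s * y * s⁻¹) := by group
      rw [this]
      exact mul_mem hx hy
    | inv x _ hx =>
      have : s * x⁻¹ * s⁻¹ = (s * x * s⁻¹)⁻¹ := by group
      rw [this]
      exact inv_mem hx
  refine ⟨N, hNH, ?_, ?_, hNs⟩
  all_goals
    have hcardN : Nat.card (N.subgroupOf H) = Nat.card N := by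
      exact Nat.card_congr (Subgroup.subgroupOfEquivOfLe hNH).toEquiv
    have hindex : N.relIndex H = 2 := by
      haveI : Fintype H := Fintype.ofFinite _
      haveI : Fintype N := Fintype.ofFinite _
      let f : H → N := fun y => ⟨y.1 * (s * y.1⁻¹ * s), Subgroup.subset_closure ⟨y.1, y.2, rfl⟩⟩
      have h1 : (Finset.univ : Finset H).card ≤ 2 * ((Finset.univ : Finset H).image f).card := by
        apply Finset.card_le_mul_card_image
        intro n hn
        obtain ⟨y₀, -, hy₀⟩ := Finset.mem_image.1 hn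
        have h2 : (Finset.univ.filter fun x => f x = n) ⊆ {y₀, y₀ * ⟨z, hzH⟩} := by
          intro y hy
          have h3 : f y = f y₀ := (Finset.mem_filter.1 hy).2.trans hy₀.symm
          have h4 : y.1 * (s * y.1⁻¹ * s) = y₀.1 * (s * y₀.1⁻¹ * s) := congrArg Subtype.val h3
          rcases hfib y.1 y.2 y₀.1 y₀.2 h4 with h5 | h5
          · exact Finset.mem_insert.2 (Or.inl (Subtype.ext h5))
          · exact Finset.mem_insert.2 (Or.inr (Finset.mem_singleton.2 (Subtype.ext h5)))
        exact (Finset.card_le_card h2).trans Finset.card_le_two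
      have h2 : ((Finset.univ : Finset H).image f).card ≤ Fintype.card N := by
        exact Finset.card_le_univ _
      have h3 : Nat.card H ≤ 2 * Nat.card N := by
        rw [Nat.card_eq_fintype_card, Nat.card_eq_fintype_card]
        have : (Finset.univ : Finset H).card = Fintype.card H := rfl
        omega
      have h4 : Nat.card (N.subgroupOf H) * (N.subgroupOf H).index = Nat.card H :=
        Subgroup.card_mul_index _
      have h5 : N.relIndex H = (N.subgroupOf H).index := rfl
      rw [hcardN] at h4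
      rw [h5]
      have hpos : 0 < Nat.card N := Nat.card_pos
      have hposH : 0 < Nat.card H := Nat.card_pos
      have h6 : (N.subgroupOf H).index ≠ 1 := by
        intro h7
        rw [h7, mul_one] at h4
        apply hne
        exact Subgroup.eq_of_le_of_card_ge hNH h4.ge
      have h7 : (N.subgroupOf H).index ≠ 0 := by
        intro h7
        rw [h7, mul_zero] at h4
        omega
      have h8 : (N.subgroupOf H).index ≤ 2 := by
        by_contra h9
        push Not at h9
        have h10 : Nat.card N * 3 ≤ Nat.card N * (N.subgroupOf H).index := Nat.mul_le_mul_left _ h9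
        omega
      omega
  · exact Subgroup.normal_of_index_eq_two hindex
  · exact hindex

end

end Cfsg.Agent.H03.KT
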