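import Mathlib
import Cfsg.Agent.Lib.H03.KT3

/-! The sharply triply transitive case: the character-theoretic part. -/

set_option autoImplicit false

namespace Cfsg.Agent.H03.KT

open Cfsg Cfsg.Agent.H21 Cfsg.Agent.H03.PR MulAction Module

universe u v

section scalar
variable {K : Type*} [Group K] [Fintype K] {n : ℕ}

/-- The averaging operator of an involution. -/
theorem scalar_data (ρ : K →* End ℂ (Fin n → ℂ)) (S : End ℂ (Fin n → ℂ)) (τ : K → K)
    (hττ : ∀ y, τ (τ y) = y) (hτi : ∀ y, τ y⁻¹ = (τ y)⁻¹) (hS : S * S = 1)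
    (hSρ : ∀ h, S * ρ h * S = ρ (τ h))
    (hirr : ∀ T : End ℂ (Fin n → ℂ), (∀ h, T * ρ h = ρ h * T) → T * S = S * T → ∃ c : ℂ, T = c • 1) :
    ∃ c : ℂ, ∑ y : K, ρ (τ y * y⁻¹) = c • S ∧
      c * (n : ℂ) = (Fintype.card K : ℂ) * LinearMap.trace ℂ _ S := by
  classical
  set C₀ : End ℂ (Fin n → ℂ) := ∑ y : K, ρ y * S * ρ y⁻¹ with hC₀
  have hρinv : ∀ y, ρ y⁻¹ * ρ y = 1 := fun y => by rw [← map_mul, inv_mul_cancel, map_one]
  have hρinv' : ∀ y, ρ y * ρ y⁻¹ = 1 := fun y => by rw [← map_mul, mul_inv_cancel, map_one]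
  have h1 : ∀ h, C₀ * ρ h = ρ h * C₀ := by
    intro h
    rw [hC₀, Finset.sum_mul, Finset.mul_sum]
    refine Fintype.sum_equiv (Equiv.mulLeft h⁻¹) _ _ ?_
    intro y
    simp only [Equiv.coe_mulLeft]
    have h2 : ρ (h⁻¹ * y)⁻¹ = ρ y⁻¹ * ρ h := by
      rw [mul_inv_rev, inv_inv, map_mul]
    have h3 : ρ (h⁻¹ * y) = ρ h⁻¹ * ρ y := map_mul _ _ _
    rw [h3, h2]
    calc ρ y * S * ρ y⁻¹ * ρ h = (ρ h * ρ h⁻¹) * ρ y * S * (ρ y⁻¹ * ρ h) := by
          rw [hρinv']
          simp only [one_mul, mul_assoc]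
      _ = _ := by simp only [mul_assoc]
  have h2 : C₀ * S = S * C₀ := by
    rw [hC₀, Finset.sum_mul, Finset.mul_sum]
    let e : K ≃ K := ⟨τ, τ, hττ, hττ⟩
    refine Fintype.sum_equiv e _ _ ?_
    intro y
    show ρ y * S * ρ y⁻¹ * S = S * (ρ (τ y) * S * ρ (τ y)⁻¹)
    have h3 : S * ρ (τ y) * S = ρ y := by rw [hSρ, hττ]
    have h4 : ρ (τ y)⁻¹ = S * ρ y⁻¹ * S := by rw [hSρ, hτi]
    rw [h4, ← h3]
    simp only [mul_assoc, hS, mul_one]
    rw [← mul_assoc S S, hS, one_mul]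
  obtain ⟨c, hc⟩ := hirr C₀ h1 h2
  refine ⟨c, ?_, ?_⟩
  · have h3 : ∑ y : K, ρ (τ y * y⁻¹) = S * C₀ := by
      rw [hC₀, Finset.mul_sum]
      refine Finset.sum_congr rfl ?_
      intro y _
      rw [map_mul, ← hSρ]
      simp only [mul_assoc]
    rw [h3, hc, mul_smul_comm, mul_one]
  · have h3 : LinearMap.trace ℂ (Fin n → ℂ) C₀ = (Fintype.card K : ℂ) * LinearMap.trace ℂ _ S := by
      rw [hC₀, map_sum]
      have h4 : ∀ y : K, LinearMap.trace ℂ (Fin n → ℂ) (ρ y * S * ρ y⁻¹) = LinearMap.trace ℂ _ S := by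
        intro y
        rw [LinearMap.trace_mul_comm, ← mul_assoc, hρinv, one_mul]
      simp only [h4, Finset.sum_const, Finset.card_univ, nsmul_eq_mul]
    rw [← h3, hc, map_smul, smul_eq_mul, LinearMap.trace_one]
    simp

end scalar

section
variable {G : Type u} {α : Type v} [Group G] [MulAction G α]

/-- The set stabiliser of a pair. -/
def Xsub (G : Type u) [Group G] [MulAction G α] (a b : α) : Subgroup G where
  carrier := {x | (x • a = a ∧ x • b = b) ∨ (x • a = b ∧ x • b = a)}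
  one_mem' := Or.inl ⟨one_smul _ _, one_smul _ _⟩
  mul_mem' := by
    rintro x y (⟨h1, h2⟩ | ⟨h1, h2⟩) (⟨h3, h4⟩ | ⟨h3, h4⟩)
    · exact Or.inl ⟨by rw [mul_smul, h3, h1], by rw [mul_smul, h4, h2]⟩
    · exact Or.inr ⟨by rw [mul_smul, h3, h2], by rw [mul_smul, h4, h1]⟩
    · exact Or.inr ⟨by rw [mul_smul, h3, h1], by rw [mul_smul, h4, h2]⟩
    · exact Or.inl ⟨by rw [mul_smul, h3, h2], by rw [mul_smul, h4, h1]⟩
  inv_mem' := by
    rintro x (⟨h1, h2⟩ | ⟨h1, h2⟩)
    · exact Or.inl ⟨by rw [inv_smul_eq_iff, h1], by rw [inv_smul_eq_iff, h2]⟩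
    · exact Or.inr ⟨by rw [inv_smul_eq_iff, h2], by rw [inv_smul_eq_iff, h1]⟩

theorem H2_le_X (a b : α) :
    (MulAction.stabilizer G a ⊓ MulAction.stabilizer G b : Subgroup G) ≤ Xsub G a b := by
  intro x hx
  exact Or.inl (mem_H2.1 hx)

section
variable [Finite G] [Fintype α] [DecidableEq α] (hS : Sharp3 G α) {F : Subgroup G} {a b c : α}
  (hF : KF F a) (hab : a ≠ b) (hac : a ≠ c) (hbc : b ≠ c) (h6 : 6 ≤ Fintype.card α)
  (heven : Even (Fintype.card α)) {s z : G} (hz : z ≠ 1) (hzz : z * z = 1) (hza : z • a = a)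
  (hzb : z • b = b) (hsa : s • a = b) (hsb : s • b = a) (hsc : s • c = c)

include hS hF hab hac hbc h6 heven hz hzz hza hzb hsa hsb hsc

theorem exists_char_X
    (hcl : ∀ h ∈ (MulAction.stabilizer G a ⊓ MulAction.stabilizer G b : Subgroup G),
      h ∈ Subgroup.closure {g | ∃ y ∈ (MulAction.stabilizer G a ⊓ MulAction.stabilizer G b : Subgroup G),
        g = y * (s * y⁻¹ * s)}) :
    ∃ (f : ℕ) (ρ : Representation ℂ (Xsub G a b) (Fin f → ℂ)), ρ.IsIrreducible ∧ f ≠ 1 ∧
      (LinearMap.trace ℂ _ (ρ ⟨s, Or.inr ⟨hsa, hsb⟩⟩) = 1 ∨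
        LinearMap.trace ℂ _ (ρ ⟨s, Or.inr ⟨hsa, hsb⟩⟩) = -1) := by
  classical
  set H := (MulAction.stabilizer G a ⊓ MulAction.stabilizer G b : Subgroup G) with hH
  set X := Xsub G a b with hXdef
  haveI : Fintype X := Fintype.ofFinite _
  let t : X := ⟨s, Or.inr ⟨hsa, hsb⟩⟩
  let z' : X := ⟨z, Or.inl ⟨hza, hzb⟩⟩
  have hss : s * s = 1 := hS.rigid _ a b c hab hac hbc (by rw [mul_smul, hsa, hsb])
    (by rw [mul_smul, hsb, hsa]) (by rw [mul_smul, hsc, hsc])
  have ht : t * t = 1 := Subtype.ext hss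
  have hsz := swap_central hS hF hab hac hbc h6 heven hz hzz hza hzb hsa hsb hsc
  have hsi : s⁻¹ = s := inv_eq_of_mul_eq_one_left hss
  have hX : ∀ x : X, x ∈ H.subgroupOf X ∨ t * x ∈ H.subgroupOf X := by
    rintro ⟨x, hx⟩
    rcases hx with ⟨h1, h2⟩ | ⟨h1, h2⟩
    · left
      exact Subgroup.mem_subgroupOf.2 (mem_H2.2 ⟨h1, h2⟩)
    · right
      refine Subgroup.mem_subgroupOf.2 (mem_H2.2 ?_)
      show (s * x) • a = a ∧ (s * x) • b = b
      exact ⟨by rw [mul_smul, h1, hsb], by rw [mul_smul, h2, hsa]⟩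
  have hJ : ∀ h ∈ H.subgroupOf X,
      h ∈ Subgroup.closure {g | ∃ y ∈ H.subgroupOf X, g = y * (t * y⁻¹ * t)} := by
    intro h hh
    have h1 := hcl h.1 (Subgroup.mem_subgroupOf.1 hh)
    have h2 : {g | ∃ y ∈ H, g = y * (s * y⁻¹ * s)} =
        X.subtype '' {g | ∃ y ∈ H.subgroupOf X, g = y * (t * y⁻¹ * t)} := by
      ext g
      constructor
      · rintro ⟨y, hy, rfl⟩
        refine ⟨⟨y, H2_le_X a b hy⟩ * (t * ⟨y, H2_le_X a b hy⟩⁻¹ * t),
          ⟨⟨y, H2_le_X a b hy⟩, Subgroup.mem_subgroupOf.2 hy, rfl⟩, rfl⟩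
      · rintro ⟨_, ⟨y, hy, rfl⟩, rfl⟩
        exact ⟨y.1, Subgroup.mem_subgroupOf.1 hy, rfl⟩
    rw [h2, ← MonoidHom.map_closure] at h1
    obtain ⟨x, hx, hxh⟩ := h1
    have : x = h := Subtype.ext hxh
    rwa [← this]
  have hmemC : ∀ x : X, x ∈ Subgroup.centralizer ({t} : Set X) ↔ x * t = t * x := by
    intro x
    rw [Subgroup.mem_centralizer_singleton_iff]
  have ht1 : t ≠ 1 := by
    intro h
    have h1 : s = 1 := congrArg Subtype.val h
    rw [h1, one_smul] at hsa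
    exact hab hsa
  have hz1 : z' ≠ 1 := fun h => hz (congrArg Subtype.val h)
  have hzt : z' ≠ t := by
    intro h
    have h1 : z = s := congrArg Subtype.val h
    rw [h1, hsa] at hza
    exact hab hza.symm
  have hztc : z' * t = t * z' := Subtype.ext hsz.symm
  have hC3 : 3 ≤ Nat.card (Subgroup.centralizer ({t} : Set X)) := by
    haveI : Fintype (Subgroup.centralizer ({t} : Set X)) := Fintype.ofFinite _
    rw [Nat.card_eq_fintype_card]
    let c1 : Subgroup.centralizer ({t} : Set X) := 1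
    let c2 : Subgroup.centralizer ({t} : Set X) := ⟨z', (hmemC _).2 hztc⟩
    let c3 : Subgroup.centralizer ({t} : Set X) := ⟨t, (hmemC _).2 rfl⟩
    have h12 : c1 ≠ c2 := fun h => hz1 (congrArg Subtype.val h).symm
    have h13 : c1 ≠ c3 := fun h => ht1 (congrArg Subtype.val h).symm
    have h23 : c2 ≠ c3 := fun h => hzt (congrArg Subtype.val h)
    have hcard : ({c1, c2, c3} : Finset _).card = 3 := Finset.card_eq_three.2 ⟨_, _, _, h12, h13, h23, rfl⟩
    rw [← hcard]
    exact Finset.card_le_univ _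
  have hC4 : Nat.card (Subgroup.centralizer ({t} : Set X)) ≤ 4 := by
    haveI : Fintype (Subgroup.centralizer ({t} : Set X)) := Fintype.ofFinite _
    rw [Nat.card_eq_fintype_card]
    let c1 : Subgroup.centralizer ({t} : Set X) := 1
    let c2 : Subgroup.centralizer ({t} : Set X) := ⟨z', (hmemC _).2 hztc⟩
    let c3 : Subgroup.centralizer ({t} : Set X) := ⟨t, (hmemC _).2 rfl⟩
    let c4 : Subgroup.centralizer ({t} : Set X) := c3 * c2
    have hsub : (Finset.univ : Finset (Subgroup.centralizer ({t} : Set X))) ⊆ {c1, c2, c3, c4} := by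
      rintro ⟨⟨x, hxX⟩, hx⟩ -
      have hx' := (hmemC _).1 hx
      have hx'' : x * s = s * x := congrArg Subtype.val hx'
      rcases hxX with ⟨h1, h2⟩ | ⟨h1, h2⟩
      · rcases H2_comm_swap hS hF hab hac hbc h6 heven hz hzz hza hzb hsa hsb hsc h1 h2 hx''.symm with h3 | h3
        · subst h3
          simp only [Finset.mem_insert, Finset.mem_singleton]
          left
          rfl
        · subst h3
          simp only [Finset.mem_insert, Finset.mem_singleton]
          right; left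
          rfl
      · have h3 : (s * x) • a = a := by rw [mul_smul, h1, hsb]
        have h4 : (s * x) • b = b := by rw [mul_smul, h2, hsa]
        have h5 : s * (s * x) = (s * x) * s := by rw [mul_assoc, hx'']
        rcases H2_comm_swap hS hF hab hac hbc h6 heven hz hzz hza hzb hsa hsb hsc h3 h4 h5 with h6' | h6'
        · have h7 : x = s := by
            calc x = s * (s * x) := by rw [← mul_assoc, hss, one_mul]
              _ = s := by rw [h6', mul_one]
          subst h7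
          simp only [Finset.mem_insert, Finset.mem_singleton]
          right; right; left
          rfl
        · have h7 : x = s * z := by
            calc x = s * (s * x) := by rw [← mul_assoc, hss, one_mul]
              _ = s * z := by rw [h6']
          subst h7
          simp only [Finset.mem_insert, Finset.mem_singleton]
          right; right; right
          rfl
    have h8 := Finset.card_le_card hsub
    exact h8.trans Finset.card_le_four
  exact exists_char_aux t ht (H.subgroupOf X) hX hJ hC3 hC4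

/-- The basic identity. -/
theorem key_identity {u : G} (hu : u ∈ F) (huc : u • b = c) : s * u * s = u * s * z * u := by
  have hzc : z • c ≠ c := fun h => hz (hS.rigid z a b c hab hac hbc hza hzb h)
  have hda : z • c ≠ a := fun h => hac (MulAction.injective z (hza.trans h.symm))
  have hdb : z • c ≠ b := fun h => hbc (MulAction.injective z (hzb.trans h.symm))
  have hsz := swap_central hS hF hab hac hbc h6 heven hz hzz hza hzb hsa hsb hsc
  have hsd : s • (z • c) = z • c := by rw [← mul_smul, hsz, mul_smul, hsc]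
  have hinv := H2_invol_inverts hS hF hab hac hbc h6 heven hz hzz hza hzb u hu
  have hzi : z⁻¹ = z := inv_eq_of_mul_eq_one_left hzz
  have hua : u • a = a := hF.fix u hu
  have hud : u • (z • c) = b := by
    have h1 : u * z = z * u⁻¹ := by
      calc u * z = z * (z * u * z⁻¹) := by rw [hzi]; simp only [← mul_assoc, hzz, one_mul]
        _ = z * u⁻¹ := by rw [hinv]
    have h2 : u⁻¹ • c = b := by rw [inv_smul_eq_iff, huc]
    rw [← mul_smul, h1, mul_smul, h2, hzb]
  refine sharp3_ext hS hab (Ne.symm hda) (Ne.symm hdb) ?_ ?_ ?_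
  · simp only [mul_smul, hsa, huc, hsc, hua, hza]
  · simp only [mul_smul, hsb, hua, hsa, huc, hsd, hud]
  · simp only [mul_smul, hsd, hud, hsb, hua, hzb]

/-- The contradiction when the elements `y τ(y)⁻¹` generate. -/
theorem kt_contra {p j : ℕ} (hp : p.Prime) (hj : 1 ≤ j) (hq : Fintype.card α - 1 = p ^ j)
    (hcl : ∀ h ∈ (MulAction.stabilizer G a ⊓ MulAction.stabilizer G b : Subgroup G),
      h ∈ Subgroup.closure {g | ∃ y ∈ (MulAction.stabilizer G a ⊓ MulAction.stabilizer G b : Subgroup G),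
        g = y * (s * y⁻¹ * s)}) : False := by
  classical
  set H := (MulAction.stabilizer G a ⊓ MulAction.stabilizer G b : Subgroup G) with hH
  set X := Xsub G a b with hXdef
  haveI : Fintype G := Fintype.ofFinite _
  haveI : Fintype X := Fintype.ofFinite _
  haveI : Fintype H := Fintype.ofFinite _
  haveI : Fintype F := Fintype.ofFinite _
  haveI : Fintype (IrrCharacter X) := Fintype.ofFinite _
  let t : X := ⟨s, Or.inr ⟨hsa, hsb⟩⟩
  let z' : X := ⟨z, Or.inl ⟨hza, hzb⟩⟩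
  obtain ⟨f, ρ', hirr, hf1, htr⟩ : ∃ (f : ℕ) (ρ : Representation ℂ X (Fin f → ℂ)), ρ.IsIrreducible ∧ f ≠ 1 ∧
      (LinearMap.trace ℂ _ (ρ t) = 1 ∨ LinearMap.trace ℂ _ (ρ t) = -1) :=
    exists_char_X hS hF hab hac hbc h6 heven hz hzz hza hzb hsa hsb hsc hcl
  have hss : s * s = 1 := hS.rigid _ a b c hab hac hbc (by rw [mul_smul, hsa, hsb])
    (by rw [mul_smul, hsb, hsa]) (by rw [mul_smul, hsc, hsc])
  have hss' : ∀ x, s * (s * x) = x := fun x => by rw [← mul_assoc, hss, one_mul]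
  have ht : t * t = 1 := Subtype.ext hss
  have hsi : s⁻¹ = s := inv_eq_of_mul_eq_one_left hss
  have hzi : z⁻¹ = z := inv_eq_of_mul_eq_one_left hzz
  have hsz := swap_central hS hF hab hac hbc h6 heven hz hzz hza hzb hsa hsb hsc
  have hcent : ∀ y : G, y • a = a → y • b = b → y * z = z * y := fun y h1 h2 =>
    H2_invol_central hS hF hab hac hbc h6 heven hz hzz hza hzb h1 h2
  set S : End ℂ (Fin f → ℂ) := ρ' t with hSdef
  have hSS : S * S = 1 := by rw [hSdef, ← map_mul, ht, map_one]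
  -- the degree is odd
  have hodd : Odd f := by
    obtain ⟨k, hk, htrk⟩ := trace_invol S hSS
    rcases htr with h | h
    · rw [h] at htrk
      have h2 : ((f : ℤ) : ℂ) = ((2 * k - 1 : ℤ) : ℂ) := by
        push_cast
        linear_combination htrk
      have h3 : (f : ℤ) = 2 * k - 1 := by exact_mod_cast h2
      exact ⟨k - 1, by omega⟩
    · rw [h] at htrk
      have h2 : ((f : ℤ) : ℂ) = ((2 * k + 1 : ℤ) : ℂ) := by
        push_cast
        linear_combination htrk
      have h3 : (f : ℤ) = 2 * k + 1 := by exact_mod_cast h2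
      exact ⟨k, by omega⟩
  have hf0 : f ≠ 0 := by
    rintro rfl
    simp at hodd
  haveI : NeZero f := ⟨hf0⟩
  have hHX : H ≤ X := H2_le_X a b
  have hcardX : Nat.card X = 2 * Nat.card H := by
    have h1 : (H.subgroupOf X).index = 2 := by
      rw [Subgroup.index_eq_two_iff']
      refine ⟨t, ?_⟩
      rintro ⟨x, hx⟩
      rcases hx with ⟨h3, h4⟩ | ⟨h3, h4⟩
      · right
        refine ⟨Subgroup.mem_subgroupOf.2 (mem_H2.2 ⟨h3, h4⟩), ?_⟩
        intro h
        have h5 := (mem_H2.1 (Subgroup.mem_subgroupOf.1 h)).1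
        have h6 : (s * x) • a = a := h5
        rw [mul_smul, h3, hsa] at h6
        exact hab h6.symm
      · left
        refine ⟨Subgroup.mem_subgroupOf.2 (mem_H2.2 ?_), ?_⟩
        · show (s * x) • a = a ∧ (s * x) • b = b
          exact ⟨by rw [mul_smul, h3, hsb], by rw [mul_smul, h4, hsa]⟩
        · intro h
          have h5 := (mem_H2.1 (Subgroup.mem_subgroupOf.1 h)).1
          have h6 : x • a = a := h5
          rw [h3] at h6
          exact hab h6.symm
    have h2 := Subgroup.card_mul_index (H.subgroupOf X)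
    have h3 : Nat.card (H.subgroupOf X) = Nat.card H :=
      Nat.card_congr (Subgroup.subgroupOfEquivOfLe hHX).toEquiv
    rw [h1, h3] at h2
    omega
  let χ : IrrCharacter X := ⟨ρ'.character, ⟨f, ρ', hirr, rfl⟩⟩
  have hdeg : charDegree χ.1 = f := by
    have h1 : χ.1 1 = (f : ℂ) := by
      show ρ'.character 1 = (f : ℂ)
      simp [Representation.character, map_one, LinearMap.trace_one]
    unfold charDegree
    rw [h1]
    simp
  have hdvd : f ∣ Nat.card X := hdeg ▸ Cfsg.Agent.H22.charDegree_dvd_card χ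
  have hdvdH : f ∣ Nat.card H := by
    rw [hcardX] at hdvd
    exact Nat.Coprime.dvd_of_dvd_mul_left (Nat.coprime_two_right.2 hodd) hdvd
  obtain ⟨e₀, he₀⟩ := hdvdH
  -- the representation of the two point stabiliser
  let ι : H →* X := Subgroup.inclusion hHX
  let ρ : H →* End ℂ (Fin f → ℂ) := MonoidHom.comp ρ' ι
  have hρ : ∀ y : H, ρ y = ρ' ⟨y.1, hHX y.2⟩ := fun y => rfl
  have hτ : ∀ h ∈ H, s * h * s ∈ H := by
    intro h hh
    obtain ⟨h1, h2⟩ := mem_H2.1 hh
    exact mem_H2.2 ⟨by rw [mul_smul, mul_smul, hsa, h2, hsb], by rw [mul_smul, mul_smul, hsb, h1, hsa]⟩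
  let τ : H → H := fun y => ⟨s * y * s, hτ y y.2⟩
  have hττ : ∀ y, τ (τ y) = y := fun y => Subtype.ext (by
    show s * (s * y.1 * s) * s = y.1
    simp only [mul_assoc, hss', hss, mul_one])
  have hyi : ∀ y : G, (s * y * s)⁻¹ = s * y⁻¹ * s := fun y => by
    simp only [mul_inv_rev, hsi, mul_assoc]
  have hτi : ∀ y, τ y⁻¹ = (τ y)⁻¹ := fun y => Subtype.ext (by
    show s * y.1⁻¹ * s = (s * y.1 * s)⁻¹
    rw [hyi])
  have hSρ : ∀ h, S * ρ h * S = ρ (τ h) := by
    intro h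
    rw [hρ, hρ, hSdef, ← map_mul, ← map_mul]
    rfl
  have hirrT : ∀ T : End ℂ (Fin f → ℂ), (∀ h, T * ρ h = ρ h * T) → T * S = S * T → ∃ c : ℂ, T = c • 1 := by
    intro T h1 h2
    apply schur_scalar ρ' hirr T
    rintro ⟨x, hx⟩
    rcases hx with ⟨h3, h4⟩ | ⟨h3, h4⟩
    · exact h1 ⟨x, mem_H2.2 ⟨h3, h4⟩⟩
    · have hy : s * x ∈ H := mem_H2.2 ⟨by rw [mul_smul, h3, hsb], by rw [mul_smul, h4, hsa]⟩
      have h5 : (⟨x, Or.inr ⟨h3, h4⟩⟩ : X) = t * ⟨s * x, hHX hy⟩ :=
        Subtype.ext (by show x = s * (s * x); rw [hss'])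
      show T * ρ' (⟨x, Or.inr ⟨h3, h4⟩⟩ : X) = ρ' (⟨x, Or.inr ⟨h3, h4⟩⟩ : X) * T
      rw [h5, map_mul]
      show T * (S * ρ ⟨s * x, hy⟩) = (S * ρ ⟨s * x, hy⟩) * T
      rw [← mul_assoc, h2, mul_assoc, h1, mul_assoc]
  obtain ⟨c', hc, hctr⟩ := scalar_data ρ S τ hττ hτi hSS hSρ hirrT
  -- the central involution
  have hcX : ∀ x : X, z' * x = x * z' := by
    rintro ⟨x, hx⟩
    apply Subtype.ext
    show z * x = x * z
    rcases hx with ⟨h3, h4⟩ | ⟨h3, h4⟩
    · exact (hcent x h3 h4).symm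
    · have h5 := hcent (s * x) (by rw [mul_smul, h3, hsb]) (by rw [mul_smul, h4, hsa])
      calc z * x = s * (z * (s * x)) := by
            rw [← mul_assoc s z, hsz, mul_assoc, hss']
        _ = s * ((s * x) * z) := by rw [h5]
        _ = x * z := by rw [← mul_assoc s, ← mul_assoc s, hss, one_mul]
  obtain ⟨ζ, hζ⟩ : ∃ ζ : ℂ, ρ' z' = ζ • 1 := schur_scalar ρ' hirr (ρ' z') (fun x => by
    show ρ' z' * ρ' x = ρ' x * ρ' z'
    rw [← map_mul, ← map_mul, hcX])
  have hζ2 : ζ * ζ = 1 := by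
    have h1 : ρ' z' * ρ' z' = 1 := by
      rw [← map_mul]
      have : z' * z' = 1 := Subtype.ext hzz
      rw [this, map_one]
    rw [hζ, smul_mul_smul_comm, mul_one] at h1
    have h2 := congrArg (LinearMap.trace ℂ (Fin f → ℂ)) h1
    rw [map_smul, smul_eq_mul, LinearMap.trace_one] at h2
    simp only [Module.finrank_fin_fun, mul_one] at h2
    have h3 : (f : ℂ) ≠ 0 := by exact_mod_cast hf0
    exact mul_right_cancel₀ h3 (by simpa using h2)
  have hzH : z ∈ H := mem_H2.2 ⟨hza, hzb⟩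
  have hζ' : ρ ⟨z, hzH⟩⁻¹ = ζ • 1 := by
    have : (⟨z, hzH⟩ : H)⁻¹ = ⟨z, hzH⟩ := Subtype.ext hzi
    rw [this]
    exact hζ
  -- the kernel
  obtain ⟨u, hu, huc⟩ := hF.trans b c hab.symm hac.symm
  have hu1 : u ≠ 1 := F_base_ne hS hF hab hac hbc h6 heven huc
  have hya : ∀ y : H, y.1 • a = a := fun y => (mem_H2.1 y.2).1
  have hyb : ∀ y : H, y.1 • b = b := fun y => (mem_H2.1 y.2).2
  let v : H → F := fun y => ⟨y.1 * u * y.1⁻¹, hF.conj y.1 (hya y) u hu⟩
  let w : H → G := fun y => (s * y.1 * s) * u * (s * y.1 * s)⁻¹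
  have hw : ∀ y, w y ∈ F := fun y => hF.conj (τ y).1 (hya (τ y)) u hu
  have hv_inj : Function.Injective v := by
    intro y y' h
    have h1 : y.1 * u * y.1⁻¹ = y'.1 * u * y'.1⁻¹ := congrArg Subtype.val h
    have h2 : (y'.1⁻¹ * y.1) * u * (y'.1⁻¹ * y.1)⁻¹ = u := by
      calc (y'.1⁻¹ * y.1) * u * (y'.1⁻¹ * y.1)⁻¹ = y'.1⁻¹ * (y.1 * u * y.1⁻¹) * y'.1 := by group
        _ = u := by rw [h1]; group
    have h3 : y'.1⁻¹ * y.1 = 1 := H2_comm_eq_one hS hF hab
      (by rw [mul_smul, hya y, inv_smul_eq_iff, hya y'])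
      (by rw [mul_smul, hyb y, inv_smul_eq_iff, hyb y']) hu hu1 h2
    exact Subtype.ext (inv_mul_eq_one.1 h3).symm
  have hv_ne : ∀ y, v y ≠ 1 := by
    intro y h
    have h1 : y.1 * u * y.1⁻¹ = 1 := congrArg Subtype.val h
    apply hu1
    calc u = y.1⁻¹ * (y.1 * u * y.1⁻¹) * y.1 := by group
      _ = 1 := by rw [h1]; group
  have hv_surj : ∀ u' : F, u' ≠ 1 → ∃ y, v y = u' := by
    rintro ⟨u', hu'⟩ hu'1
    have hu'1' : u' ≠ 1 := fun h => hu'1 (Subtype.ext h)
    have h1 : u' • b ≠ b := fun h => hu'1' (hF.free u' hu' b hab.symm h)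
    have h2 : u' • b ≠ a := by
      intro h
      have h5 := hF.fix u' hu'
      exact hab.symm (MulAction.injective u' (h.trans h5.symm))
    obtain ⟨y, h3, h4, h5⟩ := H2_trans hS hab hac.symm hbc.symm h2 h1
    refine ⟨⟨y, mem_H2.2 ⟨h3, h4⟩⟩, Subtype.ext ?_⟩
    show y * u * y⁻¹ = u'
    have h7 : u'⁻¹ * (y * u * y⁻¹) = 1 := by
      refine hF.free _ (mul_mem (inv_mem hu') (hF.conj y h3 u hu)) b hab.symm ?_
      have h8 : y⁻¹ • b = b := by rw [inv_smul_eq_iff, h4]
      simp only [mul_smul, h8, huc, h5, inv_smul_smul]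
    exact (inv_mul_eq_one.1 h7).symm
  have hB : ∀ y : H, s * (v y : G) * s = w y * (s * z * ((y : G) * (s * (y : G)⁻¹ * s))) * w y := by
    intro y
    have hyz : y.1 * z = z * y.1 := hcent y.1 (hya y) (hyb y)
    show s * (y.1 * u * y.1⁻¹) * s = ((s * y.1 * s) * u * (s * y.1 * s)⁻¹) *
      (s * z * (y.1 * (s * y.1⁻¹ * s))) * ((s * y.1 * s) * u * (s * y.1 * s)⁻¹)
    rw [hyi]
    have hmid : (s * y.1⁻¹ * s) * (s * z * (y.1 * (s * y.1⁻¹ * s))) * (s * y.1 * s) = s * z := by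
      have h1 : y.1⁻¹ * (z * y.1) = z := by rw [← hyz, inv_mul_cancel_left]
      calc _ = s * (y.1⁻¹ * (z * y.1)) := by
            simp only [mul_assoc, hss', hss, mul_one, inv_mul_cancel_left]
        _ = s * z := by rw [h1]
    have key := key_identity hS hF hab hac hbc h6 heven hz hzz hza hzb hsa hsb hsc hu huc
    calc s * (y.1 * u * y.1⁻¹) * s = (s * y.1 * s) * (s * u * s) * (s * y.1⁻¹ * s) := by
          simp only [mul_assoc, hss', hss, mul_one]
      _ = (s * y.1 * s) * (u * s * z * u) * (s * y.1⁻¹ * s) := by rw [key]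
      _ = (s * y.1 * s) * u * (s * z) * u * (s * y.1⁻¹ * s) := by simp only [mul_assoc]
      _ = (s * y.1 * s) * u * ((s * y.1⁻¹ * s) * (s * z * (y.1 * (s * y.1⁻¹ * s))) * (s * y.1 * s)) * u *
            (s * y.1⁻¹ * s) := by rw [hmid]
      _ = _ := by simp only [mul_assoc]
  have hne : ∀ u₁ ∈ F, ∀ u₂ ∈ F, ∀ h ∈ H, u₁ * s * u₂ * h ≠ 1 := by
    intro u₁ hu₁ u₂ hu₂ h hh h1
    have h2 : (u₁ * s * u₂ * h) • a = a := by rw [h1, one_smul]
    rw [mul_smul, mul_smul, mul_smul, (mem_H2.1 hh).1, hF.fix u₂ hu₂, hsa] at h2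
    have h5 := hF.fix u₁ hu₁
    exact hab.symm (MulAction.injective u₁ (h2.trans h5.symm))
  have hFH : ∀ u₁ ∈ F, u₁ ∈ H → u₁ = 1 := fun u₁ hu₁ h => hF.free u₁ hu₁ b hab.symm (mem_H2.1 h).2
  have hFn : ∀ h ∈ H, ∀ u₁ ∈ F, h * u₁ * h⁻¹ ∈ F := fun h hh u₁ hu₁ => hF.conj h (mem_H2.1 hh).1 u₁ hu₁
  -- cardinalities
  have hcardF : Fintype.card F = p ^ j := by
    have h1 := card_F (F := F) (b := b) hF hab
    rw [Nat.card_eq_fintype_card] at h1
    omega
  have hcardH := card_H2 hS hab hac hbc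
  have hcardH' : Fintype.card H = p ^ j - 1 := by
    rw [← hH, Nat.card_eq_fintype_card] at hcardH
    omega
  have hposH : 0 < Nat.card H := Nat.card_pos
  have he₀0 : e₀ ≠ 0 := by
    rintro rfl
    rw [mul_zero] at he₀
    omega
  have hfC : (f : ℂ) ≠ 0 := by exact_mod_cast hf0
  have hc₀ : c' = (e₀ : ℂ) * LinearMap.trace ℂ _ S := by
    have h1 : (Fintype.card H : ℂ) = (f : ℂ) * e₀ := by
      rw [← Nat.card_eq_fintype_card, he₀]
      push_cast
      ring
    rw [h1] at hctr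
    apply mul_right_cancel₀ hfC
    rw [hctr]
    ring
  obtain ⟨ε, hε1, hε2⟩ : ∃ ε : ℚ, ε ^ 2 = 1 ∧ (ε : ℂ) = LinearMap.trace ℂ _ S * ζ := by
    rcases mul_self_eq_one_iff.1 hζ2 with h1 | h1 <;> rcases htr with h2 | h2
    · exact ⟨1, by norm_num, by rw [h1, h2]; norm_num⟩
    · exact ⟨-1, by norm_num, by rw [h1, h2]; norm_num⟩
    · exact ⟨-1, by norm_num, by rw [h1, h2]; norm_num⟩
    · exact ⟨1, by norm_num, by rw [h1, h2]; norm_num⟩
  have hε0 : ε ≠ 0 := by
    rintro rfl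
    norm_num at hε1
  have hecore := hecke_core (F := F) (H := H) ρ (s := s) (z := z) (S := S) hss hτ hzH hFn hSS
    (by intro h; exact hSρ h) ζ hζ' c' hc v hv_inj hv_ne hv_surj w hw hB hne hFH (ε * e₀)
    (by
      push_cast
      rw [hε2, hc₀]
      ring)
    (mul_ne_zero hε0 (by exact_mod_cast he₀0))
  obtain ⟨r, hr⟩ := hecore
  have hfin := nt_rat p j e₀ hp (by omega)
    (by
      rw [← hcardH', ← Nat.card_eq_fintype_card, he₀]
      exact dvd_mul_left _ _)
    he₀0 r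
    (by
      rw [hr, hcardF, mul_pow, hε1, one_mul])
  apply hf1
  have h9 : f * e₀ = e₀ := by
    rw [← he₀, Nat.card_eq_fintype_card, hcardH', ← hfin]
  exact Nat.eq_of_mul_eq_mul_right (Nat.pos_of_ne_zero he₀0) (by rw [h9, one_mul])

end

/-- The main theorem on sharply triply transitive groups of even degree. -/
theorem kt_main [Finite G] [Fintype α] [DecidableEq α] (hS : Sharp3 G α) {a b c : α}
    (hab : a ≠ b) (hac : a ≠ c) (hbc : b ≠ c) (h6 : 6 ≤ Fintype.card α)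
    (heven : Even (Fintype.card α)) {s : G} (hsa : s • a = b) (hsb : s • b = a) (hsc : s • c = c) :
    ∃ N : Subgroup G, N ≤ MulAction.stabilizer G a ⊓ MulAction.stabilizer G b ∧
      (N.subgroupOf (MulAction.stabilizer G a ⊓ MulAction.stabilizer G b)).Normal ∧
      N.relIndex (MulAction.stabilizer G a ⊓ MulAction.stabilizer G b) = 2 ∧
      ∀ n ∈ N, s * n * s⁻¹ ∈ N := by
  classical
  obtain ⟨F, p, j, hp, hj, hq, h1, h2, h3, h4, h5⟩ := sharp3_kernel hS a b c hab hac hbc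
  have hF : KF F a := ⟨h1, h2, h3, h4, h5⟩
  obtain ⟨z, hz, hzz, hza, hzb⟩ := exists_H2_invol hS hF hab hac hbc h6 heven
  have hss : s * s = 1 := hS.rigid _ a b c hab hac hbc (by rw [mul_smul, hsa, hsb])
    (by rw [mul_smul, hsb, hsa]) (by rw [mul_smul, hsc, hsc])
  have hτ : ∀ h ∈ (MulAction.stabilizer G a ⊓ MulAction.stabilizer G b : Subgroup G), s * h * s ∈
      (MulAction.stabilizer G a ⊓ MulAction.stabilizer G b : Subgroup G) := by
    intro h hh
    obtain ⟨h1, h2⟩ := mem_H2.1 hh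
    exact mem_H2.2 ⟨by rw [mul_smul, mul_smul, hsa, h2, hsb], by rw [mul_smul, mul_smul, hsb, h1, hsa]⟩
  by_cases hcl : Subgroup.closure {g | ∃ y ∈ (MulAction.stabilizer G a ⊓ MulAction.stabilizer G b : Subgroup G),
      g = y * (s * y⁻¹ * s)} = (MulAction.stabilizer G a ⊓ MulAction.stabilizer G b : Subgroup G)
  · exfalso
    refine kt_contra hS hF hab hac hbc h6 heven hz hzz hza hzb hsa hsb hsc hp hj hq ?_
    intro h hh
    rw [hcl]
    exact hh
  · refine index_two_of_closure _ s z hss (mem_H2.2 ⟨hza, hzb⟩) hτ ?_ hcl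
    intro y hy y' hy' h
    have h6' : (y'⁻¹ * y) * s = s * (y'⁻¹ * y) := by
      have hsi : s⁻¹ = s := inv_eq_of_mul_eq_one_left hss
      have hss' : ∀ x, s * (s * x) = x := fun x => by rw [← mul_assoc, hss, one_mul]
      have h7 : y * (s * y⁻¹) = y' * (s * y'⁻¹) := by
        have h8 := congrArg (· * s) h
        simp only [mul_assoc, hss, mul_one] at h8
        exact h8
      calc (y'⁻¹ * y) * s = y'⁻¹ * (y * (s * y⁻¹)) * y := by group
        _ = y'⁻¹ * (y' * (s * y'⁻¹)) * y := by rw [h7]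
        _ = s * (y'⁻¹ * y) := by group
    have hya := (mem_H2.1 hy)
    have hya' := (mem_H2.1 hy')
    rcases H2_comm_swap hS hF hab hac hbc h6 heven hz hzz hza hzb hsa hsb hsc (y := y'⁻¹ * y)
      (by rw [mul_smul, hya.1, inv_smul_eq_iff, hya'.1])
      (by rw [mul_smul, hya.2, inv_smul_eq_iff, hya'.2]) h6'.symm with h8 | h8
    · left
      exact (inv_mul_eq_one.1 h8).symm
    · right
      rw [← h8]
      group

end

end Cfsg.Agent.H03.KT
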