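import Mathlib
import Cfsg.Agent.Lib.H03.KT4
import Cfsg.Agent.Lib.H14.FWTransfer

/-! A sharply triply transitive group of even degree is not simple. -/

set_option autoImplicit false

namespace Cfsg.Agent.H03.KT

open Cfsg.Agent.H03.PR MulAction

universe u v

/-- The sign of an involution. -/
theorem sign_invol {α : Type*} [Fintype α] [DecidableEq α] (σ : Equiv.Perm α) (hσ : σ * σ = 1) :
    Equiv.Perm.sign σ = (-1) ^ (σ.support.card / 2) := by
  classical
  have h1 : ∀ n ∈ σ.cycleType, n = 2 := by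
    intro n hn
    have h2 := Equiv.Perm.two_le_of_mem_cycleType hn
    have h3 := Equiv.Perm.dvd_of_mem_cycleType hn
    have h4 : orderOf σ ∣ 2 := orderOf_dvd_of_pow_eq_one (by rw [pow_two, hσ])
    have h5 := Nat.le_of_dvd (by norm_num) (h3.trans h4)
    omega
  have h2 : σ.cycleType = Multiset.replicate (Multiset.card σ.cycleType) 2 :=
    Multiset.eq_replicate.2 ⟨rfl, h1⟩
  have h3 : σ.support.card = 2 * Multiset.card σ.cycleType := by
    rw [← Equiv.Perm.sum_cycleType]
    conv_lhs => rw [h2]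
    simp [mul_comm]
  have h4 : σ.support.card / 2 = Multiset.card σ.cycleType := by omega
  rw [h4, Equiv.Perm.sign_of_cycleType, Equiv.Perm.sum_cycleType, h3]
  rw [pow_add, pow_mul]
  simp

section
variable {G : Type u} {α : Type v} [Group G] [MulAction G α] [Finite G] [Fintype α] [DecidableEq α]
  [IsSimpleGroup G]

/-- All elements of a simple group acting on a finite set are even, unless the group is small. -/
theorem sign_trivial (hG : 2 < Nat.card G) (g : G) :
    Equiv.Perm.sign (MulAction.toPermHom G α g) = 1 := by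
  classical
  let φ : G →* ℤˣ := (Equiv.Perm.sign).comp (MulAction.toPermHom G α)
  have h1 : φ.ker = ⊥ ∨ φ.ker = ⊤ := IsSimpleGroup.eq_bot_or_eq_top_of_normal _ inferInstance
  rcases h1 with h1 | h1
  · exfalso
    have h2 : Function.Injective φ := (MonoidHom.ker_eq_bot_iff φ).1 h1
    have h3 := Nat.card_le_card_of_injective φ h2
    have h4 : Nat.card ℤˣ = 2 := by
      rw [Nat.card_eq_fintype_card]
      rfl
    omega
  · have h2 : g ∈ φ.ker := by rw [h1]; trivial
    exact h2

/-- Support of an involution in terms of its fixed points. -/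
theorem support_card_of_fix (g : G) (S : Finset α) (hS : ∀ x, g • x = x ↔ x ∈ S) :
    (MulAction.toPermHom G α g).support.card = Fintype.card α - S.card := by
  classical
  have h1 : (MulAction.toPermHom G α g).support = Finset.univ \ S := by
    ext x
    simp only [Equiv.Perm.mem_support, Finset.mem_sdiff, Finset.mem_univ, true_and]
    rw [← hS]
    rfl
  rw [h1, Finset.card_sdiff_of_subset (Finset.subset_univ _), Finset.card_univ]

/-- A sharply triply transitive group of even degree at least four is not simple. -/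
theorem no_sharp3_simple (hS : Sharp3 G α) (heven : Even (Fintype.card α)) (h4 : 4 ≤ Fintype.card α) :
    False := by
  classical
  obtain ⟨a, b, c, hab, hac, hbc⟩ := Fintype.two_lt_card_iff.1 (by omega : 2 < Fintype.card α)
  obtain ⟨s, hsa, hsb, hsc⟩ := hS.trans a b c b a c hab hac hbc hab.symm hbc hac
  have hss : s * s = 1 := hS.rigid _ a b c hab hac hbc (by rw [mul_smul, hsa, hsb])
    (by rw [mul_smul, hsb, hsa]) (by rw [mul_smul, hsc, hsc])
  have hss' : ∀ x, s * (s * x) = x := fun x => by rw [← mul_assoc, hss, one_mul]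
  have hsi : s⁻¹ = s := inv_eq_of_mul_eq_one_left hss
  have hs1 : s ≠ 1 := by
    rintro rfl
    rw [one_smul] at hsa
    exact hab hsa
  -- the order of the group
  have hGcard : 2 < Nat.card G := by
    obtain ⟨g, hga, -, -⟩ := hS.trans a b c c a b hab hac hbc hac.symm hbc.symm hab
    haveI : Fintype G := Fintype.ofFinite _
    rw [Nat.card_eq_fintype_card]
    have h12 : (1 : G) ≠ s := fun h => hs1 h.symm
    have h13 : (1 : G) ≠ g := by
      rintro rfl
      rw [one_smul] at hga
      exact hac hga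
    have h23 : s ≠ g := by
      rintro rfl
      rw [hsa] at hga
      exact hbc hga
    have hcard : ({1, s, g} : Finset G).card = 3 := Finset.card_eq_three.2 ⟨_, _, _, h12, h13, h23, rfl⟩
    calc 2 < ({1, s, g} : Finset G).card := by omega
      _ ≤ _ := Finset.card_le_univ _
  -- sign considerations
  have hneg : (-1 : ℤˣ) ≠ 1 := by decide
  have hinvS : ∀ (w : G), w * w = 1 → ∀ S : Finset α, (∀ x, w • x = x ↔ x ∈ S) →
      Even ((Fintype.card α - S.card) / 2) := by
    intro w hw S hS'
    have h1 := sign_trivial (α := α) hGcard w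
    have h2 : (MulAction.toPermHom G α w) * (MulAction.toPermHom G α w) = 1 := by
      rw [← map_mul, hw, map_one]
    rw [sign_invol _ h2, support_card_of_fix w S hS'] at h1
    exact (neg_one_pow_eq_one_iff_even hneg).1 h1
  have hSfix : ∃ S : Finset α, (∀ x, s • x = x ↔ x ∈ S) ∧ S.card = 2 := by
    refine ⟨Finset.univ.filter (fun x => s • x = x), fun x => by simp, ?_⟩
    set S := Finset.univ.filter (fun x : α => s • x = x) with hSdef
    have hcS : c ∈ S := by simp [hSdef, hsc]
    have hle : S.card ≤ 2 := by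
      by_contra hcon
      push Not at hcon
      obtain ⟨x, hx, y, hy, w, hw, hxy, hxw, hyw⟩ := Finset.two_lt_card.1 hcon
      simp only [hSdef, Finset.mem_filter, Finset.mem_univ, true_and] at hx hy hw
      exact hs1 (hS.rigid s x y w hxy hxw hyw hx hy hw)
    have hpos : 0 < S.card := Finset.card_pos.2 ⟨c, hcS⟩
    have hsup : (MulAction.toPermHom G α s).support.card = Fintype.card α - S.card :=
      support_card_of_fix s S (fun x => by simp [hSdef])
    have h2 : 2 ∣ (MulAction.toPermHom G α s).support.card := by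
      apply Equiv.Perm.two_dvd_card_support
      rw [pow_two, ← map_mul, hss, map_one]
    rw [hsup] at h2
    obtain ⟨m, hm⟩ := heven
    have hScard : S.card ≤ Fintype.card α := Finset.card_le_univ _
    omega
  obtain ⟨Ss, hSs, hSs2⟩ := hSfix
  have hE1 := hinvS s hss Ss hSs
  rw [hSs2] at hE1
  have hno : ∀ w : G, w * w = 1 → w ≠ 1 → ∃ x : α, w • x = x := by
    intro w hw hw1
    by_contra hcon
    push Not at hcon
    have h5 := hinvS w hw ∅ (fun x => by simpa using hcon x)
    rw [Finset.card_empty, Nat.sub_zero] at h5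
    obtain ⟨m, hm⟩ := heven
    obtain ⟨k, hk⟩ := hE1
    obtain ⟨l, hl⟩ := h5
    omega
  have h6 : 6 ≤ Fintype.card α := by
    obtain ⟨m, hm⟩ := heven
    obtain ⟨k, hk⟩ := hE1
    omega
  -- the structure
  obtain ⟨F, p, j, hp, hj, hq, h1', h2', h3', h4', h5'⟩ := sharp3_kernel hS a b c hab hac hbc
  have hF : KF F a := ⟨h1', h2', h3', h4', h5'⟩
  obtain ⟨z, hz, hzz, hza, hzb⟩ := exists_H2_invol hS hF hab hac hbc h6 heven
  obtain ⟨N, hNH, hNn, hNi, hNs⟩ := kt_main hS hab hac hbc h6 heven hsa hsb hsc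
  set H := (MulAction.stabilizer G a ⊓ MulAction.stabilizer G b : Subgroup G) with hH
  have hcardH : Nat.card H + 2 = Fintype.card α := card_H2 hS hab hac hbc
  have hNi' : (N.subgroupOf H).index = 2 := hNi
  have hcardN : Nat.card N * 2 = Nat.card H := by
    have h7 := Subgroup.card_mul_index (N.subgroupOf H)
    have h8 : Nat.card (N.subgroupOf H) = Nat.card N :=
      Nat.card_congr (Subgroup.subgroupOfEquivOfLe hNH).toEquiv
    rw [h8, hNi'] at h7
    exact h7
  have hzN : z ∈ N := by
    have h7 : 2 ∣ Nat.card N := by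
      obtain ⟨k, hk⟩ := hE1
      refine ⟨k, ?_⟩
      obtain ⟨m, hm⟩ := heven
      omega
    haveI : Fact (Nat.Prime 2) := ⟨Nat.prime_two⟩
    obtain ⟨x, hx⟩ := exists_prime_orderOf_dvd_card' 2 h7
    have hx1 : (x : G) ≠ 1 := by
      intro h
      have h8 : x = 1 := Subtype.ext h
      rw [h8, orderOf_one] at hx
      omega
    have hxx : (x : G) * x = 1 := by
      have h8 := pow_orderOf_eq_one x
      rw [hx, pow_two] at h8
      exact congrArg Subtype.val h8
    have hxH := mem_H2.1 (hNH x.2)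
    have h8 := H2_invol_unique hS hF hab hac hbc h6 heven hz hzz hza hzb hx1 hxx hxH.1 hxH.2
    rw [← h8]
    exact x.2
  have hsn : ∀ n ∈ N, s * n * s ∈ N := fun n hn => by
    have h7 := hNs n hn
    rwa [hsi] at h7
  have hτ : ∀ y ∈ H, s * y * s ∈ H := by
    intro y hy
    obtain ⟨h7, h8⟩ := mem_H2.1 hy
    exact mem_H2.2 ⟨by rw [mul_smul, mul_smul, hsa, h8, hsb], by rw [mul_smul, mul_smul, hsb, h7, hsa]⟩
  have hmul : ∀ x ∈ H, ∀ y ∈ H, x ∉ N → y ∉ N → x * y ∈ N := by
    intro x hx y hy hxN hyN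
    have h7 := (Subgroup.mul_mem_iff_of_index_two hNi' (a := (⟨x, hx⟩ : H)) (b := (⟨y, hy⟩ : H))).2
      (by
        constructor
        · intro h8
          exact absurd (Subgroup.mem_subgroupOf.1 h8) hxN
        · intro h8
          exact absurd (Subgroup.mem_subgroupOf.1 h8) hyN)
    exact Subgroup.mem_subgroupOf.1 h7
  obtain ⟨y₀, hy₀, hy₀N⟩ : ∃ y₀ ∈ H, y₀ ∉ N := by
    by_contra hcon
    push Not at hcon
    have h7 : N.relIndex H = 1 := Subgroup.relIndex_eq_one.2 hcon
    rw [hNi] at h7
    omega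
  have hsy₀ : s * y₀ * s ∉ N := by
    intro h7
    apply hy₀N
    have h8 := hsn _ h7
    have h9 : s * (s * y₀ * s) * s = y₀ := by simp only [mul_assoc, hss', hss, mul_one]
    rwa [h9] at h8
  have hnotN : ∀ w : G, w • a ≠ a → w ∉ N := fun w hw h7 => hw (mem_H2.1 (hNH h7)).1
  let U₀ : Subgroup G :=
    { carrier := {x | x ∈ N ∨ x * s ∈ N}
      one_mem' := Or.inl N.one_mem
      mul_mem' := by
        rintro x y (hx | hx) (hy | hy)
        · exact Or.inl (N.mul_mem hx hy)
        · right
          rw [mul_assoc]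
          exact N.mul_mem hx hy
        · right
          have h7 : x * y * s = (x * s) * (s * y * s) := by
            simp only [mul_assoc, hss', hss, mul_one]
          rw [h7]
          exact N.mul_mem hx (hsn y hy)
        · left
          have h7 : x * y = (x * s) * (s * (y * s) * s) := by
            simp only [mul_assoc, hss', hss, mul_one]
          rw [h7]
          exact N.mul_mem hx (hsn _ hy)
      inv_mem' := by
        rintro x (hx | hx)
        · exact Or.inl (N.inv_mem hx)
        · right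
          have h7 : x⁻¹ * s = s * (x * s)⁻¹ * s := by
            simp only [mul_inv_rev, hsi, mul_assoc, hss, mul_one, hss']
          rw [h7]
          exact hsn _ (N.inv_mem hx) }
  have hU₀ : ∀ x, x ∈ U₀ ↔ x ∈ N ∨ x * s ∈ N := fun x => Iff.rfl
  set X := Xsub G a b with hXdef
  have hHX : H ≤ X := H2_le_X a b
  have hUi : (U₀.subgroupOf X).index = 2 := by
    rw [Subgroup.index_eq_two_iff]
    refine ⟨⟨y₀, hHX hy₀⟩, ?_⟩
    rintro ⟨x, hx⟩
    rw [Subgroup.mem_subgroupOf, Subgroup.mem_subgroupOf]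
    show Xor (x * y₀ ∈ U₀) (x ∈ U₀)
    rw [hU₀, hU₀]
    have hy₀a := (mem_H2.1 hy₀).1
    have hy₀b := (mem_H2.1 hy₀).2
    rcases hx with ⟨h7, h8⟩ | ⟨h7, h8⟩
    · have hxH : x ∈ H := mem_H2.2 ⟨h7, h8⟩
      by_cases hxN : x ∈ N
      · right
        refine ⟨Or.inl hxN, ?_⟩
        rintro (h9 | h9)
        · apply hy₀N
          have h10 := N.mul_mem (N.inv_mem hxN) h9
          rwa [inv_mul_cancel_left] at h10
        · exact hnotN _ (by
            rw [mul_smul, mul_smul, hsa, hy₀b, h8]
            exact hab.symm) h9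
      · left
        refine ⟨Or.inl (hmul x hxH y₀ hy₀ hxN hy₀N), ?_⟩
        rintro (h9 | h9)
        · exact hxN h9
        · exact hnotN _ (by
            rw [mul_smul, hsa, h8]
            exact hab.symm) h9
    · have hwH : x * s ∈ H := mem_H2.2 ⟨by rw [mul_smul, hsa, h8], by rw [mul_smul, hsb, h7]⟩
      have h10 : x * y₀ * s = (x * s) * (s * y₀ * s) := by
        simp only [mul_assoc, hss', hss, mul_one]
      by_cases hwN : x * s ∈ N
      · right
        refine ⟨Or.inr hwN, ?_⟩
        rintro (h9 | h9)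
        · exact hnotN _ (by
            rw [mul_smul, hy₀a, h7]
            exact hab.symm) h9
        · apply hsy₀
          rw [h10] at h9
          have h11 := N.mul_mem (N.inv_mem hwN) h9
          rwa [inv_mul_cancel_left] at h11
      · left
        refine ⟨Or.inr ?_, ?_⟩
        · rw [h10]
          exact hmul _ hwH _ (hτ y₀ hy₀) hwN hsy₀
        · rintro (h9 | h9)
          · exact hnotN _ (by
              rw [h7]
              exact hab.symm) h9
          · exact hwN h9
  haveI hUn : (U₀.subgroupOf X).Normal := Subgroup.normal_of_index_eq_two hUi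
  have hcardA : Nat.card (X ⧸ U₀.subgroupOf X) = 2 := hUi
  haveI : Fact (Nat.Prime 2) := ⟨Nat.prime_two⟩
  haveI : IsCyclic (X ⧸ U₀.subgroupOf X) := isCyclic_of_prime_card hcardA
  have hA : ∀ p q : X ⧸ U₀.subgroupOf X, p * q = q * p := fun p q =>
    (IsCyclic.commGroup (α := X ⧸ U₀.subgroupOf X)).mul_comm p q
  let ϕ : X →* X ⧸ U₀.subgroupOf X := QuotientGroup.mk' _
  have hϕ : ∀ x : X, ϕ x = 1 ↔ (x : G) ∈ U₀ := by
    intro x
    show ((x : X) : X ⧸ U₀.subgroupOf X) = 1 ↔ _
    rw [QuotientGroup.eq_one_iff, Subgroup.mem_subgroupOf]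
  obtain ⟨V, hV⟩ := Cfsg.Agent.H14.exists_transfer_ext (M := X) hA ϕ (by
    intro x hx y hy hy'
    rw [hϕ]
    show x⁻¹ * y * x ∈ U₀
    rw [hU₀]
    set y' := x⁻¹ * y * x with hy'def
    have hyy : (y * y) • a = a ∧ (y * y) • b = b := by
      rcases hy with ⟨h7, h8⟩ | ⟨h7, h8⟩
      · exact ⟨by rw [mul_smul, h7, h7], by rw [mul_smul, h8, h8]⟩
      · exact ⟨by rw [mul_smul, h7, h8], by rw [mul_smul, h8, h7]⟩
    have hyy' : (y' * y') • a = a ∧ (y' * y') • b = b := by
      rcases hy' with ⟨h7, h8⟩ | ⟨h7, h8⟩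
      · exact ⟨by rw [mul_smul, h7, h7], by rw [mul_smul, h8, h8]⟩
      · exact ⟨by rw [mul_smul, h7, h8], by rw [mul_smul, h8, h7]⟩
    have hy'y' : y' * y' = x⁻¹ * (y * y) * x := by
      rw [hy'def]
      group
    have hf1 : (y' * y') • (x⁻¹ • a) = x⁻¹ • a := by
      rw [hy'y', mul_smul, mul_smul, smul_inv_smul, hyy.1]
    have hf2 : (y' * y') • (x⁻¹ • b) = x⁻¹ • b := by
      rw [hy'y', mul_smul, mul_smul, smul_inv_smul, hyy.2]
    have hxi : x⁻¹ ∉ X := fun h => hx (by simpa using X.inv_mem h)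
    have hc12 : x⁻¹ • a ≠ x⁻¹ • b := fun h => hab (MulAction.injective _ h)
    have hsq : y' * y' = 1 := by
      by_cases h7 : x⁻¹ • a ≠ a ∧ x⁻¹ • a ≠ b
      · exact hS.rigid _ a b (x⁻¹ • a) hab (Ne.symm h7.1) (Ne.symm h7.2) hyy'.1 hyy'.2 hf1
      · by_cases h8 : x⁻¹ • b ≠ a ∧ x⁻¹ • b ≠ b
        · exact hS.rigid _ a b (x⁻¹ • b) hab (Ne.symm h8.1) (Ne.symm h8.2) hyy'.1 hyy'.2 hf2
        · exfalso
          apply hxi
          have h7' : x⁻¹ • a = a ∨ x⁻¹ • a = b := by
            by_contra hc
            push Not at hc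
            exact h7 hc
          have h8' : x⁻¹ • b = a ∨ x⁻¹ • b = b := by
            by_contra hc
            push Not at hc
            exact h8 hc
          rcases h7' with h9 | h9 <;> rcases h8' with h10 | h10
          · exact absurd (h9.trans h10.symm) hc12
          · exact Or.inl ⟨h9, h10⟩
          · exact Or.inr ⟨h9, h10⟩
          · exact absurd (h9.trans h10.symm) hc12
    by_cases hy'1 : y' = 1
    · left
      rw [hy'1]
      exact N.one_mem
    rcases hy' with ⟨h7, h8⟩ | ⟨h7, h8⟩
    · left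
      have h9 := H2_invol_unique hS hF hab hac hbc h6 heven hz hzz hza hzb hy'1 hsq h7 h8
      rw [h9]
      exact hzN
    · right
      obtain ⟨c', hc'⟩ := hno y' hsq hy'1
      have hc'a : c' ≠ a := by
        rintro rfl
        rw [h7] at hc'
        exact hab hc'.symm
      have hc'b : c' ≠ b := by
        rintro rfl
        rw [h8] at hc'
        exact hab hc'
      obtain ⟨y₁, h9, h10, h11⟩ := H2_trans hS hab hac.symm hbc.symm hc'a hc'b
      have hy₁ : y₁ ∈ H := mem_H2.2 ⟨h9, h10⟩
      have h9' : y₁⁻¹ • a = a := by rw [inv_smul_eq_iff, h9]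
      have h10' : y₁⁻¹ • b = b := by rw [inv_smul_eq_iff, h10]
      have h11' : y₁⁻¹ • c' = c := by rw [inv_smul_eq_iff, h11]
      have ht : y' = y₁ * s * y₁⁻¹ := by
        refine sharp3_ext hS hab (Ne.symm hc'a) (Ne.symm hc'b) ?_ ?_ ?_
        · rw [h7, mul_smul, mul_smul, h9', hsa, h10]
        · rw [h8, mul_smul, mul_smul, h10', hsb, h9]
        · rw [hc', mul_smul, mul_smul, h11', hsc, h11]
      rw [ht]
      have h12 : y₁ * s * y₁⁻¹ * s = y₁ * (s * y₁⁻¹ * s) := by simp only [mul_assoc]
      rw [h12]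
      by_cases hy₁N : y₁ ∈ N
      · exact N.mul_mem hy₁N (hsn _ (N.inv_mem hy₁N))
      · refine hmul _ hy₁ _ (hτ _ (H.inv_mem hy₁)) hy₁N ?_
        intro h13
        apply hy₁N
        have h14 := hsn _ h13
        have h15 : s * (s * y₁⁻¹ * s) * s = y₁⁻¹ := by simp only [mul_assoc, hss', hss, mul_one]
        rw [h15] at h14
        simpa using N.inv_mem h14)
  have hVy : V y₀ ≠ 1 := by
    have h7 := hV ⟨y₀, hHX hy₀⟩
    have h8 : V y₀ = ϕ ⟨y₀, hHX hy₀⟩ := h7
    rw [h8]
    intro h9
    rw [hϕ] at h9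
    rcases (hU₀ _).1 h9 with h10 | h10
    · exact hy₀N h10
    · exact hnotN _ (by
        show (y₀ * s) • a ≠ a
        rw [mul_smul, hsa, (mem_H2.1 hy₀).2]
        exact hab.symm) h10
  have hker : V.ker = ⊥ ∨ V.ker = ⊤ := IsSimpleGroup.eq_bot_or_eq_top_of_normal _ inferInstance
  rcases hker with hker | hker
  · have hinj : Function.Injective V := (MonoidHom.ker_eq_bot_iff V).1 hker
    obtain ⟨u, hu, huc⟩ := hF.trans b c hab.symm hac.symm
    have hu1 : u ≠ 1 := F_base_ne hS hF hab hac hbc h6 heven huc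
    have h7 : z * u * z⁻¹ = u := by
      apply hinj
      rw [map_mul, map_mul, map_inv, hA (V z), mul_assoc, mul_inv_cancel, mul_one]
    exact hz (H2_comm_eq_one hS hF hab hza hzb hu hu1 h7)
  · apply hVy
    have h7 : y₀ ∈ V.ker := by rw [hker]; trivial
    exact h7

end

end Cfsg.Agent.H03.KT
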