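import Mathlib

set_option autoImplicit false

namespace Cfsg.Agent.H03

open MulAction SubMulAction

variable {G α : Type*} [Group G] [MulAction G α]

/-- If `G` is `m`-transitive and the pointwise stabilizer of an `m`-set `s` is `r`-transitive on the
complement of `s`, then `G` is `(m + r)`-transitive. -/
theorem isMultiplyPretransitive_add_of_fixing (s : Set α) {m r : ℕ} (hfin : s.Finite) (hs : s.ncard = m)
    (hm : IsMultiplyPretransitive G α m)
    (hr : IsMultiplyPretransitive (fixingSubgroup G s) (ofFixingSubgroup G s) r) :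
    IsMultiplyPretransitive G α (m + r) := by
  classical
  -- an enumeration of `s`
  have hcard : Nat.card s = m := by rw [Nat.card_coe_set_eq, hs]
  have : Finite s := hfin
  obtain ⟨e⟩ : Nonempty (Fin m ≃ s) := Finite.card_eq.mp (by simp [hcard])
  let z : Fin m ↪ α := ⟨fun i => (e i : α), fun i j h => e.injective (Subtype.ext h)⟩
  have hzs : ∀ i, z i ∈ s := fun i => (e i).2
  have hsz : ∀ a ∈ s, ∃ i, z i = a := fun a ha => ⟨e.symm ⟨a, ha⟩, by
    change ((e (e.symm ⟨a, ha⟩) : s) : α) = a
    simp⟩
  -- normalisation of an embedding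
  have key : ∀ x : Fin (m + r) ↪ α, ∃ (g : G) (w : Fin r ↪ ofFixingSubgroup G s),
      (∀ i : Fin m, g • x (Fin.castAdd r i) = z i) ∧ (∀ i : Fin r, g • x (Fin.natAdd m i) = (w i : α)) := by
    intro x
    let xL : Fin m ↪ α := (Fin.castAddEmb r).trans x
    obtain ⟨g, hg⟩ := hm.exists_smul_eq xL z
    have hgL : ∀ i : Fin m, g • x (Fin.castAdd r i) = z i := fun i => by
      have := congrArg (fun f : Fin m ↪ α => f i) hg
      simpa [xL] using this
    have hnot : ∀ i : Fin r, g • x (Fin.natAdd m i) ∉ s := by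
      intro i hi
      obtain ⟨j, hj⟩ := hsz _ hi
      rw [← hgL j] at hj
      have h1 := smul_left_cancel g hj
      have h2 := x.injective h1
      have h3 := congrArg Fin.val h2
      simp at h3
      have := j.2
      omega
    let w : Fin r ↪ ofFixingSubgroup G s :=
      ⟨fun i => ⟨g • x (Fin.natAdd m i), by
          rw [mem_ofFixingSubgroup_iff]
          exact hnot i⟩, fun i j h => by
          have h1 : g • x (Fin.natAdd m i) = g • x (Fin.natAdd m j) := congrArg Subtype.val h
          have h2 := x.injective (smul_left_cancel g h1)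
          exact (Fin.natAdd_injective _ _) h2⟩
    exact ⟨g, w, hgL, fun i => rfl⟩
  refine ⟨fun x y => ?_⟩
  obtain ⟨gx, wx, hx1, hx2⟩ := key x
  obtain ⟨gy, wy, hy1, hy2⟩ := key y
  obtain ⟨k, hk⟩ := hr.exists_smul_eq wx wy
  refine ⟨gy⁻¹ * (k : G) * gx, ?_⟩
  ext i
  simp only [Function.Embedding.smul_apply, mul_smul]
  refine Fin.addCases (fun j => ?_) (fun j => ?_) i
  · rw [hx1]
    have hkz : (k : G) • z j = z j := k.2 ⟨z j, hzs j⟩
    rw [hkz, ← hy1 j, inv_smul_smul]
  · rw [hx2]
    have h1 := congrArg (fun f : Fin r ↪ ofFixingSubgroup G s => ((f j : ofFixingSubgroup G s) : α)) hk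
    have h2 : (k : G) • (wx j : α) = (wy j : α) := h1
    rw [h2, ← hy2 j, inv_smul_smul]

end Cfsg.Agent.H03
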