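import Mathlib
import Cfsg.Agent.Lib.H03.NF2

/-! Linear groups regular on the non-zero vectors: the quaternion case. -/

set_option autoImplicit false

namespace Cfsg.Agent.H03.NF

variable {p : ℕ} [Fact p.Prime] {V : Type*} [AddCommGroup V] [Module (ZMod p) V]

/-- Anticommuting square roots of `-1` in dimension two. -/
theorem span_two_aux (A X : V →ₗ[ZMod p] V)
    (hAA : ∀ v, A (A v) = -v) (hXA : ∀ v, X (A v) = -A (X v))
    {c d : ZMod p} (hcd : c ^ 2 + d ^ 2 = -1) (hd : d ≠ 0) {v : V} (hv : c • A v + d • X v = v)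
    (hXX : ∀ v, X (X v) = -v) :
    (∀ u ∈ Submodule.span (ZMod p) ({v, A v} : Set V), A u ∈ Submodule.span (ZMod p) ({v, A v} : Set V)) ∧
    (∀ u ∈ Submodule.span (ZMod p) ({v, A v} : Set V), X u ∈ Submodule.span (ZMod p) ({v, A v} : Set V)) := by
  set U := Submodule.span (ZMod p) ({v, A v} : Set V) with hU
  have hvU : v ∈ U := Submodule.subset_span (by simp)
  have hAvU : A v ∈ U := Submodule.subset_span (by simp)
  have hXv : X v = d⁻¹ • (v - c • A v) := by
    have h1 : d • X v = v - c • A v := by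
      rw [eq_sub_iff_add_eq, add_comm]
      exact hv
    rw [← h1, smul_smul, inv_mul_cancel₀ hd, one_smul]
  constructor
  · have hle : U ≤ U.comap A := by
      rw [hU, Submodule.span_le]
      rintro u (hu | hu)
      · rw [show u = v from hu]
        exact hAvU
      · rw [show u = A v from hu]
        show A (A v) ∈ U
        rw [hAA]
        exact U.neg_mem hvU
    intro u hu
    exact hle hu
  · have hle : U ≤ U.comap X := by
      rw [hU, Submodule.span_le]
      rintro u (hu | hu)
      · rw [show u = v from hu]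
        show X v ∈ U
        rw [hXv]
        exact U.smul_mem _ (U.sub_mem hvU (U.smul_mem _ hAvU))
      · rw [show u = A v from hu]
        show X (A v) ∈ U
        rw [hXA, hXv, map_smul, map_sub, map_smul, hAA]
        apply U.neg_mem
        apply U.smul_mem
        apply U.sub_mem hAvU
        apply U.smul_mem
        exact U.neg_mem hvU
    intro u hu
    exact hle hu

theorem span_two [Nontrivial V] (A X : V →ₗ[ZMod p] V)
    (hAA : ∀ v, A (A v) = -v) (hXX : ∀ v, X (X v) = -v) (hXA : ∀ v, X (A v) = -A (X v)) :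
    ∃ v w : V, v ≠ 0 ∧
      (∀ u ∈ Submodule.span (ZMod p) ({v, w} : Set V), A u ∈ Submodule.span (ZMod p) ({v, w} : Set V)) ∧
      (∀ u ∈ Submodule.span (ZMod p) ({v, w} : Set V), X u ∈ Submodule.span (ZMod p) ({v, w} : Set V)) := by
  obtain ⟨c₀, d₀, hcd₀⟩ := ZMod.sq_add_sq p (-1)
  obtain ⟨c, d, hcd, v, hv0, hv⟩ : ∃ c d : ZMod p, c ^ 2 + d ^ 2 = -1 ∧ ∃ v : V, v ≠ 0 ∧ c • A v + d • X v = v := by
    by_cases h : ∀ u : V, c₀ • A u + d₀ • X u = -u
    · obtain ⟨v, hv⟩ := exists_ne (0 : V)
      refine ⟨-c₀, -d₀, by rw [neg_sq, neg_sq]; exact hcd₀, v, hv, ?_⟩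
      rw [neg_smul, neg_smul, ← neg_add, h v, neg_neg]
    · push Not at h
      obtain ⟨u, hu⟩ := h
      refine ⟨c₀, d₀, hcd₀, c₀ • A u + d₀ • X u + u, ?_, ?_⟩
      · intro h0
        apply hu
        exact eq_neg_of_add_eq_zero_left h0
      · have hX' : ∀ w, A (X w) = -X (A w) := by
          intro w
          rw [hXA, neg_neg]
        have h1 : c₀ • A (c₀ • A u + d₀ • X u + u) + d₀ • X (c₀ • A u + d₀ • X u + u) =
            (-(c₀ ^ 2 + d₀ ^ 2)) • u + (c₀ • A u + d₀ • X u) := by
          simp only [map_add, map_smul, hAA, hXX, hX']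
          module
        rw [h1, hcd₀, neg_neg, one_smul, add_comm]
  by_cases hd : d = 0
  · subst hd
    have hc : c ≠ 0 := by
      rintro rfl
      have h1 : (0 : ZMod p) = -1 := by simpa using hcd
      have h2 : (1 : ZMod p) = 0 := by
        have := congrArg Neg.neg h1
        simpa using this.symm
      exact one_ne_zero h2
    have hAX : ∀ w, A (X w) = -X (A w) := by
      intro w
      rw [hXA, neg_neg]
    have hv' : (0 : ZMod p) • X v + c • A v = v := by
      rw [zero_smul, zero_add]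
      simpa using hv
    have := span_two_aux X A hXX hAX (c := 0) (d := c) (by
      rw [zero_pow two_ne_zero, zero_add]
      simpa using hcd) hc hv' hAA
    exact ⟨v, X v, hv0, this.2, this.1⟩
  · have := span_two_aux A X hAA hXA hcd hd hv hXX
    exact ⟨v, A v, hv0, this.1, this.2⟩

/-- Automorphisms of a cyclic group are determined by the image of a generator. -/
theorem card_mulAut_le {G : Type*} [Group G] [Finite G] [IsCyclic G] : Nat.card (MulAut G) ≤ Nat.card G := by
  obtain ⟨g, hg⟩ := IsCyclic.exists_generator (α := G)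
  apply Nat.card_le_card_of_injective (fun f : MulAut G => f g)
  intro f f' h
  ext x
  obtain ⟨k, rfl⟩ := hg x
  show f (g ^ k) = f' (g ^ k)
  rw [map_zpow, map_zpow]
  congr 1

/-- A subspace invariant under a subgroup contains the module generated by its vectors. -/
theorem range_le [Finite V] (H : Subgroup (V ≃ₗ[ZMod p] V)) (N : Subgroup H) (W : Submodule (ZMod p) V)
    (hW : ∀ n ∈ N, ∀ v ∈ W, ((n : H) : V ≃ₗ[ZMod p] V) v ∈ W) {x : V} (hx : x ∈ W) :
    LinearMap.range (ev H N x) ≤ W := by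
  rintro _ ⟨⟨r, hr⟩, rfl⟩
  show r x ∈ W
  have key : ∀ v ∈ W, r v ∈ W := by
    induction hr using Algebra.adjoin_induction with
    | mem y hy =>
      obtain ⟨n, hn, rfl⟩ := hy
      exact hW n hn
    | algebraMap c =>
      intro v hv
      have : (algebraMap (ZMod p) (Module.End (ZMod p) V)) c v = c • v := rfl
      rw [this]
      exact W.smul_mem c hv
    | add a b _ _ ha hb =>
      intro v hv
      exact W.add_mem (ha v hv) (hb v hv)
    | mul a b _ _ ha hb =>
      intro v hv
      exact ha _ (hb v hv)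
  exact key x hx

open QuaternionGroup in
lemma q_class_two {k : ℕ} (hk : 1 ≤ k) (s t : QuaternionGroup (2 ^ k)) (hs : s = xa 0) (ht : t = a 1) 
    (h : (s * t * s⁻¹ * t⁻¹) * s = s * (s * t * s⁻¹ * t⁻¹)) : k = 1 := by
  subst hs ht
  have i1 : (xa 0 : QuaternionGroup (2 ^ k))⁻¹ = xa (((2 ^ k : ℕ) : ZMod (2 * 2 ^ k)) + 0) := rfl
  have i2 : (a 1 : QuaternionGroup (2 ^ k))⁻¹ = a (-1) := rfl
  rw [i1, i2] at h
  simp only [xa_mul_a, xa_mul_xa, a_mul_a, a_mul_xa, xa.injEq] at h
  have h2 : ((4 : ℕ) : ZMod (2 * 2 ^ k)) = 0 := by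
    have h3 : ((2 * 2 ^ k : ℕ) : ZMod (2 * 2 ^ k)) = 0 := ZMod.natCast_self _
    push_cast at h3 h ⊢
    linear_combination h + 2 * h3
  rw [ZMod.natCast_eq_zero_iff] at h2
  have h3 := Nat.le_of_dvd (by norm_num) h2
  by_contra hne
  have hk2 : 2 ≤ k := by omega
  have : 2 ^ 2 ≤ 2 ^ k := Nat.pow_le_pow_right (by norm_num) hk2
  omega

end Cfsg.Agent.H03.NF
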