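import Mathlib
import Cfsg.Prelude.Def_Classical
import Cfsg.Agent.Lib.Lead.OrthoOrder

/-! `O₆⁺(2) ≅ S₈`. -/

set_option autoImplicit false

namespace Cfsg.Agent.H03.O6

open Matrix

abbrev Z2 := ZMod 2
abbrev I6 := Fin 3 ⊕ Fin 3

def bB : Matrix (Fin 8) I6 Z2 := fun k c => Sum.elim
  (fun i => (![![1, 1, 1], ![1, 1, 0], ![1, 0, 1], ![1, 0, 0], ![0, 1, 0], ![0, 0, 0], ![0, 0, 1], ![0, 1, 1]] : Fin 8 → Fin 3 → Z2) k i)
  (fun i => (![![1, 1, 1], ![0, 1, 0], ![0, 0, 0], ![0, 0, 1], ![1, 0, 0], ![1, 1, 0], ![1, 0, 1], ![0, 1, 1]] : Fin 8 → Fin 3 → Z2) k i) c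

def aA : Matrix I6 (Fin 8) Z2 := fun c k => Sum.elim
  (fun i => (![![1, 0, 0, 0, 1, 1, 1, 0], ![1, 1, 0, 0, 0, 1, 0, 1], ![1, 0, 0, 1, 0, 0, 1, 1]] : Fin 3 → Fin 8 → Z2) i k)
  (fun i => (![![1, 1, 1, 1, 0, 0, 0, 0], ![1, 1, 0, 0, 1, 0, 0, 1], ![1, 0, 1, 0, 0, 0, 1, 1]] : Fin 3 → Fin 8 → Z2) i k) c

def one8 : Fin 8 → Z2 := fun _ => 1
def ell : Fin 8 → Z2 := ![0, 0, 1, 1, 1, 1, 0, 1]
def uu : Fin 8 → Z2 := ![1, 1, 0, 0, 0, 0, 1, 0]

lemma hAB : aA * bB = 1 := by decide +kernel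
lemma hBA : bB * aA = 1 + vecMulVec one8 ell + vecMulVec uu one8 := by decide +kernel
lemma hA1 : aA *ᵥ one8 = 0 := by decide +kernel
lemma h1B : one8 ᵥ* bB = 0 := by decide +kernel

/-- the quadratic form on even vectors -/
def q8 (w : Fin 8 → Z2) : Z2 := (((Finset.univ.filter (fun i => w i ≠ 0)).card / 2 : ℕ) : Z2)

lemma hq8 : ∀ x : I6 → Z2, q8 (bB *ᵥ x) = Cfsg.quadFormPlus 3 Z2 x := by decide +kernel
lemma hq1 : ∀ w : Fin 8 → Z2, one8 ⬝ᵥ w = 0 → q8 (w + one8) = q8 w := by decide +kernel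


/-- permutation matrix -/
def P (s : Equiv.Perm (Fin 8)) : Matrix (Fin 8) (Fin 8) Z2 := fun i j => if i = s j then 1 else 0

lemma P_mulVec (s : Equiv.Perm (Fin 8)) (v : Fin 8 → Z2) (k : Fin 8) :
    (P s *ᵥ v) k = v (s⁻¹ k) := by
  simp only [Matrix.mulVec, dotProduct, P]
  rw [Finset.sum_eq_single (s⁻¹ k)]
  · simp
  · intro b _ hb
    have : k ≠ s b := by
      intro h
      apply hb
      rw [h]
      simp
    simp [this]
  · simp

lemma P_ext {A B : Matrix (Fin 8) (Fin 8) Z2} (h : ∀ v, A *ᵥ v = B *ᵥ v) : A = B := by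
  ext i j
  have := congrFun (h (Pi.single j 1)) i
  simpa using this

lemma P_one : P 1 = 1 := by
  apply P_ext
  intro v
  ext k
  rw [P_mulVec, Matrix.one_mulVec]
  simp

lemma P_mul (s t : Equiv.Perm (Fin 8)) : P (s * t) = P s * P t := by
  apply P_ext
  intro v
  ext k
  rw [P_mulVec, ← Matrix.mulVec_mulVec, P_mulVec, P_mulVec]
  simp [_root_.mul_inv_rev]

lemma P_one8 (s : Equiv.Perm (Fin 8)) : P s *ᵥ one8 = one8 := by
  ext k
  rw [P_mulVec]
  rfl

lemma one8_P (s : Equiv.Perm (Fin 8)) : one8 ᵥ* P s = one8 := by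
  ext j
  simp only [Matrix.vecMul, dotProduct, P, one8]
  rw [Finset.sum_eq_single (s j)]
  · simp
  · intro b _ hb
    simp [hb]
  · simp

/-- the action on the six-dimensional space -/
def M (s : Equiv.Perm (Fin 8)) : Matrix I6 I6 Z2 := aA * P s * bB

lemma M_one : M 1 = 1 := by
  rw [M, P_one, Matrix.mul_one, hAB]

lemma M_mul (s t : Equiv.Perm (Fin 8)) : M (s * t) = M s * M t := by
  have h1 : aA * P s * vecMulVec one8 ell = 0 := by
    rw [Matrix.mul_assoc, Matrix.mul_vecMulVec, P_one8, Matrix.mul_vecMulVec, hA1]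
    simp
  have h2 : vecMulVec uu one8 * P t * bB = 0 := by
    rw [Matrix.vecMulVec_mul, one8_P, Matrix.vecMulVec_mul, h1B]
    ext i j
    simp [Matrix.vecMulVec_apply]
  have h3 : vecMulVec one8 ell * P t * bB = vecMulVec one8 ell * (P t * bB) := by
    rw [Matrix.mul_assoc]
  have key : aA * P s * (bB * aA) * (P t * bB) = aA * (P s * P t) * bB := by
    rw [hBA]
    rw [Matrix.mul_add, Matrix.mul_add, h1, Matrix.mul_one, add_zero, Matrix.add_mul]
    have h4 : aA * P s * vecMulVec uu one8 * (P t * bB) = 0 := by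
      rw [Matrix.mul_assoc (aA * P s), ← Matrix.mul_assoc _ (P t) bB, h2, Matrix.mul_zero]
    rw [h4, add_zero]
    simp only [Matrix.mul_assoc]
  rw [M, M, M, P_mul, ← key]
  simp only [Matrix.mul_assoc]

/-- the homomorphism to `GL₆(2)` -/
def Phi : Equiv.Perm (Fin 8) →* Matrix.GeneralLinearGroup I6 Z2 :=
  MonoidHom.toHomUnits
    { toFun := M
      map_one' := M_one
      map_mul' := M_mul }

@[simp] lemma coe_Phi (s : Equiv.Perm (Fin 8)) : ((Phi s : Matrix.GeneralLinearGroup I6 Z2) : Matrix I6 I6 Z2) = M s := rfl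

lemma q8_P (s : Equiv.Perm (Fin 8)) (v : Fin 8 → Z2) : q8 (P s *ᵥ v) = q8 v := by
  unfold q8
  congr 2
  apply Finset.card_equiv s⁻¹
  intro i
  simp [P_mulVec]

lemma dot_one8 (x : I6 → Z2) (s : Equiv.Perm (Fin 8)) : one8 ⬝ᵥ (P s *ᵥ (bB *ᵥ x)) = 0 := by
  rw [Matrix.dotProduct_mulVec, one8_P, Matrix.dotProduct_mulVec, h1B]
  simp

lemma hBA_even (w : Fin 8 → Z2) (hw : one8 ⬝ᵥ w = 0) :
    bB *ᵥ (aA *ᵥ w) = w + (ell ⬝ᵥ w) • one8 := by
  rw [Matrix.mulVec_mulVec, hBA, Matrix.add_mulVec, Matrix.add_mulVec, Matrix.one_mulVec,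
    Matrix.vecMulVec_mulVec, Matrix.vecMulVec_mulVec, hw]
  ext k
  simp [mul_comm]

lemma z2_cases : ∀ c : Z2, c = 0 ∨ c = 1 := by decide

lemma M_isom (s : Equiv.Perm (Fin 8)) (x : I6 → Z2) :
    Cfsg.quadFormPlus 3 Z2 (M s *ᵥ x) = Cfsg.quadFormPlus 3 Z2 x := by
  rw [← hq8, ← hq8]
  have hw := dot_one8 x s
  have h : M s *ᵥ x = aA *ᵥ (P s *ᵥ (bB *ᵥ x)) := by
    simp only [M, Matrix.mulVec_mulVec, Matrix.mul_assoc]
  rw [h, hBA_even _ hw]
  generalize hc : ell ⬝ᵥ (P s *ᵥ (bB *ᵥ x)) = c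
  have hc2 : c = 0 ∨ c = 1 := by
    exact z2_cases c
  rcases hc2 with rfl | rfl
  · rw [zero_smul, add_zero, q8_P]
  · rw [one_smul, hq1 _ hw, q8_P]

lemma exists_ne4 : ∀ a b c d : Fin 8, ∃ k, k ≠ a ∧ k ≠ b ∧ k ≠ c ∧ k ≠ d := by decide +kernel

lemma exists_ne2 : ∀ a b : Fin 8, ∃ k, k ≠ a ∧ k ≠ b := by decide +kernel

lemma pair_of_M_one (s : Equiv.Perm (Fin 8)) (hs : M s = 1) (i j : Fin 8) (hij : i ≠ j) :
    s i = i ∨ s i = j := by
  classical
  set w : Fin 8 → Z2 := Pi.single i 1 + Pi.single j 1 with hw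
  have hw0 : one8 ⬝ᵥ w = 0 := by
    simp only [hw, dotProduct_add]
    simp [one8]
    decide
  set x := aA *ᵥ w with hx
  have hb : bB *ᵥ x = w + (ell ⬝ᵥ w) • one8 := hBA_even w hw0
  have h1 : aA *ᵥ (P s *ᵥ (bB *ᵥ x)) = x := by
    have : M s *ᵥ x = aA *ᵥ (P s *ᵥ (bB *ᵥ x)) := by
      simp only [M, Matrix.mulVec_mulVec, Matrix.mul_assoc]
    rw [← this, hs, Matrix.one_mulVec]
  have h2 := congrArg (fun y => bB *ᵥ y) h1
  rw [hBA_even _ (dot_one8 x s), hb, Matrix.mulVec_add, Matrix.mulVec_smul, P_one8] at h2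
  generalize ell ⬝ᵥ (P s *ᵥ w + (ell ⬝ᵥ w) • one8) = d at h2
  have h3 : ∀ k, (P s *ᵥ w) k + d = w k := by
    intro k
    have := congrFun h2 k
    simp only [Pi.add_apply, Pi.smul_apply, one8] at this
    have h4 : (P s *ᵥ w) k + (ell ⬝ᵥ w) • (1 : Z2) + d • (1 : Z2) = w k + (ell ⬝ᵥ w) • (1 : Z2) := this
    simp only [smul_eq_mul, mul_one] at h4
    linear_combination h4
  have hd : d = 0 := by
    obtain ⟨k, h1k, h2k, h3k, h4k⟩ := exists_ne4 i j (s i) (s j)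
    have := h3 k
    rw [P_mulVec] at this
    have h5 : s⁻¹ k ≠ i := by
      intro h
      apply h3k
      rw [← h]
      simp
    have h6 : s⁻¹ k ≠ j := by
      intro h
      apply h4k
      rw [← h]
      simp
    have hwk : w k = 0 := by simp [hw, Pi.single_apply, h1k, h2k]
    have hwk' : w (s⁻¹ k) = 0 := by
      simp only [hw, Pi.add_apply, Pi.single_apply, if_neg h5, if_neg h6, add_zero]
    rw [hwk, hwk', zero_add] at this
    exact this
  subst hd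
  have h7 := h3 (s i)
  have h8 : s⁻¹ (s i) = i := by simp
  rw [P_mulVec, add_zero, h8] at h7
  have h9 : w i = 1 := by simp [hw, Pi.single_apply, hij]
  by_contra hcon
  push Not at hcon
  have h10 : w (s i) = 0 := by
    simp only [hw, Pi.add_apply, Pi.single_apply, if_neg hcon.1, if_neg hcon.2, add_zero]
  rw [h9, h10] at h7
  exact one_ne_zero h7

lemma M_inj (s : Equiv.Perm (Fin 8)) (hs : M s = 1) : s = 1 := by
  ext a
  by_contra hcon
  have hne : s a ≠ a := fun h => hcon (by simp [h])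
  obtain ⟨j, h1, h2⟩ := exists_ne2 a (s a)
  rcases pair_of_M_one s hs a j (Ne.symm h1) with h | h
  · exact hne h
  · exact h2 h.symm

/-- transport -/
def PhiF {F : Type*} [Field F] (e : Z2 ≃+* F) : Equiv.Perm (Fin 8) →* Matrix.GeneralLinearGroup I6 F :=
  (Matrix.GeneralLinearGroup.map (e : Z2 →+* F)).comp Phi

lemma coe_PhiF {F : Type*} [Field F] (e : Z2 ≃+* F) (s : Equiv.Perm (Fin 8)) :
    ((PhiF e s : Matrix.GeneralLinearGroup I6 F) : Matrix I6 I6 F) = (M s).map e := rfl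

lemma Q_map {F : Type*} [Field F] (e : Z2 ≃+* F) (y : I6 → Z2) :
    Cfsg.quadFormPlus 3 F (fun i => e (y i)) = e (Cfsg.quadFormPlus 3 Z2 y) := by
  simp [Cfsg.quadFormPlus, map_sum, map_mul]

lemma PhiF_isom {F : Type*} [Field F] (e : Z2 ≃+* F) (s : Equiv.Perm (Fin 8)) :
    PhiF e s ∈ Cfsg.isometryGroup F (Cfsg.quadFormPlus 3 F) := by
  intro u _
  show Cfsg.quadFormPlus 3 F (((PhiF e s : Matrix.GeneralLinearGroup I6 F) : Matrix I6 I6 F) *ᵥ u) =
    Cfsg.quadFormPlus 3 F u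
  have hu : u = fun i => e (e.symm (u i)) := by
    ext i
    simp
  have h1 : ((PhiF e s : Matrix.GeneralLinearGroup I6 F) : Matrix I6 I6 F) *ᵥ u =
      fun i => e ((M s *ᵥ (fun i => e.symm (u i))) i) := by
    ext i
    rw [coe_PhiF]
    simp only [Matrix.mulVec, dotProduct, Matrix.map_apply, map_sum, map_mul, RingEquiv.apply_symm_apply]
  rw [h1, Q_map, M_isom]
  conv_rhs => rw [hu]
  rw [Q_map]

lemma PhiF_inj {F : Type*} [Field F] (e : Z2 ≃+* F) : Function.Injective (PhiF e) := by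
  rw [injective_iff_map_eq_one]
  intro s hs
  apply M_inj
  have := congrArg (fun g : Matrix.GeneralLinearGroup I6 F => (g : Matrix I6 I6 F)) hs
  simp only [coe_PhiF, Units.val_one] at this
  ext i j
  have h2 := congrFun (congrFun this i) j
  simp only [Matrix.map_apply] at h2
  apply e.injective
  rw [h2]
  simp [Matrix.one_apply]

theorem main {F : Type*} [Field F] [Fintype F] (hF : Fintype.card F = 2) :
    Nonempty (↥(Cfsg.isometryGroup F (Cfsg.quadFormPlus 3 F)) ≃* Equiv.Perm (Fin 8)) := by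
  have e : Z2 ≃+* F := ZMod.ringEquivOfPrime F Nat.prime_two hF
  let Ψ : Equiv.Perm (Fin 8) →* ↥(Cfsg.isometryGroup F (Cfsg.quadFormPlus 3 F)) :=
    (PhiF e).codRestrict _ (PhiF_isom e)
  have hinj : Function.Injective Ψ := by
    intro a b hab
    apply PhiF_inj e
    exact congrArg Subtype.val hab
  have hc : Nat.card (Cfsg.isometryGroup F (Cfsg.quadFormPlus 3 F)) = Nat.card (Equiv.Perm (Fin 8)) := by
    rw [Lead.Ortho.card_GO_plus hF 3 (by norm_num)]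
    rw [Nat.card_eq_fintype_card, Fintype.card_perm, Fintype.card_fin]
    decide
  have hbij : Function.Bijective Ψ := by
    haveI : Finite ↥(Cfsg.isometryGroup F (Cfsg.quadFormPlus 3 F)) := Nat.finite_of_card_ne_zero (by
      rw [hc, Nat.card_eq_fintype_card, Fintype.card_perm]; positivity)
    exact (Nat.bijective_iff_injective_and_card Ψ).2 ⟨hinj, hc.symm⟩
  exact ⟨(MulEquiv.ofBijective Ψ hbij).symm⟩

end Cfsg.Agent.H03.O6
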