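import Mathlib
import Cfsg.Agent.Lib.H03.OGen
import Cfsg.Agent.Lib.H11.Spin7

/-! Reflections in a plane. -/

set_option autoImplicit false

namespace Cfsg.Agent.H03.OPlane

open Module QuadraticMap Cfsg.Agent.H03.OGen

universe u v

section Abstract

variable {F : Type v} [Field F] {V : Type u} [AddCommGroup V] [Module F V]

lemma Q_comb (Q : QuadraticForm F V) (w w' : V) (α β : F) :
    Q (α • w + β • w') = α ^ 2 * Q w + α * β * polar Q w w' + β ^ 2 * Q w' := by
  rw [Q_add, QuadraticMap.map_smul, QuadraticMap.map_smul, polar_smul_left, polar_smul_right]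
  simp only [smul_eq_mul]
  ring

lemma Q_plane_y (Q : QuadraticForm F V) (w w' : V) (α β : F) :
    Q ((α * Q w + β * polar Q w w') • w' - (β * Q w') • w) =
      Q w * Q w' * Q (α • w + β • w') := by
  rw [Q_comb, Q_sub, QuadraticMap.map_smul, QuadraticMap.map_smul, polar_smul_left, polar_smul_right,
    polar_comm Q w' w]
  simp only [smul_eq_mul]
  ring

/-- three reflections in a plane -/
theorem rL_plane (Q : QuadraticForm F V) (w w' : V) (α β : F) (hA : Q w ≠ 0) (hB : Q w' ≠ 0)
    (hT : Q (α • w + β • w') ≠ 0) :
    rL Q w * rL Q w' = rL Q (α • w + β • w') *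
      rL Q ((α * Q w + β * polar Q w w') • w' - (β * Q w') • w) := by
  apply LinearMap.ext
  intro z
  have hy := Q_plane_y Q w w' α β
  have hQT := Q_comb Q w w' α β
  set A := Q w with hAd
  set B := Q w' with hBd
  set C := polar Q w w' with hCd
  set a := polar Q w z with had
  set b := polar Q w' z with hbd
  obtain ⟨T, hTd⟩ : ∃ T, T = α ^ 2 * A + α * β * C + β ^ 2 * B := ⟨_, rfl⟩
  rw [hQT, ← hTd] at hT
  have hww : polar Q w w = 2 * A := polar_self' Q w
  have hww' : polar Q w' w' = 2 * B := polar_self' Q w'
  have hw'w : polar Q w' w = C := by rw [polar_comm]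
  simp only [Module.End.mul_apply, rL_apply]
  rw [hy, hQT, ← hTd, ← hAd, ← hBd]
  simp only [polar_sub_right, polar_sub_left, polar_add_right, polar_add_left, polar_smul_left,
    polar_smul_right, smul_eq_mul, hww, hww', hw'w, ← hCd, ← had, ← hbd]
  match_scalars <;> field_simp <;> subst hTd <;> ring

/-- nondegenerate binary forms represent everything -/
lemma exists_plane_value [Finite F] (Q : QuadraticForm F V) (w w' : V) (c : F)
    (hD : 4 * Q w * Q w' - (polar Q w w') ^ 2 ≠ 0) :
    ∃ α β : F, Q (α • w + β • w') = c := by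
  classical
  let L : (Fin 2 → F) →ₗ[F] V :=
    (LinearMap.proj (0 : Fin 2)).smulRight w + (LinearMap.proj (1 : Fin 2)).smulRight w'
  have hL : ∀ a, L a = a 0 • w + a 1 • w' := fun a => rfl
  let Q' : QuadraticForm F (Fin 2 → F) := Q.comp L
  have hp : ∀ a b, polar Q' a b = polar Q (L a) (L b) := fun a b => by
    simp only [polar, Q', QuadraticMap.comp_apply, map_add]
  have hnd : (polarBilin Q').Nondegenerate := by
    apply Cfsg.Agent.H11.nondeg_of_left
    intro a h
    have h0 := h (Pi.single 0 1)
    have h1 := h (Pi.single 1 1)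
    rw [hp, hL, hL] at h0 h1
    simp only [Pi.single_apply, polar_add_left, polar_add_right, polar_smul_left, polar_smul_right,
      smul_eq_mul, polar_self', Fin.isValue, if_true, one_ne_zero, zero_ne_one, if_false,
      zero_smul, one_smul, polar_zero_right, add_zero, zero_add, mul_zero, polar_comm Q w' w] at h0 h1
    have ha0 : a 0 = 0 := by
      have : (4 * Q w * Q w' - (polar Q w w') ^ 2) * a 0 = 0 := by
        linear_combination (2 * Q w') * h0 - (polar Q w w') * h1
      exact (mul_eq_zero.1 this).resolve_left hD
    have ha1 : a 1 = 0 := by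
      have : (4 * Q w * Q w' - (polar Q w w') ^ 2) * a 1 = 0 := by
        linear_combination (2 * Q w) * h1 - (polar Q w w') * h0
      exact (mul_eq_zero.1 this).resolve_left hD
    funext i
    fin_cases i
    · exact ha0
    · exact ha1
  have hr : 2 ≤ finrank F (Fin 2 → F) := by simp
  obtain ⟨a, ha⟩ := Cfsg.Agent.H11.exists_value_of_nondeg Q' hnd hr c
  exact ⟨a 0, a 1, ha⟩

/-- intermediate vectors in the degenerate case, odd characteristic -/
lemma exists_inter_odd [Fintype F] [FiniteDimensional F V] (h2 : (2 : F) ≠ 0)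
    {Q : QuadraticForm F V} (hQ : (polarBilin Q).Nondegenerate)
    (hdim : Fintype.card F = 3 → finrank F V ≠ 3 ∧ finrank F V ≠ 4)
    {w d : V} (hw : Q w ≠ 0) (hd : d ≠ 0) (hQd : Q d = 0) (hwd : polar Q w d = 0) :
    ∃ u, Q u = Q w ∧ 4 * Q u * Q w - (polar Q u w) ^ 2 ≠ 0 ∧
      4 * Q u * Q (w - d) - (polar Q u (w - d)) ^ 2 ≠ 0 := by
  classical
  set A := Q w with hA
  have hpdd : polar Q d d = 0 := by rw [polar_self', hQd, mul_zero]
  have hpww : polar Q w w = 2 * A := polar_self' Q w
  have hdw : polar Q d w = 0 := by rw [polar_comm]; exact hwd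
  have hQwd : Q (w - d) = A := by
    rw [Q_sub, hQd, hwd, ← hA]; ring
  have hnot : d ∉ Submodule.span F {w} := by
    intro h
    obtain ⟨τ, rfl⟩ := Submodule.mem_span_singleton.1 h
    rw [QuadraticMap.map_smul] at hQd
    simp only [smul_eq_mul] at hQd
    have hτ : τ = 0 := by
      rcases mul_eq_zero.1 hQd with h3 | h3
      · exact mul_self_eq_zero.1 h3
      · exact absurd h3 hw
    rw [hτ, zero_smul] at hd
    exact hd rfl
  obtain ⟨a₀, ha₀d, ha₀w⟩ := exists_dual hQ hnot
  have h4A : 4 * A * A ≠ 0 := by
    have : (4 : F) = 2 * 2 := by norm_num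
    rw [this]
    exact mul_ne_zero (mul_ne_zero (mul_ne_zero h2 h2) hw) hw
  by_cases hc3 : Fintype.card F = 3
  · -- the field with three elements
    set a' := a₀ - Q a₀ • d with ha'
    have h1 : polar Q a' w = 0 := by
      rw [ha', polar_sub_left, polar_smul_left, ha₀w, hdw]; simp
    have h3 : polar Q a' d = 1 := by
      rw [ha', polar_sub_left, polar_smul_left, ha₀d, hpdd]; simp
    have h5 : Q a' = 0 := by
      rw [ha', Q_sub, QuadraticMap.map_smul, hQd, polar_smul_right, polar_comm Q a₀ d]
      simp only [smul_eq_mul]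
      rw [polar_comm Q d a₀, ha₀d]
      ring
    have h6 : polar Q a' a' = 0 := by rw [polar_self', h5, mul_zero]
    let φ : V →ₗ[F] F × (F × F) := LinearMap.prod (polarBilin Q w)
      (LinearMap.prod (polarBilin Q d) (polarBilin Q a'))
    have hφ : ∀ x, φ x = (polar Q w x, polar Q d x, polar Q a' x) := fun x => rfl
    let M : Submodule F V := LinearMap.ker φ
    have hM : ∀ x, x ∈ M ↔ ∀ s ∈ ({w, d, a'} : Set V), polar Q s x = 0 := by
      intro x
      simp [M, LinearMap.mem_ker, hφ, Prod.ext_iff]
    have hsurj : Function.Surjective φ := by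
      rintro ⟨p, q, r⟩
      refine ⟨(p / (2 * A)) • w + r • d + q • a', ?_⟩
      rw [hφ]
      simp only [polar_add_right, polar_smul_right, smul_eq_mul, hpww, hwd, polar_comm Q w a', h1,
        hdw, hpdd, polar_comm Q d a', h3, h6, Prod.mk.injEq]
      refine ⟨?_, ?_, ?_⟩
      · field_simp
        ring
      · ring
      · ring
    have hfr : finrank F M + 3 = finrank F V := by
      have h7 := LinearMap.finrank_range_add_finrank_ker φ
      rw [LinearMap.range_eq_top.2 hsurj, finrank_top, Module.finrank_prod, Module.finrank_prod,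
        Module.finrank_self] at h7
      have h8 : finrank F M = finrank F (LinearMap.ker φ) := rfl
      omega
    have hsup : Submodule.span F ({w, d, a'} : Set V) ⊔ M = ⊤ := by
      rw [eq_top_iff]
      intro x _
      set p := (polar Q w x / (2 * A)) • w + polar Q a' x • d + polar Q d x • a' with hp
      have e : x = p + (x - p) := by abel
      rw [e]
      apply Submodule.add_mem_sup
      · refine Submodule.add_mem _ (Submodule.add_mem _ ?_ ?_) ?_
        · exact Submodule.smul_mem _ _ (Submodule.subset_span (by simp))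
        · exact Submodule.smul_mem _ _ (Submodule.subset_span (by simp))
        · exact Submodule.smul_mem _ _ (Submodule.subset_span (by simp))
      · rw [hM]
        intro s hs
        simp only [Set.mem_insert_iff, Set.mem_singleton_iff] at hs
        rcases hs with rfl | rfl | rfl
        · rw [hp]
          simp only [polar_sub_right, polar_add_right, polar_smul_right, smul_eq_mul, hpww, hwd,
            polar_comm Q s a', h1]
          field_simp
          ring
        · rw [hp]
          simp only [polar_sub_right, polar_add_right, polar_smul_right, smul_eq_mul, hdw, hpdd,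
            polar_comm Q s a', h3]
          ring
        · rw [hp]
          simp only [polar_sub_right, polar_add_right, polar_smul_right, smul_eq_mul, h1, h3, h6]
          ring
    have hnd := sub_nondeg hQ {w, d, a'} M hM hsup
    have hge : 2 ≤ finrank F M := by
      have h9 := hdim hc3
      omega
    obtain ⟨u, hu⟩ := Cfsg.Agent.H11.exists_value_of_nondeg (Q.comp M.subtype) hnd hge A
    have hu' : Q (u : V) = A := hu
    have hu1 := (hM u).1 u.2
    have hu2 : polar Q w u = 0 := hu1 w (by simp)
    have hu3 : polar Q d u = 0 := hu1 d (by simp)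
    refine ⟨u, hu', ?_, ?_⟩
    · rw [hu', polar_comm, hu2]
      simpa using h4A
    · rw [hu', hQwd, polar_sub_right, polar_comm Q (u : V) w, polar_comm Q (u : V) d, hu2, hu3]
      simpa using h4A
  · -- at least five elements
    obtain ⟨β, hβ⟩ : ∃ β : F, β ≠ 0 ∧ β ≠ 2 * A ∧ β ≠ -(2 * A) := by
      by_contra hcon
      push Not at hcon
      apply hc3
      have h1 : (Finset.univ : Finset F) ⊆ {0, 2 * A, -(2 * A)} := by
        intro b _
        by_cases hb0 : b = 0
        · simp [hb0]
        · by_cases hb1 : b = 2 * A
          · simp [hb1]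
          · simp [hcon b hb0 hb1]
      have h3 : Fintype.card F ≤ 3 := by
        have := Finset.card_le_card h1
        rw [Finset.card_univ] at this
        exact this.trans Finset.card_le_three
      have h5 : 3 ≤ Fintype.card F := by
        have hne : (1 : F) ≠ -1 := by
          intro h
          apply h2
          linear_combination h
        have := Finset.card_le_univ ({0, 1, -1} : Finset F)
        rwa [Finset.card_eq_three.2 ⟨0, 1, -1, zero_ne_one, (neg_ne_zero.2 one_ne_zero).symm, hne, rfl⟩] at this
      omega
    obtain ⟨hβ0, hβ1, hβ2⟩ := hβ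
    obtain ⟨a, had, haw⟩ : ∃ a, polar Q a d = β ∧ polar Q a w = 0 := by
      refine ⟨β • a₀, ?_, ?_⟩
      · rw [polar_smul_left, ha₀d]; simp
      · rw [polar_smul_left, ha₀w]; simp
    set τ := (A - Q a) / β with hτ
    have e2 : Q (a + τ • d) = A := by
      rw [Q_add, QuadraticMap.map_smul, hQd, polar_smul_right, had, hτ]
      simp only [smul_eq_mul, mul_zero, add_zero]
      field_simp
      ring
    refine ⟨a + τ • d, e2, ?_, ?_⟩
    · have e : polar Q (a + τ • d) w = 0 := by
        rw [polar_add_left, polar_smul_left, haw, hdw]; simp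
      rw [e, e2]
      simpa using h4A
    · have e : polar Q (a + τ • d) (w - d) = -β := by
        rw [polar_sub_right, polar_add_left, polar_add_left, polar_smul_left, polar_smul_left, haw,
          hdw, had, hpdd]
        simp
      rw [e, e2, hQwd]
      have : 4 * A * A - (-β) ^ 2 = (2 * A - β) * (2 * A + β) := by ring
      rw [this]
      apply mul_ne_zero
      · exact sub_ne_zero.2 (Ne.symm hβ1)
      · intro h
        apply hβ2
        linear_combination h

end Abstract

section Mat

open Cfsg Cfsg.Agent.H11 Matrix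

variable {ι : Type} [Fintype ι] [DecidableEq ι] {F : Type v} [Field F]

/-- three reflections in a plane, group form -/
lemma refl_plane (Q : QuadraticForm F (ι → F)) (w w' : ι → F) (α β : F) (hA : Q w ≠ 0) (hB : Q w' ≠ 0)
    (hT : Q (α • w + β • w') ≠ 0)
    (hy : Q ((α * Q w + β * polar Q w w') • w' - (β * Q w') • w) ≠ 0) :
    refl Q w hA * refl Q w' hB = refl Q (α • w + β • w') hT *
      refl Q ((α * Q w + β * polar Q w w') • w' - (β * Q w') • w) hy := by
  apply isom_ext
  show reflectionMatrix (⇑Q) w * reflectionMatrix (⇑Q) w' =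
    reflectionMatrix (⇑Q) (α • w + β • w') *
      reflectionMatrix (⇑Q) ((α * Q w + β * polar Q w w') • w' - (β * Q w') • w)
  apply mat_ext_mulVec
  intro x
  have h1 := rL_plane Q w w' α β hA hB hT
  have h3 := congrArg (fun f : Module.End F (ι → F) => f x) h1
  simp only [Module.End.mul_apply, rL_eq_mulVecLin, Matrix.mulVecLin_apply] at h3
  rw [← Matrix.mulVec_mulVec, ← Matrix.mulVec_mulVec]
  exact h3

end Mat

end Cfsg.Agent.H03.OPlane
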