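import Mathlib

/-! Powers of a non-abelian simple group: automorphisms and subdirect products. -/

set_option autoImplicit false
set_option linter.unusedSectionVars false
set_option linter.unusedSimpArgs false
set_option linter.unusedVariables false
set_option linter.style.haveILetI false

namespace Cfsg.Agent.H03.OS

open scoped commutatorElement

section simple

variable {T : Type*} [Group T] [IsSimpleGroup T]

lemma center_triv (hnab : ¬ IsMulCommutative T) (t : T) (h : ∀ s, t * s = s * t) : t = 1 := by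
  have hc : (Subgroup.center T).Normal := inferInstance
  rcases hc.eq_bot_or_eq_top with h1 | h1
  · have : t ∈ Subgroup.center T := Subgroup.mem_center_iff.2 (fun s => (h s).symm)
    rwa [h1, Subgroup.mem_bot] at this
  · exfalso
    apply hnab
    refine ⟨⟨fun a b => ?_⟩⟩
    have : a ∈ Subgroup.center T := by rw [h1]; trivial
    exact Subgroup.mem_center_iff.1 this b |>.symm

lemma exists_ne_one : ∃ t : T, t ≠ 1 := exists_ne 1

/-- A subgroup containing all commutators is the whole group. -/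
lemma top_of_comm (hnab : ¬ IsMulCommutative T) (S : Subgroup T) (h : ∀ a b : T, a * b * a⁻¹ * b⁻¹ ∈ S) : S = ⊤ := by
  have hc : (commutator T).Normal := inferInstance
  have hle : commutator T ≤ S := by
    rw [commutator_def, Subgroup.commutator_le]
    intro a _ b _
    exact h a b
  rcases hc.eq_bot_or_eq_top with h1 | h1
  · exfalso
    apply hnab
    refine ⟨⟨fun a b => ?_⟩⟩
    have h2 : ⁅a, b⁆ ∈ commutator T := Subgroup.commutator_mem_commutator (Subgroup.mem_top a) (Subgroup.mem_top b)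
    rw [h1, Subgroup.mem_bot] at h2
    exact commutatorElement_eq_one_iff_mul_comm.1 h2
  · rw [eq_top_iff, ← h1]
    exact hle

end simple

section aut

variable {I : Type*} [Finite I] [DecidableEq I] {T : Type*} [Group T] [IsSimpleGroup T]

lemma single_of_mem (hnab : ¬ IsMulCommutative T) {M : Subgroup (I → T)} (hM : M.Normal) {x : I → T} (hx : x ∈ M) {j : I} (hj : x j ≠ 1) :
    ∃ r, r ≠ 1 ∧ Pi.mulSingle j r ∈ M := by
  obtain ⟨s, hs⟩ : ∃ s, x j * s ≠ s * x j := by
    by_contra hcon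
    push Not at hcon
    exact hj (center_triv hnab _ hcon)
  refine ⟨x j * s * (x j)⁻¹ * s⁻¹, ?_, ?_⟩
  · intro h
    apply hs
    have h1 : x j * s * (x j)⁻¹ = s := by
      rwa [mul_inv_eq_one] at h
    calc x j * s = x j * s * (x j)⁻¹ * x j := by group
      _ = s * x j := by rw [h1]
  · have e : (Pi.mulSingle j (x j * s * (x j)⁻¹ * s⁻¹) : I → T) = x * (Pi.mulSingle j s * x⁻¹ * (Pi.mulSingle j s)⁻¹) := by
      ext l
      by_cases hl : l = j
      · subst hl
        simp [mul_assoc]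
      · simp [Pi.mulSingle_eq_of_ne hl]
    rw [e]
    exact M.mul_mem hx (hM.conj_mem _ (M.inv_mem hx) _)

lemma all_of_single {M : Subgroup (I → T)} (hM : M.Normal) {j : I} {r : T} (hr : r ≠ 1) (h : Pi.mulSingle j r ∈ M) (t : T) :
    Pi.mulSingle j t ∈ M := by
  let S : Subgroup T := M.comap (MonoidHom.mulSingle (fun _ => T) j)
  have hS : S.Normal := by
    constructor
    intro n hn g
    change Pi.mulSingle j (g * n * g⁻¹) ∈ M
    have hn' : (Pi.mulSingle j n : I → T) ∈ M := hn
    have e : (Pi.mulSingle j (g * n * g⁻¹) : I → T) = Pi.mulSingle j g * Pi.mulSingle j n * (Pi.mulSingle j g)⁻¹ := by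
      rw [Pi.mulSingle_mul, Pi.mulSingle_mul, Pi.mulSingle_inv]
    rw [e]
    exact hM.conj_mem _ hn' _
  rcases hS.eq_bot_or_eq_top with h1 | h1
  · exfalso
    have : r ∈ S := h
    rw [h1, Subgroup.mem_bot] at this
    exact hr this
  · have : t ∈ S := by rw [h1]; trivial
    exact this

lemma coord_normal (i : I) : ((MonoidHom.mulSingle (fun _ => T) i).range : Subgroup (I → T)).Normal := by
  constructor
  rintro _ ⟨t, rfl⟩ g
  refine ⟨g i * t * (g i)⁻¹, ?_⟩
  ext l
  by_cases hl : l = i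
  · subst hl
    simp
  · simp [Pi.mulSingle_eq_of_ne hl]

/-- An automorphism of `T^I` maps coordinate subgroups to coordinate subgroups. -/
lemma aut_coord (hnab : ¬ IsMulCommutative T) (a : (I → T) ≃* (I → T)) (i : I) :
    ∃ j, (∀ t, ∃ t', a (Pi.mulSingle i t) = Pi.mulSingle j t') ∧ ∀ t', ∃ t, a (Pi.mulSingle i t) = Pi.mulSingle j t' := by
  obtain ⟨t₀, ht₀⟩ := exists_ne_one (T := T)
  have hy : a (Pi.mulSingle i t₀) ≠ 1 := by
    intro h
    have h1 := a.injective (h.trans (map_one a).symm)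
    have h2 := congrFun h1 i
    simp at h2
    exact ht₀ h2
  obtain ⟨j, hj⟩ : ∃ j, a (Pi.mulSingle i t₀) j ≠ 1 := by
    by_contra hcon
    push Not at hcon
    exact hy (funext hcon)
  refine ⟨j, ?_⟩
  have hM1 : (((MonoidHom.mulSingle (fun _ => T) i).range).map a.toMonoidHom).Normal :=
    Subgroup.Normal.map (coord_normal i) _ a.surjective
  have hsec : ∀ t', ∃ t, a (Pi.mulSingle i t) = Pi.mulSingle j t' := by
    obtain ⟨r, hr, hrm⟩ := single_of_mem hnab hM1 (x := a (Pi.mulSingle i t₀)) ⟨_, ⟨t₀, rfl⟩, rfl⟩ hj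
    intro t'
    obtain ⟨_, ⟨t, rfl⟩, e⟩ := all_of_single hM1 hr hrm t'
    exact ⟨t, e⟩
  refine ⟨?_, hsec⟩
  have hM2 : (((MonoidHom.mulSingle (fun _ => T) j).range).comap a.toMonoidHom).Normal :=
    Subgroup.Normal.comap (coord_normal j) _
  obtain ⟨t₁, ht₁⟩ := hsec t₀
  have ht₁' : t₁ ≠ 1 := by
    rintro rfl
    rw [Pi.mulSingle_one, map_one] at ht₁
    have h2 := congrFun ht₁ j
    simp at h2
    exact ht₀ h2.symm
  have hmem : (Pi.mulSingle i t₁ : I → T) ∈ ((MonoidHom.mulSingle (fun _ => T) j).range).comap a.toMonoidHom :=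
    ⟨t₀, ht₁.symm⟩
  intro t
  obtain ⟨t', e⟩ := all_of_single hM2 ht₁' hmem t
  exact ⟨t', e.symm⟩

/-- The wreath product form of an automorphism of `T^I`. -/
theorem aut_form (hnab : ¬ IsMulCommutative T) (a : (I → T) ≃* (I → T)) :
    ∃ (σ : Equiv.Perm I) (β : I → T ≃* T), ∀ x i, a x (σ i) = β i (x i) := by
  classical
  choose s hs1 hs2 using aut_coord hnab a
  obtain ⟨t₀, ht₀⟩ := exists_ne_one (T := T)
  have hinj : Function.Injective s := by
    intro i i' h
    obtain ⟨t, ht⟩ := hs2 i t₀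
    obtain ⟨t', ht'⟩ := hs2 i' t₀
    rw [h] at ht
    have h1 := a.injective (ht.trans ht'.symm)
    by_contra hne
    have h2 := congrFun h1 i
    rw [Pi.mulSingle_eq_same, Pi.mulSingle_eq_of_ne hne] at h2
    subst h2
    rw [Pi.mulSingle_one, map_one] at ht
    have h3 := congrFun ht (s i')
    simp at h3
    exact ht₀ h3.symm
  let σ : Equiv.Perm I := Equiv.ofBijective s (Finite.injective_iff_bijective.1 hinj)
  have hσ : ∀ i, σ i = s i := fun i => rfl
  have hb : ∀ i t, a (Pi.mulSingle i t) = Pi.mulSingle (σ i) (a (Pi.mulSingle i t) (σ i)) := by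
    intro i t
    obtain ⟨t', ht'⟩ := hs1 i t
    rw [hσ, ht']
    simp
  let b : ∀ i, T →* T := fun i =>
    MonoidHom.mk' (fun t => a (Pi.mulSingle i t) (σ i)) (by
      intro x y
      rw [Pi.mulSingle_mul, map_mul]
      rfl)
  have hbb : ∀ i, Function.Bijective (b i) := by
    intro i
    constructor
    · rw [injective_iff_map_eq_one]
      intro t ht
      have h1 : a (Pi.mulSingle i t) (σ i) = 1 := ht
      have h2 := hb i t
      rw [h1, Pi.mulSingle_one] at h2
      have h3 := a.injective (h2.trans (map_one a).symm)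
      have h4 := congrFun h3 i
      simpa using h4
    · intro t'
      obtain ⟨t, ht⟩ := hs2 i t'
      refine ⟨t, ?_⟩
      change a (Pi.mulSingle i t) (σ i) = t'
      rw [ht, hσ]
      simp
  refine ⟨σ, fun i => MulEquiv.ofBijective (b i) (hbb i), ?_⟩
  intro x i
  have h0 : x = Pi.mulSingle i (x i) * ((Pi.mulSingle i (x i))⁻¹ * x) := by group
  obtain ⟨y, hy⟩ : ∃ y, y = (Pi.mulSingle i (x i))⁻¹ * x := ⟨_, rfl⟩
  rw [← hy] at h0
  have hyi : y i = 1 := by
    rw [hy]
    simp
  have hcomm : ∀ t', a y (σ i) * t' = t' * a y (σ i) := by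
    intro t'
    obtain ⟨t, ht⟩ := hs2 i t'
    have h1 : y * Pi.mulSingle i t = Pi.mulSingle i t * y := by
      ext l
      by_cases hl : l = i
      · subst hl
        simp [hyi]
      · simp [Pi.mulSingle_eq_of_ne hl]
    have h2 := congrArg a h1
    rw [map_mul, map_mul, ht] at h2
    have h3 := congrFun h2 (s i)
    simp only [Pi.mul_apply, Pi.mulSingle_eq_same] at h3
    exact h3
  have hy1 := center_triv hnab _ hcomm
  change a x (σ i) = a (Pi.mulSingle i (x i)) (σ i)
  conv_lhs => rw [h0]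
  rw [map_mul, Pi.mul_apply, hy1, mul_one]

/-- Uniqueness of the permutation. -/
lemma sigma_unique {a : (I → T) → (I → T)} {σ σ' : Equiv.Perm I} {β β' : I → T ≃* T}
    (h : ∀ x i, a x (σ i) = β i (x i)) (h' : ∀ x i, a x (σ' i) = β' i (x i)) : σ = σ' := by
  ext i
  by_contra hne
  obtain ⟨t₀, ht₀⟩ := exists_ne_one (T := T)
  have h1 := h (Pi.mulSingle i t₀) i
  have h2 := h' (Pi.mulSingle i t₀) (σ'.symm (σ i))
  rw [Equiv.apply_symm_apply, h1] at h2
  have hne' : σ'.symm (σ i) ≠ i := by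
    intro e
    have h3 := congrArg σ' e
    rw [Equiv.apply_symm_apply] at h3
    exact hne h3
  rw [Pi.mulSingle_eq_same, Pi.mulSingle_eq_of_ne hne', map_one] at h2
  exact ht₀ ((β i).injective (h2.trans (map_one _).symm))

end aut

section subdirect

variable {I : Type*} [Finite I] [DecidableEq I] {T : Type*} [Group T] [IsSimpleGroup T]
  {D : Subgroup (I → T)}

/-- Elements of `D` at `r` that vanish on `S`. -/
def XS (D : Subgroup (I → T)) (r : I) (S : Set I) : Subgroup T where
  carrier := {t | ∃ y ∈ D, (∀ s ∈ S, y s = 1) ∧ y r = t}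
  one_mem' := ⟨1, D.one_mem, fun _ _ => rfl, rfl⟩
  mul_mem' := by
    rintro _ _ ⟨y, hy, h1, rfl⟩ ⟨z, hz, h2, rfl⟩
    refine ⟨y * z, D.mul_mem hy hz, fun s hs => ?_, rfl⟩
    rw [Pi.mul_apply, h1 s hs, h2 s hs, one_mul]
  inv_mem' := by
    rintro _ ⟨y, hy, h1, rfl⟩
    refine ⟨y⁻¹, D.inv_mem hy, fun s hs => ?_, rfl⟩
    rw [Pi.inv_apply, h1 s hs, inv_one]

lemma XS_normal (hsub : ∀ i t, ∃ x ∈ D, x i = t) (r : I) (S : Set I) : (XS D r S).Normal := by
  constructor
  rintro _ ⟨y, hy, h1, rfl⟩ g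
  obtain ⟨d, hd, e⟩ := hsub r g
  refine ⟨d * y * d⁻¹, D.mul_mem (D.mul_mem hd hy) (D.inv_mem hd), fun s hs => ?_, ?_⟩
  · simp [h1 s hs]
  · simp [e]

/-- Two coordinates are linked if they have the same kernel on `D`. -/
def Rl (D : Subgroup (I → T)) (i j : I) : Prop := ∀ x ∈ D, x i = 1 ↔ x j = 1

lemma Rl_of_imp (hsub : ∀ i t, ∃ x ∈ D, x i = t) {i j : I} (h : ∀ x ∈ D, x i = 1 → x j = 1) : Rl D i j := by
  intro x hx
  refine ⟨h x hx, fun hxj => ?_⟩
  by_contra hxi
  have hn := XS_normal hsub i {j}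
  have hx1 : x i ∈ XS D i {j} := ⟨x, hx, fun s hs => by rw [Set.mem_singleton_iff.1 hs]; exact hxj, rfl⟩
  rcases hn.eq_bot_or_eq_top with h1 | h1
  · rw [h1, Subgroup.mem_bot] at hx1
    exact hxi hx1
  · obtain ⟨t₀, ht₀⟩ := exists_ne_one (T := T)
    obtain ⟨d, hd, e⟩ := hsub j t₀
    have h2 : d i ∈ XS D i {j} := by rw [h1]; trivial
    obtain ⟨y, hy, hyj, hyi⟩ := h2
    have h3 : (y⁻¹ * d) i = 1 := by simp [hyi]
    have h4 := h _ (D.mul_mem (D.inv_mem hy) hd) h3
    rw [Pi.mul_apply, Pi.inv_apply, hyj j rfl, inv_one, one_mul, e] at h4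
    exact ht₀ h4

lemma XS_top (hnab : ¬ IsMulCommutative T) (hsub : ∀ i t, ∃ x ∈ D, x i = t) (r : I) (S : Finset I) (hS : ∀ s ∈ S, ¬ Rl D r s) :
    XS D r (S : Set I) = ⊤ := by
  classical
  induction S using Finset.induction_on with
  | empty =>
    rw [eq_top_iff]
    intro t _
    obtain ⟨x, hx, e⟩ := hsub r t
    exact ⟨x, hx, by simp, e⟩
  | insert s₀ S hs₀ ih =>
    have h1 := ih (fun s hs => hS s (Finset.mem_insert_of_mem hs))
    have h2 : XS D r {s₀} = ⊤ := by
      rcases (XS_normal hsub r {s₀}).eq_bot_or_eq_top with h | h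
      · exfalso
        apply hS s₀ (Finset.mem_insert_self _ _)
        have h3 : ∀ x ∈ D, x s₀ = 1 → x r = 1 := by
          intro x hx hxs
          have : x r ∈ XS D r {s₀} := ⟨x, hx, fun s hs => by rw [Set.mem_singleton_iff.1 hs]; exact hxs, rfl⟩
          rwa [h, Subgroup.mem_bot] at this
        have h4 := Rl_of_imp hsub h3
        exact fun x hx => (h4 x hx).symm
      · exact h
    apply top_of_comm hnab
    intro a b
    have ha : a ∈ XS D r (S : Set I) := by rw [h1]; trivial
    have hb : b ∈ XS D r {s₀} := by rw [h2]; trivial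
    obtain ⟨y, hy, hy1, rfl⟩ := ha
    obtain ⟨z, hz, hz1, rfl⟩ := hb
    refine ⟨y * z * y⁻¹ * z⁻¹, D.mul_mem (D.mul_mem (D.mul_mem hy hz) (D.inv_mem hy)) (D.inv_mem hz), ?_, rfl⟩
    intro s hs
    simp only [Finset.coe_insert, Set.mem_insert_iff, Finset.mem_coe] at hs
    rcases hs with rfl | hs
    · simp [hz1 s rfl]
    · simp [hy1 s hs]

/-- The isomorphism between linked coordinates. -/
lemma exists_iso (hsub : ∀ i t, ∃ x ∈ D, x i = t) {i j : I} (h : Rl D i j) : ∃ φ : T ≃* T, ∀ x ∈ D, x i = φ (x j) := by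
  classical
  choose d hd hde using hsub j
  have hagree : ∀ x ∈ D, ∀ y ∈ D, x j = y j → x i = y i := by
    intro x hx y hy e
    have h1 : (x * y⁻¹) j = 1 := by simp [e]
    have h2 := (h _ (D.mul_mem hx (D.inv_mem hy))).2 h1
    simpa [mul_inv_eq_one] using h2
  let f : T →* T := MonoidHom.mk' (fun t => d t i) (by
    intro a b
    have := hagree (d (a * b)) (hd _) (d a * d b) (D.mul_mem (hd _) (hd _)) (by simp [hde])
    simpa using this)
  have hf : Function.Bijective f := by
    constructor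
    · rw [injective_iff_map_eq_one]
      intro t ht
      have h1 : d t i = 1 := ht
      have h2 := (h _ (hd t)).1 h1
      rwa [hde] at h2
    · intro t'
      obtain ⟨x, hx, e⟩ := hsub i t'
      refine ⟨x j, ?_⟩
      change d (x j) i = t'
      rw [← e]
      exact hagree _ (hd _) _ hx (hde _)
  refine ⟨MulEquiv.ofBijective f hf, ?_⟩
  intro x hx
  change x i = d (x j) i
  exact hagree _ hx _ (hd _) (hde _).symm

lemma Rl_symm {i j : I} (h : Rl D i j) : Rl D j i := fun x hx => (h x hx).symm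

lemma Rl_trans {i j k : I} (h : Rl D i j) (h' : Rl D j k) : Rl D i k := fun x hx => (h x hx).trans (h' x hx)

/-- The structure of subdirect products of a non-abelian simple group. -/
theorem subdirect_structure (hnab : ¬ IsMulCommutative T) (hsub : ∀ i t, ∃ x ∈ D, x i = t) :
    ∃ (c : I → I) (φ : I → T ≃* T), (∀ i, c (c i) = c i) ∧ (∀ i j, c i = c j ↔ Rl D i j) ∧
      (∀ x, x ∈ D ↔ ∀ i, x i = φ i (x (c i))) := by
  classical
  haveI := Fintype.ofFinite I
  let st : Setoid I := ⟨Rl D, ⟨fun i x _ => Iff.rfl, Rl_symm, Rl_trans⟩⟩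
  let c : I → I := fun i => (Quotient.mk st i).out
  have hc1 : ∀ i, Rl D (c i) i := fun i => Quotient.exact (s := st) (Quotient.out_eq (Quotient.mk st i))
  have hc2 : ∀ i j, c i = c j ↔ Rl D i j := by
    intro i j
    constructor
    · intro e
      have h1 := hc1 i
      rw [e] at h1
      exact Rl_trans (Rl_symm h1) (hc1 j)
    · intro h
      have : Quotient.mk st i = Quotient.mk st j := Quotient.sound (s := st) h
      change (Quotient.mk st i).out = (Quotient.mk st j).out
      rw [this]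
  have hc3 : ∀ i, c (c i) = c i := fun i => (hc2 _ _).2 (hc1 i)
  choose φ hφ using fun i => exists_iso hsub (Rl_symm (hc1 i))
  refine ⟨c, φ, hc3, hc2, ?_⟩
  intro x
  refine ⟨fun hx i => hφ i x hx, fun hx => ?_⟩
  have key : ∀ R : Finset I, (∀ r ∈ R, c r = r) → ∃ d ∈ D, ∀ r ∈ R, d r = x r := by
    intro R
    induction R using Finset.induction_on with
    | empty =>
      intro _
      exact ⟨1, D.one_mem, by simp⟩
    | insert r₀ R hr₀ ih =>
      intro hR
      obtain ⟨d, hd, hdR⟩ := ih (fun r hr => hR r (Finset.mem_insert_of_mem hr))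
      have h1 : ∀ s ∈ R, ¬ Rl D r₀ s := by
        intro s hs hrel
        have h2 := (hc2 _ _).2 hrel
        rw [hR r₀ (Finset.mem_insert_self _ _), hR s (Finset.mem_insert_of_mem hs)] at h2
        subst h2
        exact hr₀ hs
      have h2 := XS_top hnab hsub r₀ R h1
      have h3 : (d r₀)⁻¹ * x r₀ ∈ XS D r₀ (R : Set I) := by rw [h2]; trivial
      obtain ⟨y, hy, hy1, hy2⟩ := h3
      refine ⟨d * y, D.mul_mem hd hy, ?_⟩
      intro r hr
      rw [Finset.mem_insert] at hr
      rcases hr with rfl | hr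
      · rw [Pi.mul_apply, hy2, mul_inv_cancel_left]
      · rw [Pi.mul_apply, hy1 r hr, mul_one, hdR r hr]
  obtain ⟨d, hd, hdx⟩ := key (Finset.univ.image c) (by
    intro r hr
    obtain ⟨i, _, rfl⟩ := Finset.mem_image.1 hr
    exact hc3 i)
  have : x = d := by
    ext i
    rw [hx i, hφ i d hd, hdx (c i) (Finset.mem_image_of_mem c (Finset.mem_univ i))]
  rw [this]
  exact hd

end subdirect

end Cfsg.Agent.H03.OS
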