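import Mathlib
import Cfsg.Agent.Lib.H03.OS1

/-! The core of the O'Nan–Scott theorem. -/

set_option autoImplicit false
set_option linter.unusedSectionVars false
set_option linter.unusedSimpArgs false
set_option linter.unusedVariables false
set_option linter.style.haveILetI false

namespace Cfsg.Agent.H03.OS

open MulAction

theorem onan_scott {α : Type*} [Finite α] (H : Subgroup (Equiv.Perm α)) [MulAction.IsPreprimitive H α] (N : Subgroup H) [N.Normal]
    (hN : N ≠ ⊥) (hmin : ∀ M : Subgroup H, M.Normal → M ≤ N → M = ⊥ ∨ M = N) (hnab : ¬ IsMulCommutative N) (a : α)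
    {T : Type} [Group T] [IsSimpleGroup T] {m : ℕ} (hm : 0 < m) (e : N ≃* (Fin m → T)) :
    ∃ (e : N ≃* (Fin m → T)), ((∃ K : Fin m → Subgroup T, (∀ i, K i ≠ ⊤) ∧ ∀ n : N, (n : H) ∈ MulAction.stabilizer H a ↔ ∀ i, e n i ∈ K i) ∨ (∃ (k : ℕ) (c : Fin m → Fin m), 2 ≤ k ∧ (∀ j : Fin m, Nat.card {i : Fin m // c i = j} = k ∨ Nat.card {i : Fin m // c i = j} = 0) ∧ ∀ n : N, (n : H) ∈ MulAction.stabilizer H a ↔ ∀ i j : Fin m, c i = c j → e n i = e n j)) := by
  classical
  obtain ⟨t₀, ht₀⟩ := exists_ne_one (T := T)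
  -- `T` is not abelian
  have hT : ¬ IsMulCommutative T := by
    intro hc
    apply hnab
    refine ⟨⟨fun x y => ?_⟩⟩
    apply e.injective
    rw [map_mul, map_mul]
    ext i
    exact hc.is_comm.comm _ _
  -- `N` acts nontrivially
  obtain ⟨n₀, hn₀⟩ : ∃ n : N, n ≠ 1 := by
    by_contra hcon
    push Not at hcon
    apply hN
    rw [eq_bot_iff]
    intro x hx
    have := hcon ⟨x, hx⟩
    exact congrArg Subtype.val this
  obtain ⟨b₀, hb₀⟩ : ∃ x : α, (n₀ : H) • x ≠ x := by
    by_contra hcon
    push Not at hcon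
    apply hn₀
    apply Subtype.ext
    apply Subtype.ext
    apply Equiv.ext
    intro x
    exact hcon x
  have hntα : Nontrivial α := ⟨⟨_, _, hb₀⟩⟩
  have hfix : MulAction.fixedPoints N α ≠ Set.univ := by
    intro h
    have : b₀ ∈ MulAction.fixedPoints N α := by rw [h]; trivial
    exact hb₀ (this n₀)
  haveI htrN : MulAction.IsPretransitive N α := IsQuasiPreprimitive.isPretransitive_of_normal hfix
  -- the conjugation action in coordinates
  let al : H → (Fin m → T) ≃* (Fin m → T) := fun h => e.symm.trans ((MulAut.conjNormal h).trans e)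
  have hal : ∀ h x, al h x = e (MulAut.conjNormal h (e.symm x)) := fun h x => rfl
  have halc : ∀ h x, ((e.symm (al h x) : N) : H) = h * (e.symm x : H) * h⁻¹ := by
    intro h x
    rw [hal, e.symm_apply_apply, MulAut.conjNormal_apply]
  have halmul : ∀ h₁ h₂ x, al (h₁ * h₂) x = al h₁ (al h₂ x) := by
    intro h₁ h₂ x
    rw [hal, hal, hal, e.symm_apply_apply, map_mul]
    rfl
  have halone : ∀ x, al 1 x = x := by
    intro x
    rw [hal, map_one]
    change e (e.symm x) = x
    rw [e.apply_symm_apply]
  choose σ β hσ using fun h : H => aut_form hT (al h)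
  have hσmul : ∀ h₁ h₂, σ (h₁ * h₂) = σ h₁ * σ h₂ := by
    intro h₁ h₂
    refine sigma_unique (a := al (h₁ * h₂)) (hσ (h₁ * h₂)) (β' := fun i => (β h₂ i).trans (β h₁ (σ h₂ i))) ?_
    intro x i
    rw [halmul, Equiv.Perm.mul_apply, hσ, hσ]
    rfl
  have hσone : σ 1 = 1 := by
    refine sigma_unique (a := al 1) (hσ 1) (β' := fun i => MulEquiv.refl T) ?_
    intro x i
    rw [halone]
    rfl
  have hσN : ∀ n : N, σ (n : H) = 1 := by
    intro n
    refine sigma_unique (a := al (n : H)) (hσ _) (β' := fun i => MulAut.conj (e n i)) ?_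
    intro x i
    have h1 : al (n : H) x = e n * x * (e n)⁻¹ := by
      apply e.symm.injective
      apply Subtype.ext
      rw [halc]
      simp
    rw [h1]
    simp [MulAut.conj_apply]
  -- transitivity on the coordinates
  have hTr : ∀ i j, ∃ h : H, σ h i = j := by
    intro i j
    by_contra hcon
    push Not at hcon
    let M₀ : Subgroup (Fin m → T) :=
      { carrier := {x | ∀ l, (∀ h, σ h i ≠ l) → x l = 1}
        one_mem' := fun l _ => rfl
        mul_mem' := by
          intro x y hx hy l hl
          rw [Pi.mul_apply, hx l hl, hy l hl, one_mul]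
        inv_mem' := by
          intro x hx l hl
          rw [Pi.inv_apply, hx l hl, inv_one] }
    have hM₀ : ∀ g x, x ∈ M₀ → al g x ∈ M₀ := by
      intro g x hx l hl
      have e1 : l = σ g ((σ g).symm l) := by rw [Equiv.apply_symm_apply]
      rw [e1, hσ]
      have h2 : x ((σ g).symm l) = 1 := by
        apply hx
        intro h he
        apply hl (g * h)
        rw [hσmul, Equiv.Perm.mul_apply, he, Equiv.apply_symm_apply]
      rw [h2, map_one]
    let M : Subgroup H := (M₀.comap e.toMonoidHom).map N.subtype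
    have hMn : M.Normal := by
      constructor
      rintro _ ⟨n, hn, rfl⟩ g
      refine ⟨MulAut.conjNormal g n, ?_, MulAut.conjNormal_apply g n⟩
      have h1 := hM₀ g _ hn
      rw [hal] at h1
      change (e n : Fin m → T) ∈ M₀ at hn
      have h2 : e.symm (e.toMonoidHom n) = n := e.symm_apply_apply n
      rw [h2] at h1
      exact h1
    have hMle : M ≤ N := Subgroup.map_subtype_le _
    rcases hmin M hMn hMle with h | h
    · -- `M = ⊥`
      have hs : (Pi.mulSingle i t₀ : Fin m → T) ∈ M₀ := by
        intro l hl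
        apply Pi.mulSingle_eq_of_ne
        rintro rfl
        apply hl 1
        rw [hσone]
        rfl
      have h1 : ((e.symm (Pi.mulSingle i t₀) : N) : H) ∈ M := by
        refine ⟨e.symm (Pi.mulSingle i t₀), ?_, rfl⟩
        change e (e.symm (Pi.mulSingle i t₀)) ∈ M₀
        rw [e.apply_symm_apply]
        exact hs
      rw [h, Subgroup.mem_bot] at h1
      have h2 : e.symm (Pi.mulSingle i t₀) = 1 := Subtype.ext h1
      have h3 := e.symm.injective (h2.trans (map_one e.symm).symm)
      have h4 := congrFun h3 i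
      simp at h4
      exact ht₀ h4
    · -- `M = N`
      have h1 : ((e.symm (Pi.mulSingle j t₀) : N) : H) ∈ M := by
        rw [h]
        exact (e.symm (Pi.mulSingle j t₀)).2
      obtain ⟨n, hn, hne⟩ := h1
      have h2 : n = e.symm (Pi.mulSingle j t₀) := Subtype.ext hne
      subst h2
      change e (e.symm (Pi.mulSingle j t₀)) ∈ M₀ at hn
      rw [e.apply_symm_apply] at hn
      have h3 := hn j hcon
      simp at h3
      exact ht₀ h3
  have hTra : ∀ i j, ∃ h ∈ MulAction.stabilizer H a, σ h i = j := by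
    intro i j
    obtain ⟨h, hh⟩ := hTr i j
    obtain ⟨n, hn⟩ := MulAction.exists_smul_eq N a (h • a)
    refine ⟨(n : H)⁻¹ * h, ?_, ?_⟩
    · rw [MulAction.mem_stabilizer_iff, mul_smul, inv_smul_eq_iff]
      exact hn.symm
    · have h1 : σ ((n : H)⁻¹ * (n : H)) = σ ((n : H)⁻¹) * σ (n : H) := hσmul _ _
      rw [inv_mul_cancel, hσone, hσN, mul_one] at h1
      rw [hσmul, ← h1, one_mul, hh]
  -- the point stabilizer in coordinates
  let D : Subgroup (Fin m → T) := ((MulAction.stabilizer H a).comap N.subtype).comap e.symm.toMonoidHom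
  have hDmem : ∀ x, x ∈ D ↔ ((e.symm x : N) : H) ∈ MulAction.stabilizer H a := fun x => Iff.rfl
  have hDe : ∀ n : N, (n : H) ∈ MulAction.stabilizer H a ↔ e n ∈ D := by
    intro n
    rw [hDmem, e.symm_apply_apply]
  have hDinv : ∀ h ∈ MulAction.stabilizer H a, ∀ x ∈ D, al h x ∈ D := by
    intro h hh x hx
    rw [hDmem, halc]
    exact Subgroup.mul_mem _ (Subgroup.mul_mem _ hh ((hDmem x).1 hx)) (Subgroup.inv_mem _ hh)
  let K : Fin m → Subgroup T := fun i => D.map (Pi.evalMonoidHom _ i)
  have hKmem : ∀ i t, t ∈ K i ↔ ∃ x ∈ D, x i = t := fun i t => Iff.rfl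
  have hKtr : ∀ h ∈ MulAction.stabilizer H a, ∀ i, ∀ t ∈ K i, β h i t ∈ K (σ h i) := by
    intro h hh i t ht
    obtain ⟨x, hx, rfl⟩ := (hKmem i t).1 ht
    exact (hKmem _ _).2 ⟨al h x, hDinv h hh x hx, hσ h x i⟩
  by_cases hA : ∀ i, K i ≠ ⊤
  · -- the product case
    refine ⟨e, Or.inl ⟨K, hA, ?_⟩⟩
    have hPinv : ∀ h ∈ MulAction.stabilizer H a, ∀ x : Fin m → T, (∀ i, x i ∈ K i) → ∀ i, al h x i ∈ K i := by
      intro h hh x hx i
      have e1 : i = σ h ((σ h).symm i) := by rw [Equiv.apply_symm_apply]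
      rw [e1, hσ]
      exact hKtr h hh _ _ (hx _)
    let L : Subgroup H :=
      { carrier := {g | ∃ n : N, (∀ i, e n i ∈ K i) ∧ (n : H)⁻¹ * g ∈ MulAction.stabilizer H a}
        one_mem' := ⟨1, by simp [one_mem], by simp [one_mem]⟩
        mul_mem' := by
          rintro g₁ g₂ ⟨m₁, h1, h2⟩ ⟨m₂, h3, h4⟩
          obtain ⟨h₁, hh₁⟩ : ∃ h₁, h₁ = (m₁ : H)⁻¹ * g₁ := ⟨_, rfl⟩
          rw [← hh₁] at h2
          refine ⟨m₁ * MulAut.conjNormal h₁ m₂, ?_, ?_⟩
          · intro i
            have e1 : e (MulAut.conjNormal h₁ m₂) = al h₁ (e m₂) := by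
              rw [hal, e.symm_apply_apply]
            rw [map_mul, e1, Pi.mul_apply]
            exact (K i).mul_mem (h1 i) (hPinv h₁ h2 _ h3 i)
          · have e1 : (((m₁ * MulAut.conjNormal h₁ m₂ : N)) : H)⁻¹ * (g₁ * g₂) = h₁ * ((m₂ : H)⁻¹ * g₂) := by
              rw [Subgroup.coe_mul, MulAut.conjNormal_apply, hh₁]
              group
            rw [e1]
            exact Subgroup.mul_mem _ h2 h4
        inv_mem' := by
          rintro g ⟨n, h1, h2⟩
          obtain ⟨h, hh⟩ : ∃ h, h = (n : H)⁻¹ * g := ⟨_, rfl⟩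
          rw [← hh] at h2
          refine ⟨MulAut.conjNormal h⁻¹ n⁻¹, ?_, ?_⟩
          · intro i
            have e1 : e (MulAut.conjNormal h⁻¹ n⁻¹) = al h⁻¹ (e n⁻¹) := by
              rw [hal, e.symm_apply_apply]
            rw [e1]
            apply hPinv _ (Subgroup.inv_mem _ h2)
            intro i
            rw [map_inv, Pi.inv_apply]
            exact (K i).inv_mem (h1 i)
          · have e1 : ((MulAut.conjNormal h⁻¹ n⁻¹ : N) : H)⁻¹ * g⁻¹ = h⁻¹ := by
              rw [MulAut.conjNormal_apply, hh]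
              simp only [InvMemClass.coe_inv]
              group
            rw [e1]
            exact Subgroup.inv_mem _ h2 }
    have hSL : MulAction.stabilizer H a ≤ L := by
      intro g hg
      exact ⟨1, by simp [one_mem], by simpa using hg⟩
    have hco := IsPreprimitive.isCoatom_stabilizer_of_isPreprimitive (G := H) a
    by_cases hLtop : L = ⊤
    · exfalso
      have hall : ∀ n : N, ∀ i, e n i ∈ K i := by
        intro n i
        have h1 : (n : H) ∈ L := by rw [hLtop]; trivial
        obtain ⟨n', h2, h3⟩ := h1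
        have h4 : ((n'⁻¹ * n : N) : H) ∈ MulAction.stabilizer H a := by
          simpa using h3
        have h5 := (hDe _).1 h4
        have h6 : n = n' * (n'⁻¹ * n) := by group
        rw [h6, map_mul, Pi.mul_apply]
        exact (K i).mul_mem (h2 i) ((hKmem _ _).2 ⟨_, h5, rfl⟩)
      apply hA ⟨0, hm⟩
      rw [eq_top_iff]
      intro t _
      have h1 := hall (e.symm (Pi.mulSingle ⟨0, hm⟩ t)) ⟨0, hm⟩
      rw [e.apply_symm_apply] at h1
      simpa using h1
    · have hLle : L ≤ MulAction.stabilizer H a := by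
        by_contra hcon
        exact hLtop (hco.2 L (lt_of_le_not_ge hSL hcon))
      intro n
      constructor
      · intro hn i
        exact (hKmem _ _).2 ⟨_, (hDe n).1 hn, rfl⟩
      · intro hn
        apply hLle
        exact ⟨n, hn, by simp [one_mem]⟩
  · -- the diagonal case
    push Not at hA
    obtain ⟨i₀, hi₀⟩ := hA
    have hsub : ∀ i t, ∃ x ∈ D, x i = t := by
      intro i t
      obtain ⟨h, hh, hhi⟩ := hTra i₀ i
      obtain ⟨s, hs⟩ := (β h i₀).surjective t
      have h1 : s ∈ K i₀ := by rw [hi₀]; trivial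
      have h2 := hKtr h hh i₀ s h1
      rw [hhi, hs] at h2
      exact (hKmem _ _).1 h2
    obtain ⟨c, φ, hc1, hc2, hc3⟩ := subdirect_structure hT hsub
    have hφc : ∀ i t, φ (c i) t = t := by
      intro i t
      obtain ⟨x, hx, rfl⟩ := hsub (c i) t
      have := (hc3 x).1 hx (c i)
      rw [hc1] at this
      exact this.symm
    refine ⟨e.trans (MulEquiv.piCongrRight fun i => (φ i).symm), Or.inr ?_⟩
    have he' : ∀ n i, (e.trans (MulEquiv.piCongrRight fun i => (φ i).symm)) n i = (φ i).symm (e n i) := fun n i => rfl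
    -- blocks
    have hRl : ∀ h ∈ MulAction.stabilizer H a, ∀ l i, Rl D l i → Rl D (σ h l) (σ h i) := by
      intro h hh l i hrel x hx
      obtain ⟨y, hy, rfl⟩ : ∃ y ∈ D, al h y = x := by
        refine ⟨al h⁻¹ x, hDinv _ (Subgroup.inv_mem _ hh) x hx, ?_⟩
        rw [← halmul, mul_inv_cancel, halone]
      rw [hσ, hσ, map_eq_one_iff _ (β h l).injective, map_eq_one_iff _ (β h i).injective]
      exact hrel y hy
    have hblock : ∀ i i', Nat.card {l // c l = c i} ≤ Nat.card {l // c l = c i'} := by
      intro i i'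
      obtain ⟨h, hh, hhi⟩ := hTra i i'
      refine Nat.card_le_card_of_injective (fun l => ⟨σ h l.1, ?_⟩) ?_
      · rw [← hhi]
        exact (hc2 _ _).2 (hRl h hh _ _ ((hc2 _ _).1 l.2))
      · intro l l' hl
        apply Subtype.ext
        exact (σ h).injective (congrArg Subtype.val hl)
    have hblock' : ∀ i i', Nat.card {l // c l = c i} = Nat.card {l // c l = c i'} :=
      fun i i' => le_antisymm (hblock i i') (hblock i' i)
    refine ⟨Nat.card {l // c l = c i₀}, c, ?_, ?_, ?_⟩
    · -- the block size is at least two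
      by_contra hlt
      have h1 : ∀ i, Subsingleton {l // c l = c i} := by
        intro i
        have h2 : Nat.card {l // c l = c i} ≤ 1 := by
          rw [hblock' i i₀]
          omega
        exact (Finite.card_le_one_iff_subsingleton).1 h2
      have hcid : ∀ i, c i = i := by
        intro i
        have h2 := h1 i
        have h3 := @Subsingleton.elim _ h2 ⟨c i, hc1 i⟩ ⟨i, rfl⟩
        exact congrArg Subtype.val h3
      have hDtop : ∀ x, x ∈ D := by
        intro x
        rw [hc3]
        intro i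
        have h4 := hφc i (x (c i))
        rw [hcid i] at h4 ⊢
        exact h4.symm
      obtain ⟨y, hy⟩ := exists_ne a
      obtain ⟨n, hn⟩ := MulAction.exists_smul_eq N a y
      have h5 := (hDe n).2 (hDtop _)
      exact hy (hn.symm.trans h5)
    · intro j
      by_cases hj : ∃ i, c i = j
      · obtain ⟨i, rfl⟩ := hj
        left
        exact hblock' i i₀
      · right
        push Not at hj
        haveI : IsEmpty {i // c i = j} := ⟨fun x => hj x.1 x.2⟩
        exact Nat.card_of_isEmpty
    · intro n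
      rw [hDe, hc3]
      constructor
      · intro hx i j hij
        rw [he', he', hx i, hx j, MulEquiv.symm_apply_apply, MulEquiv.symm_apply_apply, hij]
      · intro hx i
        have h1 := hx i (c i) (hc1 i).symm
        rw [he', he'] at h1
        have h2 : (φ (c i)).symm (e n (c i)) = e n (c i) := by
          rw [MulEquiv.symm_apply_eq, hφc]
        rw [h2] at h1
        rw [← h1, MulEquiv.apply_symm_apply]

end Cfsg.Agent.H03.OS
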