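import Mathlib
import Cfsg.Agent.Lib.H03.OGen
import Cfsg.Agent.Lib.H03.OPlane

/-! Vector constructions for Siegel transformations. -/

set_option autoImplicit false

namespace Cfsg.Agent.H03.OSiegel

open Module QuadraticMap Cfsg.Agent.H03.OGen

universe u v

variable {F : Type v} [Field F] {V : Type u} [AddCommGroup V] [Module F V]

/-- the orthogonal complement of a nondegenerate plane -/
lemma perp2_gram [FiniteDimensional F V] {Q : QuadraticForm F V} (hQ : (polarBilin Q).Nondegenerate)
    {v w : V} (hD : polar Q v v * polar Q w w - (polar Q v w) ^ 2 ≠ 0) :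
    finrank F (perp2 Q v w) + 2 = finrank F V ∧
      (polarBilin (Q.comp (perp2 Q v w).subtype)).Nondegenerate := by
  set a := polar Q v v with ha
  set b := polar Q v w with hb
  set d := polar Q w w with hd
  set D := a * d - b ^ 2 with hDd
  have hwv : polar Q w v = b := by rw [polar_comm]
  constructor
  · apply finrank_perp2 Q v w ((d / D) • v - (b / D) • w) ((a / D) • w - (b / D) • v)
    · rw [polar_sub_right, polar_smul_right, polar_smul_right, ← ha, ← hb]
      simp only [smul_eq_mul]
      field_simp
      rw [hDd]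
      ring
    · rw [polar_sub_right, polar_smul_right, polar_smul_right, hwv, ← hd]
      simp only [smul_eq_mul]
      field_simp
      ring
    · rw [polar_sub_right, polar_smul_right, polar_smul_right, ← ha, ← hb]
      simp only [smul_eq_mul]
      field_simp
      ring
    · rw [polar_sub_right, polar_smul_right, polar_smul_right, hwv, ← hd]
      simp only [smul_eq_mul]
      field_simp
      rw [hDd]
  · have hU : ∀ x, x ∈ perp2 Q v w ↔ ∀ s ∈ ({v, w} : Set V), polar Q s x = 0 := by
      intro x
      simp [mem_perp2]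
    apply sub_nondeg hQ {v, w} _ hU
    rw [eq_top_iff]
    intro x _
    set p := polar Q v x with hp
    set q := polar Q w x with hq
    set y := ((d * p - b * q) / D) • v + ((a * q - b * p) / D) • w with hy
    have e : x = y + (x - y) := by abel
    rw [e]
    apply Submodule.add_mem_sup
    · exact Submodule.add_mem _ (Submodule.smul_mem _ _ (Submodule.subset_span (by simp)))
        (Submodule.smul_mem _ _ (Submodule.subset_span (by simp)))
    · rw [mem_perp2]
      constructor
      · rw [polar_sub_right, hy, polar_add_right, polar_smul_right, polar_smul_right, ← ha, ← hb, ← hp]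
        simp only [smul_eq_mul]
        field_simp
        rw [hDd]
        ring
      · rw [polar_sub_right, hy, polar_add_right, polar_smul_right, polar_smul_right, hwv, ← hd, ← hq]
        simp only [smul_eq_mul]
        field_simp
        rw [hDd]
        ring

/-- the orthogonal complement of a vector -/
lemma perp1_value [Finite F] [FiniteDimensional F V] (h2 : (2 : F) ≠ 0) {Q : QuadraticForm F V}
    (hQ : (polarBilin Q).Nondegenerate) (hn : 3 ≤ finrank F V) {v : V} (hv : Q v ≠ 0) (c : F) :
    ∃ u, polar Q v u = 0 ∧ Q u = c := by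
  have hpv : polar Q v v ≠ 0 := by
    rw [polar_self']
    exact mul_ne_zero h2 hv
  let U : Submodule F V := LinearMap.ker (polarBilin Q v)
  have hU : ∀ x, x ∈ U ↔ ∀ s ∈ ({v} : Set V), polar Q s x = 0 := by
    intro x
    simp [U, LinearMap.mem_ker]
  have hsup : Submodule.span F ({v} : Set V) ⊔ U = ⊤ := by
    rw [eq_top_iff]
    intro x _
    have e : x = (polar Q v x / polar Q v v) • v + (x - (polar Q v x / polar Q v v) • v) := by
      abel
    rw [e]
    apply Submodule.add_mem_sup
    · exact Submodule.smul_mem _ _ (Submodule.subset_span rfl)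
    · rw [hU]
      intro s hs
      rw [Set.mem_singleton_iff] at hs
      subst hs
      rw [polar_sub_right, polar_smul_right, smul_eq_mul]
      field_simp
      ring
  have hfr : finrank F U + 1 = finrank F V := by
    have h1 := LinearMap.finrank_range_add_finrank_ker (polarBilin Q v)
    have hsurj : Function.Surjective (polarBilin Q v) := by
      intro c
      refine ⟨(c / polar Q v v) • v, ?_⟩
      simp only [polarBilin_apply_apply, polar_smul_right, smul_eq_mul]
      field_simp
    rw [LinearMap.range_eq_top.2 hsurj, finrank_top, Module.finrank_self] at h1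
    have h1' : finrank F U = finrank F (LinearMap.ker (polarBilin Q v)) := rfl
    omega
  obtain ⟨u, hu⟩ := Cfsg.Agent.H11.exists_value_of_nondeg (Q.comp U.subtype)
    (sub_nondeg hQ {v} U hU hsup) (by omega) c
  exact ⟨u, (hU _).1 u.2 v rfl, hu⟩

/-- the partner in a Siegel move -/
lemma exists_move_partner [Finite F] [FiniteDimensional F V] (h2 : (2 : F) ≠ 0)
    {Q : QuadraticForm F V} (hQ : (polarBilin Q).Nondegenerate) (hn : 5 ≤ finrank F V)
    {x v : V} (hx : Q x ≠ 0) (hv : v ≠ 0) (hQv : Q v = 0) (hxv : polar Q x v = 0) :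
    ∃ u, Q u = 0 ∧ polar Q u v = 0 ∧ polar Q u x ≠ 0 := by
  have hnotin : v ∉ Submodule.span F {x} := by
    intro h
    obtain ⟨τ, rfl⟩ := Submodule.mem_span_singleton.1 h
    rw [QuadraticMap.map_smul] at hQv
    simp only [smul_eq_mul] at hQv
    have hτ : τ = 0 := by
      rcases mul_eq_zero.1 hQv with h3 | h3
      · exact mul_self_eq_zero.1 h3
      · exact absurd h3 hx
    rw [hτ, zero_smul] at hv
    exact hv rfl
  obtain ⟨a, ha1, ha2⟩ := exists_dual hQ hnotin
  have hpvv : polar Q v v = 0 := by rw [polar_self', hQv, mul_zero]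
  have hvx : polar Q v x = 0 := by rw [polar_comm]; exact hxv
  obtain ⟨v', p1, p2, p3⟩ : ∃ v', polar Q v' v = 1 ∧ polar Q v' x = 0 ∧ Q v' = 0 := by
    refine ⟨a - Q a • v, ?_, ?_, ?_⟩
    · rw [polar_sub_left, polar_smul_left, ha1, hpvv]
      simp
    · rw [polar_sub_left, polar_smul_left, ha2, hvx]
      simp
    · rw [Q_sub, QuadraticMap.map_smul, hQv, polar_smul_right, polar_comm Q a v, polar_comm Q v a, ha1]
      simp
  have p4 : polar Q v v' = 1 := by rw [polar_comm]; exact p1
  have p5 : polar Q v' v' = 0 := by rw [polar_self', p3, mul_zero]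
  have hD : polar Q v v * polar Q v' v' - (polar Q v v') ^ 2 ≠ 0 := by
    rw [hpvv, p5, p4]
    simp
  obtain ⟨hfr, hnd⟩ := perp2_gram hQ hD
  have hxM : x ∈ perp2 Q v v' := (mem_perp2 Q v v' x).2 ⟨hvx, p2⟩
  obtain ⟨t, ht, hQt⟩ := Cfsg.Agent.H11.exists_isotropic (Q.comp (perp2 Q v v').subtype) (by omega)
  obtain ⟨s, hQs, hts⟩ := Cfsg.Agent.H11.exists_hyperbolic_pair hnd ht hQt
  have htm := (mem_perp2 Q v v' t).1 t.2
  have hsm := (mem_perp2 Q v v' s).1 s.2
  by_cases h1 : polar Q (t : V) x = 0
  · by_cases h3 : polar Q (s : V) x = 0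
    · refine ⟨(t : V) + x - Q x • (s : V), ?_, ?_, ?_⟩
      · have hQt' : Q (t : V) = 0 := hQt
        have hQs' : Q (s : V) = 0 := hQs
        have hts' : polar Q (t : V) (s : V) = 1 := hts
        rw [Q_sub, Q_add, QuadraticMap.map_smul, hQt', hQs', h1, polar_smul_right, polar_add_left, hts',
          polar_comm Q x (s : V), h3]
        simp
      · rw [polar_sub_left, polar_add_left, polar_smul_left, polar_comm Q (t : V) v, htm.1, hxv,
          polar_comm Q (s : V) v, hsm.1]
        simp
      · rw [polar_sub_left, polar_add_left, polar_smul_left, h1, h3, polar_self']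
        simp only [smul_zero, zero_add, sub_zero]
        exact mul_ne_zero h2 hx
    · refine ⟨s, hQs, ?_, h3⟩
      rw [polar_comm]
      exact hsm.1
  · refine ⟨t, hQt, ?_, h1⟩
    rw [polar_comm]
    exact htm.1

/-- the common neighbour of two vectors of the same value -/
lemma exists_common [Finite F] [FiniteDimensional F V] (h2 : (2 : F) ≠ 0)
    {Q : QuadraticForm F V} (hQ : (polarBilin Q).Nondegenerate) (hn : 5 ≤ finrank F V)
    {x y : V} (hx : Q x ≠ 0) (hxy : Q y = Q x)
    (hD : 4 * Q x * Q y - (polar Q x y) ^ 2 ≠ 0) :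
    ∃ z, Q z = Q x ∧ polar Q x z = 2 * Q x ∧ polar Q y z = 2 * Q x := by
  set A := Q x with hA
  set C := polar Q x y with hC
  have hpx : polar Q x x = 2 * A := polar_self' Q x
  have hpy : polar Q y y = 2 * A := by rw [polar_self', hxy]
  have hyx : polar Q y x = C := by rw [polar_comm]
  have hD' : polar Q x x * polar Q y y - (polar Q x y) ^ 2 ≠ 0 := by
    rw [hpx, hpy, ← hC]
    intro h
    apply hD
    rw [hxy]
    linear_combination h
  obtain ⟨hfr, hnd⟩ := perp2_gram hQ hD'
  have h2AC : 2 * A + C ≠ 0 := by
    intro h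
    apply hD
    rw [hxy]
    linear_combination (2 * A - C) * h
  set α := 2 * A / (2 * A + C) with hα
  have hQp : Q (α • (x + y)) = α ^ 2 * (2 * A + C) := by
    rw [QuadraticMap.map_smul, Q_add, hxy, ← hA, ← hC]
    simp only [smul_eq_mul]
    ring
  obtain ⟨k, hk⟩ := Cfsg.Agent.H11.exists_value_of_nondeg (Q.comp (perp2 Q x y).subtype) hnd (by omega)
    (A - Q (α • (x + y)))
  have hk' : Q (k : V) = A - Q (α • (x + y)) := hk
  obtain ⟨hk1, hk2⟩ := (mem_perp2 Q x y k).1 k.2
  refine ⟨α • (x + y) + (k : V), ?_, ?_, ?_⟩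
  · rw [Q_add, hk', polar_smul_left, polar_add_left, polar_comm Q x (k : V), polar_comm Q y (k : V)]
    rw [polar_comm Q (k : V) x, polar_comm Q (k : V) y, hk1, hk2]
    simp
  · rw [polar_add_right, polar_smul_right, polar_add_right, hpx, ← hC, hk1, hα]
    simp only [smul_eq_mul, add_zero]
    field_simp
  · rw [polar_add_right, polar_smul_right, polar_add_right, hpy, hyx, hk2, hα]
    simp only [smul_eq_mul, add_zero]
    field_simp
    ring

end Cfsg.Agent.H03.OSiegel
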