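import Mathlib
import Cfsg.Agent.Lib.H21.CharBasis
import Cfsg.Agent.Lib.H01.CharEquiv

/-! Central idempotents acting on a representation; multiplicity-free representations. -/

set_option autoImplicit false

namespace Cfsg.Agent.H03.PC

open Cfsg Cfsg.Agent.H21 Module Representation
open scoped ComplexConjugate

universe u v

variable {G : Type u} [Group G] [Fintype G]
variable {V : Type v} [AddCommGroup V] [Module ℂ V] [FiniteDimensional ℂ V]

/-- The central idempotent of `ψ` on a representation. -/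
noncomputable def eOp (ψ : G → ℂ) (ρ : Representation ℂ G V) : End ℂ V :=
  (ψ 1 * (Nat.card G : ℂ)⁻¹) • averageOp ψ ρ

omit [FiniteDimensional ℂ V] in
lemma eOp_comm_rho (ψ : G → ℂ) (hψ : IsClassFunction G ψ) (ρ : Representation ℂ G V) (k : G) :
    eOp ψ ρ ∘ₗ ρ k = ρ k ∘ₗ eOp ψ ρ := by
  have := averageOp_comm ψ hψ ρ k
  ext x
  have h2 := LinearMap.congr_fun this x
  simp only [eOp, LinearMap.comp_apply, LinearMap.smul_apply, map_smul] at h2 ⊢
  rw [h2]

omit [FiniteDimensional ℂ V] in
lemma eOp_comm_end (ψ : G → ℂ) (ρ : Representation ℂ G V) (T : End ℂ V)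
    (hT : ∀ g, T ∘ₗ ρ g = ρ g ∘ₗ T) : T ∘ₗ eOp ψ ρ = eOp ψ ρ ∘ₗ T := by
  ext x
  have h1 : ∀ g x, T (ρ g x) = ρ g (T x) := fun g x => LinearMap.congr_fun (hT g) x
  simp only [eOp, averageOp, LinearMap.comp_apply, LinearMap.smul_apply, LinearMap.sum_apply,
    map_smul, map_sum, h1]

lemma trace_eOp (ψ : G → ℂ) (ρ : Representation ℂ G V) :
    LinearMap.trace ℂ V (eOp ψ ρ) = ψ 1 * classInner ψ ρ.character := by
  have hne : (Nat.card G : ℂ) ≠ 0 := by simp [Nat.card_pos.ne']
  rw [eOp, map_smul, trace_averageOp, smul_eq_mul]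
  field_simp

lemma eOp_irr (ψ : IrrCharacter G) (ρ : Representation ℂ G V) (hρ : ρ.IsIrreducible) :
    eOp (ψ : G → ℂ) ρ = if (ψ : G → ℂ) = ρ.character then 1 else 0 := by
  classical
  have hψc : IsClassFunction G (ψ : G → ℂ) := fun g k => isCharacter_conj (isCharacter_of_irr ψ.2) g k
  obtain ⟨c, hc⟩ := schur_scalar ρ hρ (averageOp (ψ : G → ℂ) ρ) (averageOp_comm _ hψc ρ)
  have ht := trace_averageOp (ψ : G → ℂ) ρ
  let χ : IrrCharacter G := ⟨ρ.character, isIrrCharacter_of_rep ρ hρ⟩
  have hinn : classInner (ψ : G → ℂ) ρ.character = if ψ = χ then 1 else 0 := classInner_irr ψ χ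
  have hn : (finrank ℂ V : ℂ) ≠ 0 := by
    have := irr_charDegree_pos (isIrrCharacter_of_rep ρ hρ)
    simp only [charDegree, Representation.char_one] at this
    simp only [Complex.natCast_re, Nat.floor_natCast] at this
    exact_mod_cast this.ne'
  have hne : (Nat.card G : ℂ) ≠ 0 := by simp [Nat.card_pos.ne']
  rw [hc] at ht
  simp only [map_smul, LinearMap.trace_one, smul_eq_mul] at ht
  by_cases h : (ψ : G → ℂ) = ρ.character
  · have h1 : ψ = χ := Subtype.ext h
    rw [hinn, if_pos h1, mul_one] at ht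
    rw [if_pos h, eOp, hc, smul_smul]
    have h2 : (ψ : G → ℂ) 1 = finrank ℂ V := by
      rw [h, Representation.char_one]
    rw [h2]
    have h3 : ((finrank ℂ V : ℂ) * (Nat.card G : ℂ)⁻¹ * c) = 1 := by
      rw [mul_comm (finrank ℂ V : ℂ), mul_assoc, mul_comm (finrank ℂ V : ℂ), ht]
      field_simp
    rw [h3, one_smul]
  · have h1 : ψ ≠ χ := fun h2 => h (congrArg Subtype.val h2)
    rw [hinn, if_neg h1, mul_zero] at ht
    have hc0 : c = 0 := (mul_eq_zero.1 ht).resolve_right hn
    rw [if_neg h, eOp, hc, hc0]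
    simp

omit [FiniteDimensional ℂ V] in
lemma eOp_restrict (ψ : G → ℂ) {ρ : Representation ℂ G V} (S : Subrepresentation ρ)
    (x : S.toSubmodule) :
    ((eOp ψ S.toRepresentation x : S.toSubmodule) : V) = eOp ψ ρ (x : V) := by
  simp [eOp, averageOp, LinearMap.sum_apply, Subrepresentation.toRepresentation]

omit [FiniteDimensional ℂ V] in
lemma ext_compl {ρ : Representation ℂ G V} {S S' : Subrepresentation ρ} (hc : IsCompl S S')
    {F F' : End ℂ V} (h1 : ∀ x ∈ S.toSubmodule, F x = F' x) (h2 : ∀ x ∈ S'.toSubmodule, F x = F' x) :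
    F = F' := by
  apply LinearMap.ext
  intro x
  have hx : x ∈ S.toSubmodule ⊔ S'.toSubmodule := by
    have := hc.sup_eq_top
    have h3 : S.toSubmodule ⊔ S'.toSubmodule = ⊤ := congrArg Subrepresentation.toSubmodule this
    rw [h3]; trivial
  obtain ⟨a, ha, b, hb, rfl⟩ := Submodule.mem_sup.1 hx
  rw [map_add, map_add, h1 a ha, h2 b hb]

theorem eOp_mul (ψ φ : IrrCharacter G) (ρ : Representation ℂ G V) :
    eOp (ψ : G → ℂ) ρ ∘ₗ eOp (φ : G → ℂ) ρ = if ψ = φ then eOp (ψ : G → ℂ) ρ else 0 := by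
  classical
  refine rep_induction (fun V _ _ ρ => eOp (ψ : G → ℂ) ρ ∘ₗ eOp (φ : G → ℂ) ρ =
    if ψ = φ then eOp (ψ : G → ℂ) ρ else 0) ?_ ?_ ?_ V ρ
  · intro V _ _ _ ρ
    exact Subsingleton.elim _ _
  · intro V _ _ _ ρ hirr
    rw [eOp_irr ψ ρ hirr, eOp_irr φ ρ hirr]
    by_cases h : ψ = φ
    · subst h
      by_cases h2 : (ψ : G → ℂ) = ρ.character
      · simp [h2]
        rfl
      · simp [h2]
    · rw [if_neg h]
      by_cases h2 : (ψ : G → ℂ) = ρ.character
      · have h3 : (φ : G → ℂ) ≠ ρ.character := fun h3 => h (Subtype.ext (h2.trans h3.symm))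
        simp [h3]
      · simp [h2]
  · intro V _ _ _ ρ S S' hc h1 h2
    apply ext_compl hc
    · intro x hx
      have h3 := LinearMap.congr_fun h1 ⟨x, hx⟩
      have h4 := congrArg (Subtype.val) h3
      simp only [LinearMap.comp_apply, eOp_restrict] at h4
      simp only [LinearMap.comp_apply]
      rw [h4]
      by_cases h : ψ = φ
      · simp only [if_pos h, eOp_restrict]
      · simp [if_neg h]
    · intro x hx
      have h3 := LinearMap.congr_fun h2 ⟨x, hx⟩
      have h4 := congrArg (Subtype.val) h3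
      simp only [LinearMap.comp_apply, eOp_restrict] at h4
      simp only [LinearMap.comp_apply]
      rw [h4]
      by_cases h : ψ = φ
      · simp only [if_pos h, eOp_restrict]
      · simp [if_neg h]

theorem sum_eOp [Fintype (IrrCharacter G)] (ρ : Representation ℂ G V) :
    ∑ ψ : IrrCharacter G, eOp (ψ : G → ℂ) ρ = 1 := by
  classical
  refine rep_induction (fun V _ _ ρ => ∑ ψ : IrrCharacter G, eOp (ψ : G → ℂ) ρ = 1) ?_ ?_ ?_ V ρ
  · intro V _ _ _ ρ
    exact Subsingleton.elim _ _
  · intro V _ _ _ ρ hirr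
    simp only [eOp_irr _ ρ hirr]
    let χ : IrrCharacter G := ⟨ρ.character, isIrrCharacter_of_rep ρ hirr⟩
    rw [Finset.sum_eq_single χ]
    · simp [χ]
    · intro b _ hb
      rw [if_neg]
      intro h
      exact hb (Subtype.ext h)
    · simp
  · intro V _ _ _ ρ S S' hc h1 h2
    apply ext_compl hc
    · intro x hx
      have h3 := LinearMap.congr_fun h1 ⟨x, hx⟩
      have h4 := congrArg (Subtype.val) h3
      simpa [LinearMap.sum_apply, eOp_restrict] using h4
    · intro x hx
      have h3 := LinearMap.congr_fun h2 ⟨x, hx⟩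
      have h4 := congrArg (Subtype.val) h3
      simpa [LinearMap.sum_apply, eOp_restrict] using h4

theorem eOp_mul' (ψ φ : IrrCharacter G) (ρ : Representation ℂ G V) :
    eOp (ψ : G → ℂ) ρ * eOp (φ : G → ℂ) ρ = if ψ = φ then eOp (ψ : G → ℂ) ρ else 0 :=
  eOp_mul ψ φ ρ

omit [Fintype G] [FiniteDimensional ℂ V] in
lemma mem_inv_iff (ρ : Representation ℂ G V) (T : End ℂ V) :
    T ∈ (linHom ρ ρ).invariants ↔ ∀ g, T ∘ₗ ρ g = ρ g ∘ₗ T := by
  constructor
  · intro h g
    have h1 : ρ g ∘ₗ T ∘ₗ ρ g⁻¹ = T := h g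
    ext x
    conv_lhs => rw [← h1]
    simp
  · intro h g
    show ρ g ∘ₗ T ∘ₗ ρ g⁻¹ = T
    rw [← LinearMap.comp_assoc, ← h g, LinearMap.comp_assoc]
    ext x
    simp

omit [FiniteDimensional ℂ V] in
lemma eOp_mem (ψ : IrrCharacter G) (ρ : Representation ℂ G V) :
    eOp (ψ : G → ℂ) ρ ∈ (linHom ρ ρ).invariants := by
  rw [mem_inv_iff]
  exact eOp_comm_rho _ (fun g k => isCharacter_conj (isCharacter_of_irr ψ.2) g k) ρ

lemma irr_one_ne (ψ : IrrCharacter G) : (ψ : G → ℂ) 1 ≠ 0 := by
  have h1 := one_eq_charDegree (isCharacter_of_irr ψ.2)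
  have h2 := irr_charDegree_pos ψ.2
  rw [h1]
  exact_mod_cast h2.ne'

lemma inner_zero_iff (χ ψ : G → ℂ) : classInner χ ψ = 0 ↔ classInner ψ χ = 0 := by
  rw [← classInner_comm_conj χ ψ, map_eq_zero]

/-- the idempotent vanishes off the constituents -/
theorem eOp_eq_zero (ψ : IrrCharacter G) (ρ : Representation ℂ G V)
    (h : classInner ρ.character (ψ : G → ℂ) = 0) : eOp (ψ : G → ℂ) ρ = 0 := by
  have hid : IsIdempotentElem (eOp (ψ : G → ℂ) ρ) := by
    have := eOp_mul ψ ψ ρ
    rw [if_pos rfl] at this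
    exact this
  have h1 := LinearMap.IsIdempotentElem.isProj_range _ hid
  have h2 := h1.trace
  rw [trace_eOp, (inner_zero_iff _ _).1 h, mul_zero] at h2
  have h3 : finrank ℂ (LinearMap.range (eOp (ψ : G → ℂ) ρ)) = 0 := by
    exact_mod_cast h2.symm
  rw [Submodule.finrank_eq_zero] at h3
  exact LinearMap.range_eq_bot.1 h3

lemma eOp_ne_zero (ψ : IrrCharacter G) (ρ : Representation ℂ G V)
    (h : classInner ρ.character (ψ : G → ℂ) ≠ 0) : eOp (ψ : G → ℂ) ρ ≠ 0 := by
  intro h0
  have h2 := trace_eOp (ψ : G → ℂ) ρ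
  rw [h0, map_zero] at h2
  have h3 := (mul_eq_zero.1 h2.symm).resolve_left (irr_one_ne ψ)
  exact h ((inner_zero_iff _ _).2 h3)

/-- dimension of the centraliser algebra -/
theorem finrank_inv (ρ : Representation ℂ G V) :
    (finrank ℂ (linHom ρ ρ).invariants : ℂ) = classInner ρ.character ρ.character := by
  haveI : Invertible (Nat.card G : ℂ) := invertibleOfNonzero (by simp [Nat.card_pos.ne'])
  rw [← Representation.card_inv_mul_sum_char_eq_finrank (linHom ρ ρ), classInner]
  congr 1
  refine Finset.sum_congr rfl fun g _ => ?_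
  rw [Representation.char_linHom, character_inv, mul_comm]

/-- in a multiplicity-free representation, the idempotents span the centraliser algebra -/
theorem exists_expansion (ρ : Representation ℂ G V)
    (hm : ∀ ψ : IrrCharacter G, classInner ρ.character (ψ : G → ℂ) = 0 ∨
      classInner ρ.character (ψ : G → ℂ) = 1)
    (T : End ℂ V) (hT : T ∈ (linHom ρ ρ).invariants) :
    ∃ c : IrrCharacter G → ℂ, T = ∑ ψ ∈ (@Finset.univ _ (Fintype.ofFinite (IrrCharacter G))), c ψ • eOp (ψ : G → ℂ) ρ := by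
  classical
  letI : Fintype (IrrCharacter G) := Fintype.ofFinite _
  let I := {ψ : IrrCharacter G // classInner ρ.character (ψ : G → ℂ) = 1}
  let v : I → (linHom ρ ρ).invariants := fun ψ => ⟨eOp (ψ.1 : G → ℂ) ρ, eOp_mem ψ.1 ρ⟩
  have hli : LinearIndependent ℂ v := by
    rw [Fintype.linearIndependent_iff]
    intro c hc i
    have h1 : ∑ j, c j • eOp (j.1 : G → ℂ) ρ = 0 := by
      have := congrArg Subtype.val hc
      simpa [v] using this
    have h2 : (∑ j, c j • eOp (j.1 : G → ℂ) ρ) * eOp (i.1 : G → ℂ) ρ = 0 := by rw [h1, zero_mul]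
    rw [Finset.sum_mul] at h2
    simp only [smul_mul_assoc, eOp_mul'] at h2
    rw [Finset.sum_eq_single i] at h2
    · rw [if_pos rfl] at h2
      have hne : eOp (i.1 : G → ℂ) ρ ≠ 0 := eOp_ne_zero i.1 ρ (by rw [i.2]; exact one_ne_zero)
      exact (smul_eq_zero.1 h2).resolve_right hne
    · intro j _ hj
      rw [if_neg (fun h => hj (Subtype.ext h)), smul_zero]
    · simp
  have hcard : Fintype.card I = finrank ℂ (linHom ρ ρ).invariants := by
    have h1 := finrank_inv ρ
    obtain ⟨m, hm1, hm2⟩ := isCharacter_decomp (isCharacter_of_rep ρ)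
    have h2 : classInner ρ.character ρ.character = ((∑ ψ : IrrCharacter G, (m ψ) ^ 2 : ℕ) : ℂ) := by
      rw [congrArg (classInner ρ.character) hm1, classInner_sum_right]
      push_cast
      refine Finset.sum_congr rfl fun ψ _ => ?_
      rw [← Nat.cast_smul_eq_nsmul ℂ, classInner_smul_right, hm2 ψ, map_natCast, sq]
    have h3 : ∀ ψ : IrrCharacter G, (m ψ) ^ 2 = if classInner ρ.character (ψ : G → ℂ) = 1 then 1 else 0 := by
      intro ψ
      rw [hm2 ψ]
      rcases hm ψ with h | h
      · rw [hm2 ψ] at h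
        have h0 : m ψ = 0 := by exact_mod_cast h
        simp [h0]
      · rw [hm2 ψ] at h
        have h0 : m ψ = 1 := by exact_mod_cast h
        simp [h0]
    have h4 : ∑ ψ : IrrCharacter G, (m ψ) ^ 2 = Fintype.card I := by
      simp only [h3]
      rw [Fintype.card_subtype, Finset.card_filter]
    rw [h2, h4] at h1
    exact_mod_cast h1.symm
  have hspan := hli.span_eq_top_of_card_eq_finrank' hcard
  have hmem : (⟨T, hT⟩ : (linHom ρ ρ).invariants) ∈ Submodule.span ℂ (Set.range v) := by
    rw [hspan]; trivial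
  obtain ⟨c, hc⟩ := (Submodule.mem_span_range_iff_exists_fun ℂ).1 hmem
  refine ⟨fun ψ => if h : classInner ρ.character (ψ : G → ℂ) = 1 then c ⟨ψ, h⟩ else 0, ?_⟩
  have h1 : T = ∑ j, c j • eOp (j.1 : G → ℂ) ρ := by
    have := congrArg Subtype.val hc
    simpa [v] using this.symm
  rw [h1]
  rw [← Fintype.sum_subtype_add_sum_subtype (fun ψ : IrrCharacter G => classInner ρ.character (ψ : G → ℂ) = 1)]
  have h2 : ∑ ψ : {ψ : IrrCharacter G // ¬ classInner ρ.character (ψ : G → ℂ) = 1},
      (if h : classInner ρ.character (ψ.1 : G → ℂ) = 1 then c ⟨ψ.1, h⟩ else 0) • eOp (ψ.1 : G → ℂ) ρ = 0 := by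
    apply Finset.sum_eq_zero
    intro ψ _
    rw [dif_neg ψ.2, zero_smul]
  have h3 : ∑ ψ : {ψ : IrrCharacter G // classInner ρ.character (ψ : G → ℂ) = 1},
      (if h : classInner ρ.character (ψ.1 : G → ℂ) = 1 then c ⟨ψ.1, h⟩ else 0) • eOp (ψ.1 : G → ℂ) ρ =
      ∑ j, c j • eOp (j.1 : G → ℂ) ρ := by
    apply Finset.sum_congr rfl
    intro ψ _
    rw [dif_pos ψ.2]
  rw [add_comm] at *
  simp only [h2, h3, zero_add]

/-- multiplicity-free implies commutative centraliser algebra -/
theorem comm_of_multfree (ρ : Representation ℂ G V)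
    (hm : ∀ ψ : IrrCharacter G, classInner ρ.character (ψ : G → ℂ) = 0 ∨
      classInner ρ.character (ψ : G → ℂ) = 1)
    (S T : End ℂ V) (hS : S ∈ (linHom ρ ρ).invariants) (hT : T ∈ (linHom ρ ρ).invariants) :
    S ∘ₗ T = T ∘ₗ S := by
  classical
  letI : Fintype (IrrCharacter G) := Fintype.ofFinite _
  obtain ⟨c, rfl⟩ := exists_expansion ρ hm T hT
  have h1 := (mem_inv_iff ρ S).1 hS
  show S * _ = _ * S
  rw [Finset.mul_sum, Finset.sum_mul]
  refine Finset.sum_congr rfl fun ψ _ => ?_
  rw [mul_smul_comm, smul_mul_assoc]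
  congr 1
  exact eOp_comm_end _ ρ S h1

/-- the action of the centraliser algebra on an idempotent -/
theorem mul_eOp_of_multfree (ρ : Representation ℂ G V)
    (hm : ∀ ψ : IrrCharacter G, classInner ρ.character (ψ : G → ℂ) = 0 ∨
      classInner ρ.character (ψ : G → ℂ) = 1)
    (T : End ℂ V) (hT : T ∈ (linHom ρ ρ).invariants) (φ : IrrCharacter G) :
    ∃ c : ℂ, T * eOp (φ : G → ℂ) ρ = c • eOp (φ : G → ℂ) ρ := by
  classical
  letI : Fintype (IrrCharacter G) := Fintype.ofFinite _
  obtain ⟨c, rfl⟩ := exists_expansion ρ hm T hT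
  refine ⟨c φ, ?_⟩
  rw [Finset.sum_mul]
  simp only [smul_mul_assoc, eOp_mul']
  rw [Finset.sum_eq_single φ]
  · rw [if_pos rfl]
  · intro b _ hb
    rw [if_neg hb, smul_zero]
  · simp

omit [Fintype G] [FiniteDimensional ℂ V] in
/-- a subrepresentation of a subrepresentation -/
lemma map_subrep [FiniteDimensional ℂ V] {ρ : Representation ℂ G V} (S : Subrepresentation ρ)
    (U : Subrepresentation S.toRepresentation) :
    ∃ U' : Subrepresentation ρ, U'.toSubmodule ≤ S.toSubmodule ∧
      U'.toRepresentation.character = U.toRepresentation.character := by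
  let U' : Subrepresentation ρ :=
    { toSubmodule := U.toSubmodule.map S.toSubmodule.subtype
      apply_mem_toSubmodule := by
        rintro g _ ⟨u, hu, rfl⟩
        exact ⟨S.toRepresentation g u, U.apply_mem_toSubmodule g hu, rfl⟩ }
  refine ⟨U', ?_, ?_⟩
  · rintro _ ⟨u, _, rfl⟩
    exact u.2
  · let e : U.toSubmodule ≃ₗ[ℂ] U'.toSubmodule :=
      Submodule.equivMapOfInjective S.toSubmodule.subtype S.toSubmodule.injective_subtype U.toSubmodule
    symm
    refine Representation.char_iso (Representation.Equiv.mk e fun g => ?_)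
    ext x
    rfl

/-- every constituent is afforded by a subrepresentation -/
theorem exists_subrep_char (ρ : Representation ℂ G V) :
    ∀ ψ : IrrCharacter G, classInner ρ.character (ψ : G → ℂ) ≠ 0 →
      ∃ U : Subrepresentation ρ, U.toRepresentation.character = (ψ : G → ℂ) := by
  classical
  refine rep_induction (fun V _ _ ρ => ∀ [FiniteDimensional ℂ V], ∀ ψ : IrrCharacter G,
    classInner ρ.character (ψ : G → ℂ) ≠ 0 →
      ∃ U : Subrepresentation ρ, U.toRepresentation.character = (ψ : G → ℂ)) ?_ ?_ ?_ V ρ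
  · intro V _ _ _ ρ _ ψ h
    exfalso
    apply h
    have : ρ.character = 0 := by
      funext g
      have : ρ g = 0 := Subsingleton.elim _ _
      simp [Representation.character, this]
    rw [this, classInner_zero_left]
  · intro V _ _ _ ρ hirr _ ψ h
    let χ : IrrCharacter G := ⟨ρ.character, isIrrCharacter_of_rep ρ hirr⟩
    have h1 : χ = ψ := by
      by_contra hne
      apply h
      have := classInner_irr χ ψ
      rwa [if_neg hne] at this
    refine ⟨⊤, ?_⟩
    rw [← h1]
    show (⊤ : Subrepresentation ρ).toRepresentation.character = ρ.character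
    refine Representation.char_iso (Representation.Equiv.mk (Submodule.topEquiv) fun g => ?_)
    ext x
    rfl
  · intro V _ _ _ ρ S S' hc h1 h2 _ ψ h
    have hadd := Cfsg.Agent.H01.character_eq_add_of_isCompl hc
    rw [hadd, classInner_add_left] at h
    by_cases h3 : classInner S.toRepresentation.character (ψ : G → ℂ) = 0
    · rw [h3, zero_add] at h
      obtain ⟨U, hU⟩ := @h2 inferInstance ψ h
      obtain ⟨U', _, hU'⟩ := map_subrep S' U
      exact ⟨U', hU'.trans hU⟩
    · obtain ⟨U, hU⟩ := @h1 inferInstance ψ h3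
      obtain ⟨U', _, hU'⟩ := map_subrep S U
      exact ⟨U', hU'.trans hU⟩

/-- a constituent of multiplicity at least two yields a noncommutative centraliser algebra -/
theorem not_comm_of_mult (ρ : Representation ℂ G V) (ψ : IrrCharacter G) (n : ℕ) (hn : 2 ≤ n)
    (h : classInner ρ.character (ψ : G → ℂ) = n) :
    ∃ S T : End ℂ V, S ∈ (linHom ρ ρ).invariants ∧ T ∈ (linHom ρ ρ).invariants ∧
      S ∘ₗ T ≠ T ∘ₗ S := by
  classical
  have hne : classInner ρ.character (ψ : G → ℂ) ≠ 0 := by
    rw [h]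
    exact_mod_cast (by omega : n ≠ 0)
  obtain ⟨U, hU⟩ := exists_subrep_char ρ ψ hne
  obtain ⟨U', hc⟩ := exists_isCompl U
  have hadd := Cfsg.Agent.H01.character_eq_add_of_isCompl hc
  have h1 : classInner U'.toRepresentation.character (ψ : G → ℂ) ≠ 0 := by
    have h2 : classInner ρ.character (ψ : G → ℂ) = 1 + classInner U'.toRepresentation.character (ψ : G → ℂ) := by
      rw [hadd, classInner_add_left, hU, classInner_irr, if_pos rfl]
    rw [h] at h2
    intro h3
    rw [h3, add_zero] at h2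
    have : n = 1 := by exact_mod_cast h2
    omega
  obtain ⟨U₂₀, hU₂₀⟩ := exists_subrep_char U'.toRepresentation ψ h1
  obtain ⟨U₂, hle, hU₂⟩ := map_subrep U' U₂₀
  obtain ⟨i⟩ := Cfsg.Agent.H01.equiv_of_character_eq U.toRepresentation U₂.toRepresentation
    (hU.trans (hU₂.trans hU₂₀).symm)
  have hcs := Cfsg.Agent.H01.isCompl_toSubmodule hc
  let proj := Submodule.linearProjOfIsCompl U.toSubmodule U'.toSubmodule hcs
  have hproj : ∀ g x, proj (ρ g x) = U.toRepresentation g (proj x) := by
    intro g x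
    have hx : x ∈ U.toSubmodule ⊔ U'.toSubmodule := by rw [hcs.sup_eq_top]; trivial
    obtain ⟨a, ha, b, hb, rfl⟩ := Submodule.mem_sup.1 hx
    have h2 : proj a = ⟨a, ha⟩ := Submodule.linearProjOfIsCompl_apply_left hcs ⟨a, ha⟩
    have h3 : proj b = 0 := Submodule.linearProjOfIsCompl_apply_right hcs ⟨b, hb⟩
    have h4 : proj (ρ g a) = ⟨ρ g a, U.apply_mem_toSubmodule g ha⟩ :=
      Submodule.linearProjOfIsCompl_apply_left hcs ⟨ρ g a, U.apply_mem_toSubmodule g ha⟩
    have h5 : proj (ρ g b) = 0 :=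
      Submodule.linearProjOfIsCompl_apply_right hcs ⟨ρ g b, U'.apply_mem_toSubmodule g hb⟩
    have h6 : proj (a + b) = ⟨a, ha⟩ := by rw [map_add, h2, h3, add_zero]
    rw [map_add, map_add, h4, h5, h6, add_zero]
    rfl
  let S : End ℂ V := U.toSubmodule.subtype ∘ₗ proj
  let T : End ℂ V := U₂.toSubmodule.subtype ∘ₗ i.toLinearEquiv.toLinearMap ∘ₗ proj
  have hi : ∀ g u, i.toLinearEquiv (U.toRepresentation g u) = U₂.toRepresentation g (i.toLinearEquiv u) := by
    intro g u
    exact Representation.IntertwiningMap.isIntertwining _ _ i.toIntertwiningMap g u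
  refine ⟨S, T, ?_, ?_, ?_⟩
  · rw [mem_inv_iff]
    intro g
    ext x
    simp only [S, LinearMap.comp_apply, Submodule.subtype_apply]
    rw [hproj]
    rfl
  · rw [mem_inv_iff]
    intro g
    ext x
    simp only [T, LinearMap.comp_apply, Submodule.subtype_apply]
    rw [hproj]
    exact congrArg Subtype.val (hi g (proj x))
  · intro hST
    have hST2 : S ∘ₗ T = 0 := by
      ext x
      simp only [S, T, LinearMap.comp_apply, Submodule.subtype_apply, LinearMap.zero_apply]
      have h2 : proj ((i.toLinearEquiv (proj x) : U₂.toSubmodule) : V) = 0 :=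
        Submodule.linearProjOfIsCompl_apply_right hcs ⟨_, hle (i.toLinearEquiv (proj x)).2⟩
      exact congrArg Subtype.val h2
    have hTS : T ∘ₗ S = T := by
      ext x
      simp only [S, T, LinearMap.comp_apply, Submodule.subtype_apply]
      have h2 : proj ((proj x : U.toSubmodule) : V) = proj x :=
        Submodule.linearProjOfIsCompl_apply_left hcs (proj x)
      rw [h2]
    rw [hST2, hTS] at hST
    -- `U` is nontrivial
    have hd : finrank ℂ U.toSubmodule ≠ 0 := by
      intro h0
      have h2 : U.toRepresentation.character 1 = finrank ℂ U.toSubmodule := Representation.char_one _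
      rw [hU, h0] at h2
      exact irr_one_ne ψ (by simpa using h2)
    have hnt : Nontrivial U.toSubmodule := Module.nontrivial_of_finrank_pos (R := ℂ) (Nat.pos_of_ne_zero hd)
    obtain ⟨u, hu⟩ := exists_ne (0 : U.toSubmodule)
    have h3 := LinearMap.congr_fun hST (u : V)
    have h4 : proj (u : V) = u := Submodule.linearProjOfIsCompl_apply_left hcs u
    simp only [T, LinearMap.zero_apply, LinearMap.comp_apply, Submodule.subtype_apply, h4] at h3
    have h5 : i.toLinearEquiv u = 0 := Subtype.ext h3.symm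
    exact hu (i.toLinearEquiv.map_eq_zero_iff.1 h5)

/-- multiplicity-free iff commutative -/
theorem multfree_iff_comm (ρ : Representation ℂ G V) :
    (∀ ψ : IrrCharacter G, classInner ρ.character (ψ : G → ℂ) = 0 ∨
      classInner ρ.character (ψ : G → ℂ) = 1) ↔
    ∀ S T : End ℂ V, S ∈ (linHom ρ ρ).invariants → T ∈ (linHom ρ ρ).invariants →
      S ∘ₗ T = T ∘ₗ S := by
  classical
  letI : Fintype (IrrCharacter G) := Fintype.ofFinite _
  constructor
  · intro hm S T hS hT
    exact comm_of_multfree ρ hm S T hS hT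
  · intro hc ψ
    obtain ⟨n, hn⟩ := classInner_isNat (isCharacter_of_rep ρ) ψ
    rcases n with _ | _ | n
    · left; simpa using hn
    · right; simpa using hn
    · exfalso
      obtain ⟨S, T, hS, hT, hne⟩ := not_comm_of_mult ρ ψ (n + 2) (by omega) (by rw [hn])
      exact hne (hc S T hS hT)

/-- divisibility of the dimension of a subrepresentation -/
theorem dvd_finrank (ρ : Representation ℂ G V) (f : ℕ)
    (hf : ∀ ψ : IrrCharacter G, classInner ρ.character (ψ : G → ℂ) ≠ 0 →
      ∃ m : ℕ, (ψ : G → ℂ) 1 = f * m) : f ∣ finrank ℂ V := by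
  classical
  letI : Fintype (IrrCharacter G) := Fintype.ofFinite _
  obtain ⟨m, hm1, hm2⟩ := isCharacter_decomp (isCharacter_of_rep ρ)
  have h1 : ((finrank ℂ V : ℕ) : ℂ) = ρ.character 1 := (Representation.char_one ρ).symm
  rw [hm1] at h1
  simp only [Finset.sum_apply, Pi.smul_apply] at h1
  have h2 : ∀ ψ : IrrCharacter G, ∃ k : ℕ, m ψ • (ψ : G → ℂ) 1 = ((f * k : ℕ) : ℂ) := by
    intro ψ
    by_cases h0 : m ψ = 0
    · exact ⟨0, by simp [h0]⟩
    · obtain ⟨k, hk⟩ := hf ψ (by rw [hm2 ψ]; exact_mod_cast h0)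
      refine ⟨m ψ * k, ?_⟩
      rw [hk]
      push_cast
      simp only [nsmul_eq_mul]
      ring
  choose k hk using h2
  simp only [hk] at h1
  have h3 : finrank ℂ V = ∑ ψ, f * k ψ := by exact_mod_cast h1
  rw [h3, ← Finset.mul_sum]
  exact dvd_mul_right _ _

end Cfsg.Agent.H03.PC
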