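import Mathlib
import Cfsg.Prelude.Def_Perm
import Cfsg.Agent.Lib.H03.PC1
import Cfsg.Agent.Lib.H01.CharA

/-! Permutation characters: orbital operators. -/

set_option autoImplicit false

namespace Cfsg.Agent.H03.PC

open Cfsg Cfsg.Agent.H21 Module Representation MulAction
open scoped ComplexConjugate

universe u v w

section Trace

variable {V : Type v} [AddCommGroup V] [Module ℂ V] [FiniteDimensional ℂ V]

theorem trace_eq_mul_integral (T : End ℂ V) (f : ℕ)
    (hdim : ∀ l : ℂ, l ≠ 0 → f ∣ finrank ℂ (T.maxGenEigenspace l))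
    (hint : ∀ l : ℂ, l ≠ 0 → T.HasEigenvalue l → IsIntegral ℤ l) :
    ∃ γ : ℂ, IsIntegral ℤ γ ∧ LinearMap.trace ℂ V T = f * γ := by
  classical
  have hs : T.charpoly.Splits := IsAlgClosed.splits _
  rw [Module.End.trace_eq_sum_roots_charpoly_of_splits hs, Finset.sum_multiset_count]
  have h1 : ∀ l : ℂ, ∃ k : ℕ, l ≠ 0 → T.charpoly.roots.count l = f * k := by
    intro l
    by_cases hl : l = 0
    · exact ⟨0, fun h => absurd hl h⟩
    · obtain ⟨k, hk⟩ := hdim l hl
      refine ⟨k, fun _ => ?_⟩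
      rw [Polynomial.count_roots, ← LinearMap.finrank_maxGenEigenspace_eq, hk]
  choose k hk using h1
  refine ⟨∑ l ∈ T.charpoly.roots.toFinset, (k l : ℂ) * l, ?_, ?_⟩
  · apply IsIntegral.sum
    intro l hl
    by_cases h0 : l = 0
    · rw [h0, mul_zero]; exact isIntegral_zero
    · apply IsIntegral.mul (isIntegral_natCast _)
      apply hint l h0
      rw [Module.End.hasEigenvalue_iff_isRoot_charpoly]
      exact (Polynomial.mem_roots'.1 (Multiset.mem_toFinset.1 hl)).2
  · rw [Finset.mul_sum]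
    refine Finset.sum_congr rfl fun l _ => ?_
    by_cases h0 : l = 0
    · simp [h0]
    · rw [hk l h0, nsmul_eq_mul]
      push_cast
      ring

end Trace

section Sub

variable {G : Type u} [Group G] [Fintype G]
variable {V : Type v} [AddCommGroup V] [Module ℂ V] [FiniteDimensional ℂ V]

/-- the generalised eigenspace as a subrepresentation -/
noncomputable def genSub (ρ : Representation ℂ G V) (T : End ℂ V) (hT : ∀ g, T ∘ₗ ρ g = ρ g ∘ₗ T)
    (l : ℂ) : Subrepresentation ρ where
  toSubmodule := T.maxGenEigenspace l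
  apply_mem_toSubmodule := by
    intro g x hx
    rw [Module.End.mem_maxGenEigenspace] at hx ⊢
    obtain ⟨k, hk⟩ := hx
    refine ⟨k, ?_⟩
    have hc : Commute (T - l • (1 : End ℂ V)) (ρ g) := by
      show (T - l • (1 : End ℂ V)) * ρ g = ρ g * (T - l • (1 : End ℂ V))
      rw [sub_mul, mul_sub, smul_mul_assoc, mul_smul_comm, one_mul, mul_one]
      congr 1
      exact hT g
    have h2 := (hc.pow_left k).eq
    have h3 := LinearMap.congr_fun h2 x
    show ((T - l • (1 : End ℂ V)) ^ k * ρ g) x = 0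
    rw [h3]
    show ρ g (((T - l • (1 : End ℂ V)) ^ k) x) = 0
    rw [hk, map_zero]

/-- constituents of a subrepresentation are constituents -/
lemma sub_inner_ne (ρ : Representation ℂ G V) (W : Subrepresentation ρ) (ψ : IrrCharacter G)
    (h : classInner W.toRepresentation.character (ψ : G → ℂ) ≠ 0) :
    classInner ρ.character (ψ : G → ℂ) ≠ 0 := by
  classical
  letI : Fintype (IrrCharacter G) := Fintype.ofFinite _
  obtain ⟨W', hc⟩ := exists_isCompl W
  have hadd := Cfsg.Agent.H01.character_eq_add_of_isCompl hc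
  obtain ⟨a, ha⟩ := classInner_isNat (isCharacter_of_rep W.toRepresentation) ψ
  obtain ⟨b, hb⟩ := classInner_isNat (isCharacter_of_rep W'.toRepresentation) ψ
  rw [hadd, classInner_add_left, ha, hb]
  rw [ha] at h
  have ha0 : a ≠ 0 := by
    rintro rfl
    simp at h
  exact_mod_cast (by omega : a + b ≠ 0)

end Sub

section Integral

variable {Ω : Type w} [Fintype Ω] [DecidableEq Ω]

lemma isIntegral_eigen (M₀ : Matrix Ω Ω ℤ) (l : ℂ)
    (h : Module.End.HasEigenvalue (M₀.map (Int.castRingHom ℂ)).mulVecLin l) : IsIntegral ℤ l := by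
  have h1 : (M₀.map (Int.castRingHom ℂ)).charpoly = M₀.charpoly.map (Int.castRingHom ℂ) :=
    (Matrix.charpoly_map M₀ (Int.castRingHom ℂ))
  obtain ⟨x, hx⟩ := h.exists_hasEigenvector
  refine ⟨M₀.charpoly, Matrix.charpoly_monic M₀, ?_⟩
  have h2 : Polynomial.aeval (M₀.map (Int.castRingHom ℂ)) (M₀.map (Int.castRingHom ℂ)).charpoly = 0 :=
    Matrix.aeval_self_charpoly _
  have h3 := Module.End.aeval_apply_of_hasEigenvector hx (p := (M₀.map (Int.castRingHom ℂ)).charpoly)
  have h4 : Polynomial.aeval (M₀.map (Int.castRingHom ℂ)).mulVecLin (M₀.map (Int.castRingHom ℂ)).charpoly = 0 := by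
    have : (M₀.map (Int.castRingHom ℂ)).mulVecLin =
        (Matrix.toLinAlgEquiv' (R := ℂ) (n := Ω)) (M₀.map (Int.castRingHom ℂ)) := rfl
    rw [this, Polynomial.aeval_algEquiv, AlgHom.comp_apply, h2, map_zero]
  rw [h4, LinearMap.zero_apply] at h3
  have h5 : Polynomial.eval l (M₀.map (Int.castRingHom ℂ)).charpoly = 0 :=
    (smul_eq_zero.1 h3.symm).resolve_right hx.2
  rw [h1, Polynomial.eval_map] at h5
  exact h5

end Integral

section Perm

variable {G : Type u} [Group G] [Fintype G] {Ω : Type w} [Fintype Ω] [MulAction G Ω]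

theorem perm_char (g : G) :
    (Cfsg.permRep ℂ G Ω).character g = (Nat.card (MulAction.fixedBy Ω g) : ℂ) := by
  classical
  unfold Representation.character
  rw [LinearMap.trace_eq_matrix_trace ℂ (Pi.basisFun ℂ Ω)]
  simp only [Matrix.trace, Matrix.diag_apply, LinearMap.toMatrix_apply, Pi.basisFun_repr,
    Pi.basisFun_apply]
  have h1 : ∀ x : Ω, (Cfsg.permRep ℂ G Ω g) (Pi.single x 1) x = if g • x = x then (1 : ℂ) else 0 := by
    intro x
    change (Pi.single x (1:ℂ) : Ω → ℂ) (g⁻¹ • x) = _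
    rw [Pi.single_apply]
    have : g⁻¹ • x = x ↔ g • x = x := by
      constructor
      · intro h
        have := congrArg (g • ·) h
        simp only [smul_inv_smul] at this
        exact this.symm
      · intro h
        rw [inv_smul_eq_iff, h]
    simp only [this]
  simp only [h1]
  rw [Finset.sum_boole, Nat.card_eq_fintype_card, Fintype.card_subtype]
  rfl

theorem perm_char_fun :
    (Cfsg.permRep ℂ G Ω).character = fun g : G => (Nat.card (MulAction.fixedBy Ω g) : ℂ) :=
  funext perm_char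

/-- invariant kernels give invariant operators -/
lemma inv_of_matrix (M : Matrix Ω Ω ℂ) (hM : ∀ (g : G) x y, M (g • x) (g • y) = M x y) :
    M.mulVecLin ∈ (linHom (Cfsg.permRep ℂ G Ω) (Cfsg.permRep ℂ G Ω)).invariants := by
  rw [mem_inv_iff]
  intro g
  ext f x
  simp only [LinearMap.comp_apply, Matrix.mulVecLin_apply]
  show (M.mulVec (fun y => f (g⁻¹ • y))) x = (M.mulVec f) (g⁻¹ • x)
  simp only [Matrix.mulVec, dotProduct]
  rw [← Equiv.sum_comp (MulAction.toPerm g)]
  refine Finset.sum_congr rfl fun y _ => ?_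
  simp only [MulAction.toPerm_apply, inv_smul_smul]
  congr 1
  have := hM g⁻¹ x (g • y)
  rw [inv_smul_smul] at this
  exact this.symm

/-- the one character -/
def oneI (G : Type u) [Group G] : IrrCharacter G := ⟨fun _ => 1, isIrrCharacter_one⟩

/-- the idempotent of the trivial character -/
lemma e1_apply (f : Ω → ℂ) (x : Ω) :
    eOp ((oneI G : IrrCharacter G) : G → ℂ) (Cfsg.permRep ℂ G Ω) f x =
      (Nat.card G : ℂ)⁻¹ * ∑ g : G, f (g • x) := by
  simp only [eOp, averageOp, oneI, one_mul, LinearMap.smul_apply, LinearMap.sum_apply, one_smul,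
    smul_eq_mul, Finset.sum_apply, Pi.smul_apply]
  congr 1
  refine Finset.sum_congr rfl fun g _ => ?_
  show f (g⁻¹⁻¹ • x) = _
  rw [inv_inv]

lemma e1_const [MulAction.IsPretransitive G Ω] (f : Ω → ℂ) (x y : Ω) :
    eOp ((oneI G : IrrCharacter G) : G → ℂ) (Cfsg.permRep ℂ G Ω) f x =
    eOp ((oneI G : IrrCharacter G) : G → ℂ) (Cfsg.permRep ℂ G Ω) f y := by
  obtain ⟨h, rfl⟩ := MulAction.exists_smul_eq G x y
  rw [e1_apply, e1_apply]
  congr 1
  rw [← Equiv.sum_comp (Equiv.mulRight h)]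
  refine Finset.sum_congr rfl fun g _ => ?_
  simp [mul_smul]

lemma e1_one (x : Ω) :
    eOp ((oneI G : IrrCharacter G) : G → ℂ) (Cfsg.permRep ℂ G Ω) (fun _ => 1) x = 1 := by
  rw [e1_apply]
  have hne : (Nat.card G : ℂ) ≠ 0 := by simp [Nat.card_pos.ne']
  simp only [Finset.sum_const, Finset.card_univ, nsmul_eq_mul, mul_one, Nat.card_eq_fintype_card]
  rw [Nat.card_eq_fintype_card] at hne
  exact inv_mul_cancel₀ hne

/-- the trace of the trivial idempotent for a transitive action -/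
lemma trace_e1 [MulAction.IsPretransitive G Ω] [Nonempty Ω] :
    LinearMap.trace ℂ (Ω → ℂ) (eOp ((oneI G : IrrCharacter G) : G → ℂ) (Cfsg.permRep ℂ G Ω)) = 1 := by
  classical
  have hid : IsIdempotentElem (eOp ((oneI G : IrrCharacter G) : G → ℂ) (Cfsg.permRep ℂ G Ω)) := by
    have := eOp_mul (oneI G) (oneI G) (Cfsg.permRep ℂ G Ω)
    rw [if_pos rfl] at this
    exact this
  have h1 := (LinearMap.IsIdempotentElem.isProj_range _ hid).trace
  rw [h1]
  have h2 : LinearMap.range (eOp ((oneI G : IrrCharacter G) : G → ℂ) (Cfsg.permRep ℂ G Ω)) =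
      Submodule.span ℂ {(fun _ => 1 : Ω → ℂ)} := by
    apply le_antisymm
    · rintro _ ⟨f, rfl⟩
      rw [Submodule.mem_span_singleton]
      obtain ⟨x₀⟩ := ‹Nonempty Ω›
      refine ⟨eOp ((oneI G : IrrCharacter G) : G → ℂ) (Cfsg.permRep ℂ G Ω) f x₀, ?_⟩
      funext y
      simp only [Pi.smul_apply, smul_eq_mul, mul_one]
      exact e1_const f x₀ y
    · rw [Submodule.span_singleton_le_iff_mem]
      refine ⟨fun _ => 1, ?_⟩
      funext y
      exact e1_one y
  rw [h2, finrank_span_singleton]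
  · simp
  · intro h
    obtain ⟨x₀⟩ := ‹Nonempty Ω›
    have := congrFun h x₀
    simp at this

/-- `⟨π, 1⟩ = 1` -/
lemma inner_perm_one [MulAction.IsPretransitive G Ω] [Nonempty Ω] :
    classInner (Cfsg.permRep ℂ G Ω).character ((oneI G : IrrCharacter G) : G → ℂ) = 1 := by
  have h := trace_eOp ((oneI G : IrrCharacter G) : G → ℂ) (Cfsg.permRep ℂ G Ω)
  rw [trace_e1] at h
  have h2 : ((oneI G : IrrCharacter G) : G → ℂ) 1 = 1 := rfl
  rw [h2, one_mul] at h
  rw [← classInner_comm_conj, ← h, map_one]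


open Classical in
/-- the orbital kernel -/
noncomputable def orbK (G : Type u) [Group G] {Ω : Type w} [MulAction G Ω] (a b : Ω) : Matrix Ω Ω ℤ :=
  fun x y => if ∃ g : G, g • a = x ∧ g • b = y then 1 else 0

/-- the orbital operator -/
noncomputable def orbC (G : Type u) [Group G] {Ω : Type w} [MulAction G Ω] (a b : Ω) : Matrix Ω Ω ℂ :=
  (orbK G a b).map (Int.castRingHom ℂ)

open Classical in
lemma orbC_apply (a b x y : Ω) : orbC G a b x y = if ∃ g : G, g • a = x ∧ g • b = y then 1 else 0 := by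
  simp only [orbC, orbK, Matrix.map_apply]
  split_ifs <;> simp

lemma orbC_inv (a b : Ω) (g : G) (x y : Ω) : orbC G a b (g • x) (g • y) = orbC G a b x y := by
  classical
  rw [orbC_apply, orbC_apply]
  have : (∃ h : G, h • a = g • x ∧ h • b = g • y) ↔ ∃ h : G, h • a = x ∧ h • b = y := by
    constructor
    · rintro ⟨h, h1, h2⟩
      refine ⟨g⁻¹ * h, ?_, ?_⟩
      · rw [mul_smul, h1, inv_smul_smul]
      · rw [mul_smul, h2, inv_smul_smul]
    · rintro ⟨h, h1, h2⟩
      refine ⟨g * h, ?_, ?_⟩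
      · rw [mul_smul, h1]
      · rw [mul_smul, h2]
  simp only [this]

lemma orbA_mem (a b : Ω) : (orbC G a b).mulVecLin ∈
    (linHom (Cfsg.permRep ℂ G Ω) (Cfsg.permRep ℂ G Ω)).invariants :=
  inv_of_matrix _ (orbC_inv a b)

lemma orbA_comm (a b : Ω) (g : G) : (orbC G a b).mulVecLin ∘ₗ (Cfsg.permRep ℂ G Ω) g =
    (Cfsg.permRep ℂ G Ω) g ∘ₗ (orbC G a b).mulVecLin :=
  (mem_inv_iff _ _).1 (orbA_mem a b) g

/-- row sums of the orbital kernel -/
lemma orbC_row [MulAction.IsPretransitive G Ω] (a b x : Ω) (c : ℂ) :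
    ((orbC G a b).mulVecLin (fun _ => c)) x =
      (Nat.card (MulAction.orbit (MulAction.stabilizer G a) b) : ℂ) * c := by
  classical
  obtain ⟨h, rfl⟩ := MulAction.exists_smul_eq G a x
  simp only [Matrix.mulVecLin_apply, Matrix.mulVec, dotProduct, orbC_apply, ite_mul, one_mul, zero_mul]
  rw [Finset.sum_ite, Finset.sum_const_zero, add_zero, Finset.sum_const, nsmul_eq_mul]
  congr 2
  rw [Nat.card_eq_fintype_card, ← Fintype.card_coe]
  symm
  refine Fintype.card_congr ?_
  refine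
    { toFun := fun y => ⟨h • (y.1 : Ω), ?_⟩
      invFun := fun y => ⟨h⁻¹ • (y.1 : Ω), ?_⟩
      left_inv := ?_
      right_inv := ?_ }
  · obtain ⟨y, s, rfl⟩ := y
    rw [Finset.mem_filter]
    refine ⟨Finset.mem_univ _, h * s.1, ?_, ?_⟩
    · rw [mul_smul, s.2]
    · rw [mul_smul]; rfl
  · obtain ⟨y, hy⟩ := y
    obtain ⟨_, g, h1, h2⟩ := Finset.mem_filter.1 hy
    refine ⟨⟨h⁻¹ * g, ?_⟩, ?_⟩
    · rw [MulAction.mem_stabilizer_iff, mul_smul, h1, inv_smul_smul]
    · show (h⁻¹ * g) • b = h⁻¹ • y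
      rw [mul_smul, h2]
  · rintro ⟨y, hy⟩
    apply Subtype.ext
    simp
  · rintro ⟨y, hy⟩
    apply Subtype.ext
    simp

lemma trace_orbA (a b : Ω) (hab : b ≠ a) :
    LinearMap.trace ℂ (Ω → ℂ) (orbC G a b).mulVecLin = 0 := by
  classical
  have h1 : (orbC G a b).mulVecLin = Matrix.toLin' (orbC G a b) := rfl
  rw [h1, Matrix.trace_toLin'_eq, Matrix.trace]
  apply Finset.sum_eq_zero
  intro x _
  rw [Matrix.diag_apply, orbC_apply, if_neg]
  rintro ⟨g, h2, h3⟩
  apply hab
  exact MulAction.injective g (h3.trans h2.symm)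

/-- eigenvalues of orbital operators are algebraic integers -/
lemma orbA_integral (a b : Ω) (l : ℂ) (h : Module.End.HasEigenvalue (orbC G a b).mulVecLin l) :
    IsIntegral ℤ l := by
  classical
  exact isIntegral_eigen (orbK G a b) l h

/-- `T₀ = A (1 - e₁)`: its generalised eigenspaces for nonzero eigenvalues are killed by `e₁`. -/
lemma e1_kill {V : Type v} [AddCommGroup V] [Module ℂ V] (e T₀ : End ℂ V) (h : e * T₀ = 0)
    (l : ℂ) (hl : l ≠ 0) (x : V) (hx : x ∈ T₀.maxGenEigenspace l) : e x = 0 := by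
  rw [Module.End.mem_maxGenEigenspace] at hx
  obtain ⟨k, hk⟩ := hx
  have h1 : ∀ k : ℕ, e * (T₀ - l • (1 : End ℂ V)) ^ k = (-l) ^ k • e := by
    intro k
    induction k with
    | zero => simp
    | succ k ih =>
      rw [pow_succ, ← mul_assoc, ih, smul_mul_assoc, mul_sub, h, mul_smul_comm, mul_one, zero_sub,
        pow_succ, mul_smul, smul_neg, neg_smul, smul_neg]
  have h2 := LinearMap.congr_fun (h1 k) x
  have h3 : (e * (T₀ - l • (1 : End ℂ V)) ^ k) x = e (((T₀ - l • (1 : End ℂ V)) ^ k) x) := rfl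
  rw [h3, hk, map_zero] at h2
  have h4 : (-l) ^ k ≠ 0 := pow_ne_zero _ (neg_ne_zero.2 hl)
  exact (smul_eq_zero.1 (by simpa using h2.symm)).resolve_left h4

/-- **The subdegree theorem** -/
theorem dvd_subdegree [MulAction.IsPretransitive G Ω] (f : ℕ)
    (hf : ∀ χ : G → ℂ, Cfsg.IsIrrCharacter G χ → χ ≠ (fun _ => 1) →
      Cfsg.classInner (fun g : G => (Nat.card (MulAction.fixedBy Ω g) : ℂ)) χ ≠ 0 →
      ∃ m : ℕ, χ 1 = (f : ℂ) * m) (a b : Ω) (hab : b ≠ a) :
    f ∣ Nat.card (MulAction.orbit (MulAction.stabilizer G a) b) := by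
  classical
  haveI : Nonempty Ω := ⟨a⟩
  set ρ := Cfsg.permRep ℂ G Ω with hρ
  set A : End ℂ (Ω → ℂ) := (orbC G a b).mulVecLin with hA
  set e := eOp ((oneI G : IrrCharacter G) : G → ℂ) ρ with he
  set d := Nat.card (MulAction.orbit (MulAction.stabilizer G a) b) with hd
  have hAcomm : ∀ g, A ∘ₗ ρ g = ρ g ∘ₗ A := orbA_comm a b
  have hAe : A * e = (d : ℂ) • e := by
    apply LinearMap.ext
    intro f₀
    funext x
    have h1 : e f₀ = fun _ => e f₀ a := by
      funext y
      exact e1_const f₀ y a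
    show A (e f₀) x = (d : ℂ) * e f₀ x
    rw [h1]
    exact orbC_row a b x _
  have hcomm : A * e = e * A := eOp_comm_end _ ρ A hAcomm
  have hid : e * e = e := by
    have := eOp_mul' (oneI G) (oneI G) ρ
    rw [if_pos rfl] at this
    exact this
  set T₀ : End ℂ (Ω → ℂ) := A - A * e with hT₀
  have hkill : e * T₀ = 0 := by
    rw [hT₀, mul_sub, ← mul_assoc, ← hcomm, mul_assoc, hid, sub_self]
  have hecomm : ∀ g, e ∘ₗ ρ g = ρ g ∘ₗ e :=
    eOp_comm_rho _ (fun g k => isCharacter_conj (isCharacter_of_irr (oneI G).2) g k) ρ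
  have hTcomm : ∀ g, T₀ ∘ₗ ρ g = ρ g ∘ₗ T₀ := by
    intro g
    have h1 : T₀ * ρ g = ρ g * T₀ := by
      rw [hT₀, sub_mul, mul_sub, mul_assoc, ← mul_assoc (ρ g)]
      have h2 : A * ρ g = ρ g * A := hAcomm g
      have h3 : e * ρ g = ρ g * e := hecomm g
      rw [h3, ← mul_assoc, h2, mul_assoc]
    exact h1
  have htr : (d : ℂ) + LinearMap.trace ℂ (Ω → ℂ) T₀ = 0 := by
    have h1 : A = A * e + T₀ := by rw [hT₀]; abel
    have h2 := congrArg (LinearMap.trace ℂ (Ω → ℂ)) h1
    rw [map_add, hAe, map_smul, trace_e1, smul_eq_mul, mul_one, hA, trace_orbA a b hab] at h2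
    exact h2.symm
  have hdimT : ∀ l : ℂ, l ≠ 0 → f ∣ finrank ℂ (T₀.maxGenEigenspace l) := by
    intro l hl
    let W := genSub ρ T₀ hTcomm l
    have h0 : ∀ x : W.toSubmodule, e (x : Ω → ℂ) = 0 := fun x => e1_kill e T₀ hkill l hl _ x.2
    have hW : eOp ((oneI G : IrrCharacter G) : G → ℂ) W.toRepresentation = 0 := by
      ext x
      have h1 := eOp_restrict ((oneI G : IrrCharacter G) : G → ℂ) W x
      rw [show eOp ((oneI G : IrrCharacter G) : G → ℂ) ρ (x : Ω → ℂ) = 0 from h0 x] at h1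
      exact congrFun h1 _
    have h1 : classInner W.toRepresentation.character ((oneI G : IrrCharacter G) : G → ℂ) = 0 := by
      have h2 := trace_eOp ((oneI G : IrrCharacter G) : G → ℂ) W.toRepresentation
      rw [hW, map_zero] at h2
      have h3 : ((oneI G : IrrCharacter G) : G → ℂ) 1 = 1 := rfl
      rw [h3, one_mul] at h2
      exact (inner_zero_iff _ _).2 h2.symm
    apply dvd_finrank W.toRepresentation f
    intro ψ hψ
    have hne : (ψ : G → ℂ) ≠ fun _ => 1 := by
      intro h2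
      apply hψ
      rw [h2]
      exact h1
    have hinn := sub_inner_ne ρ W ψ hψ
    rw [hρ, perm_char_fun] at hinn
    exact hf _ ψ.2 hne hinn
  have hintT : ∀ l : ℂ, l ≠ 0 → T₀.HasEigenvalue l → IsIntegral ℤ l := by
    intro l hl hev
    obtain ⟨x, hx⟩ := hev.exists_hasEigenvector
    have hx1 : T₀ x = l • x := hx.apply_eq_smul
    have h1 : e x = 0 := by
      have h2 : (e * T₀) x = 0 := by rw [hkill]; rfl
      have h3 : (e * T₀) x = e (T₀ x) := rfl
      rw [h3, hx1, map_smul] at h2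
      exact (smul_eq_zero.1 h2).resolve_left hl
    have h4 : A x = l • x := by
      have h5 : T₀ x = A x - A (e x) := rfl
      rw [h5, h1, map_zero, sub_zero] at hx1
      exact hx1
    exact orbA_integral a b l (Module.End.hasEigenvalue_of_hasEigenvector ⟨Module.End.mem_eigenspace_iff.2 h4, hx.2⟩)
  obtain ⟨γ, hγ, hγ2⟩ := trace_eq_mul_integral T₀ f hdimT hintT
  rw [hγ2] at htr
  by_cases hf0 : f = 0
  · subst hf0
    have : (d : ℂ) = 0 := by simpa using htr
    have hd0 : d = 0 := by exact_mod_cast this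
    rw [hd0]
  · have hfc : (f : ℂ) ≠ 0 := by exact_mod_cast hf0
    obtain ⟨n, hn⟩ := isInt_of_isIntegral_rat ((d : ℚ) / f) (by
      have h1 : (((d : ℚ) / f : ℚ) : ℂ) = -γ := by
        push_cast
        field_simp
        linear_combination htr
      rw [h1]
      exact hγ.neg)
    have hfq : (f : ℚ) ≠ 0 := by exact_mod_cast hf0
    have h2 : (d : ℚ) = f * n := by
      field_simp at hn
      linarith
    have h3 : (d : ℤ) = f * n := by exact_mod_cast h2
    exact Int.natCast_dvd_natCast.1 ⟨n, h3⟩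

end Perm

end Cfsg.Agent.H03.PC
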