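import Mathlib
import Cfsg.Prelude.Def_Perm
import Cfsg.Agent.Lib.H03.PC2
import Cfsg.Agent.S0668
import Cfsg.Agent.S0669

/-! Permutation characters: self-paired orbitals, rank. -/

set_option autoImplicit false

namespace Cfsg.Agent.H03.PC

open Cfsg Cfsg.Agent.H21 Module Representation MulAction
open scoped ComplexConjugate Matrix

universe u v w

section Mat

variable {G : Type u} [Group G] [Fintype G] {Ω : Type w} [Fintype Ω] [MulAction G Ω] [DecidableEq Ω]

/-- matrix of an operator -/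
noncomputable abbrev mat (T : (Ω → ℂ) →ₗ[ℂ] (Ω → ℂ)) : Matrix Ω Ω ℂ := LinearMap.toMatrix' T

lemma mat_apply (T : (Ω → ℂ) →ₗ[ℂ] (Ω → ℂ)) (x y : Ω) : mat T x y = T (Pi.single y 1) x := by
  simp only [mat, LinearMap.toMatrix'_apply]

lemma permRep_single (g : G) (y : Ω) :
    Cfsg.permRep ℂ G Ω g (Pi.single y 1) = Pi.single (g • y) 1 := by
  funext z
  show (Pi.single y (1 : ℂ) : Ω → ℂ) (g⁻¹ • z) = _
  simp only [Pi.single_apply, inv_smul_eq_iff]

lemma mat_inv (T : (Ω → ℂ) →ₗ[ℂ] (Ω → ℂ)) (hT : T ∈ (linHom (Cfsg.permRep ℂ G Ω) (Cfsg.permRep ℂ G Ω)).invariants)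
    (g : G) (x y : Ω) : mat T (g • x) (g • y) = mat T x y := by
  rw [mat_apply, mat_apply, ← permRep_single]
  have h := LinearMap.congr_fun ((mem_inv_iff _ _).1 hT g) (Pi.single y 1)
  simp only [LinearMap.comp_apply] at h
  rw [h]
  show T (Pi.single y 1) (g⁻¹ • g • x) = _
  rw [inv_smul_smul]

lemma mat_eOp (ψ : G → ℂ) (x y : Ω) :
    mat (eOp ψ (Cfsg.permRep ℂ G Ω)) x y =
      (ψ 1 * (Nat.card G : ℂ)⁻¹) * ∑ g : G, ψ g * (if g • x = y then 1 else 0) := by
  rw [mat_apply]
  simp only [eOp, averageOp, LinearMap.smul_apply, LinearMap.sum_apply, smul_eq_mul,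
    Finset.sum_apply, Pi.smul_apply]
  congr 1
  refine Finset.sum_congr rfl fun g _ => ?_
  congr 1
  show (Pi.single y (1 : ℂ) : Ω → ℂ) (g⁻¹⁻¹ • x) = _
  rw [inv_inv, Pi.single_apply]

/-- the conjugate irreducible character -/
noncomputable def conjI (ψ : IrrCharacter G) : IrrCharacter G :=
  ⟨fun g => conj ((ψ : G → ℂ) g), Cfsg.Agent.H01.isIrrCharacter_conj_fn ψ.2⟩

lemma one_conj (ψ : IrrCharacter G) : conj ((ψ : G → ℂ) 1) = (ψ : G → ℂ) 1 := by
  obtain ⟨n, hn, _⟩ := isCharacter_one_eq (isCharacter_of_irr ψ.2)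
  rw [hn, map_natCast]

lemma mat_eOp_transpose (ψ : IrrCharacter G) :
    (mat (eOp (ψ : G → ℂ) (Cfsg.permRep ℂ G Ω)))ᵀ = mat (eOp (conjI ψ : G → ℂ) (Cfsg.permRep ℂ G Ω)) := by
  ext x y
  rw [Matrix.transpose_apply, mat_eOp, mat_eOp]
  have h1 : ((conjI ψ : IrrCharacter G) : G → ℂ) 1 = (ψ : G → ℂ) 1 := one_conj ψ
  rw [h1]
  congr 1
  rw [← Equiv.sum_comp (Equiv.inv G)]
  refine Finset.sum_congr rfl fun g _ => ?_
  simp only [Equiv.inv_apply]
  have h2 : (ψ : G → ℂ) g⁻¹ = ((conjI ψ : IrrCharacter G) : G → ℂ) g := isCharacter_inv (isCharacter_of_irr ψ.2) g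
  rw [h2]
  have h3 : (g⁻¹ • y = x) ↔ g • x = y := by
    rw [inv_smul_eq_iff, eq_comm]
  simp only [h3]

lemma mat_comp (S T : (Ω → ℂ) →ₗ[ℂ] (Ω → ℂ)) : mat (S ∘ₗ T) = mat S * mat T :=
  LinearMap.toMatrix'_comp S T

omit [DecidableEq Ω] in
lemma comp_mem (S T : (Ω → ℂ) →ₗ[ℂ] (Ω → ℂ))
    (hS : S ∈ (linHom (Cfsg.permRep ℂ G Ω) (Cfsg.permRep ℂ G Ω)).invariants)
    (hT : T ∈ (linHom (Cfsg.permRep ℂ G Ω) (Cfsg.permRep ℂ G Ω)).invariants) :
    S ∘ₗ T ∈ (linHom (Cfsg.permRep ℂ G Ω) (Cfsg.permRep ℂ G Ω)).invariants := by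
  rw [mem_inv_iff] at hS hT ⊢
  intro g
  rw [LinearMap.comp_assoc, hT, ← LinearMap.comp_assoc, hS, LinearMap.comp_assoc]

end Mat

section Selfpaired

variable {G : Type u} [Group G] [Fintype G] {Ω : Type w} [Fintype Ω] [MulAction G Ω]

/-- **All suborbits are self-paired iff multiplicity-free with real constituents** -/
theorem selfpaired_iff :
    (∀ a b : Ω, ∃ g : G, g • a = b ∧ g • b = a) ↔
    ∀ χ : G → ℂ, Cfsg.IsIrrCharacter G χ →
      Cfsg.classInner (fun g : G => (Nat.card (MulAction.fixedBy Ω g) : ℂ)) χ ≠ 0 →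
      Cfsg.classInner (fun g : G => (Nat.card (MulAction.fixedBy Ω g) : ℂ)) χ = 1 ∧
        ∀ g : G, (starRingEnd ℂ) (χ g) = χ g := by
  classical
  letI : Fintype (IrrCharacter G) := Fintype.ofFinite _
  set ρ := Cfsg.permRep ℂ G Ω with hρ
  have hπ : (fun g : G => (Nat.card (MulAction.fixedBy Ω g) : ℂ)) = ρ.character := perm_char_fun.symm
  rw [hπ]
  constructor
  · intro hsw
    have hsym : ∀ T ∈ (linHom ρ ρ).invariants, (mat T)ᵀ = mat T := by
      intro T hT
      ext x y
      obtain ⟨g, h1, h2⟩ := hsw x y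
      rw [Matrix.transpose_apply]
      have := mat_inv T hT g x y
      rw [h1, h2] at this
      exact this
    have hcomm : ∀ S T : End ℂ (Ω → ℂ), S ∈ (linHom ρ ρ).invariants → T ∈ (linHom ρ ρ).invariants →
        S ∘ₗ T = T ∘ₗ S := by
      intro S T hS hT
      have h1 := hsym _ (comp_mem S T hS hT)
      rw [mat_comp, Matrix.transpose_mul, hsym S hS, hsym T hT] at h1
      have h2 : mat (T ∘ₗ S) = mat (S ∘ₗ T) := by
        rw [mat_comp, mat_comp, h1]
      exact ((LinearMap.toMatrix' (R := ℂ) (m := Ω) (n := Ω)).injective h2).symm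
    have hm := (multfree_iff_comm ρ).2 hcomm
    intro χ hχ hne
    refine ⟨(hm ⟨χ, hχ⟩).resolve_left hne, ?_⟩
    let ψ : IrrCharacter G := ⟨χ, hχ⟩
    have h1 : eOp (ψ : G → ℂ) ρ = eOp (conjI ψ : G → ℂ) ρ := by
      have h2 := hsym _ (eOp_mem ψ ρ)
      rw [mat_eOp_transpose] at h2
      exact ((LinearMap.toMatrix' (R := ℂ) (m := Ω) (n := Ω)).injective h2).symm
    have h2 : ψ = conjI ψ := by
      by_contra hne2
      have h3 := eOp_mul ψ (conjI ψ) ρ
      rw [if_neg hne2, ← h1] at h3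
      have h4 := eOp_mul ψ ψ ρ
      rw [if_pos rfl, h3] at h4
      exact eOp_ne_zero ψ ρ hne h4.symm
    intro g
    exact (congrFun (congrArg Subtype.val h2) g).symm
  · intro h a b
    have hm : ∀ ψ : IrrCharacter G, classInner ρ.character (ψ : G → ℂ) = 0 ∨
        classInner ρ.character (ψ : G → ℂ) = 1 := by
      intro ψ
      by_cases h0 : classInner ρ.character (ψ : G → ℂ) = 0
      · exact Or.inl h0
      · exact Or.inr (h _ ψ.2 h0).1
    obtain ⟨c, hc⟩ := exists_expansion ρ hm _ (orbA_mem (G := G) a b)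
    have hsymE : ∀ ψ : IrrCharacter G, (mat (eOp (ψ : G → ℂ) ρ))ᵀ = mat (eOp (ψ : G → ℂ) ρ) := by
      intro ψ
      by_cases h0 : classInner ρ.character (ψ : G → ℂ) = 0
      · rw [eOp_eq_zero ψ ρ h0]
        ext x y
        simp
      · rw [mat_eOp_transpose]
        have h1 : conjI ψ = ψ := Subtype.ext (funext (h _ ψ.2 h0).2)
        rw [h1]
    have hsymA : (mat (orbC G a b).mulVecLin)ᵀ = mat (orbC G a b).mulVecLin := by
      rw [hc]
      simp only [mat, map_sum, map_smul, Matrix.transpose_sum, Matrix.transpose_smul]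
      exact Finset.sum_congr rfl fun ψ _ => by rw [hsymE ψ]
    have hA : mat (orbC G a b).mulVecLin = orbC G a b := LinearMap.toMatrix'_toLin' _
    rw [hA] at hsymA
    have h1 : orbC G a b a b = 1 := by
      rw [orbC_apply, if_pos ⟨1, by simp, by simp⟩]
    have h2 : orbC G a b b a = 1 := by
      have h3 := congrFun (congrFun hsymA a) b
      rw [Matrix.transpose_apply] at h3
      rw [h3, h1]
    rw [orbC_apply] at h2
    by_contra hcon
    rw [if_neg hcon] at h2
    exact zero_ne_one h2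

end Selfpaired

section Rank

variable {G : Type u} [Group G] [Fintype G] {Ω : Type w} [Fintype Ω] [MulAction G Ω]

/-- the rank is the norm of the permutation character -/
lemma inner_self_eq_rank [MulAction.IsPretransitive G Ω] (a : Ω) :
    classInner (Cfsg.permRep ℂ G Ω).character (Cfsg.permRep ℂ G Ω).character =
      (Nat.card (MulAction.orbitRel.Quotient (MulAction.stabilizer G a) Ω) : ℂ) := by
  rw [← finrank_inv, Cfsg.Agent.S0668.result, Cfsg.Agent.S0669.result a]

/-- multiplicities of the permutation character -/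
lemma exists_mult : ∃ m : IrrCharacter G → ℕ, ∀ ψ : IrrCharacter G,
    classInner (Cfsg.permRep ℂ G Ω).character (ψ : G → ℂ) = m ψ := by
  classical
  letI : Fintype (IrrCharacter G) := Fintype.ofFinite _
  have := fun ψ => classInner_isNat (isCharacter_of_rep (Cfsg.permRep ℂ G Ω)) ψ
  choose m hm using this
  exact ⟨m, hm⟩

/-- counting: norm and degree of a character in terms of the multiplicities -/
lemma norm_and_degree [Fintype (IrrCharacter G)] (ρ : Representation ℂ G (Ω → ℂ)) (m : IrrCharacter G → ℕ)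
    (hm : ∀ ψ : IrrCharacter G, classInner ρ.character (ψ : G → ℂ) = m ψ) :
    classInner ρ.character ρ.character = ((∑ ψ, (m ψ) ^ 2 : ℕ) : ℂ) ∧
      (Fintype.card Ω : ℂ) = ∑ ψ, (m ψ : ℂ) * (ψ : G → ℂ) 1 := by
  classical
  have hexp := classFunction_expansion ρ.character
    (isClassFunction_of_isCharacter (isCharacter_of_rep ρ))
  constructor
  · rw [congrArg (classInner ρ.character) hexp, classInner_sum_right]
    push_cast
    refine Finset.sum_congr rfl fun ψ _ => ?_
    rw [classInner_smul_right, hm ψ, map_natCast, sq]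
  · have h1 : ρ.character 1 = (Fintype.card Ω : ℂ) := by
      rw [Representation.char_one, Module.finrank_fintype_fun_eq_card]
    rw [← h1]
    conv_lhs => rw [hexp]
    simp only [Finset.sum_apply, Pi.smul_apply, smul_eq_mul, hm]

/-- the suborbit structure -/
lemma suborbit_sum (a : Ω) [Fintype (MulAction.orbitRel.Quotient (MulAction.stabilizer G a) Ω)] :
    Fintype.card Ω = ∑ ω : MulAction.orbitRel.Quotient (MulAction.stabilizer G a) Ω, Nat.card ω.orbit := by
  classical
  rw [← Nat.card_eq_fintype_card, Nat.card_congr (MulAction.selfEquivSigmaOrbits' (MulAction.stabilizer G a) Ω),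
    Nat.card_sigma]

lemma orbit_self_card (a : Ω) :
    Nat.card (MulAction.orbitRel.Quotient.orbit (Quotient.mk'' a : MulAction.orbitRel.Quotient (MulAction.stabilizer G a) Ω)) = 1 := by
  rw [MulAction.orbitRel.Quotient.orbit_mk]
  have : MulAction.orbit (MulAction.stabilizer G a) a = {a} := by
    ext y
    constructor
    · rintro ⟨s, rfl⟩
      exact s.2
    · rintro rfl
      exact MulAction.mem_orbit_self _
  rw [this]
  simp

/-- **Equal degrees: multiplicity-free with all subdegrees equal** -/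
theorem same_degree [MulAction.IsPretransitive G Ω] (a : Ω) (f : ℕ)
    (hdeg : ∀ χ : G → ℂ, Cfsg.IsIrrCharacter G χ → χ ≠ (fun _ => 1) →
      Cfsg.classInner (fun g : G => (Nat.card (MulAction.fixedBy Ω g) : ℂ)) χ ≠ 0 → χ 1 = f) :
    (∀ χ : G → ℂ, Cfsg.IsIrrCharacter G χ →
      Cfsg.classInner (fun g : G => (Nat.card (MulAction.fixedBy Ω g) : ℂ)) χ = 0 ∨
      Cfsg.classInner (fun g : G => (Nat.card (MulAction.fixedBy Ω g) : ℂ)) χ = 1) ∧
    ∀ b : Ω, b ≠ a → Nat.card (MulAction.orbit (MulAction.stabilizer G a) b) = f := by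
  classical
  letI : Fintype (IrrCharacter G) := Fintype.ofFinite _
  letI : Fintype (MulAction.orbitRel.Quotient (MulAction.stabilizer G a) Ω) := Fintype.ofFinite _
  haveI : Nonempty Ω := ⟨a⟩
  set ρ := Cfsg.permRep ℂ G Ω with hρ
  have hπ : (fun g : G => (Nat.card (MulAction.fixedBy Ω g) : ℂ)) = ρ.character := perm_char_fun.symm
  rw [hπ]
  obtain ⟨m, hm⟩ := exists_mult (G := G) (Ω := Ω)
  obtain ⟨hn1, hn2⟩ := norm_and_degree ρ m hm
  have hone : m (oneI G) = 1 := by
    have := hm (oneI G)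
    rw [inner_perm_one] at this
    exact_mod_cast this.symm
  set Q := MulAction.orbitRel.Quotient (MulAction.stabilizer G a) Ω with hQ
  have hr : Fintype.card Q = ∑ ψ, (m ψ) ^ 2 := by
    have h1 := inner_self_eq_rank (G := G) (Ω := Ω) a
    rw [← hρ, hn1, Nat.card_eq_fintype_card] at h1
    exact_mod_cast h1.symm
  let I' := (Finset.univ : Finset (IrrCharacter G)).erase (oneI G)
  have hr2 : Fintype.card Q = 1 + ∑ ψ ∈ I', (m ψ) ^ 2 := by
    rw [hr, ← Finset.add_sum_erase _ _ (Finset.mem_univ (oneI G)), hone]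
    simp [I']
  have hdeg2 : ∀ ψ ∈ I', (m ψ : ℂ) * (ψ : G → ℂ) 1 = ((m ψ * f : ℕ) : ℂ) := by
    intro ψ hψ
    by_cases h0 : m ψ = 0
    · simp [h0]
    · have hne : (ψ : G → ℂ) ≠ fun _ => 1 := by
        intro h
        apply (Finset.mem_erase.1 hψ).1
        exact Subtype.ext h
      rw [hdeg _ ψ.2 hne (by rw [hπ, hm ψ]; exact_mod_cast h0)]
      push_cast
      ring
  have hcard : Fintype.card Ω = 1 + (∑ ψ ∈ I', m ψ) * f := by
    have h1 : (Fintype.card Ω : ℂ) = ((1 + (∑ ψ ∈ I', m ψ) * f : ℕ) : ℂ) := by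
      rw [hn2, ← Finset.add_sum_erase _ _ (Finset.mem_univ (oneI G)), hone]
      rw [Finset.sum_congr rfl hdeg2]
      have h3 : ((oneI G : IrrCharacter G) : G → ℂ) 1 = 1 := rfl
      rw [h3]
      push_cast
      rw [Finset.sum_mul]
      simp
    exact_mod_cast h1
  set ω₀ : Q := Quotient.mk'' a with hω₀
  have hsum := suborbit_sum (G := G) a
  rw [← Finset.add_sum_erase _ _ (Finset.mem_univ ω₀), orbit_self_card] at hsum
  have hrep : ∀ ω : Q, ω ≠ ω₀ → ∃ b : Ω, b ≠ a ∧ ω = Quotient.mk'' b := by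
    intro ω hω
    obtain ⟨b, rfl⟩ := Quotient.exists_rep ω
    refine ⟨b, ?_, rfl⟩
    rintro rfl
    exact hω rfl
  have hdvd : ∀ b : Ω, b ≠ a → f ∣ Nat.card (MulAction.orbit (MulAction.stabilizer G a) b) := by
    intro b hb
    refine dvd_subdegree f ?_ a b hb
    intro χ hχ hne hinn
    exact ⟨1, by rw [hdeg χ hχ hne hinn]; simp⟩
  have hposb : ∀ b : Ω, 0 < Nat.card (MulAction.orbit (MulAction.stabilizer G a) b) := by
    intro b
    haveI : Nonempty (MulAction.orbit (MulAction.stabilizer G a) b) := ⟨⟨b, MulAction.mem_orbit_self b⟩⟩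
    exact Nat.card_pos
  by_cases hex : ∃ b : Ω, b ≠ a
  · obtain ⟨b₀, hb₀⟩ := hex
    have hf0 : 0 < f := by
      rcases Nat.eq_zero_or_pos f with h | h
      · have h1 := hdvd b₀ hb₀
        rw [h, zero_dvd_iff] at h1
        exact absurd h1 (hposb b₀).ne'
      · exact h
    have hle : ∀ ω ∈ (Finset.univ : Finset Q).erase ω₀, f ≤ Nat.card ω.orbit := by
      intro ω hω
      obtain ⟨b, hb, rfl⟩ := hrep ω (Finset.mem_erase.1 hω).1
      exact Nat.le_of_dvd (hposb b) (hdvd b hb)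
    have h1 := Finset.sum_le_sum hle
    rw [Finset.sum_const, smul_eq_mul, Finset.card_erase_of_mem (Finset.mem_univ _), Finset.card_univ] at h1
    have h2 : ∑ ψ ∈ I', m ψ ≤ ∑ ψ ∈ I', (m ψ) ^ 2 :=
      Finset.sum_le_sum fun ψ _ => Nat.le_self_pow (by norm_num) _
    have h3 : (Fintype.card Q - 1) = ∑ ψ ∈ I', (m ψ) ^ 2 := by omega
    have h4 : ∑ ω ∈ (Finset.univ : Finset Q).erase ω₀, Nat.card ω.orbit = (∑ ψ ∈ I', m ψ) * f := by omega
    rw [h3, h4] at h1
    have h5 : ∑ ψ ∈ I', (m ψ) ^ 2 ≤ ∑ ψ ∈ I', m ψ := Nat.le_of_mul_le_mul_right h1 hf0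
    have h6 : ∑ ψ ∈ I', m ψ = ∑ ψ ∈ I', (m ψ) ^ 2 := le_antisymm h2 h5
    have h7 : ∀ ψ ∈ I', m ψ = (m ψ) ^ 2 :=
      (Finset.sum_eq_sum_iff_of_le fun ψ _ => Nat.le_self_pow (by norm_num) _).1 h6
    constructor
    · intro χ hχ
      let ψ : IrrCharacter G := ⟨χ, hχ⟩
      have h8 : classInner ρ.character χ = m ψ := hm ψ
      by_cases hψ : ψ = oneI G
      · right
        rw [h8, hψ, hone]; simp
      · have h9 := h7 ψ (Finset.mem_erase.2 ⟨hψ, Finset.mem_univ _⟩)
        rw [h8]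
        have h10 : m ψ = 0 ∨ m ψ = 1 := by
          have : m ψ * m ψ = m ψ := by rw [← sq]; exact h9.symm
          rcases Nat.eq_zero_or_pos (m ψ) with h | h
          · exact Or.inl h
          · right; exact Nat.eq_of_mul_eq_mul_left h (by rw [this, mul_one])
        rcases h10 with h | h
        · left; simp [h]
        · right; simp [h]
    · intro b hb
      have h8 : ∑ ω ∈ (Finset.univ : Finset Q).erase ω₀, f =
          ∑ ω ∈ (Finset.univ : Finset Q).erase ω₀, Nat.card ω.orbit := by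
        rw [Finset.sum_const, smul_eq_mul, Finset.card_erase_of_mem (Finset.mem_univ _), Finset.card_univ,
          h3, h4, h6]
      have h9 := (Finset.sum_eq_sum_iff_of_le hle).1 h8
      have hωb : (Quotient.mk'' b : Q) ≠ ω₀ := by
        intro h
        have h10 : b ∈ (ω₀ : Q).orbit := by
          rw [MulAction.orbitRel.Quotient.mem_orbit]
          exact h
        rw [hω₀, MulAction.orbitRel.Quotient.orbit_mk] at h10
        obtain ⟨s, hs⟩ := h10
        apply hb
        rw [← hs]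
        exact s.2
      exact (h9 _ (Finset.mem_erase.2 ⟨hωb, Finset.mem_univ _⟩)).symm
  · push Not at hex
    have hQ1 : Fintype.card Q = 1 := by
      rw [Fintype.card_eq_one_iff]
      refine ⟨ω₀, fun ω => ?_⟩
      by_contra hne
      obtain ⟨b, hb, _⟩ := hrep ω hne
      exact hb (hex b)
    have h1 : ∑ ψ ∈ I', (m ψ) ^ 2 = 0 := by omega
    have h2 : ∀ ψ ∈ I', (m ψ) ^ 2 = 0 := fun ψ hψ => (Finset.sum_eq_zero_iff.1 h1) ψ hψ
    constructor
    · intro χ hχ
      let ψ : IrrCharacter G := ⟨χ, hχ⟩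
      have h8 : classInner ρ.character χ = m ψ := hm ψ
      by_cases hψ : ψ = oneI G
      · right
        rw [h8, hψ, hone]; simp
      · left
        have h9 := h2 ψ (Finset.mem_erase.2 ⟨hψ, Finset.mem_univ _⟩)
        have h10 : m ψ = 0 := by simpa using h9
        rw [h8, h10]; simp
    · intro b hb
      exact absurd (hex b) hb

/-- **Rank at most five implies multiplicity-free** -/
theorem multfree_of_rank_le [MulAction.IsPretransitive G Ω] (a : Ω)
    (hr : Nat.card (MulAction.orbitRel.Quotient (MulAction.stabilizer G a) Ω) ≤ 5) :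
    ∀ χ : G → ℂ, Cfsg.IsIrrCharacter G χ →
      Cfsg.classInner (fun g : G => (Nat.card (MulAction.fixedBy Ω g) : ℂ)) χ = 0 ∨
      Cfsg.classInner (fun g : G => (Nat.card (MulAction.fixedBy Ω g) : ℂ)) χ = 1 := by
  classical
  letI : Fintype (IrrCharacter G) := Fintype.ofFinite _
  haveI : Nonempty Ω := ⟨a⟩
  set ρ := Cfsg.permRep ℂ G Ω with hρ
  have hπ : (fun g : G => (Nat.card (MulAction.fixedBy Ω g) : ℂ)) = ρ.character := perm_char_fun.symm
  obtain ⟨m, hm⟩ := exists_mult (G := G) (Ω := Ω)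
  obtain ⟨hn1, hn2⟩ := norm_and_degree ρ m hm
  have hone : m (oneI G) = 1 := by
    have := hm (oneI G)
    rw [inner_perm_one] at this
    exact_mod_cast this.symm
  have hr' : Nat.card (MulAction.orbitRel.Quotient (MulAction.stabilizer G a) Ω) = ∑ ψ, (m ψ) ^ 2 := by
    have h1 := inner_self_eq_rank (G := G) (Ω := Ω) a
    rw [← hρ, hn1] at h1
    exact_mod_cast h1.symm
  intro χ hχ
  by_contra hcon
  push Not at hcon
  rw [hπ] at hcon
  let ψ₀ : IrrCharacter G := ⟨χ, hχ⟩
  have h0 : classInner ρ.character χ = m ψ₀ := hm ψ₀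
  rw [h0] at hcon
  have h2 : 2 ≤ m ψ₀ := by
    by_contra hlt
    have : m ψ₀ = 0 ∨ m ψ₀ = 1 := by omega
    rcases this with h | h
    · exact hcon.1 (by simp [h])
    · exact hcon.2 (by simp [h])
  have hne1 : ψ₀ ≠ oneI G := by
    rintro h
    rw [h, hone] at h2
    omega
  have hothers : ∀ ψ : IrrCharacter G, ψ ≠ oneI G → ψ ≠ ψ₀ → m ψ = 0 := by
    intro ψ h1 h3
    by_contra hne
    have h4 : 1 ≤ (m ψ) ^ 2 := Nat.one_le_pow _ _ (Nat.pos_of_ne_zero hne)
    have h5 : (m ψ₀) ^ 2 ≥ 4 := by nlinarith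
    have h6 : (m (oneI G)) ^ 2 + ((m ψ₀) ^ 2 + (m ψ) ^ 2) ≤ ∑ ψ, (m ψ) ^ 2 := by
      rw [← Finset.add_sum_erase _ _ (Finset.mem_univ (oneI G))]
      apply Nat.add_le_add_left
      rw [← Finset.add_sum_erase _ _ (Finset.mem_erase.2 ⟨hne1, Finset.mem_univ ψ₀⟩)]
      apply Nat.add_le_add_left
      exact Finset.single_le_sum (f := fun ψ => (m ψ) ^ 2) (fun _ _ => Nat.zero_le _)
        (Finset.mem_erase.2 ⟨h3, Finset.mem_erase.2 ⟨h1, Finset.mem_univ _⟩⟩)
    rw [hone] at h6
    omega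
  obtain ⟨n, hn⟩ := isCharacter_one_eq (isCharacter_of_irr hχ)
  have key := same_degree (G := G) (Ω := Ω) a n ?_
  · have h3 := key.1 χ hχ
    rw [hπ, h0] at h3
    exact hcon.1.elim (by
      rcases h3 with h | h
      · exact h
      · exact absurd h hcon.2)
  · intro χ' hχ' hne hinn
    rw [hπ] at hinn
    let ψ : IrrCharacter G := ⟨χ', hχ'⟩
    have h3 : ψ = ψ₀ := by
      by_contra hne2
      have h4 := hothers ψ (fun h => hne (congrArg Subtype.val h)) hne2
      apply hinn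
      have := hm ψ
      rw [h4] at this
      simpa using this
    have h4 : χ' = χ := congrArg Subtype.val h3
    rw [h4]
    exact hn.1

end Rank

end Cfsg.Agent.H03.PC
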