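import Mathlib
import Cfsg.Prelude.Def_Perm
import Cfsg.Agent.Lib.H03.PC3
import Cfsg.Agent.Lib.H21.ModP

/-! Wielandt's rank three analysis: the orbital algebra. -/

set_option autoImplicit false

namespace Cfsg.Agent.H03.PC

open Cfsg Cfsg.Agent.H21 Module Representation MulAction
open scoped ComplexConjugate Matrix Pointwise

universe u v w

section Alg

/-- positivity core -/
lemma core_pos (m k l : ℤ) (lam mu U R S : ℤ) (hm : 1 ≤ m) (hk : 1 ≤ k) (hmu : 1 ≤ mu)
    (hRS : R + S = -U) (hkR : k - R = m * U) (hR : R ^ 2 = k + lam * R + mu * (-1 - R))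
    (hU : U = mu - lam)
    (hk2 : k ^ 2 = k + lam * k + mu * l) (hkl : k + l + 1 = 2 * m) : 0 < U := by
  have hS : S = -U - R := by linarith
  have h1 : (k - R) * (k - S) = 2 * m * mu := by
    subst hS
    have : lam = mu - U := by linarith
    subst this
    nlinarith [hR, hk2, hkl]
  rw [hkR] at h1
  have hm0 : m ≠ 0 := by omega
  have h2 : U * (k - S) = 2 * mu := by
    have : m * (U * (k - S)) = m * (2 * mu) := by linarith
    exact mul_left_cancel₀ hm0 this
  have h3 : k - S = 2 * k + U - m * U := by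
    rw [hS]
    linarith
  rw [h3] at h2
  by_contra hneg
  push Not at hneg
  have h4 : 0 ≤ (m - 1) * (-U) := mul_nonneg (by omega) (by omega)
  have h5 : 0 < 2 * k + U - m * U := by nlinarith
  nlinarith

/-- the arithmetic of the rank three analysis -/
lemma algebra_core (m k l lam₁ mu₁ lam₂ mu₂ : ℕ) (r s : ℂ) (hm : 2 ≤ m) (hk : 1 ≤ k) (hl : 1 ≤ l)
    (hkl : k + l + 1 = 2 * m) (hmu₁ : 1 ≤ mu₁) (hmu₂ : 1 ≤ mu₂)
    (h1 : (k : ℂ) + ((m : ℂ) - 1) * r + m * s = 0)
    (h2 : (k : ℂ) ^ 2 + ((m : ℂ) - 1) * r ^ 2 + m * s ^ 2 = 2 * m * k)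
    (h3r : r ^ 2 = k + lam₁ * r + mu₁ * (-1 - r)) (h3s : s ^ 2 = k + lam₁ * s + mu₁ * (-1 - s))
    (h4 : k ^ 2 = k + lam₁ * k + mu₁ * l)
    (h3r' : (-1 - r) ^ 2 = l + lam₂ * (-1 - r) + mu₂ * r)
    (h3s' : (-1 - s) ^ 2 = l + lam₂ * (-1 - s) + mu₂ * s)
    (h4' : l ^ 2 = l + lam₂ * l + mu₂ * k) (hint : IsIntegral ℤ r) :
    ∃ R : ℤ, (k : ℤ) = m + R ∧ (m : ℤ) = 2 * R ^ 2 + 2 * R + 1 := by
  have hmC : (m : ℂ) ≠ 0 := by exact_mod_cast (by omega : m ≠ 0)
  by_cases hrs : r = s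
  · exfalso
    subst hrs
    have hq : (((k : ℚ) / (2 * m - 1) : ℚ) : ℂ) = -r := by
      have h2m : (2 * (m : ℂ) - 1) ≠ 0 := by
        have : ((2 * m - 1 : ℕ) : ℂ) ≠ 0 := by exact_mod_cast (by omega : 2 * m - 1 ≠ 0)
        have h3 : ((2 * m - 1 : ℕ) : ℂ) = 2 * (m : ℂ) - 1 := by
          rw [Nat.cast_sub (by omega)]
          push_cast
          ring
        rwa [h3] at this
      push_cast
      field_simp
      linear_combination h1
    obtain ⟨n, hn⟩ := isInt_of_isIntegral_rat _ (by rw [hq]; exact hint.neg)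
    have h2mq : (2 * (m : ℚ) - 1) ≠ 0 := by
      have : ((2 * m - 1 : ℕ) : ℚ) ≠ 0 := by exact_mod_cast (by omega : 2 * m - 1 ≠ 0)
      have h3 : ((2 * m - 1 : ℕ) : ℚ) = 2 * (m : ℚ) - 1 := by
        rw [Nat.cast_sub (by omega)]
        push_cast
        ring
      rwa [h3] at this
    have h3 : (k : ℚ) = n * (2 * (m : ℚ) - 1) := by
      rw [div_eq_iff h2mq] at hn
      exact hn
    have h4' : (k : ℤ) = n * (2 * (m : ℤ) - 1) := by exact_mod_cast h3
    have hk0 : (0 : ℤ) < k := by omega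
    have hk1 : (k : ℤ) < 2 * m - 1 := by omega
    have hm1 : (0 : ℤ) < 2 * m - 1 := by omega
    have hn0 : 0 < n := by
      by_contra hn
      push Not at hn
      nlinarith
    nlinarith
  · have hrsC : r - s ≠ 0 := sub_ne_zero.2 hrs
    set U : ℤ := (mu₁ : ℤ) - lam₁ with hU
    have hUC : (U : ℂ) = (mu₁ : ℂ) - lam₁ := by rw [hU]; push_cast; ring
    have hsum : r + s = -(U : ℂ) := by
      have : (r - s) * (r + s) = (r - s) * (-(U : ℂ)) := by
        rw [hUC]
        linear_combination h3r - h3s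
      exact mul_left_cancel₀ hrsC this
    set R : ℤ := (k : ℤ) - m * U with hR
    have hrR : r = (R : ℂ) := by
      rw [hR]
      push_cast
      linear_combination (-1 : ℂ) * h1 + (m : ℂ) * hsum
    set S : ℤ := -U - R with hS
    have hsS : s = (S : ℂ) := by
      rw [hS]
      push_cast
      rw [← hrR]
      linear_combination hsum
    rw [hrR] at h3r h1 h2 h3r'
    rw [hsS] at h1 h2 h3s h3s'
    have hRz : R ^ 2 = (k : ℤ) + lam₁ * R + mu₁ * (-1 - R) := by exact_mod_cast h3r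
    have hk2z : (k : ℤ) ^ 2 = k + lam₁ * k + mu₁ * l := by exact_mod_cast h4
    have hlz : (l : ℤ) ^ 2 = l + lam₂ * l + mu₂ * k := by exact_mod_cast h4'
    have hklz : (k : ℤ) + l + 1 = 2 * m := by exact_mod_cast hkl
    have hUpos : 0 < U := core_pos m k l lam₁ mu₁ U R S (by omega) (by omega) (by omega) (by rw [hS]; ring)
      (by rw [hR]; ring) hRz rfl hk2z hklz
    set U' : ℤ := (mu₂ : ℤ) - lam₂ with hU'
    have hU'C : (U' : ℂ) = (mu₂ : ℂ) - lam₂ := by rw [hU']; push_cast; ring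
    have hRS0 : ((R : ℂ) - (S : ℂ)) ≠ 0 := by
      rw [← hrR, ← hsS]; exact hrsC
    have hsum' : (-1 - (R : ℂ)) + (-1 - (S : ℂ)) = -(U' : ℂ) := by
      have : ((S : ℂ) - (R : ℂ)) * ((-1 - (R : ℂ)) + (-1 - (S : ℂ))) = ((S : ℂ) - (R : ℂ)) * (-(U' : ℂ)) := by
        rw [hU'C]
        linear_combination h3r' - h3s'
      have h0 : ((S : ℂ) - (R : ℂ)) ≠ 0 := by
        intro h
        apply hRS0
        linear_combination -h
      exact mul_left_cancel₀ h0 this
    have hU'val : U' = 2 - U := by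
      have : (U' : ℂ) = ((2 - U : ℤ) : ℂ) := by
        push_cast
        rw [← hrR, ← hsS] at hsum'
        linear_combination hsum' + hsum
      exact_mod_cast this
    have hRz' : (-1 - R) ^ 2 = (l : ℤ) + lam₂ * (-1 - R) + mu₂ * (-1 - (-1 - R)) := by
      have : (-1 - (R : ℂ)) ^ 2 = l + lam₂ * (-1 - (R : ℂ)) + mu₂ * (-1 - (-1 - (R : ℂ))) := by
        rw [h3r']
        ring
      exact_mod_cast this
    have hU'pos : 0 < U' := core_pos m l k lam₂ mu₂ U' (-1 - R) (-1 - S) (by omega) (by omega) (by omega)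
      (by rw [hS, hU'val]; ring) (by rw [hU'val, hR]; linarith [hklz, mul_comm (m : ℤ) U]) hRz' rfl hlz (by omega)
    have hU1 : U = 1 := by omega
    have hRk : R = (k : ℤ) - m := by rw [hR, hU1]; ring
    have hSR : S = -1 - R := by rw [hS, hU1]
    refine ⟨R, by rw [hRk]; ring, ?_⟩
    have h2z : (k : ℤ) ^ 2 + ((m : ℤ) - 1) * R ^ 2 + m * S ^ 2 = 2 * m * k := by exact_mod_cast h2
    rw [hSR] at h2z
    have hkR : (k : ℤ) = m + R := by rw [hRk]; ring
    rw [hkR] at h2z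
    have hm0 : (m : ℤ) ≠ 0 := by omega
    have h5 : (m : ℤ) * (m) = m * (2 * R ^ 2 + 2 * R + 1) := by linarith
    exact mul_left_cancel₀ hm0 h5

end Alg

section Orbital

variable {G : Type u} [Group G] {Ω : Type w} [MulAction G Ω]

lemma mem_orbit_stab {a b y : Ω} :
    y ∈ MulAction.orbit (MulAction.stabilizer G a) b ↔ ∃ g : G, g • a = a ∧ g • b = y := by
  constructor
  · rintro ⟨s, rfl⟩
    exact ⟨s.1, s.2, rfl⟩
  · rintro ⟨g, h1, h2⟩
    exact ⟨⟨g, h1⟩, h2⟩

variable [Fintype G] [Fintype Ω]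

lemma orbC_mem (a b x y : Ω) (h : ∃ g : G, g • a = x ∧ g • b = y) : orbC G a b x y = 1 := by
  classical
  rw [orbC_apply, if_pos h]

lemma orbC_not (a b x y : Ω) (h : ¬ ∃ g : G, g • a = x ∧ g • b = y) : orbC G a b x y = 0 := by
  classical
  rw [orbC_apply, if_neg h]

open Classical in
lemma orbC_base (a b y : Ω) :
    orbC G a b a y = if y ∈ MulAction.orbit (MulAction.stabilizer G a) b then 1 else 0 := by
  rw [orbC_apply]
  simp only [mem_orbit_stab]

lemma orbC_self_base (a b : Ω) (hb : b ≠ a) : orbC G a b a a = 0 := by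
  apply orbC_not
  rintro ⟨g, h1, h2⟩
  exact hb (MulAction.injective g (h2.trans h1.symm))

lemma orbC_sym {a t : Ω} (h : ∃ g : G, g • a = t ∧ g • t = a) (x y : Ω) :
    orbC G a t x y = orbC G a t y x := by
  classical
  obtain ⟨g, h1, h2⟩ := h
  rw [orbC_apply, orbC_apply]
  have : (∃ k : G, k • a = x ∧ k • t = y) ↔ (∃ k : G, k • a = y ∧ k • t = x) := by
    constructor
    · rintro ⟨k, rfl, rfl⟩
      exact ⟨k * g, by rw [mul_smul, h1], by rw [mul_smul, h2]⟩
    · rintro ⟨k, rfl, rfl⟩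
      exact ⟨k * g, by rw [mul_smul, h1], by rw [mul_smul, h2]⟩
  simp only [this]

end Orbital

section Rank3

variable {G : Type u} [Group G] [Fintype G] {Ω : Type w} [Fintype Ω] [MulAction G Ω]

lemma exists_structure (a₀ : Ω)
    (hrank : Nat.card (MulAction.orbitRel.Quotient (MulAction.stabilizer G a₀) Ω) = 3) :
    ∃ b c : Ω, b ≠ a₀ ∧ c ≠ a₀ ∧ c ∉ MulAction.orbit (MulAction.stabilizer G a₀) b ∧
      ∀ y, y = a₀ ∨ y ∈ MulAction.orbit (MulAction.stabilizer G a₀) b ∨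
        y ∈ MulAction.orbit (MulAction.stabilizer G a₀) c := by
  classical
  letI : Fintype (MulAction.orbitRel.Quotient (MulAction.stabilizer G a₀) Ω) := Fintype.ofFinite _
  set Q := MulAction.orbitRel.Quotient (MulAction.stabilizer G a₀) Ω with hQ
  have hc : Fintype.card Q = 3 := by rwa [← Nat.card_eq_fintype_card]
  let ω₀ : Q := Quotient.mk'' a₀
  have h2 : ((Finset.univ : Finset Q).erase ω₀).card = 2 := by
    rw [Finset.card_erase_of_mem (Finset.mem_univ _), Finset.card_univ, hc]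
  obtain ⟨ω₁, ω₂, h12, hs⟩ := Finset.card_eq_two.1 h2
  have hω₁ : ω₁ ≠ ω₀ := (Finset.mem_erase.1 (by rw [hs]; simp : ω₁ ∈ (Finset.univ : Finset Q).erase ω₀)).1
  have hω₂ : ω₂ ≠ ω₀ := (Finset.mem_erase.1 (by rw [hs]; simp : ω₂ ∈ (Finset.univ : Finset Q).erase ω₀)).1
  obtain ⟨b, hb⟩ := Quotient.exists_rep ω₁
  obtain ⟨c, hc'⟩ := Quotient.exists_rep ω₂
  have hmem : ∀ y z : Ω, (Quotient.mk'' y : Q) = Quotient.mk'' z ↔
      y ∈ MulAction.orbit (MulAction.stabilizer G a₀) z := by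
    intro y z
    rw [Quotient.eq'']
    rfl
  refine ⟨b, c, ?_, ?_, ?_, ?_⟩
  · rintro rfl
    exact hω₁ hb.symm
  · rintro rfl
    exact hω₂ hc'.symm
  · intro h
    apply h12
    rw [← hb, ← hc']
    exact ((hmem c b).2 h).symm
  · intro y
    by_cases hy : (Quotient.mk'' y : Q) = ω₀
    · left
      have h3 := (hmem y a₀).1 hy
      obtain ⟨s, hs'⟩ := h3
      rw [← hs']
      exact s.2
    · right
      have h3 : (Quotient.mk'' y : Q) ∈ (Finset.univ : Finset Q).erase ω₀ :=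
        Finset.mem_erase.2 ⟨hy, Finset.mem_univ _⟩
      rw [hs, Finset.mem_insert, Finset.mem_singleton] at h3
      rcases h3 with h3 | h3
      · left
        exact (hmem y b).1 (h3.trans hb.symm)
      · right
        exact (hmem y c).1 (h3.trans hc'.symm)

/-- total sums of the orbital kernel -/
lemma orbC_total [MulAction.IsPretransitive G Ω] (a t : Ω) :
    ∑ x, ∑ y, orbC G a t x y =
      (Fintype.card Ω : ℂ) * (Nat.card (MulAction.orbit (MulAction.stabilizer G a) t) : ℂ) := by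
  have h1 : ∀ x, ∑ y, orbC G a t x y = (Nat.card (MulAction.orbit (MulAction.stabilizer G a) t) : ℂ) := by
    intro x
    have := orbC_row (G := G) a t x 1
    simp only [Matrix.mulVecLin_apply, Matrix.mulVec, dotProduct, mul_one] at this
    exact this
  simp only [h1, Finset.sum_const, Finset.card_univ, nsmul_eq_mul]

/-- paired suborbits have equal length -/
lemma paired_card [MulAction.IsPretransitive G Ω] (a t : Ω) (g₀ : G) (h : g₀ • t = a) :
    Nat.card (MulAction.orbit (MulAction.stabilizer G a) (g₀ • a)) =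
      Nat.card (MulAction.orbit (MulAction.stabilizer G a) t) := by
  classical
  haveI : Nonempty Ω := ⟨a⟩
  have h1 : ∀ x y, orbC G a (g₀ • a) x y = orbC G a t y x := by
    intro x y
    rw [orbC_apply, orbC_apply]
    have : (∃ k : G, k • a = x ∧ k • g₀ • a = y) ↔ (∃ k : G, k • a = y ∧ k • t = x) := by
      constructor
      · rintro ⟨k, rfl, rfl⟩
        exact ⟨k * g₀, by rw [mul_smul], by rw [mul_smul, h]⟩
      · rintro ⟨k, rfl, rfl⟩
        refine ⟨k * g₀⁻¹, ?_, ?_⟩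
        · rw [mul_smul, ← h, inv_smul_smul]
        · rw [mul_smul, inv_smul_smul]
    simp only [this]
  have h2 := orbC_total (G := G) a (g₀ • a)
  have h3 := orbC_total (G := G) a t
  simp only [h1] at h2
  rw [Finset.sum_comm, h3] at h2
  have hn : (Fintype.card Ω : ℂ) ≠ 0 := by
    exact_mod_cast Fintype.card_ne_zero
  have := mul_left_cancel₀ hn h2
  exact_mod_cast this.symm

/-- in even degree and rank three, suborbits are self-paired -/
lemma exists_swap [MulAction.IsPretransitive G Ω] (a₀ t : Ω) (ht : t ≠ a₀) (m : ℕ)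
    (hm : Fintype.card Ω = 2 * m)
    (hrank : Nat.card (MulAction.orbitRel.Quotient (MulAction.stabilizer G a₀) Ω) = 3) :
    ∃ g : G, g • a₀ = t ∧ g • t = a₀ := by
  classical
  by_contra hcon
  push Not at hcon
  letI : Fintype (MulAction.orbitRel.Quotient (MulAction.stabilizer G a₀) Ω) := Fintype.ofFinite _
  set Q := MulAction.orbitRel.Quotient (MulAction.stabilizer G a₀) Ω with hQ
  have hc : Fintype.card Q = 3 := by rwa [← Nat.card_eq_fintype_card]
  obtain ⟨g₀, hg₀⟩ := MulAction.exists_smul_eq G t a₀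
  set t' := g₀ • a₀ with ht'
  have hmem : ∀ y z : Ω, (Quotient.mk'' y : Q) = Quotient.mk'' z ↔
      y ∈ MulAction.orbit (MulAction.stabilizer G a₀) z := by
    intro y z
    rw [Quotient.eq'']
    rfl
  have h0 : (Quotient.mk'' t : Q) ≠ Quotient.mk'' a₀ := by
    intro h
    obtain ⟨s, hs⟩ := (hmem t a₀).1 h
    apply ht
    rw [← hs]
    exact s.2
  have h0' : (Quotient.mk'' t' : Q) ≠ Quotient.mk'' a₀ := by
    intro h
    obtain ⟨s, hs⟩ := (hmem t' a₀).1 h
    have h2 : t' = a₀ := by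
      rw [← hs]
      exact s.2
    apply ht
    exact MulAction.injective g₀ (by show g₀ • t = g₀ • a₀; rw [hg₀, ← ht', h2])
  have h1 : (Quotient.mk'' t' : Q) ≠ Quotient.mk'' t := by
    intro h
    obtain ⟨s, hs⟩ := (hmem t' t).1 h
    refine hcon (g₀⁻¹ * s.1) ?_ ?_
    · rw [mul_smul, s.2, inv_smul_eq_iff, hg₀]
    · rw [mul_smul]
      have : s.1 • t = t' := hs
      rw [this, ht', inv_smul_smul]
  have huniv : (Finset.univ : Finset Q) = {Quotient.mk'' a₀, Quotient.mk'' t, Quotient.mk'' t'} := by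
    symm
    apply Finset.eq_of_subset_of_card_le (Finset.subset_univ _)
    rw [Finset.card_univ, hc, Finset.card_eq_three.2 ⟨_, _, _, h0.symm, h0'.symm, h1.symm, rfl⟩]
  have hsum := suborbit_sum (G := G) a₀
  rw [huniv, Finset.sum_insert (by simp [h0.symm, h0'.symm]), Finset.sum_insert (by simp [h1.symm]),
    Finset.sum_singleton, orbit_self_card, MulAction.orbitRel.Quotient.orbit_mk,
    MulAction.orbitRel.Quotient.orbit_mk, paired_card a₀ t g₀ hg₀] at hsum
  omega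

/-- The standing hypotheses in rank three -/
structure R3 (G : Type u) [Group G] {Ω : Type w} [MulAction G Ω] (a₀ b c : Ω) : Prop where
  hb : b ≠ a₀
  hc : c ≠ a₀
  hbc : c ∉ MulAction.orbit (MulAction.stabilizer G a₀) b
  hall : ∀ y, y = a₀ ∨ y ∈ MulAction.orbit (MulAction.stabilizer G a₀) b ∨
    y ∈ MulAction.orbit (MulAction.stabilizer G a₀) c
  hsb : ∃ g : G, g • a₀ = b ∧ g • b = a₀
  hsc : ∃ g : G, g • a₀ = c ∧ g • c = a₀

lemma R3.hcb {a₀ b c : Ω} (h : R3 G a₀ b c) : b ∉ MulAction.orbit (MulAction.stabilizer G a₀) c := by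
  rintro ⟨s, hs⟩
  apply h.hbc
  refine ⟨s⁻¹, ?_⟩
  rw [← hs]
  exact inv_smul_smul _ _

lemma R3.symm {a₀ b c : Ω} (h : R3 G a₀ b c) : R3 G a₀ c b where
  hb := h.hc
  hc := h.hb
  hbc := h.hcb
  hall := fun y => by
    rcases h.hall y with h1 | h1 | h1
    · exact Or.inl h1
    · exact Or.inr (Or.inr h1)
    · exact Or.inr (Or.inl h1)
  hsb := h.hsc
  hsc := h.hsb

/-- `J = 1 + A + B` -/
lemma R3.J [MulAction.IsPretransitive G Ω] {a₀ b c : Ω} (h : R3 G a₀ b c) [DecidableEq Ω] (x y : Ω) :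
    orbC G a₀ b x y + orbC G a₀ c x y + (if x = y then 1 else 0) = 1 := by
  obtain ⟨k, rfl⟩ := MulAction.exists_smul_eq G a₀ x
  have hy : y = k • (k⁻¹ • y) := by simp
  rw [hy]
  set y' := k⁻¹ • y
  rw [orbC_inv, orbC_inv]
  have hiff : (k • a₀ = k • y') ↔ a₀ = y' := (MulAction.injective k).eq_iff
  simp only [hiff]
  rw [orbC_base, orbC_base]
  rcases h.hall y' with h1 | h1 | h1
  · have h2 : y' ∉ MulAction.orbit (MulAction.stabilizer G a₀) b := by
      rw [h1]
      intro h3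
      obtain ⟨s, hs⟩ := h3
      have h5 : s.1 • a₀ = a₀ := s.2
      have h6 : s.1 • b = a₀ := hs
      exact h.hb (MulAction.injective s.1 (h6.trans h5.symm))
    have h3 : y' ∉ MulAction.orbit (MulAction.stabilizer G a₀) c := by
      rw [h1]
      intro h3
      obtain ⟨s, hs⟩ := h3
      have h5 : s.1 • a₀ = a₀ := s.2
      have h6 : s.1 • c = a₀ := hs
      exact h.hc (MulAction.injective s.1 (h6.trans h5.symm))
    rw [if_neg h2, if_neg h3, if_pos h1.symm]
    simp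
  · have h2 : y' ∉ MulAction.orbit (MulAction.stabilizer G a₀) c := by
      intro h3
      apply h.hbc
      have := MulAction.orbit_eq_iff.2 h1
      have h4 := MulAction.orbit_eq_iff.2 h3
      have h5 : c ∈ MulAction.orbit (MulAction.stabilizer G a₀) y' := by
        rw [h4]
        exact MulAction.mem_orbit_self _
      rwa [this] at h5
    have h3 : a₀ ≠ y' := by
      rintro h3
      obtain ⟨s, hs⟩ := h1
      have h5 : s.1 • a₀ = a₀ := s.2
      have h6 : s.1 • b = a₀ := Eq.trans hs h3.symm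
      exact h.hb (MulAction.injective s.1 (h6.trans h5.symm))
    rw [if_pos h1, if_neg h2, if_neg h3]
    simp
  · have h2 : y' ∉ MulAction.orbit (MulAction.stabilizer G a₀) b := by
      intro h3
      apply h.hbc
      have := MulAction.orbit_eq_iff.2 h1
      have h4 := MulAction.orbit_eq_iff.2 h3
      have h5 : c ∈ MulAction.orbit (MulAction.stabilizer G a₀) y' := by
        rw [this]
        exact MulAction.mem_orbit_self _
      rwa [h4] at h5
    have h3 : a₀ ≠ y' := by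
      rintro h3
      obtain ⟨s, hs⟩ := h1
      have h5 : s.1 • a₀ = a₀ := s.2
      have h6 : s.1 • c = a₀ := Eq.trans hs h3.symm
      exact h.hc (MulAction.injective s.1 (h6.trans h5.symm))
    rw [if_neg h2, if_pos h1, if_neg h3]
    simp

lemma orbC_zero_one (a b x y : Ω) : orbC G a b x y = 0 ∨ orbC G a b x y = 1 := by
  classical
  rw [orbC_apply]
  split_ifs <;> simp

lemma prod_inv (P Q : Matrix Ω Ω ℂ) (hP : ∀ (g : G) x y, P (g • x) (g • y) = P x y)
    (hQ : ∀ (g : G) x y, Q (g • x) (g • y) = Q x y) (g : G) (x y : Ω) :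
    (P * Q) (g • x) (g • y) = (P * Q) x y := by
  classical
  rw [Matrix.mul_apply, Matrix.mul_apply]
  rw [← Equiv.sum_comp (MulAction.toPerm g)]
  refine Finset.sum_congr rfl fun z _ => ?_
  simp [hP, hQ]

open Classical in
/-- the intersection number of the orbital of `(a, b)` -/
noncomputable def cnt (G : Type u) [Group G] {Ω : Type w} [Fintype Ω] [MulAction G Ω] (a b t : Ω) : ℕ :=
  (Finset.univ.filter (fun z : Ω => (∃ g : G, g • a = a ∧ g • b = z) ∧ ∃ g : G, g • a = z ∧ g • b = t)).card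

lemma sq_entry (a b t : Ω) : (orbC G a b * orbC G a b) a t = cnt G a b t := by
  classical
  rw [Matrix.mul_apply, cnt, Finset.card_filter, Nat.cast_sum]
  refine Finset.sum_congr rfl fun z _ => ?_
  rw [orbC_apply, orbC_apply]
  by_cases h1 : ∃ g : G, g • a = a ∧ g • b = z <;> by_cases h2 : ∃ g : G, g • a = z ∧ g • b = t <;>
    simp [h1, h2]

/-- `A² = k + λ A + μ B` -/
theorem R3.sq [MulAction.IsPretransitive G Ω] {a₀ b c : Ω} (h : R3 G a₀ b c) [DecidableEq Ω] :
    orbC G a₀ b * orbC G a₀ b =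
      (Nat.card (MulAction.orbit (MulAction.stabilizer G a₀) b) : ℂ) • (1 : Matrix Ω Ω ℂ) +
      (cnt G a₀ b b : ℂ) • orbC G a₀ b + (cnt G a₀ b c : ℂ) • orbC G a₀ c := by
  classical
  ext x y
  obtain ⟨k, rfl⟩ := MulAction.exists_smul_eq G a₀ x
  have hy : y = k • (k⁻¹ • y) := by simp
  rw [hy]
  set y' := k⁻¹ • y
  rw [prod_inv (G := G) _ _ (orbC_inv a₀ b) (orbC_inv a₀ b)]
  simp only [Matrix.add_apply, Matrix.smul_apply, smul_eq_mul]
  rw [orbC_inv, orbC_inv]
  have hiff : (k • a₀ = k • y') ↔ a₀ = y' := (MulAction.injective k).eq_iff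
  rw [Matrix.one_apply]
  simp only [hiff]
  have hJ := R3.J (G := G) h a₀ y'
  have hJ2 : orbC G a₀ b a₀ y' + orbC G a₀ c a₀ y' + (if a₀ = y' then 1 else 0) = 1 := hJ
  rcases h.hall y' with h1 | h1 | h1
  · rw [h1]
    rw [orbC_self_base a₀ b h.hb, orbC_self_base a₀ c h.hc, if_pos rfl]
    rw [Matrix.mul_apply]
    have h3 : ∀ z, orbC G a₀ b a₀ z * orbC G a₀ b z a₀ = orbC G a₀ b a₀ z := by
      intro z
      rw [orbC_sym (G := G) h.hsb z a₀]
      rcases orbC_zero_one (G := G) a₀ b a₀ z with h4 | h4 <;> rw [h4] <;> simp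
    simp only [h3]
    have h5 := orbC_row (G := G) a₀ b a₀ 1
    simp only [Matrix.mulVecLin_apply, Matrix.mulVec, dotProduct, mul_one] at h5
    rw [h5]
    simp
  · obtain ⟨⟨s, hs1'⟩, hs⟩ := h1
    have hs1 : s • a₀ = a₀ := hs1'
    have hs2 : s • b = y' := hs
    have h2 : (orbC G a₀ b * orbC G a₀ b) a₀ y' = cnt G a₀ b b := by
      have h7 := prod_inv (G := G) _ _ (orbC_inv a₀ b) (orbC_inv a₀ b) s a₀ b
      rw [hs1, hs2] at h7
      rw [h7, sq_entry]
    have h3 : orbC G a₀ b a₀ y' = 1 := orbC_mem a₀ b a₀ y' ⟨s, hs1, hs2⟩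
    have h4 : orbC G a₀ c a₀ y' = 0 := by
      apply orbC_not
      rintro ⟨g, hg1, hg2⟩
      apply h.hbc
      refine ⟨⟨g⁻¹ * s, ?_⟩, ?_⟩
      · rw [MulAction.mem_stabilizer_iff, mul_smul, hs1, inv_smul_eq_iff, hg1]
      · show (g⁻¹ * s) • b = c
        rw [mul_smul, hs2, ← hg2, inv_smul_smul]
    have h5 : a₀ ≠ y' := by
      rintro rfl
      exact h.hb (MulAction.injective s (hs2.trans hs1.symm))
    rw [h2, h3, h4, if_neg h5]
    simp
  · obtain ⟨⟨s, hs1'⟩, hs⟩ := h1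
    have hs1 : s • a₀ = a₀ := hs1'
    have hs2 : s • c = y' := hs
    have h2 : (orbC G a₀ b * orbC G a₀ b) a₀ y' = cnt G a₀ b c := by
      have h7 := prod_inv (G := G) _ _ (orbC_inv a₀ b) (orbC_inv a₀ b) s a₀ c
      rw [hs1, hs2] at h7
      rw [h7, sq_entry]
    have h3 : orbC G a₀ c a₀ y' = 1 := orbC_mem a₀ c a₀ y' ⟨s, hs1, hs2⟩
    have h4 : orbC G a₀ b a₀ y' = 0 := by
      apply orbC_not
      rintro ⟨g, hg1, hg2⟩
      apply h.hbc
      refine ⟨⟨s⁻¹ * g, ?_⟩, ?_⟩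
      · rw [MulAction.mem_stabilizer_iff, mul_smul, hg1, inv_smul_eq_iff, hs1]
      · show (s⁻¹ * g) • b = c
        rw [mul_smul, hg2, ← hs2, inv_smul_smul]
    have h5 : a₀ ≠ y' := by
      rintro rfl
      exact h.hc (MulAction.injective s (hs2.trans hs1.symm))
    rw [h2, h3, h4, if_neg h5]
    simp

/-- primitivity forces a two-step path from `b` to `c` -/
theorem R3.cnt_pos [MulAction.IsPretransitive G Ω] {a₀ b c : Ω} (h : R3 G a₀ b c)
    (hprim : MulAction.IsPreprimitive G Ω) : 1 ≤ cnt G a₀ b c := by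
  classical
  by_contra hcon
  have h0 : ∀ z : Ω, ¬ ((∃ g : G, g • a₀ = a₀ ∧ g • b = z) ∧ ∃ g : G, g • a₀ = z ∧ g • b = c) := by
    intro z hz
    apply hcon
    rw [cnt]
    refine Finset.card_pos.2 ⟨z, ?_⟩
    simp only [Finset.mem_filter, Finset.mem_univ, true_and]
    exact hz
  let P : Ω → Ω → Prop := fun x y => ∃ g : G, g • a₀ = x ∧ g • b = y
  have hPsymm : ∀ x y, P x y → P y x := by
    rintro x y ⟨k, rfl, rfl⟩
    obtain ⟨g, h1, h2⟩ := h.hsb
    exact ⟨k * g, by rw [mul_smul, h1], by rw [mul_smul, h2]⟩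
  have hPtrans : ∀ x y z, P x y → P y z → x = z ∨ P x z := by
    rintro x y z ⟨k, rfl, rfl⟩ ⟨l, hl1, hl2⟩
    set z' := k⁻¹ • z with hz'
    have hz2 : z = k • z' := by simp [hz']
    have hbz : ∃ t : G, t • a₀ = b ∧ t • b = z' := by
      refine ⟨k⁻¹ * l, ?_, ?_⟩
      · rw [mul_smul, hl1, inv_smul_smul]
      · rw [mul_smul, hl2]
    rcases h.hall z' with h1 | h1 | h1
    · left
      rw [hz2, h1]
    · right
      obtain ⟨⟨s, hs1⟩, hs⟩ := h1
      have hs1' : s • a₀ = a₀ := hs1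
      have hs2 : s • b = z' := hs
      exact ⟨k * s, by rw [mul_smul, hs1'], by rw [mul_smul, hs2, hz2]⟩
    · exfalso
      obtain ⟨⟨s, hs1⟩, hs⟩ := h1
      have hs1' : s • a₀ = a₀ := hs1
      have hs2 : s • c = z' := hs
      obtain ⟨t, ht1, ht2⟩ := hbz
      refine h0 (s⁻¹ • b) ⟨⟨s⁻¹, ?_, rfl⟩, ⟨s⁻¹ * t, ?_, ?_⟩⟩
      · rw [inv_smul_eq_iff, hs1']
      · rw [mul_smul, ht1]
      · rw [mul_smul, ht2, inv_smul_eq_iff, hs2]
  let E : Ω → Ω → Prop := fun x y => x = y ∨ P x y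
  have hEsymm : ∀ x y, E x y → E y x := by
    rintro x y (h1 | h1)
    · exact Or.inl h1.symm
    · exact Or.inr (hPsymm _ _ h1)
  have hEtrans : ∀ x y z, E x y → E y z → E x z := by
    rintro x y z (h1 | h1) (h2 | h2)
    · exact Or.inl (h1.trans h2)
    · rw [h1]; exact Or.inr h2
    · rw [← h2]; exact Or.inr h1
    · exact hPtrans x y z h1 h2
  have hEinv : ∀ (g : G) x y, E (g • x) (g • y) ↔ E x y := by
    intro g x y
    constructor
    · rintro (h1 | ⟨k, h1, h2⟩)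
      · exact Or.inl (MulAction.injective g h1)
      · refine Or.inr ⟨g⁻¹ * k, ?_, ?_⟩
        · rw [mul_smul, h1, inv_smul_smul]
        · rw [mul_smul, h2, inv_smul_smul]
    · rintro (h1 | ⟨k, h1, h2⟩)
      · exact Or.inl (by rw [h1])
      · refine Or.inr ⟨g * k, ?_, ?_⟩
        · rw [mul_smul, h1]
        · rw [mul_smul, h2]
  let B : Set Ω := {y | E a₀ y}
  have hmemB : ∀ (g : G) (y : Ω), y ∈ g • B ↔ E (g • a₀) y := by
    intro g y
    rw [Set.mem_smul_set_iff_inv_smul_mem]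
    show E a₀ (g⁻¹ • y) ↔ _
    rw [← hEinv g, smul_inv_smul]
  have hblock : MulAction.IsBlock G B := by
    rw [MulAction.isBlock_iff_smul_eq_smul_or_disjoint]
    intro g₁ g₂
    by_cases hd : Disjoint (g₁ • B) (g₂ • B)
    · exact Or.inr hd
    · left
      rw [Set.not_disjoint_iff] at hd
      obtain ⟨w, hw1, hw2⟩ := hd
      have h1 := (hmemB g₁ w).1 hw1
      have h2 := (hmemB g₂ w).1 hw2
      have h3 := hEtrans _ _ _ h1 (hEsymm _ _ h2)
      ext y
      rw [hmemB, hmemB]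
      exact ⟨fun h4 => hEtrans _ _ _ (hEsymm _ _ h3) h4, fun h4 => hEtrans _ _ _ h3 h4⟩
  have htriv := hprim.isTrivialBlock_of_isBlock hblock
  rcases htriv with h1 | h1
  · have h2 : a₀ ∈ B := Or.inl rfl
    have h3 : b ∈ B := Or.inr ⟨1, by simp, by simp⟩
    exact h.hb (h1 h3 h2)
  · have h2 : c ∈ B := by rw [h1]; exact Set.mem_univ _
    rcases h2 with h2 | ⟨k, h2, h3⟩
    · exact h.hc h2.symm
    · exact h.hbc ⟨⟨k, h2⟩, h3⟩

end Rank3

section Main

variable {G : Type u} [Group G] [Fintype G] {Ω : Type w} [Fintype Ω] [MulAction G Ω]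

/-- row sum of the unit kernel -/
lemma R3.sum_degrees [MulAction.IsPretransitive G Ω] {a₀ b c : Ω} (h : R3 G a₀ b c) :
    Nat.card (MulAction.orbit (MulAction.stabilizer G a₀) b) +
      Nat.card (MulAction.orbit (MulAction.stabilizer G a₀) c) + 1 = Fintype.card Ω := by
  classical
  have h1 := fun y => R3.J (G := G) h a₀ y
  have h2 : ∑ y : Ω, (orbC G a₀ b a₀ y + orbC G a₀ c a₀ y + (if a₀ = y then 1 else 0)) =
      ∑ y : Ω, (1 : ℂ) := Finset.sum_congr rfl fun y _ => h1 y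
  rw [Finset.sum_add_distrib, Finset.sum_add_distrib] at h2
  have h5 := orbC_row (G := G) a₀ b a₀ 1
  have h6 := orbC_row (G := G) a₀ c a₀ 1
  simp only [Matrix.mulVecLin_apply, Matrix.mulVec, dotProduct, mul_one] at h5 h6
  rw [h5, h6] at h2
  simp only [Finset.sum_ite_eq, Finset.mem_univ, if_true, Finset.sum_const, Finset.card_univ,
    nsmul_eq_mul, mul_one] at h2
  exact_mod_cast h2

/-- `A e₀ = d e₀` -/
lemma orbA_e0 [MulAction.IsPretransitive G Ω] (a b : Ω) :
    (orbC G a b).mulVecLin * eOp ((oneI G : IrrCharacter G) : G → ℂ) (Cfsg.permRep ℂ G Ω) =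
      (Nat.card (MulAction.orbit (MulAction.stabilizer G a) b) : ℂ) •
        eOp ((oneI G : IrrCharacter G) : G → ℂ) (Cfsg.permRep ℂ G Ω) := by
  apply LinearMap.ext
  intro f₀
  funext x
  have h1 : eOp ((oneI G : IrrCharacter G) : G → ℂ) (Cfsg.permRep ℂ G Ω) f₀ =
      fun _ => eOp ((oneI G : IrrCharacter G) : G → ℂ) (Cfsg.permRep ℂ G Ω) f₀ a := by
    funext y
    exact e1_const f₀ y a
  show (orbC G a b).mulVecLin (eOp ((oneI G : IrrCharacter G) : G → ℂ) (Cfsg.permRep ℂ G Ω) f₀) x =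
    (Nat.card (MulAction.orbit (MulAction.stabilizer G a) b) : ℂ) *
      eOp ((oneI G : IrrCharacter G) : G → ℂ) (Cfsg.permRep ℂ G Ω) f₀ x
  rw [h1]
  exact orbC_row a b x _

/-- `e₀ J = J` where `J = 1 + A + B` has all entries one. -/
lemma R3.e0_J [MulAction.IsPretransitive G Ω] {a₀ b c : Ω} (h : R3 G a₀ b c) [DecidableEq Ω] :
    eOp ((oneI G : IrrCharacter G) : G → ℂ) (Cfsg.permRep ℂ G Ω) *
      ((orbC G a₀ b).mulVecLin + (orbC G a₀ c).mulVecLin + 1) =
      (orbC G a₀ b).mulVecLin + (orbC G a₀ c).mulVecLin + 1 := by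
  classical
  apply LinearMap.ext
  intro f
  have h1 : ((orbC G a₀ b).mulVecLin + (orbC G a₀ c).mulVecLin + 1 : End ℂ (Ω → ℂ)) f =
      (∑ y, f y) • (fun _ : Ω => (1 : ℂ)) := by
    funext x
    have h2 : ∀ y, orbC G a₀ b x y * f y + orbC G a₀ c x y * f y + (if x = y then f y else 0) = f y := by
      intro y
      have := R3.J (G := G) h x y
      split_ifs at this ⊢ with h3
      · linear_combination (f y) * this
      · linear_combination (f y) * this
    simp only [LinearMap.add_apply, Module.End.one_apply, Pi.add_apply, Matrix.mulVecLin_apply,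
      Matrix.mulVec, dotProduct, Pi.smul_apply, smul_eq_mul, mul_one]
    rw [← Finset.sum_congr rfl fun y _ => h2 y, Finset.sum_add_distrib, Finset.sum_add_distrib]
    simp
  show eOp ((oneI G : IrrCharacter G) : G → ℂ) (Cfsg.permRep ℂ G Ω)
      (((orbC G a₀ b).mulVecLin + (orbC G a₀ c).mulVecLin + 1 : End ℂ (Ω → ℂ)) f) = _
  rw [h1, map_smul]
  congr 1
  funext x
  exact e1_one x

/-- eigenvalue relation from a quadratic relation -/
lemma sq_eig {V : Type v} [AddCommGroup V] [Module ℂ V] (A B e : End ℂ V) (he : e ≠ 0) (r r' k l m : ℂ)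
    (hA : A * e = r • e) (hB : B * e = r' • e) (hq : A * A = k • 1 + l • A + m • B) :
    r ^ 2 = k + l * r + m * r' := by
  have h1 : (A * A) * e = (r ^ 2) • e := by
    rw [mul_assoc, hA, mul_smul_comm, hA, smul_smul, sq]
  have h2 : (k • (1 : End ℂ V) + l • A + m • B) * e = (k + l * r + m * r') • e := by
    rw [add_mul, add_mul, smul_mul_assoc, smul_mul_assoc, smul_mul_assoc, one_mul, hA, hB,
      smul_smul, smul_smul, add_smul, add_smul]
  rw [hq, h2] at h1
  exact (smul_left_injective ℂ he h1).symm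

theorem wielandt_main (hprim : MulAction.IsPreprimitive G Ω) {m : ℕ} (hm : Fintype.card Ω = 2 * m)
    (a₀ : Ω) (hrank : Nat.card (MulAction.orbitRel.Quotient (MulAction.stabilizer G a₀) Ω) = 3)
    (χ₁ χ₂ : G → ℂ) (h₁ : Cfsg.IsIrrCharacter G χ₁) (h₂ : Cfsg.IsIrrCharacter G χ₂)
    (hπ : (fun g : G => (Nat.card (MulAction.fixedBy Ω g) : ℂ)) = fun g => 1 + χ₁ g + χ₂ g)
    (hd₁ : χ₁ 1 = (m : ℂ) - 1) (hd₂ : χ₂ 1 = m) :
    ∃ a : ℕ, 0 < a ∧ m = 2 * a ^ 2 + 2 * a + 1 ∧ ∀ b : Ω, b ≠ a₀ →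
      Nat.card (MulAction.orbit (MulAction.stabilizer G a₀) b) = a * (2 * a + 1) ∨
      Nat.card (MulAction.orbit (MulAction.stabilizer G a₀) b) = (a + 1) * (2 * a + 1) := by
  classical
  letI : Fintype (IrrCharacter G) := Fintype.ofFinite _
  haveI : MulAction.IsPretransitive G Ω := hprim.toIsPretransitive
  haveI : Nonempty Ω := ⟨a₀⟩
  set ρ := Cfsg.permRep ℂ G Ω with hρ
  let ψ₁ : IrrCharacter G := ⟨χ₁, h₁⟩
  let ψ₂ : IrrCharacter G := ⟨χ₂, h₂⟩
  let ψ₀ : IrrCharacter G := oneI G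
  have hψ₀ : ∀ g, (ψ₀ : G → ℂ) g = 1 := fun _ => rfl
  have hchar : ρ.character = (ψ₀ : G → ℂ) + (ψ₁ : G → ℂ) + (ψ₂ : G → ℂ) := by
    rw [hρ, perm_char_fun, hπ]
    rfl
  have hinner : ∀ φ : IrrCharacter G, classInner ρ.character (φ : G → ℂ) =
      (if ψ₀ = φ then 1 else 0) + (if ψ₁ = φ then 1 else 0) + (if ψ₂ = φ then 1 else 0) := by
    intro φ
    rw [hchar, classInner_add_left, classInner_add_left, classInner_irr, classInner_irr, classInner_irr]
  have hone := inner_perm_one (G := G) (Ω := Ω)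
  have h01 : ψ₁ ≠ ψ₀ := by
    intro h
    have h3 := hinner ψ₀
    rw [← hρ] at hone
    rw [show ((oneI G : IrrCharacter G) : G → ℂ) = (ψ₀ : G → ℂ) from rfl] at hone
    rw [hone, if_pos rfl, if_pos h] at h3
    split_ifs at h3 <;> norm_num at h3
  have h02 : ψ₂ ≠ ψ₀ := by
    intro h
    have h3 := hinner ψ₀
    rw [← hρ] at hone
    rw [show ((oneI G : IrrCharacter G) : G → ℂ) = (ψ₀ : G → ℂ) from rfl] at hone
    rw [hone, if_pos rfl, if_pos h] at h3
    split_ifs at h3 <;> norm_num at h3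
  have h12 : ψ₁ ≠ ψ₂ := by
    intro h
    have h3 : χ₁ = χ₂ := congrArg Subtype.val h
    rw [h3, hd₂] at hd₁
    have : (0 : ℂ) = -1 := by linear_combination hd₁
    norm_num at this
  have hm2 : 2 ≤ m := by
    have h3 := irr_one_ne ψ₁
    have h3' : χ₁ 1 ≠ 0 := h3
    have h4 : m ≠ 1 := by
      rintro rfl
      apply h3'
      rw [hd₁]
      simp
    have h5 : m ≠ 0 := by
      rintro rfl
      have := Fintype.card_pos (α := Ω)
      omega
    omega
  have hi0 : classInner ρ.character (ψ₀ : G → ℂ) = 1 := by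
    rw [hinner, if_pos rfl, if_neg h01, if_neg h02]
    simp
  have hi1 : classInner ρ.character (ψ₁ : G → ℂ) = 1 := by
    rw [hinner, if_neg h01.symm, if_pos rfl, if_neg h12.symm]
    simp
  have hi2 : classInner ρ.character (ψ₂ : G → ℂ) = 1 := by
    rw [hinner, if_neg h02.symm, if_neg h12, if_pos rfl]
    simp
  have hi' : ∀ φ : IrrCharacter G, classInner (φ : G → ℂ) ρ.character =
      (starRingEnd ℂ) (classInner ρ.character (φ : G → ℂ)) := fun φ => by
    rw [classInner_comm_conj]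
  have hmf : ∀ φ : IrrCharacter G, classInner ρ.character (φ : G → ℂ) = 0 ∨
      classInner ρ.character (φ : G → ℂ) = 1 := by
    intro φ
    by_cases h0 : φ = ψ₀
    · rw [h0]; exact Or.inr hi0
    by_cases h1 : φ = ψ₁
    · rw [h1]; exact Or.inr hi1
    by_cases h2 : φ = ψ₂
    · rw [h2]; exact Or.inr hi2
    left
    rw [hinner, if_neg (Ne.symm h0), if_neg (Ne.symm h1), if_neg (Ne.symm h2)]
    simp
  set e₀ := eOp (ψ₀ : G → ℂ) ρ with he₀
  set e₁ := eOp (ψ₁ : G → ℂ) ρ with he₁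
  set e₂ := eOp (ψ₂ : G → ℂ) ρ with he₂
  have hsum : e₀ + e₁ + e₂ = 1 := by
    have h3 := sum_eOp (G := G) ρ
    have h4 : ∑ ψ : IrrCharacter G, eOp (ψ : G → ℂ) ρ =
        ∑ ψ ∈ ({ψ₀, ψ₁, ψ₂} : Finset (IrrCharacter G)), eOp (ψ : G → ℂ) ρ := by
      symm
      apply Finset.sum_subset (Finset.subset_univ _)
      intro φ _ hφ
      simp only [Finset.mem_insert, Finset.mem_singleton, not_or] at hφ
      apply eOp_eq_zero
      rw [hinner, if_neg (Ne.symm hφ.1), if_neg (Ne.symm hφ.2.1), if_neg (Ne.symm hφ.2.2)]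
      simp
    rw [h4, Finset.sum_insert (by simp [h01.symm, h02.symm]),
      Finset.sum_insert (by simp [h12]), Finset.sum_singleton, ← add_assoc] at h3
    exact h3
  have ht0 : LinearMap.trace ℂ (Ω → ℂ) e₀ = 1 := trace_e1
  have ht1 : LinearMap.trace ℂ (Ω → ℂ) e₁ = (m : ℂ) - 1 := by
    rw [he₁, trace_eOp, hi', hi1, map_one, mul_one]
    exact hd₁
  have ht2 : LinearMap.trace ℂ (Ω → ℂ) e₂ = (m : ℂ) := by
    rw [he₂, trace_eOp, hi', hi2, map_one, mul_one]
    exact hd₂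
  have hne0 : e₀ ≠ 0 := eOp_ne_zero ψ₀ ρ (by rw [hi0]; simp)
  have hne1 : e₁ ≠ 0 := eOp_ne_zero ψ₁ ρ (by rw [hi1]; simp)
  have hne2 : e₂ ≠ 0 := eOp_ne_zero ψ₂ ρ (by rw [hi2]; simp)
  obtain ⟨b, c, hb, hc, hbc, hall⟩ := exists_structure (G := G) a₀ hrank
  have hR : R3 G a₀ b c := ⟨hb, hc, hbc, hall, exists_swap a₀ b hb m hm hrank, exists_swap a₀ c hc m hm hrank⟩
  set k := Nat.card (MulAction.orbit (MulAction.stabilizer G a₀) b) with hk
  set l := Nat.card (MulAction.orbit (MulAction.stabilizer G a₀) c) with hl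
  have hkl : k + l + 1 = 2 * m := by
    rw [← hm]
    exact hR.sum_degrees
  have hk1 : 1 ≤ k := by
    haveI : Nonempty (MulAction.orbit (MulAction.stabilizer G a₀) b) :=
      ⟨⟨b, MulAction.mem_orbit_self b⟩⟩
    exact Nat.card_pos
  have hl1 : 1 ≤ l := by
    haveI : Nonempty (MulAction.orbit (MulAction.stabilizer G a₀) c) :=
      ⟨⟨c, MulAction.mem_orbit_self c⟩⟩
    exact Nat.card_pos
  set A : End ℂ (Ω → ℂ) := (orbC G a₀ b).mulVecLin with hA
  set B : End ℂ (Ω → ℂ) := (orbC G a₀ c).mulVecLin with hB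
  have hAmem : A ∈ (Representation.linHom ρ ρ).invariants := orbA_mem a₀ b
  have hBmem : B ∈ (Representation.linHom ρ ρ).invariants := orbA_mem a₀ c
  have hsmul : ∀ (x : ℂ) (M : Matrix Ω Ω ℂ), (x • M).mulVecLin = x • M.mulVecLin := by
    intro x M
    apply LinearMap.ext
    intro v
    simp [Matrix.mulVecLin_apply, Matrix.smul_mulVec]
  have hq1 : A * A = (k : ℂ) • 1 + (cnt G a₀ b b : ℂ) • A + (cnt G a₀ b c : ℂ) • B := by
    have h3 : A * A = (orbC G a₀ b * orbC G a₀ b).mulVecLin := (Matrix.mulVecLin_mul _ _).symm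
    rw [h3, hR.sq, Matrix.mulVecLin_add, Matrix.mulVecLin_add, hsmul, hsmul, hsmul, Matrix.mulVecLin_one]
    rfl
  have hq2 : B * B = (l : ℂ) • 1 + (cnt G a₀ c c : ℂ) • B + (cnt G a₀ c b : ℂ) • A := by
    have h3 : B * B = (orbC G a₀ c * orbC G a₀ c).mulVecLin := (Matrix.mulVecLin_mul _ _).symm
    rw [h3, hR.symm.sq, Matrix.mulVecLin_add, Matrix.mulVecLin_add, hsmul, hsmul, hsmul,
      Matrix.mulVecLin_one]
    rfl
  have hmu₁ := hR.cnt_pos hprim
  have hmu₂ := hR.symm.cnt_pos hprim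
  have hJcomm : ∀ g, (A + B + 1 : End ℂ (Ω → ℂ)) ∘ₗ ρ g = ρ g ∘ₗ (A + B + 1 : End ℂ (Ω → ℂ)) := by
    intro g
    have h3 : A * ρ g = ρ g * A := orbA_comm a₀ b g
    have h4 : B * ρ g = ρ g * B := orbA_comm a₀ c g
    show (A + B + 1) * ρ g = ρ g * (A + B + 1)
    rw [add_mul, add_mul, mul_add, mul_add, h3, h4, one_mul, mul_one]
  have hJe : ∀ φ : IrrCharacter G, φ ≠ ψ₀ → (A + B + 1) * eOp (φ : G → ℂ) ρ = 0 := by
    intro φ hφ
    have h3 : (A + B + 1) * eOp (φ : G → ℂ) ρ = eOp (φ : G → ℂ) ρ * (A + B + 1) :=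
      eOp_comm_end _ ρ _ hJcomm
    have h4 : e₀ * (A + B + 1) = A + B + 1 := hR.e0_J
    rw [h3, ← h4, ← mul_assoc, eOp_mul', if_neg hφ, zero_mul]
  have hA0 : A * e₀ = (k : ℂ) • e₀ := orbA_e0 a₀ b
  have hB0 : B * e₀ = (l : ℂ) • e₀ := orbA_e0 a₀ c
  obtain ⟨r, hr⟩ := mul_eOp_of_multfree ρ hmf A hAmem ψ₁
  obtain ⟨r', hr'⟩ := mul_eOp_of_multfree ρ hmf B hBmem ψ₁
  obtain ⟨s, hs⟩ := mul_eOp_of_multfree ρ hmf A hAmem ψ₂
  obtain ⟨s', hs'⟩ := mul_eOp_of_multfree ρ hmf B hBmem ψ₂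
  have hrr : r' = -1 - r := by
    have h3 := hJe ψ₁ h01
    rw [add_mul, add_mul, hr, hr', one_mul, ← add_smul, ← one_smul ℂ (eOp (ψ₁ : G → ℂ) ρ), smul_smul,
      mul_one, ← add_smul] at h3
    have h4 := (smul_eq_zero.1 h3).resolve_right hne1
    linear_combination h4
  have hss : s' = -1 - s := by
    have h3 := hJe ψ₂ h02
    rw [add_mul, add_mul, hs, hs', one_mul, ← add_smul, ← one_smul ℂ (eOp (ψ₂ : G → ℂ) ρ), smul_smul,
      mul_one, ← add_smul] at h3
    have h4 := (smul_eq_zero.1 h3).resolve_right hne2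
    linear_combination h4
  subst hrr hss
  have hAexp : A = (k : ℂ) • e₀ + r • e₁ + s • e₂ := by
    calc A = A * (e₀ + e₁ + e₂) := by rw [hsum, mul_one]
      _ = _ := by rw [mul_add, mul_add, hA0, hr, hs]
  have hh1 : (k : ℂ) + ((m : ℂ) - 1) * r + m * s = 0 := by
    have h3 : LinearMap.trace ℂ (Ω → ℂ) A = 0 := trace_orbA a₀ b hb
    rw [hAexp, map_add, map_add, map_smul, map_smul, map_smul, ht0, ht1, ht2] at h3
    simp only [smul_eq_mul] at h3
    linear_combination h3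
  have hone_tr : LinearMap.trace ℂ (Ω → ℂ) (1 : End ℂ (Ω → ℂ)) = 2 * m := by
    rw [LinearMap.trace_one, Module.finrank_fintype_fun_eq_card, hm]
    push_cast
    ring
  have hh2 : (k : ℂ) ^ 2 + ((m : ℂ) - 1) * r ^ 2 + m * s ^ 2 = 2 * m * k := by
    have h3 : A * ((k : ℂ) • e₀ + r • e₁ + s • e₂) = ((k : ℂ) ^ 2) • e₀ + (r ^ 2) • e₁ + (s ^ 2) • e₂ := by
      rw [mul_add, mul_add, mul_smul_comm, mul_smul_comm, mul_smul_comm, hA0, hr, hs, smul_smul,
        smul_smul, smul_smul, sq, sq, sq]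
    rw [← hAexp] at h3
    have h4 := congrArg (LinearMap.trace ℂ (Ω → ℂ)) h3
    rw [hq1, map_add, map_add, map_add, map_add, map_smul, map_smul, map_smul, map_smul, map_smul,
      map_smul, hone_tr, ht0, ht1, ht2, hA, hB, trace_orbA a₀ b hb, trace_orbA a₀ c hc] at h4
    simp only [smul_eq_mul] at h4
    linear_combination -h4
  have h3r := sq_eig A B e₁ hne1 r (-1 - r) k _ _ hr hr' hq1
  have h3s := sq_eig A B e₂ hne2 s (-1 - s) k _ _ hs hs' hq1
  have h4c := sq_eig A B e₀ hne0 k l k _ _ hA0 hB0 hq1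
  have h3r' := sq_eig B A e₁ hne1 (-1 - r) r l _ _ hr' hr hq2
  have h3s' := sq_eig B A e₂ hne2 (-1 - s) s l _ _ hs' hs hq2
  have h4c' := sq_eig B A e₀ hne0 l k l _ _ hB0 hA0 hq2
  have hint : IsIntegral ℤ r := by
    apply orbA_integral (G := G) a₀ b r
    obtain ⟨f, hf⟩ : ∃ f, e₁ f ≠ 0 := by
      by_contra hcon
      push Not at hcon
      exact hne1 (LinearMap.ext hcon)
    apply Module.End.hasEigenvalue_of_hasEigenvector (x := e₁ f)
    refine ⟨Module.End.mem_eigenspace_iff.2 ?_, hf⟩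
    exact LinearMap.congr_fun hr f
  have h4n : k ^ 2 = k + cnt G a₀ b b * k + cnt G a₀ b c * l := by exact_mod_cast h4c
  have h4n' : l ^ 2 = l + cnt G a₀ c c * l + cnt G a₀ c b * k := by exact_mod_cast h4c'
  obtain ⟨R, hR1, hR2⟩ := algebra_core m k l _ _ _ _ r s hm2 hk1 hl1 hkl hmu₁ hmu₂ hh1 hh2 h3r h3s h4n
    (by rw [h3r']) (by rw [h3s']) h4n' hint
  have hdeg : ∀ t : Ω, t ≠ a₀ → Nat.card (MulAction.orbit (MulAction.stabilizer G a₀) t) = k ∨
      Nat.card (MulAction.orbit (MulAction.stabilizer G a₀) t) = l := by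
    intro t ht
    rcases hall t with h3 | h3 | h3
    · exact absurd h3 ht
    · left
      rw [MulAction.orbit_eq_iff.2 h3]
    · right
      rw [MulAction.orbit_eq_iff.2 h3]
  have hklZ : (k : ℤ) + l + 1 = 2 * m := by exact_mod_cast hkl
  have hRcases : 1 ≤ R ∨ R ≤ -2 := by
    by_contra hcon
    push Not at hcon
    have h3 : R = 0 ∨ R = -1 := by omega
    rcases h3 with rfl | rfl
    · norm_num at hR2
      omega
    · norm_num at hR2
      omega
  rcases hRcases with hR3 | hR3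
  · obtain ⟨a, rfl⟩ : ∃ a : ℕ, R = a := ⟨R.toNat, by omega⟩
    refine ⟨a, by omega, ?_, ?_⟩
    · zify
      linarith
    · intro t ht
      rcases hdeg t ht with h3 | h3
      · right
        rw [h3]
        zify
        rw [hR1, hR2]
        ring
      · left
        rw [h3]
        zify
        have : (l : ℤ) = 2 * m - 1 - (m + a) := by linarith
        rw [this, hR2]
        ring
  · obtain ⟨a, ha⟩ : ∃ a : ℕ, R = -1 - a := ⟨(-1 - R).toNat, by omega⟩
    subst ha
    refine ⟨a, by omega, ?_, ?_⟩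
    · zify
      rw [hR2]
      ring
    · intro t ht
      rcases hdeg t ht with h3 | h3
      · left
        rw [h3]
        zify
        rw [hR1, hR2]
        ring
      · right
        rw [h3]
        zify
        have : (l : ℤ) = 2 * m - 1 - (m + (-1 - a)) := by linarith
        rw [this, hR2]
        ring

end Main

end Cfsg.Agent.H03.PC
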