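import Mathlib
import Cfsg.Prelude.Def_Classical
import Cfsg.Agent.Lib.H03.F4
import Cfsg.Agent.Lib.Lead.SUCenter

/-! `PSU₃(2) ≅ 3² : Q₈`. -/

set_option autoImplicit false
set_option maxRecDepth 100000

namespace Cfsg.Agent.H03.PSU32

open Matrix

section Abstract

variable {G : Type*} [Group G]

/-- a homomorphism from `Q₈` from relations, with range inside any subgroup containing the
generators -/
theorem quatHom' (z w : G) (hz : orderOf z = 2 * 2)
    (hw2 : w * w = z ^ 2) (hc : w * z * w⁻¹ = z⁻¹) (hnot : ∀ k : ℕ, w ≠ z ^ k) :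
    ∃ f : QuaternionGroup 2 →* G, Function.Injective f ∧
      ∀ H : Subgroup G, z ∈ H → w ∈ H → f.range ≤ H := by
  have hpos : 0 < 2 * 2 := by norm_num
  let pz : ZMod (2 * 2) → G := fun i => z ^ i.val
  have pz_add : ∀ i j, pz (i + j) = pz i * pz j := by
    intro i j
    change z ^ (i + j).val = z ^ i.val * z ^ j.val
    rw [ZMod.val_add, ← pow_add]
    have := pow_mod_orderOf z (i.val + j.val)
    rw [hz] at this
    exact this
  have pz_zero : pz 0 = 1 := by
    change z ^ (0 : ZMod (2 * 2)).val = 1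
    rw [ZMod.val_zero, pow_zero]
  have pz_neg : ∀ i, pz (-i) = (pz i)⁻¹ := by
    intro i
    rw [eq_inv_iff_mul_eq_one, ← pz_add, neg_add_cancel, pz_zero]
  have pz_n : pz ((2 : ℕ) : ZMod (2 * 2)) = z ^ 2 := by
    change z ^ ((2 : ℕ) : ZMod (2 * 2)).val = z ^ 2
    rw [ZMod.val_natCast, Nat.mod_eq_of_lt (by norm_num)]
  have conj_pow : ∀ k : ℕ, w * z ^ k * w⁻¹ = (z ^ k)⁻¹ := by
    intro k
    rw [← _root_.conj_pow, hc, inv_pow]
  have hwpz : ∀ i, pz i * w = w * pz (-i) := by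
    intro i
    have h := conj_pow (-i).val
    have h2 : w * pz (-i) * w⁻¹ = (pz (-i))⁻¹ := h
    rw [pz_neg, inv_inv] at h2
    rw [← h2, pz_neg]
    group
  let f : QuaternionGroup 2 → G := fun x =>
    match x with
    | .a i => pz i
    | .xa i => w * pz i
  have hmul : ∀ x y, f (x * y) = f x * f y := by
    rintro (i | i) (j | j)
    · change pz (i + j) = pz i * pz j
      exact pz_add i j
    · change w * pz (j - i) = pz i * (w * pz j)
      rw [← mul_assoc, hwpz, mul_assoc, ← pz_add, sub_eq_add_neg, add_comm]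
    · change w * pz (i + j) = w * pz i * pz j
      rw [pz_add, mul_assoc]
    · change pz (((2 : ℕ) : ZMod (2 * 2)) + j - i) = w * pz i * (w * pz j)
      rw [mul_assoc w, ← mul_assoc (pz i), hwpz, mul_assoc w, ← mul_assoc, hw2, ← pz_add,
        sub_eq_add_neg, add_assoc, pz_add, pz_n, add_comm j]
  refine ⟨MonoidHom.mk' f hmul, ?_, ?_⟩
  · rw [injective_iff_map_eq_one]
    rintro (i | i) h
    · change pz i = 1 at h
      have h1 : orderOf z ∣ i.val := orderOf_dvd_of_pow_eq_one h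
      rw [hz] at h1
      have h2 : i.val < 2 * 2 := ZMod.val_lt i
      have h3 : i.val = 0 := Nat.eq_zero_of_dvd_of_lt h1 h2
      have h4 : i = 0 := by
        rwa [ZMod.val_eq_zero] at h3
      rw [h4]
      rfl
    · exfalso
      change w * pz i = 1 at h
      have h1 : w = (pz i)⁻¹ := eq_inv_of_mul_eq_one_left h
      rw [← pz_neg] at h1
      exact hnot _ h1
  · rintro H hz hw _ ⟨(i | i), rfl⟩
    · exact H.pow_mem hz _
    · exact H.mul_mem hw (H.pow_mem hz _)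

lemma mem_norm_of_conj [Finite G] (N : Subgroup G) (g : G) (h : ∀ u ∈ N, g * u * g⁻¹ ∈ N) :
    g ∈ Subgroup.normalizer (N : Set G) := by
  have hk : ∀ k : ℕ, ∀ u ∈ N, g ^ k * u * (g ^ k)⁻¹ ∈ N := by
    intro k
    induction k with
    | zero => intro u hu; simpa using hu
    | succ k ih =>
      intro u hu
      have := h _ (ih u hu)
      rw [pow_succ']
      convert this using 1
      group
  rw [Subgroup.mem_normalizer_iff]
  intro u
  refine ⟨h u, fun hu => ?_⟩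
  have h1 := hk (orderOf g - 1) _ hu
  have h2 : g ^ (orderOf g - 1) * g = 1 := by
    rw [← pow_succ, Nat.sub_add_cancel (orderOf_pos g), pow_orderOf_eq_one]
  have h3 : (g ^ (orderOf g - 1))⁻¹ = g := (eq_inv_of_mul_eq_one_right h2).symm
  rw [h3] at h1
  convert h1 using 1
  have h4 : g ^ (orderOf g - 1) = g⁻¹ := eq_inv_of_mul_eq_one_left h2
  rw [h4]
  group

theorem psu32_abstract [Finite G] (hG : Nat.card G = 72) (a b x y : G)
    (ha : a ^ 3 = 1) (hb : b ^ 3 = 1) (hab : a * b = b * a)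
    (hind : ∀ i j k l : Fin 3, a ^ i.val * b ^ j.val = a ^ k.val * b ^ l.val → i = k ∧ j = l)
    (hx4 : x ^ 4 = 1) (hx2 : x ^ 2 ≠ 1) (hy2 : y * y = x ^ 2) (hyx : y * x * y⁻¹ = x⁻¹)
    (hxa : x * a * x⁻¹ = b ^ 2) (hxb : x * b * x⁻¹ = a)
    (hya : y * a * y⁻¹ = a * b ^ 2) (hyb : y * b * y⁻¹ = a ^ 2 * b ^ 2) :
    ∃ (N : Subgroup G) (_ : N.Normal), Nat.card N = 9 ∧ (∀ u ∈ N, u ^ 3 = 1) ∧
      Nonempty (G ⧸ N ≃* QuaternionGroup 2) := by
  classical
  let N : Subgroup G := Subgroup.closure {a, b}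
  have haN : a ∈ N := Subgroup.subset_closure (by simp)
  have hbN : b ∈ N := Subgroup.subset_closure (by simp)
  have hcomm : Commute a b := hab
  -- normal form
  have hpow : ∀ i : ℕ, a ^ i = a ^ (i % 3) := by
    intro i
    conv_lhs => rw [← Nat.div_add_mod i 3, pow_add, pow_mul, ha, one_pow, one_mul]
  have hpow' : ∀ i : ℕ, b ^ i = b ^ (i % 3) := by
    intro i
    conv_lhs => rw [← Nat.div_add_mod i 3, pow_add, pow_mul, hb, one_pow, one_mul]
  have hnf : ∀ u ∈ N, ∃ i j : Fin 3, u = a ^ i.val * b ^ j.val := by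
    intro u hu
    have hnf0 : ∃ i j : ℕ, u = a ^ i * b ^ j := by
      induction hu using Subgroup.closure_induction with
      | mem u hu =>
        rcases hu with rfl | rfl
        · exact ⟨1, 0, by simp⟩
        · exact ⟨0, 1, by simp⟩
      | one => exact ⟨0, 0, by simp⟩
      | mul u v _ _ ihu ihv =>
        obtain ⟨i, j, rfl⟩ := ihu
        obtain ⟨k, l, rfl⟩ := ihv
        refine ⟨i + k, j + l, ?_⟩
        have h1 : Commute (b ^ j) (a ^ k) := (hcomm.symm.pow_pow j k)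
        rw [pow_add, pow_add, mul_assoc, ← mul_assoc (b ^ j), h1.eq]
        simp only [mul_assoc]
      | inv u _ ih =>
        obtain ⟨i, j, rfl⟩ := ih
        refine ⟨2 * i, 2 * j, ?_⟩
        have h1 : (a ^ i * b ^ j) * (a ^ (2 * i) * b ^ (2 * j)) = 1 := by
          have h2 := (hcomm.symm.pow_pow j (2 * i)).eq
          rw [mul_assoc, ← mul_assoc (b ^ j), h2, mul_assoc, ← mul_assoc, ← pow_add, ← pow_add]
          have h3 : i + 2 * i = 3 * i := by ring
          have h4 : j + 2 * j = 3 * j := by ring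
          rw [h3, h4, pow_mul, pow_mul, ha, hb, one_pow, one_pow, one_mul]
        exact (eq_inv_of_mul_eq_one_right h1).symm
    obtain ⟨i, j, rfl⟩ := hnf0
    refine ⟨⟨i % 3, Nat.mod_lt _ (by norm_num)⟩, ⟨j % 3, Nat.mod_lt _ (by norm_num)⟩, ?_⟩
    simp only
    rw [← hpow, ← hpow']
  have hcube : ∀ u ∈ N, u ^ 3 = 1 := by
    intro u hu
    obtain ⟨i, j, rfl⟩ := hnf u hu
    rw [(hcomm.pow_pow i.val j.val).mul_pow, ← pow_mul, ← pow_mul, mul_comm, pow_mul, mul_comm j.val,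
      pow_mul, ha, hb, one_pow, one_pow, one_mul]
  have hcardN : Nat.card N = 9 := by
    let g : Fin 3 × Fin 3 → N := fun p =>
      ⟨a ^ p.1.val * b ^ p.2.val, N.mul_mem (N.pow_mem haN _) (N.pow_mem hbN _)⟩
    have hg : Function.Bijective g := by
      constructor
      · rintro ⟨i, j⟩ ⟨k, l⟩ h
        have := hind i j k l (congrArg Subtype.val h)
        exact Prod.ext this.1 this.2
      · rintro ⟨u, hu⟩
        obtain ⟨i, j, rfl⟩ := hnf u hu
        exact ⟨(i, j), rfl⟩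
    rw [← Nat.card_congr (Equiv.ofBijective g hg)]
    simp
  -- normality
  have hconj : ∀ g : G, g * a * g⁻¹ ∈ N → g * b * g⁻¹ ∈ N → ∀ u ∈ N, g * u * g⁻¹ ∈ N := by
    intro g h1 h2 u hu
    induction hu using Subgroup.closure_induction with
    | mem u hu =>
      rcases hu with rfl | rfl
      · exact h1
      · exact h2
    | one => simp [N.one_mem]
    | mul u v _ _ ihu ihv =>
      have := N.mul_mem ihu ihv
      convert this using 1
      group
    | inv u _ ih =>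
      have := N.inv_mem ih
      convert this using 1
      group
  have hxM : x ∈ Subgroup.normalizer (N : Set G) := by
    apply mem_norm_of_conj
    apply hconj
    · rw [hxa]; exact N.pow_mem hbN _
    · rw [hxb]; exact haN
  have hyM : y ∈ Subgroup.normalizer (N : Set G) := by
    apply mem_norm_of_conj
    apply hconj
    · rw [hya]; exact N.mul_mem haN (N.pow_mem hbN _)
    · rw [hyb]; exact N.mul_mem (N.pow_mem haN _) (N.pow_mem hbN _)
  haveI : Fact (Nat.Prime 2) := ⟨Nat.prime_two⟩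
  have hox : orderOf x = 2 * 2 := by
    have := orderOf_eq_prime_pow (p := 2) (n := 1) (x := x) (by simpa using hx2) (by simpa using hx4)
    simpa using this
  have hnot : ∀ k : ℕ, y ≠ x ^ k := by
    rintro k rfl
    apply hx2
    have h1 : x ^ k * x * (x ^ k)⁻¹ = x := by
      rw [((Commute.refl x).pow_left k).eq, mul_inv_cancel_right]
    rw [h1] at hyx
    rw [sq]
    nth_rewrite 2 [hyx]
    simp
  obtain ⟨f, hf, hfr⟩ := quatHom' x y hox hy2 hyx hnot
  have hcardR : Nat.card f.range = 8 := by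
    rw [← Nat.card_congr (MonoidHom.ofInjective hf).toEquiv, Nat.card_eq_fintype_card,
      QuaternionGroup.card]
  set M := Subgroup.normalizer (N : Set G) with hM
  have hRM : f.range ≤ M := hfr M hxM hyM
  have hNM : N ≤ M := Subgroup.le_normalizer
  have h8 : 8 ∣ Nat.card M := hcardR ▸ Subgroup.card_dvd_of_le hRM
  have h9 : 9 ∣ Nat.card M := hcardN ▸ Subgroup.card_dvd_of_le hNM
  have h72 : 72 ∣ Nat.card M := Nat.Coprime.mul_dvd_of_dvd_of_dvd (by norm_num : Nat.Coprime 8 9) h8 h9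
  have hMcard : Nat.card M = Nat.card G := by
    apply Nat.dvd_antisymm (Subgroup.card_subgroup_dvd_card M)
    rw [hG]; exact h72
  have hMtop : M = ⊤ := Subgroup.eq_top_of_card_eq _ hMcard
  have hNn : N.Normal := Subgroup.normalizer_eq_top_iff.mp hMtop
  refine ⟨N, hNn, hcardN, hcube, ?_⟩
  have hQ : Nat.card (G ⧸ N) = 8 := by
    have := Subgroup.card_eq_card_quotient_mul_card_subgroup N
    rw [hG, hcardN] at this
    omega
  let φ : QuaternionGroup 2 →* G ⧸ N := (QuotientGroup.mk' N).comp f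
  have hφ : Function.Injective φ := by
    rw [injective_iff_map_eq_one]
    intro g hg
    have h1 : f g ∈ N := by
      have : (QuotientGroup.mk' N) (f g) = 1 := hg
      simpa [QuotientGroup.eq_one_iff] using this
    have h2 : (f g) ^ 3 = 1 := hcube _ h1
    have h3 : (f g) ^ 8 = 1 := by
      rw [← map_pow]
      have : g ^ 8 = 1 := by
        have := pow_card_eq_one' (x := g)
        rwa [Nat.card_eq_fintype_card, QuaternionGroup.card] at this
      rw [this, map_one]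
    have h4 : f g = 1 := by
      have : f g = ((f g) ^ 3) ^ 3 * ((f g) ^ 8)⁻¹ := by group
      rw [this, h2, h3]
      simp
    exact hf (by rw [h4, map_one])
  have hbij : Function.Bijective φ := by
    rw [Nat.bijective_iff_injective_and_card]
    refine ⟨hφ, ?_⟩
    rw [hQ, Nat.card_eq_fintype_card, QuaternionGroup.card]
  exact ⟨(MulEquiv.ofBijective φ hbij).symm⟩

end Abstract

open GF4 in
def sM : Matrix (Fin 3) (Fin 3) GF4 := !![i, o, o; o, w, o; o, o, v]
open GF4 in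
def cM : Matrix (Fin 3) (Fin 3) GF4 := !![o, o, i; i, o, o; o, i, o]
open GF4 in
def XM : Matrix (Fin 3) (Fin 3) GF4 := !![w, v, i; v, w, i; i, i, i]
open GF4 in
def YM : Matrix (Fin 3) (Fin 3) GF4 := !![w, v, w; v, w, w; v, v, i]

abbrev SS := Cfsg.SU 3 GF4 2
abbrev GG := Cfsg.PSU 3 GF4 2

/-- make an element of `SU₃(2)` -/
def mkSU (A : Matrix (Fin 3) (Fin 3) GF4) (hd : A.det = 1)
    (hp : ∀ u v, Cfsg.hermForm 3 GF4 2 (A *ᵥ u) (A *ᵥ v) = Cfsg.hermForm 3 GF4 2 u v) : SS :=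
  ⟨⟨A, hd⟩, hp⟩

lemma sM_det : sM.det = 1 := by rw [Matrix.det_fin_three]; decide +kernel
lemma cM_det : cM.det = 1 := by rw [Matrix.det_fin_three]; decide +kernel
lemma XM_det : XM.det = 1 := by rw [Matrix.det_fin_three]; decide +kernel
lemma YM_det : YM.det = 1 := by rw [Matrix.det_fin_three]; decide +kernel

lemma sM_p : ∀ u v, Cfsg.hermForm 3 GF4 2 (sM *ᵥ u) (sM *ᵥ v) = Cfsg.hermForm 3 GF4 2 u v := by
  decide +kernel
lemma cM_p : ∀ u v, Cfsg.hermForm 3 GF4 2 (cM *ᵥ u) (cM *ᵥ v) = Cfsg.hermForm 3 GF4 2 u v := by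
  decide +kernel
lemma XM_p : ∀ u v, Cfsg.hermForm 3 GF4 2 (XM *ᵥ u) (XM *ᵥ v) = Cfsg.hermForm 3 GF4 2 u v := by
  decide +kernel
lemma YM_p : ∀ u v, Cfsg.hermForm 3 GF4 2 (YM *ᵥ u) (YM *ᵥ v) = Cfsg.hermForm 3 GF4 2 u v := by
  decide +kernel

def sU : SS := mkSU sM sM_det sM_p
def cU : SS := mkSU cM cM_det cM_p
def XU : SS := mkSU XM XM_det XM_p
def YU : SS := mkSU YM YM_det YM_p

/-- the underlying matrix -/
def mat (g : SS) : Matrix (Fin 3) (Fin 3) GF4 := ((g : Matrix.SpecialLinearGroup (Fin 3) GF4) : Matrix (Fin 3) (Fin 3) GF4)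

lemma mat_mul (g h : SS) : mat (g * h) = mat g * mat h := rfl
lemma mat_one : mat 1 = 1 := rfl

lemma card_eq : Fintype.card GF4 = 2 ^ 2 := by decide

lemma mat_inj {g h : SS} (hh : mat g = mat h) : g = h := Subtype.ext (Subtype.ext hh)

lemma mk_eq_iff (g h : SS) : (QuotientGroup.mk g : GG) = QuotientGroup.mk h ↔
    ∃ c : GF4, mat h = c • mat g := by
  rw [QuotientGroup.eq]
  constructor
  · intro hA
    have h1 := Cfsg.Agent.Lead.center_SU_scalar card_eq hA 0
    refine ⟨mat (g⁻¹ * h) 0 0, ?_⟩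
    have h2 : h = g * (g⁻¹ * h) := by group
    have h3 : mat h = mat g * mat (g⁻¹ * h) := by
      conv_lhs => rw [h2]
      rfl
    rw [h3]
    have h4 : mat (g⁻¹ * h) = mat (g⁻¹ * h) 0 0 • 1 := h1
    conv_lhs => rw [h4]
    rw [Matrix.mul_smul, Matrix.mul_one]
  · rintro ⟨c, hc⟩
    rw [Subgroup.mem_center_iff]
    intro k
    have h0 : mat (g⁻¹ * h) = c • 1 := by
      rw [mat_mul, hc, Matrix.mul_smul]
      have : mat g⁻¹ * mat g = 1 := by
        rw [← mat_mul, inv_mul_cancel, mat_one]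
      rw [this]
    apply mat_inj
    show mat k * mat (g⁻¹ * h) = mat (g⁻¹ * h) * mat k
    rw [h0, Matrix.mul_smul, Matrix.smul_mul, Matrix.mul_one, Matrix.one_mul]

abbrev aG : GG := QuotientGroup.mk sU
abbrev bG : GG := QuotientGroup.mk cU
abbrev xG : GG := QuotientGroup.mk XU
abbrev yG : GG := QuotientGroup.mk YU

lemma card_GG : Nat.card GG = 72 := by
  have h := Cfsg.Agent.Lead.card_PSU (F := GF4) (q := 2) (n := 3) card_eq (by norm_num)
  have h2 : ∏ i ∈ Finset.range 3, (if Even i then 2 ^ (i + 1) + 1 else 2 ^ (i + 1) - 1) = 81 := by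
    decide
  rw [h2] at h
  have h3 : Nat.gcd 3 (2 + 1) = 3 := by decide
  have h4 : 2 ^ (3 * (3 - 1) / 2) * 81 = 648 := by norm_num
  rw [h3, h4] at h
  have h5 : 3 * ((2 + 1) * Nat.card GG) = 648 := h
  omega

lemma mk_mul' (g h : SS) : (QuotientGroup.mk (g * h) : GG) = QuotientGroup.mk g * QuotientGroup.mk h := rfl

lemma h_a3 : aG ^ 3 = 1 := by
  have : aG ^ 3 = QuotientGroup.mk (sU * sU * sU) := by
    rw [pow_succ, pow_two]; rfl
  rw [this]
  exact (mk_eq_iff _ 1).2 ⟨1, by decide +kernel⟩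

lemma h_b3 : bG ^ 3 = 1 := by
  have : bG ^ 3 = QuotientGroup.mk (cU * cU * cU) := by
    rw [pow_succ, pow_two]; rfl
  rw [this]
  exact (mk_eq_iff _ 1).2 ⟨1, by decide +kernel⟩

lemma h_ab : aG * bG = bG * aG :=
  (mk_eq_iff (sU * cU) (cU * sU)).2 ⟨GF4.v, by decide +kernel⟩

lemma matPow_dec : ∀ i j k l : Fin 3, ∀ c : GF4,
    mat (sU ^ k.val * cU ^ l.val) = c • mat (sU ^ i.val * cU ^ j.val) → i = k ∧ j = l := by
  decide +kernel

lemma h_ind (i j k l : Fin 3) (h : aG ^ i.val * bG ^ j.val = aG ^ k.val * bG ^ l.val) :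
    i = k ∧ j = l := by
  have h1 : (QuotientGroup.mk (sU ^ i.val * cU ^ j.val) : GG) = QuotientGroup.mk (sU ^ k.val * cU ^ l.val) := h
  obtain ⟨c, hc⟩ := (mk_eq_iff _ _).1 h1
  exact matPow_dec i j k l c hc

lemma h_x4 : xG ^ 4 = 1 := by
  have : xG ^ 4 = QuotientGroup.mk (XU * XU * XU * XU) := by
    rw [pow_succ, pow_succ, pow_two]; rfl
  rw [this]
  exact (mk_eq_iff _ 1).2 ⟨1, by decide +kernel⟩

lemma x2_dec : ∀ c : GF4, mat 1 ≠ c • mat (XU * XU) := by decide +kernel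

lemma h_x2 : xG ^ 2 ≠ 1 := by
  intro h
  have h1 : (QuotientGroup.mk (XU * XU) : GG) = QuotientGroup.mk 1 := by
    have h2 : xG ^ 2 = QuotientGroup.mk (XU * XU) := by
      rw [pow_two]; rfl
    rw [← h2, h]; rfl
  obtain ⟨c, hc⟩ := (mk_eq_iff _ _).1 h1
  exact x2_dec c hc

lemma h_y2 : yG * yG = xG ^ 2 := by
  rw [pow_two]
  exact (mk_eq_iff (YU * YU) (XU * XU)).2 ⟨1, by decide +kernel⟩

lemma h_yx : yG * xG * yG⁻¹ = xG⁻¹ := by
  rw [mul_inv_eq_iff_eq_mul, eq_inv_mul_iff_mul_eq]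
  exact (mk_eq_iff (XU * (YU * XU)) YU).2 ⟨1, by decide +kernel⟩

lemma h_xa : xG * aG * xG⁻¹ = bG ^ 2 := by
  rw [mul_inv_eq_iff_eq_mul, pow_two]
  exact (mk_eq_iff (XU * sU) (cU * cU * XU)).2 ⟨GF4.w, by decide +kernel⟩

lemma h_xb : xG * bG * xG⁻¹ = aG := by
  rw [mul_inv_eq_iff_eq_mul]
  exact (mk_eq_iff (XU * cU) (sU * XU)).2 ⟨GF4.v, by decide +kernel⟩

lemma h_ya : yG * aG * yG⁻¹ = aG * bG ^ 2 := by
  rw [mul_inv_eq_iff_eq_mul, pow_two]
  exact (mk_eq_iff (YU * sU) (sU * (cU * cU) * YU)).2 ⟨GF4.w, by decide +kernel⟩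

lemma h_yb : yG * bG * yG⁻¹ = aG ^ 2 * bG ^ 2 := by
  rw [mul_inv_eq_iff_eq_mul, pow_two, pow_two]
  exact (mk_eq_iff (YU * cU) (sU * sU * (cU * cU) * YU)).2 ⟨1, by decide +kernel⟩

theorem main_GF4 : ∃ (N : Subgroup GG) (_ : N.Normal), Nat.card N = 9 ∧ (∀ u ∈ N, u ^ 3 = 1) ∧
    Nonempty (GG ⧸ N ≃* QuaternionGroup 2) :=
  psu32_abstract card_GG aG bG xG yG h_a3 h_b3 h_ab h_ind h_x4 h_x2 h_y2 h_yx h_xa h_xb h_ya h_yb

theorem main {F : Type*} [Field F] [Fintype F] (hF : Fintype.card F = 4) :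
    ∃ (N : Subgroup (Cfsg.PSU 3 F 2)) (_ : N.Normal), Nat.card N = 9 ∧ (∀ x ∈ N, x ^ 3 = 1) ∧
      Nonempty (Cfsg.PSU 3 F 2 ⧸ N ≃* QuaternionGroup 2) := by
  obtain ⟨N', hN', hc, hu, ⟨q⟩⟩ := main_GF4
  let e : Cfsg.PSU 3 F 2 ≃* GG := psuCongr (equivGF4 hF) 3 2
  refine ⟨N'.comap e.toMonoidHom, hN'.comap _, ?_, ?_, ?_⟩
  · rw [← hc]
    exact Nat.card_congr (Equiv.subtypeEquiv e.toEquiv (fun x => Iff.rfl))
  · intro x hx
    apply e.injective
    rw [map_pow, map_one]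
    exact hu _ hx
  · refine ⟨(QuotientGroup.congr _ N' e ?_).trans q⟩
    exact Subgroup.map_comap_eq_self_of_surjective e.surjective N'

end Cfsg.Agent.H03.PSU32
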