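import Mathlib
import Cfsg.Prelude.Def_ClassicalGeometry

set_option autoImplicit false

namespace Cfsg.Agent.H03.Parab

open Matrix Module
open scoped MatrixGroups

variable {F : Type*} [Field F] {n k : ℕ}

/-- the parabolic -/
abbrev P (n k : ℕ) (F : Type*) [Field F] : Subgroup (GL (Fin n) F) :=
  Cfsg.stabilizing (Cfsg.glToMat (Fin n) F) {v : Fin n → F | ∀ i : Fin n, k ≤ (i : ℕ) → v i = 0}

/-- the subspace -/
def US (n k : ℕ) (F : Type*) [Field F] : Submodule F (Fin n → F) where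
  carrier := {v | ∀ i : Fin n, k ≤ (i : ℕ) → v i = 0}
  add_mem' := by
    intro a b ha hb i hi
    simp [ha i hi, hb i hi]
  zero_mem' := by
    intro i _
    rfl
  smul_mem' := by
    intro c a ha i hi
    simp [ha i hi]

lemma mem_US {v : Fin n → F} : v ∈ US n k F ↔ ∀ i : Fin n, k ≤ (i : ℕ) → v i = 0 := Iff.rfl

theorem mem_P_iff (g : GL (Fin n) F) :
    g ∈ P n k F ↔ ∀ i j : Fin n, k ≤ (i : ℕ) → (j : ℕ) < k → (g : Matrix (Fin n) (Fin n) F) i j = 0 := by
  classical
  constructor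
  · intro hg i j hi hj
    have h1 : (Pi.single j 1 : Fin n → F) ∈ {v : Fin n → F | ∀ i : Fin n, k ≤ (i : ℕ) → v i = 0} := by
      intro a ha
      have : a ≠ j := by
        rintro rfl
        omega
      simp [this]
    have h2 := (hg _).mp h1 i hi
    simpa using h2
  · intro hb
    have hfwd : ∀ v, v ∈ US n k F → (g : Matrix (Fin n) (Fin n) F) *ᵥ v ∈ US n k F := by
      intro v hv i hi
      rw [Matrix.mulVec, dotProduct]
      apply Finset.sum_eq_zero
      intro j _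
      by_cases hj : (j : ℕ) < k
      · rw [hb i j hi hj, zero_mul]
      · rw [hv j (by omega), mul_zero]
    have hinj : Function.Injective ((g : Matrix (Fin n) (Fin n) F).mulVecLin) := by
      have := Matrix.mulVec_injective_of_isUnit (g.isUnit)
      exact this
    have hle : (US n k F).map (g : Matrix (Fin n) (Fin n) F).mulVecLin ≤ US n k F := by
      rintro _ ⟨v, hv, rfl⟩
      exact hfwd v hv
    have hfr : finrank F ((US n k F).map (g : Matrix (Fin n) (Fin n) F).mulVecLin) = finrank F (US n k F) :=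
      (Submodule.equivMapOfInjective _ hinj (US n k F)).finrank_eq.symm
    have heq := Submodule.eq_of_le_of_finrank_eq hle hfr
    intro v
    constructor
    · intro hv
      exact hfwd v hv
    · intro hv
      have hv' : (g : Matrix (Fin n) (Fin n) F) *ᵥ v ∈ US n k F := hv
      rw [← heq] at hv'
      obtain ⟨w, hw, he⟩ := hv'
      have : w = v := hinj he
      rw [← this]
      exact hw

/-! transvection-like matrices -/

/-- `1 + u vᵀ` -/
def T (u v : Fin n → F) : Matrix (Fin n) (Fin n) F := 1 + vecMulVec u v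

lemma T_apply (u v : Fin n → F) (i j : Fin n) : T u v i j = (1 : Matrix (Fin n) (Fin n) F) i j + u i * v j := by
  simp [T, vecMulVec_apply]

lemma T_mul (u v u' v' : Fin n → F) :
    T u v * T u' v' = 1 + vecMulVec u v + vecMulVec u' v' + (v ⬝ᵥ u') • vecMulVec u v' := by
  have e : vecMulVec u ((v ⬝ᵥ u') • v') = (v ⬝ᵥ u') • vecMulVec u v' := by
    ext i j
    simp [vecMulVec_apply]
    ring
  simp only [T, Matrix.mul_add, Matrix.add_mul, Matrix.mul_one, Matrix.one_mul, vecMulVec_mul_vecMulVec, e]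
  abel

lemma T_mul_neg {u v : Fin n → F} (h : v ⬝ᵥ u = 0) : T u v * T (-u) v = 1 := by
  rw [T_mul, dotProduct_neg, h, neg_zero, zero_smul, add_zero]
  have : vecMulVec (-u) v = - vecMulVec u v := by
    ext i j
    simp [vecMulVec_apply]
  rw [this, add_neg_cancel_right]

lemma T_neg_mul {u v : Fin n → F} (h : v ⬝ᵥ u = 0) : T (-u) v * T u v = 1 := by
  have := T_mul_neg (u := -u) (v := v) (by rw [dotProduct_neg, h, neg_zero])
  rwa [neg_neg] at this

/-- the unit -/
def TGL (u v : Fin n → F) (h : v ⬝ᵥ u = 0) : GL (Fin n) F :=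
  ⟨T u v, T (-u) v, T_mul_neg h, T_neg_mul h⟩

@[simp] lemma TGL_val (u v : Fin n → F) (h : v ⬝ᵥ u = 0) : ((TGL u v h : GL (Fin n) F) : Matrix (Fin n) (Fin n) F) = T u v := rfl

lemma TGL_inv_val (u v : Fin n → F) (h : v ⬝ᵥ u = 0) :
    (((TGL u v h)⁻¹ : GL (Fin n) F) : Matrix (Fin n) (Fin n) F) = T (-u) v := rfl

lemma T_mem_P {u v : Fin n → F} (h : v ⬝ᵥ u = 0)
    (hh : (∀ i : Fin n, k ≤ (i : ℕ) → u i = 0) ∨ (∀ j : Fin n, (j : ℕ) < k → v j = 0)) : TGL u v h ∈ P n k F := by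
  rw [mem_P_iff]
  intro i j hi hj
  have hij : i ≠ j := by
    rintro rfl
    omega
  rw [TGL_val, T_apply, Matrix.one_apply_ne hij, zero_add]
  rcases hh with hh | hh
  · rw [hh i hi, zero_mul]
  · rw [hh j hj, mul_zero]

/-- conjugation -/
lemma conj_T (g : GL (Fin n) F) (u v : Fin n → F) :
    (g : Matrix (Fin n) (Fin n) F) * T u v * ((g⁻¹ : GL (Fin n) F) : Matrix (Fin n) (Fin n) F)
      = T ((g : Matrix (Fin n) (Fin n) F) *ᵥ u) (v ᵥ* ((g⁻¹ : GL (Fin n) F) : Matrix (Fin n) (Fin n) F)) := by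
  have h1 : (g : Matrix (Fin n) (Fin n) F) * ((g⁻¹ : GL (Fin n) F) : Matrix (Fin n) (Fin n) F) = 1 := by
    rw [← Units.val_mul, mul_inv_cancel]; rfl
  simp only [T, Matrix.mul_add, Matrix.add_mul, Matrix.mul_one, h1, Matrix.mul_vecMulVec, Matrix.vecMulVec_mul]

section good
variable (H : Subgroup (GL (Fin n) F))

/-- good pairs -/
def Good (u v : Fin n → F) : Prop :=
  v ⬝ᵥ u = 0 ∧ ∃ h ∈ H, (h : Matrix (Fin n) (Fin n) F) = T u v

variable {H}

lemma Good.conj_TGL {u v : Fin n → F} (hg : Good H u v) {a b : Fin n → F} (hab : b ⬝ᵥ a = 0) (hm : TGL a b hab ∈ H) :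
    Good H (u + (b ⬝ᵥ u) • a) (v - (v ⬝ᵥ a) • b) := by
  obtain ⟨h0, h, hh, he⟩ := hg
  refine ⟨?_, TGL a b hab * h * (TGL a b hab)⁻¹, H.mul_mem (H.mul_mem hm hh) (H.inv_mem hm), ?_⟩
  · simp only [dotProduct_add, sub_dotProduct, smul_dotProduct, dotProduct_smul, smul_eq_mul, h0, hab]
    ring
  · have e : ((TGL a b hab * h * (TGL a b hab)⁻¹ : GL (Fin n) F) : Matrix (Fin n) (Fin n) F)
        = ((TGL a b hab : GL (Fin n) F) : Matrix (Fin n) (Fin n) F) * (h : Matrix (Fin n) (Fin n) F) * (((TGL a b hab)⁻¹ : GL (Fin n) F) : Matrix (Fin n) (Fin n) F) := rfl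
    rw [e, he, conj_T]
    have e1 : ((TGL a b hab : GL (Fin n) F) : Matrix (Fin n) (Fin n) F) *ᵥ u = u + (b ⬝ᵥ u) • a := by
      rw [TGL_val, T, Matrix.add_mulVec, Matrix.one_mulVec, vecMulVec_mulVec, op_smul_eq_smul]
    have e2 : v ᵥ* (((TGL a b hab)⁻¹ : GL (Fin n) F) : Matrix (Fin n) (Fin n) F) = v - (v ⬝ᵥ a) • b := by
      rw [TGL_inv_val, T, Matrix.vecMul_add, Matrix.vecMul_one, vecMul_vecMulVec, sub_eq_add_neg]
      ext i
      simp [dotProduct_neg]
    rw [e1, e2]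

lemma Good.mul_left {u u' v : Fin n → F} (hg : Good H u v) (hg' : Good H u' v) : Good H (u + u') v := by
  obtain ⟨h0, h, hh, he⟩ := hg
  obtain ⟨h0', h', hh', he'⟩ := hg'
  refine ⟨by rw [dotProduct_add, h0, h0', add_zero], h * h', H.mul_mem hh hh', ?_⟩
  rw [Units.val_mul, he, he', T_mul, h0', zero_smul, add_zero, T]
  have : vecMulVec (u + u') v = vecMulVec u v + vecMulVec u' v := by
    ext i j
    simp [vecMulVec_apply, add_mul]
  rw [this, add_assoc]

lemma Good.mul_right {u v v' : Fin n → F} (hg : Good H u v) (hg' : Good H u v') : Good H u (v + v') := by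
  obtain ⟨h0, h, hh, he⟩ := hg
  obtain ⟨h0', h', hh', he'⟩ := hg'
  refine ⟨by rw [add_dotProduct, h0, h0', add_zero], h * h', H.mul_mem hh hh', ?_⟩
  rw [Units.val_mul, he, he', T_mul, h0, zero_smul, add_zero, T]
  have : vecMulVec u (v + v') = vecMulVec u v + vecMulVec u v' := by
    ext i j
    simp [vecMulVec_apply, mul_add]
  rw [this, add_assoc]

lemma Good.neg {u v : Fin n → F} (hg : Good H u v) : Good H (-u) v := by
  obtain ⟨h0, h, hh, he⟩ := hg
  refine ⟨by rw [dotProduct_neg, h0, neg_zero], h⁻¹, H.inv_mem hh, ?_⟩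
  have h1 : h⁻¹.val * T u v = 1 := by
    rw [← he, ← Units.val_mul, inv_mul_cancel]; rfl
  calc (h⁻¹).val = h⁻¹.val * (T u v * T (-u) v) := by rw [T_mul_neg h0, Matrix.mul_one]
    _ = T (-u) v := by rw [← Matrix.mul_assoc, h1, Matrix.one_mul]

end good

/-- `e i` -/
abbrev e (i : Fin n) : Fin n → F := Pi.single i 1

lemma e_dot (i : Fin n) (x : Fin n → F) : e i ⬝ᵥ x = x i := by
  simp [e]

lemma dot_e (i : Fin n) (x : Fin n → F) : x ⬝ᵥ e i = x i := by
  simp [e]

lemma e_ne {i j : Fin n} (h : i ≠ j) : (e i : Fin n → F) j = 0 := by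
  simp [e, h.symm]

lemma e_same (i : Fin n) : (e i : Fin n → F) i = 1 := by
  simp [e]

lemma vecMulVec_smul_left_right (a b : F) (x y : Fin n → F) :
    vecMulVec (a • x) (b • y) = vecMulVec ((a * b) • x) y := by
  ext i j
  simp [vecMulVec_apply]
  ring

section good2
variable {H : Subgroup (GL (Fin n) F)}

lemma Good.conj_mem {u v : Fin n → F} (hg : Good H u v) {g : GL (Fin n) F} (hm : g ∈ H) :
    Good H ((g : Matrix (Fin n) (Fin n) F) *ᵥ u) (v ᵥ* ((g⁻¹ : GL (Fin n) F) : Matrix (Fin n) (Fin n) F)) := by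
  obtain ⟨h0, h, hh, he⟩ := hg
  have h1 : ((g⁻¹ : GL (Fin n) F) : Matrix (Fin n) (Fin n) F) * (g : Matrix (Fin n) (Fin n) F) = 1 := by
    rw [← Units.val_mul, inv_mul_cancel]; rfl
  refine ⟨?_, g * h * g⁻¹, H.mul_mem (H.mul_mem hm hh) (H.inv_mem hm), ?_⟩
  · rw [Matrix.dotProduct_mulVec, Matrix.vecMul_vecMul, h1, Matrix.vecMul_one, h0]
  · have e : ((g * h * g⁻¹ : GL (Fin n) F) : Matrix (Fin n) (Fin n) F)
        = (g : Matrix (Fin n) (Fin n) F) * (h : Matrix (Fin n) (Fin n) F) * ((g⁻¹ : GL (Fin n) F) : Matrix (Fin n) (Fin n) F) := rfl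
    rw [e, he, conj_T]

lemma Good.neg_right {u v : Fin n → F} (hg : Good H u v) : Good H u (-v) := by
  obtain ⟨h0, h, hh, he⟩ := hg.neg
  refine ⟨by rw [neg_dotProduct, hg.1, neg_zero], h, hh, ?_⟩
  rw [he]
  simp only [T]
  congr 1
  ext i j
  simp [vecMulVec_apply]

lemma Good.of_le_P (hle : P n k F ≤ H) {u v : Fin n → F} (h : v ⬝ᵥ u = 0)
    (hh : (∀ i : Fin n, k ≤ (i : ℕ) → u i = 0) ∨ (∀ j : Fin n, (j : ℕ) < k → v j = 0)) : Good H u v :=
  ⟨h, TGL u v h, hle (T_mem_P h hh), rfl⟩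

lemma normal_form (hle : P n k F ≤ H) {u₁ v₁ : Fin n → F} (hg : Good H u₁ v₁) {i₀ j₀ : Fin n} (hi : k ≤ (i₀ : ℕ))
    (hj : (j₀ : ℕ) < k) (hu : u₁ i₀ ≠ 0) (hv : v₁ j₀ ≠ 0) : ∃ c : F, c ≠ 0 ∧ Good H (c • e i₀) (e j₀) := by
  have hij : i₀ ≠ j₀ := by
    rintro rfl
    omega
  set a := u₁ i₀ with ha
  set A : Fin n → F := (-a⁻¹) • (u₁ - a • e i₀) with hA
  have hAi : A i₀ = 0 := by
    simp only [hA, Pi.smul_apply, Pi.sub_apply, smul_eq_mul, e_same, mul_one, ← ha, sub_self, mul_zero]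
  have hBA : (e i₀ : Fin n → F) ⬝ᵥ A = 0 := by rw [e_dot, hAi]
  have h1 := hg.conj_TGL hBA (hle (T_mem_P hBA (Or.inr (fun j hj' => e_ne (by
    rintro rfl
    omega)))))
  rw [e_dot] at h1
  have hu2 : u₁ + u₁ i₀ • A = a • e i₀ := by
    rw [← ha, hA, smul_smul]
    have : a * -a⁻¹ = -1 := by field_simp
    rw [this]
    simp
  rw [hu2] at h1
  set v₂ : Fin n → F := v₁ - (v₁ ⬝ᵥ A) • e i₀ with hv₂
  have hv₂j : v₂ j₀ = v₁ j₀ := by
    simp [hv₂, e_ne hij]
  have hv₂i : v₂ i₀ = 0 := by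
    have h0 := h1.1
    rw [dotProduct_smul, dot_e, smul_eq_mul] at h0
    exact (mul_eq_zero.mp h0).resolve_left hu
  set b := v₂ j₀ with hb
  have hb0 : b ≠ 0 := by rw [hv₂j]; exact hv
  set z : Fin n → F := b⁻¹ • (v₂ - b • e j₀) with hz
  have hzj : z j₀ = 0 := by
    simp only [hz, Pi.smul_apply, Pi.sub_apply, smul_eq_mul, e_same, mul_one, ← hb, sub_self, mul_zero]
  have hzi : z i₀ = 0 := by
    simp only [hz, Pi.smul_apply, Pi.sub_apply, smul_eq_mul, hv₂i, e_ne hij.symm, mul_zero, sub_self]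
  have hBA2 : z ⬝ᵥ (e j₀ : Fin n → F) = 0 := by rw [dot_e, hzj]
  have h2 := h1.conj_TGL hBA2 (hle (T_mem_P hBA2 (Or.inl (fun i hi' => e_ne (by
    rintro rfl
    omega)))))
  rw [dotProduct_smul, dot_e, hzi, dot_e, ← hb, smul_zero, zero_smul, add_zero] at h2
  have hv3 : v₂ - b • z = b • e j₀ := by
    rw [hz, smul_smul, mul_inv_cancel₀ hb0, one_smul]
    abel
  rw [hv3] at h2
  refine ⟨a * b, mul_ne_zero hu hb0, ?_, ?_⟩
  · rw [dotProduct_smul, e_dot, e_ne hij, smul_zero]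
  · obtain ⟨-, h, hh, he⟩ := h2
    refine ⟨h, hh, ?_⟩
    rw [he]
    simp only [T, vecMulVec_smul_left_right]

lemma spread (hle : P n k F ≤ H) {c₀ : F} (hc₀ : c₀ ≠ 0) {i₀ j₀ : Fin n} (hi₀ : k ≤ (i₀ : ℕ)) (hj₀ : (j₀ : ℕ) < k)
    (hg : Good H (c₀ • e i₀) (e j₀)) {i j : Fin n} (hi : k ≤ (i : ℕ)) (hj : (j : ℕ) < k) (c : F) :
    Good H (c • e i) (e j) := by
  classical
  have hne : ∀ {x y : Fin n}, k ≤ (x : ℕ) → (y : ℕ) < k → x ≠ y := by
    rintro x y hx hy rfl
    omega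
  -- step 1
  have h1 : Good H (c₀ • e i) (e j₀) := by
    by_cases hii : i = i₀
    · rw [hii]; exact hg
    · have hBA : (e i₀ : Fin n → F) ⬝ᵥ e i = 0 := by rw [e_dot, e_ne hii]
      have h2 := hg.conj_TGL hBA (hle (T_mem_P hBA (Or.inr (fun j hj' => e_ne (hne hi₀ hj')))))
      rw [dotProduct_smul, e_dot, e_same, dot_e, e_ne (hne hi hj₀).symm, zero_smul, sub_zero, smul_eq_mul, mul_one] at h2
      have h3 := hg.neg.mul_left h2
      have e1 : -(c₀ • e i₀) + (c₀ • e i₀ + c₀ • e i) = c₀ • (e i : Fin n → F) := by abel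
      rwa [e1] at h3
  -- step 2
  have h2 : Good H (c₀ • e i) (e j) := by
    by_cases hjj : j = j₀
    · rw [hjj]; exact h1
    · have hBA : (e j : Fin n → F) ⬝ᵥ e j₀ = 0 := by rw [e_dot, e_ne (Ne.symm hjj)]
      have h2 := h1.conj_TGL hBA (hle (T_mem_P hBA (Or.inl (fun i hi' => e_ne (hne hi' hj₀).symm))))
      rw [dotProduct_smul, e_dot, e_ne (hne hi hj), smul_zero, zero_smul, add_zero, dot_e, e_same, one_smul] at h2
      have h3 := h2.neg_right.mul_right h1
      have e1 : -(e j₀ - e j) + e j₀ = (e j : Fin n → F) := by abel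
      rwa [e1] at h3
  -- step 3: scaling
  by_cases hc : c = 0
  · subst hc
    refine ⟨?_, 1, H.one_mem, ?_⟩
    · rw [zero_smul, dotProduct_zero]
    · simp [T]
  · let d : Fin n → F := Function.update (fun _ => 1) i (c / c₀)
    have hd : ∀ x, d x ≠ 0 := by
      intro x
      by_cases hx : x = i
      · subst hx
        simp [d, hc, hc₀]
      · simp [d, hx]
    let D : GL (Fin n) F := ⟨Matrix.diagonal d, Matrix.diagonal (fun x => (d x)⁻¹), by
        simp [Matrix.diagonal_mul_diagonal, hd], by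
        simp [Matrix.diagonal_mul_diagonal, hd]⟩
    have hDmem : D ∈ P n k F := by
      rw [mem_P_iff]
      intro x y hx hy
      change Matrix.diagonal d x y = 0
      rw [Matrix.diagonal_apply_ne _ (hne hx hy)]
    have h3 := h2.conj_mem (hle hDmem)
    have e1 : (D : Matrix (Fin n) (Fin n) F) *ᵥ (c₀ • e i) = c • e i := by
      change Matrix.diagonal d *ᵥ (c₀ • e i) = c • e i
      ext x
      rw [Matrix.mulVec_diagonal]
      by_cases hx : x = i
      · subst hx
        simp [d, e]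
        field_simp
      · simp [d, e, hx]
    have e2 : (e j : Fin n → F) ᵥ* ((D⁻¹ : GL (Fin n) F) : Matrix (Fin n) (Fin n) F) = e j := by
      change (e j : Fin n → F) ᵥ* Matrix.diagonal (fun x => (d x)⁻¹) = e j
      ext x
      rw [Matrix.vecMul_diagonal]
      by_cases hx : x = j
      · subst hx
        have : x ≠ i := (hne hi hj).symm
        simp [d, e, this]
      · have : (e j : Fin n → F) x = 0 := e_ne (Ne.symm hx)
        rw [this, zero_mul]
    rwa [e1, e2] at h3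

theorem coatom_aux (hle : P n k F < H) : H = ⊤ := by
  classical
  obtain ⟨g, hgH, hgP⟩ := SetLike.exists_of_lt hle
  have hle' : P n k F ≤ H := hle.le
  have hP1 : ∃ i j : Fin n, k ≤ (i : ℕ) ∧ (j : ℕ) < k ∧ (g : Matrix (Fin n) (Fin n) F) i j ≠ 0 := by
    by_contra hcon
    push Not at hcon
    exact hgP ((mem_P_iff g).mpr hcon)
  have hP2 : ∃ i j : Fin n, k ≤ (i : ℕ) ∧ (j : ℕ) < k ∧ ((g⁻¹ : GL (Fin n) F) : Matrix (Fin n) (Fin n) F) i j ≠ 0 := by
    by_contra hcon
    push Not at hcon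
    have : g⁻¹ ∈ P n k F := (mem_P_iff g⁻¹).mpr hcon
    exact hgP (by simpa using (P n k F).inv_mem this)
  obtain ⟨i, j, hi, hj, hij⟩ := hP1
  obtain ⟨i', j', hi', hj', hij'⟩ := hP2
  have hne : ∀ {x y : Fin n}, k ≤ (x : ℕ) → (y : ℕ) < k → x ≠ y := by
    rintro x y hx hy rfl
    omega
  have hBA : (e i' : Fin n → F) ⬝ᵥ e j = 0 := by rw [e_dot, e_ne (hne hi' hj).symm]
  have h0 : Good H (e j) (e i') := Good.of_le_P hle' hBA (Or.inl (fun a ha => e_ne (hne ha hj).symm))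
  have h1 := h0.conj_mem hgH
  obtain ⟨c₀, hc₀, hc⟩ := normal_form hle' h1 hi hj' (i₀ := i) (j₀ := j') (by simpa using hij)
    (by
      rw [Matrix.single_one_vecMul]
      exact hij')
  have hall : ∀ (i j : Fin n), k ≤ (i : ℕ) → (j : ℕ) < k → ∀ c : F, Good H (c • e i) (e j) :=
    fun a b ha hb c => spread hle' hc₀ hi hj' hc ha hb c
  rw [eq_top_iff]
  intro x _
  have hdet : (x : Matrix (Fin n) (Fin n) F).det ≠ 0 := by
    have := (Matrix.isUnit_iff_isUnit_det _).mp x.isUnit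
    exact this.ne_zero
  have hmain : ∃ h ∈ H, (h : Matrix (Fin n) (Fin n) F) = (x : Matrix (Fin n) (Fin n) F) := by
    apply Matrix.diagonal_transvection_induction_of_det_ne_zero (fun M => ∃ h ∈ H, (h : Matrix (Fin n) (Fin n) F) = M) _ hdet
    · intro D hD
      refine ⟨Matrix.GeneralLinearGroup.mkOfDetNeZero _ hD, hle' ?_, rfl⟩
      rw [mem_P_iff]
      intro a b ha hb
      change Matrix.diagonal D a b = 0
      rw [Matrix.diagonal_apply_ne _ (hne ha hb)]
    · rintro ⟨a, b, hab, c⟩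
      have hmat : Matrix.TransvectionStruct.toMatrix ⟨a, b, hab, c⟩ = T (c • e a) (e b) := by
        rw [Matrix.TransvectionStruct.toMatrix_mk, Matrix.transvection, T]
        congr 1
        ext x y
        simp only [Matrix.single_apply, vecMulVec_apply, Pi.smul_apply, smul_eq_mul, e, Pi.single_apply]
        by_cases h1 : x = a <;> by_cases h2 : y = b <;> simp [h1, h2, eq_comm]
        all_goals (try (intro h; exact absurd h (by tauto)))
      rw [hmat]
      have hBA0 : (e b : Fin n → F) ⬝ᵥ (c • e a) = 0 := by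
        rw [dotProduct_smul, e_dot, e_ne hab, smul_zero]
      by_cases hcase : k ≤ (a : ℕ) ∧ (b : ℕ) < k
      · exact (hall a b hcase.1 hcase.2 c).2
      · have : (∀ i : Fin n, k ≤ (i : ℕ) → (c • e a : Fin n → F) i = 0) ∨ (∀ j : Fin n, (j : ℕ) < k → (e b : Fin n → F) j = 0) := by
          by_cases ha : k ≤ (a : ℕ)
          · right
            intro y hy
            have hb : k ≤ (b : ℕ) := by
              by_contra h
              exact hcase ⟨ha, by omega⟩
            exact e_ne (hne hb hy)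
          · left
            intro y hy
            simp only [Pi.smul_apply, smul_eq_mul]
            rw [e_ne (by
              rintro rfl
              omega), mul_zero]
        exact (Good.of_le_P hle' hBA0 this).2
    · rintro A B - - ⟨h₁, hh₁, he₁⟩ ⟨h₂, hh₂, he₂⟩
      exact ⟨h₁ * h₂, H.mul_mem hh₁ hh₂, by rw [Units.val_mul, he₁, he₂]⟩
  obtain ⟨h, hh, he⟩ := hmain
  have : h = x := Units.ext he
  rwa [← this]

theorem isCoatom_P (hk0 : 0 < k) (hkn : k < n) : IsCoatom (P n k F) := by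
  classical
  refine ⟨?_, fun H hH => coatom_aux hH⟩
  intro htop
  let i₀ : Fin n := ⟨k, hkn⟩
  let j₀ : Fin n := ⟨0, by omega⟩
  have hij : i₀ ≠ j₀ := by
    intro h
    have := congrArg Fin.val h
    simp [i₀, j₀] at this
    omega
  have hBA : (e j₀ : Fin n → F) ⬝ᵥ e i₀ = 0 := by rw [e_dot, e_ne hij]
  have hm : TGL (e i₀) (e j₀) hBA ∈ P n k F := by
    rw [htop]; trivial
  have := (mem_P_iff _).mp hm i₀ j₀ (le_refl k) hk0
  rw [TGL_val, T_apply, Matrix.one_apply_ne hij, e_same, e_same] at this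
  simp at this

end good2

end Cfsg.Agent.H03.Parab
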