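import Mathlib

set_option autoImplicit false

namespace Cfsg.Agent.H03

variable {α : Type*}

/-- A permutation commuting with a transitive set of permutations and fixing a point is trivial. -/
theorem eq_one_of_commute_of_transitive (T : Set (Equiv.Perm α))
    (htr : ∀ x y, ∃ t ∈ T, t x = y) (c : Equiv.Perm α) (hc : ∀ t ∈ T, c * t = t * c)
    {a : α} (hca : c a = a) : c = 1 := by
  ext x
  obtain ⟨t, ht, rfl⟩ := htr a x
  have := congrArg (fun p : Equiv.Perm α => p a) (hc t ht)
  simp only [Equiv.Perm.coe_mul, Function.comp, hca] at this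
  simpa using this

/-- An element centralizing a transitive subgroup `N`, is in `N` when it and the action of `N` agree on a point and
the group `N` is in its own ... : if `c` centralizes a transitive `T`, and `t ∈ T` with `t a = c a` and `t`
also centralizes `T`, then `c = t`. -/
theorem eq_of_commute_of_transitive (T : Set (Equiv.Perm α))
    (htr : ∀ x y, ∃ t ∈ T, t x = y) (c d : Equiv.Perm α) (hc : ∀ t ∈ T, c * t = t * c)
    (hd : ∀ t ∈ T, d * t = t * d) {a : α} (hcd : c a = d a) : c = d := by
  ext x
  obtain ⟨t, ht, rfl⟩ := htr a x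
  have h1 := congrArg (fun p : Equiv.Perm α => p a) (hc t ht)
  have h2 := congrArg (fun p : Equiv.Perm α => p a) (hd t ht)
  simp only [Equiv.Perm.coe_mul, Function.comp] at h1 h2
  rw [h1, h2, hcd]

end Cfsg.Agent.H03
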