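import Mathlib
import Cfsg.Prelude.Def_PLocal
import Cfsg.Agent.Lib.H03.Thompson
import Cfsg.Agent.Lib.H14.Nilp
import Cfsg.Agent.Lib.H13.Basic

set_option autoImplicit false

namespace Cfsg.Agent.H03

open Cfsg
open scoped commutatorElement

variable {P : Type*} [Group P] [Finite P] {p : ℕ}

theorem isEA_of_le {A B : Subgroup P} (h : A ≤ B) (hB : IsElementaryAbelian p B) :
    IsElementaryAbelian p A :=
  ⟨isMulCommutative_of_forall fun _ hx _ hy => mul_comm_of_isMulCommutative hB.1 (h hx) (h hy),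
    fun a ha => hB.2 a (h ha)⟩

/-- Thompson replacement for elementary abelian subgroups. -/
theorem thompson_replacement [Fact p.Prime] (hP : IsPGroup p P)
    {V A : Subgroup P} (hVn : V.Normal) (hV : IsElementaryAbelian p V)
    (hA : A ∈ maxElementaryAbelianSubgroups p P)
    (hnorm : ¬ V ≤ Subgroup.normalizer (A : Set P)) :
    ∃ A' ∈ maxElementaryAbelianSubgroups p P, A' ≤ Subgroup.normalizer (A : Set P) ∧
      Nat.card ↥(A ⊓ V) < Nat.card ↥(A' ⊓ V) := by
  classical
  haveI : Group.IsNilpotent P := hP.isNilpotent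
  obtain ⟨x, hxV, hxN, hxc⟩ := Cfsg.Agent.H14.exists_commutator_mem hVn hnorm
  have hxcV : ∀ g, x * g * x⁻¹ * g⁻¹ ∈ V := fun g => (Subgroup.mem_inf.mp (hxc g)).1
  have hxcN : ∀ g, x * g * x⁻¹ * g⁻¹ ∈ Subgroup.normalizer (A : Set P) :=
    fun g => (Subgroup.mem_inf.mp (hxc g)).2
  set Ax := A.map (MulAut.conj x).toMonoidHom with hAx
  set C := A ⊓ Ax with hC
  set D := Subgroup.closure {y : P | ∃ a ∈ A, y = x * a * x⁻¹ * a⁻¹} with hD
  have hDV : D ≤ V := by
    rw [hD, Subgroup.closure_le]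
    rintro y ⟨a, _, rfl⟩
    exact hxcV a
  have hDN : D ≤ Subgroup.normalizer (A : Set P) := by
    rw [hD, Subgroup.closure_le]
    rintro y ⟨a, _, rfl⟩
    exact hxcN a
  have hAcomm : ∀ a ∈ A, ∀ b ∈ A, a * b = b * a :=
    fun a ha b hb => mul_comm_of_isMulCommutative hA.1.1 ha hb
  have hCA : C ≤ A := inf_le_left
  have hCEA : IsElementaryAbelian p C := isEA_of_le hCA hA.1
  have hDEA : IsElementaryAbelian p D := isEA_of_le hDV hV
  have hCD : ∀ c ∈ C, ∀ d ∈ D, c * d = d * c := by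
    intro c hc d hd
    obtain ⟨hc1, hc2⟩ := Subgroup.mem_inf.mp hc
    obtain ⟨b, hb, rfl⟩ := hc2
    have hle : D ≤ Subgroup.centralizer ({(MulAut.conj x).toMonoidHom b} : Set P) := by
      rw [hD, Subgroup.closure_le]
      rintro y ⟨a, ha, rfl⟩
      change _ ∈ Subgroup.centralizer _
      rw [Subgroup.mem_centralizer_iff]
      intro z hz
      rw [Set.mem_singleton_iff] at hz
      subst hz
      change (x * b * x⁻¹) * (x * a * x⁻¹ * a⁻¹) = (x * a * x⁻¹ * a⁻¹) * (x * b * x⁻¹)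
      have h1 : (x * b * x⁻¹) * a⁻¹ = a⁻¹ * (x * b * x⁻¹) := by
        have := hAcomm _ hc1 _ (inv_mem ha)
        exact this
      calc (x * b * x⁻¹) * (x * a * x⁻¹ * a⁻¹) = x * (b * a) * x⁻¹ * a⁻¹ := by group
        _ = x * (a * b) * x⁻¹ * a⁻¹ := by rw [hAcomm b hb a ha]
        _ = x * a * x⁻¹ * ((x * b * x⁻¹) * a⁻¹) := by group
        _ = x * a * x⁻¹ * (a⁻¹ * (x * b * x⁻¹)) := by rw [h1]
        _ = (x * a * x⁻¹ * a⁻¹) * (x * b * x⁻¹) := by group
    have := Subgroup.mem_centralizer_iff.mp (hle hd) _ rfl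
    exact this
  set M := C ⊔ D with hM
  have hMEA : IsElementaryAbelian p M := isElementaryAbelian_sup hCEA hDEA hCD
  have hcM : ∀ a ∈ A, x * a * x⁻¹ * a⁻¹ ∈ M := fun a ha =>
    (le_sup_right : D ≤ M) (Subgroup.subset_closure ⟨a, ha, rfl⟩)
  -- comparison of orders
  set C' := A ⊓ A.map (MulAut.conj x⁻¹).toMonoidHom with hC'
  have hC'C : Nat.card C' = Nat.card C := by
    have h1 : C'.map (MulAut.conj x).toMonoidHom = C := by
      rw [hC', Cfsg.Agent.H13.map_conj_inf, Cfsg.Agent.H13.map_conj_map_conj_inv, inf_comm]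
    rw [← h1]
    exact (Cfsg.Agent.H13.card_map_conj x C').symm
  have hC'A : C' ≤ A := inf_le_left
  have hCM : C ≤ M := le_sup_left
  have hinj : Function.Injective
      (fun t : (↥A) ⧸ (C'.subgroupOf A) =>
        (QuotientGroup.mk ⟨x * (t.out : P) * x⁻¹ * (t.out : P)⁻¹, hcM _ t.out.2⟩ :
          (↥M) ⧸ (C.subgroupOf M))) := by
    intro t₁ t₂ h
    rw [QuotientGroup.eq, Subgroup.mem_subgroupOf] at h
    simp only [Subgroup.coe_mul, InvMemClass.coe_inv] at h
    set a := t₁.out with ha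
    set b := t₂.out with hb
    set c := (x * (a : P) * x⁻¹ * (a : P)⁻¹)⁻¹ * (x * (b : P) * x⁻¹ * (b : P)⁻¹) with hc
    have hcA : c ∈ A := hCA h
    have key : x * ((a : P)⁻¹ * (b : P)) * x⁻¹ = (a : P)⁻¹ * c * b := by
      rw [hc]; group
    have hmem : (a : P)⁻¹ * (b : P) ∈ C' := by
      refine Subgroup.mem_inf.mpr ⟨mul_mem (inv_mem a.2) b.2, ?_⟩
      rw [Cfsg.Agent.H13.mem_map_conj, inv_inv, key]
      exact mul_mem (mul_mem (inv_mem a.2) hcA) b.2
    have h1 : (QuotientGroup.mk a : (↥A) ⧸ (C'.subgroupOf A)) = QuotientGroup.mk b := by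
      rw [QuotientGroup.eq, Subgroup.mem_subgroupOf]
      exact hmem
    rw [ha, hb, QuotientGroup.out_eq', QuotientGroup.out_eq'] at h1
    exact h1
  have hcard1 : Nat.card ((↥A) ⧸ (C'.subgroupOf A)) ≤ Nat.card ((↥M) ⧸ (C.subgroupOf M)) :=
    Nat.card_le_card_of_injective _ hinj
  have hAM : Nat.card A ≤ Nat.card M := by
    have e1 : Nat.card (C'.subgroupOf A) * (C'.subgroupOf A).index = Nat.card A :=
      Subgroup.card_mul_index _
    have e2 : Nat.card (C.subgroupOf M) * (C.subgroupOf M).index = Nat.card M :=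
      Subgroup.card_mul_index _
    have e3 : Nat.card (C'.subgroupOf A) = Nat.card C' :=
      Nat.card_congr (Subgroup.subgroupOfEquivOfLe hC'A).toEquiv
    have e4 : Nat.card (C.subgroupOf M) = Nat.card C :=
      Nat.card_congr (Subgroup.subgroupOfEquivOfLe hCM).toEquiv
    rw [← e1, ← e2, e3, e4, hC'C]
    exact Nat.mul_le_mul_left _ hcard1
  have hMmax : M ∈ maxElementaryAbelianSubgroups p P :=
    ⟨hMEA, fun B hB => (hA.2 B hB).trans hAM⟩
  refine ⟨M, hMmax, ?_, ?_⟩
  · refine sup_le (hCA.trans Subgroup.le_normalizer) hDN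
  · have hle : A ⊓ V ≤ M ⊓ V := by
      intro a ha
      obtain ⟨ha1, ha2⟩ := Subgroup.mem_inf.mp ha
      refine Subgroup.mem_inf.mpr ⟨hCM (Subgroup.mem_inf.mpr ⟨ha1, ?_⟩), ha2⟩
      rw [Cfsg.Agent.H13.mem_map_conj]
      have : x⁻¹ * a * x = a := by
        have h2 : x * a = a * x := mul_comm_of_isMulCommutative hV.1 hxV ha2
        calc x⁻¹ * a * x = x⁻¹ * (a * x) := by group
          _ = x⁻¹ * (x * a) := by rw [h2]
          _ = a := by group
      rwa [this]
    by_contra hlt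
    have heq : A ⊓ V = M ⊓ V := Subgroup.eq_of_le_of_card_ge hle (not_lt.mp hlt)
    apply hxN
    apply Cfsg.Agent.H13.mem_normalizer_of_map_conj_le
    rintro _ ⟨a, ha, rfl⟩
    change x * a * x⁻¹ ∈ A
    have h3 : x * a * x⁻¹ * a⁻¹ ∈ M ⊓ V := Subgroup.mem_inf.mpr ⟨hcM a ha, hxcV a⟩
    rw [← heq] at h3
    have h4 := mul_mem (Subgroup.mem_inf.mp h3).1 ha
    simpa using h4

/-- If some maximal EA subgroup does not centralize the normal EA subgroup `V`, some maximal
EA subgroup does not centralize `V` and is normalized by `V`. -/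
theorem exists_offender_normalized [Fact p.Prime] (hP : IsPGroup p P)
    {V A : Subgroup P} (hVn : V.Normal) (hV : IsElementaryAbelian p V)
    (hA : A ∈ maxElementaryAbelianSubgroups p P)
    (hc : ¬ A ≤ Subgroup.centralizer (V : Set P)) :
    ∃ A' ∈ maxElementaryAbelianSubgroups p P, ¬ A' ≤ Subgroup.centralizer (V : Set P) ∧
      V ≤ Subgroup.normalizer (A' : Set P) := by
  classical
  let F := {A : Subgroup P // A ∈ maxElementaryAbelianSubgroups p P ∧
    ¬ A ≤ Subgroup.centralizer (V : Set P)}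
  have hne : Nonempty F := ⟨⟨A, hA, hc⟩⟩
  obtain ⟨⟨A', hA', hc'⟩, hmax⟩ := Finite.exists_max (fun A : F => Nat.card ↥((A : Subgroup P) ⊓ V))
  refine ⟨A', hA', hc', ?_⟩
  by_contra hnorm
  obtain ⟨A'', hA'', hN, hlt⟩ := thompson_replacement hP hVn hV hA' hnorm
  by_cases hc'' : A'' ≤ Subgroup.centralizer (V : Set P)
  · apply hnorm
    have : V ≤ A'' := le_of_isEA_of_commute hA'' hV fun a ha b hb =>
      (Subgroup.mem_centralizer_iff.mp (hc'' ha) b hb).symm
    exact this.trans hN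
  · have := hmax ⟨A'', hA'', hc''⟩
    simp only at this
    omega

/-- Replacement: a nontrivial quadratically acting element exists if some maximal EA subgroup
does not centralize `V`. -/
theorem exists_quadratic_element [Fact p.Prime] (hP : IsPGroup p P)
    {V A : Subgroup P} (hVn : V.Normal) (hV : IsElementaryAbelian p V)
    (hA : A ∈ maxElementaryAbelianSubgroups p P)
    (hc : ¬ A ≤ Subgroup.centralizer (V : Set P)) :
    ∃ a : P, ⁅⁅V, Subgroup.zpowers a⁆, Subgroup.zpowers a⁆ = ⊥ ∧ ⁅V, Subgroup.zpowers a⁆ ≠ ⊥ := by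
  obtain ⟨A', hA', hc', hN⟩ := exists_offender_normalized hP hVn hV hA hc
  obtain ⟨a, ha, hac⟩ := SetLike.not_le_iff_exists.mp hc'
  have hzp : Subgroup.zpowers a ≤ A' := (Subgroup.zpowers_le).mpr ha
  have h1 : ⁅V, Subgroup.zpowers a⁆ ≤ A' := by
    rw [Subgroup.commutator_le]
    intro v hv g hg
    have hgA := hzp hg
    have hvN := hN hv
    have h2 : v * g * v⁻¹ ∈ A' := ((Subgroup.mem_normalizer_iff.mp hvN) g).mp hgA
    rw [commutatorElement_def]
    exact mul_mem h2 (inv_mem hgA)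
  refine ⟨a, ?_, ?_⟩
  · rw [eq_bot_iff, Subgroup.commutator_le]
    intro u hu g hg
    rw [Subgroup.mem_bot, commutatorElement_eq_one_iff_mul_comm]
    exact mul_comm_of_isMulCommutative hA'.1.1 (h1 hu) (hzp hg)
  · intro hbot
    apply hac
    rw [Subgroup.mem_centralizer_iff]
    intro v hv
    have h1 : ⁅v, a⁆ ∈ ⁅V, Subgroup.zpowers a⁆ :=
      Subgroup.commutator_mem_commutator hv (Subgroup.mem_zpowers a)
    rw [hbot, Subgroup.mem_bot, commutatorElement_eq_one_iff_mul_comm] at h1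
    exact h1

end Cfsg.Agent.H03
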