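import Mathlib
import Cfsg.Agent.Lib.H03.TICount
import Cfsg.Agent.Lib.H12.UTrans

/-! Totally isotropic lines of the Hermitian form. -/

set_option autoImplicit false

namespace Cfsg.Agent.H03

open Cfsg Matrix Module Cfsg.Agent.Lead

variable {F : Type*} [Field F] [Fintype F] {q : ℕ}

lemma herm_sesq (hF : Fintype.card F = q ^ 2) (n : ℕ) : SesqF (hermForm n F q) (fun a => a ^ q) where
  add_left := fun x y z => herm_add_left x y z
  smul_left := fun a x z => herm_smul_left a x z
  add_right := fun x y z => herm_add_right hF z x y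
  smul_right := fun a x z => herm_smul_right hF a z x
  symm0 := fun x y h => by
    have hq2 := two_le_q hF
    rw [herm_conj hF x y, h, zero_pow (by omega)]

/-- The special isotropic vector -/
def specV (n : ℕ) (c : F) : Fin (n + 2) → F := Fin.cons 1 (Fin.cons c 0)

lemma herm_succ2 (n : ℕ) (u w : Fin (n + 2) → F) :
    hermForm (n + 2) F q u w = u 0 * (w 0) ^ q + u 1 * (w 1) ^ q +
      hermForm n F q (fun i => u i.succ.succ) (fun i => w i.succ.succ) := by
  simp only [hermForm, Fin.sum_univ_succ (n := n + 1), Fin.sum_univ_succ (n := n)]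
  simp [add_assoc]

lemma spec_perp_card (hF : Fintype.card F = q ^ 2) (n : ℕ) {c : F} (hc : c ^ (q + 1) = -1) :
    Nat.card {w : Fin (n + 2) → F // hermForm (n + 2) F q w w = 0 ∧ hermForm (n + 2) F q (specV n c) w = 0} =
      q ^ 2 * hermCnt F q n 0 := by
  classical
  have hq2 := two_le_q hF
  have hneg : ∀ x : F, (-x) ^ q = - x ^ q := by
    intro x
    have := H12.UTrans.neg_one_pow_q hF
    rw [neg_pow, this]
    ring
  have hs1 : ∀ w : Fin (n + 2) → F, hermForm (n + 2) F q (specV n c) w = (w 0) ^ q + c * (w 1) ^ q := by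
    intro w
    rw [herm_succ2]
    have h1 : (specV n c) 0 = 1 := rfl
    have h2 : (specV n c) 1 = c := rfl
    have h3 : (fun i : Fin n => (specV n c) i.succ.succ) = 0 := by
      funext i; rfl
    rw [h1, h2, h3]
    simp [hermForm]
  have hs2 : ∀ a : F, (-(c ^ q * a)) ^ q + c * a ^ q = 0 := by
    intro a
    rw [hneg, mul_pow, pow_q_sq hF]
    ring
  have hs3 : ∀ a : F, (-(c ^ q * a)) * (-(c ^ q * a)) ^ q + a * a ^ q = 0 := by
    intro a
    rw [hneg, mul_pow, pow_q_sq hF]
    have : c ^ q * c = c ^ (q + 1) := by rw [pow_succ]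
    calc -(c ^ q * a) * -(c * a ^ q) + a * a ^ q = (c ^ q * c) * (a * a ^ q) + a * a ^ q := by ring
      _ = 0 := by rw [this, hc]; ring
  have e : {w : Fin (n + 2) → F // hermForm (n + 2) F q w w = 0 ∧ hermForm (n + 2) F q (specV n c) w = 0} ≃
      F × {y : Fin n → F // hermForm n F q y y = 0} :=
    { toFun := fun w => ⟨w.1 1, fun i => w.1 i.succ.succ, by
          have h1 := w.2.1
          have h2 := w.2.2
          rw [hs1] at h2
          rw [herm_succ2] at h1
          have h3 : w.1 0 = - (c ^ q * w.1 1) := by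
            have h4 : (w.1 0) ^ q = - (c * (w.1 1) ^ q) := by linear_combination h2
            have h5 := congrArg (fun x => x ^ q) h4
            simp only [pow_q_sq hF, hneg, mul_pow] at h5
            exact h5
          rw [h3] at h1
          have := hs3 (w.1 1)
          linear_combination h1 - this⟩
      invFun := fun p => ⟨Fin.cons (-(c ^ q * p.1)) (Fin.cons p.1 p.2.1), by
          rw [herm_succ2]
          have h1 := hs3 p.1
          have h2 : hermForm n F q (fun i : Fin n => (Fin.cons (-(c ^ q * p.1)) (Fin.cons p.1 p.2.1) : Fin (n + 2) → F) i.succ.succ)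
              (fun i : Fin n => (Fin.cons (-(c ^ q * p.1)) (Fin.cons p.1 p.2.1) : Fin (n + 2) → F) i.succ.succ) = 0 := p.2.2
          rw [h2]
          simpa using h1, by
          rw [hs1]
          have h1 := hs2 p.1
          simpa using h1⟩
      left_inv := fun w => by
        apply Subtype.ext
        funext i
        have h2 := w.2.2
        rw [hs1] at h2
        have h3 : w.1 0 = - (c ^ q * w.1 1) := by
          have h4 : (w.1 0) ^ q = - (c * (w.1 1) ^ q) := by linear_combination h2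
          have h5 := congrArg (fun x => x ^ q) h4
          simp only [pow_q_sq hF, hneg, mul_pow] at h5
          exact h5
        refine Fin.cases ?_ (fun j => ?_) i
        · exact h3.symm
        · refine Fin.cases ?_ (fun k => ?_) j
          · rfl
          · rfl
      right_inv := fun p => by
        rcases p with ⟨a, y, hy⟩
        rfl }
  rw [Nat.card_congr e, Nat.card_prod, Nat.card_eq_fintype_card, hF]
  rfl

lemma spec_iso (hF : Fintype.card F = q ^ 2) (n : ℕ) {c : F} (hc : c ^ (q + 1) = -1) :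
    hermForm (n + 2) F q (specV n c) (specV n c) = 0 := by
  have h1 : (specV n c) 0 = 1 := rfl
  have h2 : (specV n c) 1 = c := rfl
  have h3 : (fun i : Fin n => (specV n c) i.succ.succ) = 0 := by
    funext i; rfl
  have hq2 := two_le_q hF
  rw [herm_succ2, h1, h2, h3]
  have h4 : c * c ^ q = c ^ (q + 1) := by rw [pow_succ, mul_comm]
  simp only [one_pow, mul_one, h4, hc]
  simp [hermForm]

lemma spec_ne (n : ℕ) (c : F) : specV n c ≠ 0 := by
  intro h
  have h1 : (specV n c) 0 = 1 := rfl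
  rw [h] at h1
  exact zero_ne_one h1

lemma perp_card (hF : Fintype.card F = q ^ 2) (n : ℕ) (hn : 1 ≤ n) {v : Fin (n + 2) → F} (hv : v ≠ 0)
    (hvv : hermForm (n + 2) F q v v = 0) :
    Nat.card {w : Fin (n + 2) → F // hermForm (n + 2) F q w w = 0 ∧ hermForm (n + 2) F q v w = 0} =
      q ^ 2 * hermCnt F q n 0 := by
  classical
  obtain ⟨c, hc⟩ := H12.UTrans.exists_c hF
  rw [← spec_perp_card hF n hc]
  obtain ⟨g, hg⟩ := H12.UTrans.exists_SU_map hF (n := n + 2) (by omega) hv (spec_ne n c) hvv (spec_iso hF n hc)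
  set A : Matrix (Fin (n + 2)) (Fin (n + 2)) F := ((g : SpecialLinearGroup (Fin (n + 2)) F) : Matrix (Fin (n + 2)) (Fin (n + 2)) F) with hA
  set B : Matrix (Fin (n + 2)) (Fin (n + 2)) F := (((g : SpecialLinearGroup (Fin (n + 2)) F)⁻¹ : SpecialLinearGroup (Fin (n + 2)) F) : Matrix (Fin (n + 2)) (Fin (n + 2)) F) with hB
  have hAB : A * B = 1 := congrArg Subtype.val (mul_inv_cancel (g : SpecialLinearGroup (Fin (n + 2)) F))
  have hBA : B * A = 1 := congrArg Subtype.val (inv_mul_cancel (g : SpecialLinearGroup (Fin (n + 2)) F))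
  have hp : ∀ x y, hermForm (n + 2) F q (A *ᵥ x) (A *ᵥ y) = hermForm (n + 2) F q x y := g.2
  have hB' : ∀ x, B *ᵥ (A *ᵥ x) = x := by
    intro x; rw [mulVec_mulVec, hBA, one_mulVec]
  have hA' : ∀ x, A *ᵥ (B *ᵥ x) = x := by
    intro x; rw [mulVec_mulVec, hAB, one_mulVec]
  apply Nat.card_congr
  exact
    { toFun := fun w => ⟨A *ᵥ w.1, by rw [hp]; exact w.2.1, by rw [← hg, hp]; exact w.2.2⟩
      invFun := fun w => ⟨B *ᵥ w.1, by
          rw [← hp, hA']; exact w.2.1, by
          rw [← hp, hA', hg]; exact w.2.2⟩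
      left_inv := fun w => Subtype.ext (hB' w.1)
      right_inv := fun w => Subtype.ext (hA' w.1) }

/-- the number of points on a line in terms of number of isotropic vectors -/
theorem herm_lines (hF : Fintype.card F = q ^ 2) (n : ℕ) (hn : 1 ≤ n) {v : Fin (n + 2) → F} (hv : v ≠ 0)
    (hvv : hermForm (n + 2) F q v v = 0) :
    Nat.card {W : Submodule F (Fin (n + 2) → F) // finrank F W = 2 ∧ v ∈ W ∧ ∀ x ∈ W, ∀ y ∈ W, hermForm (n + 2) F q x y = 0} *
      (q ^ 2 - 1) = hermCnt F q n 0 - 1 := by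
  classical
  have hq2 := two_le_q hF
  have h1 := (herm_sesq hF (n + 2)).lines_count hv hvv
  have hL : ∀ x ∈ (F ∙ v), hermForm (n + 2) F q x x = 0 ∧ hermForm (n + 2) F q v x = 0 := by
    intro x hx
    obtain ⟨a, rfl⟩ := Submodule.mem_span_singleton.1 hx
    constructor
    · rw [herm_smul_left, herm_smul_right hF, hvv]
      simp
    · rw [herm_smul_right hF, hvv]
      simp
  have h2 : Nat.card {w : Fin (n + 2) → F // w ∉ (F ∙ v) ∧ hermForm (n + 2) F q w w = 0 ∧ hermForm (n + 2) F q v w = 0} =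
      q ^ 2 * hermCnt F q n 0 - q ^ 2 := by
    rw [← perp_card hF n hn hv hvv]
    have h3 := Set.ncard_diff (s := ((F ∙ v : Submodule F (Fin (n + 2) → F)) : Set (Fin (n + 2) → F)))
      (t := {w | hermForm (n + 2) F q w w = 0 ∧ hermForm (n + 2) F q v w = 0}) (fun x hx => hL x hx)
    have h4 : Nat.card ((F ∙ v : Submodule F (Fin (n + 2) → F)) : Set (Fin (n + 2) → F)) = q ^ 2 := by
      have := card_sub (F := F) (F ∙ v)
      rw [finrank_span_singleton hv, pow_one, hF] at this
      exact this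
    rw [← Nat.card_coe_set_eq, ← Nat.card_coe_set_eq, ← Nat.card_coe_set_eq, h4] at h3
    have h5 : Nat.card {w : Fin (n + 2) → F // w ∉ (F ∙ v) ∧ hermForm (n + 2) F q w w = 0 ∧ hermForm (n + 2) F q v w = 0} =
        Nat.card ↑({w | hermForm (n + 2) F q w w = 0 ∧ hermForm (n + 2) F q v w = 0} \ ((F ∙ v : Submodule F (Fin (n + 2) → F)) : Set (Fin (n + 2) → F))) :=
      Nat.card_congr
        { toFun := fun w => ⟨w.1, w.2.2, w.2.1⟩
          invFun := fun w => ⟨w.1, w.2.2, w.2.1⟩
          left_inv := fun _ => rfl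
          right_inv := fun _ => rfl }
    rw [h5, h3]
    rfl
  rw [h2, hF] at h1
  have hc1 : 1 ≤ hermCnt F q n 0 := by
    unfold hermCnt
    haveI : Finite {y : Fin n → F // hermForm n F q y y = 0} := inferInstance
    haveI : Nonempty {y : Fin n → F // hermForm n F q y y = 0} := ⟨⟨0, by
      simp [hermForm]; ⟩⟩
    exact Nat.card_pos
  obtain ⟨k, hk⟩ : ∃ k, hermCnt F q n 0 = k + 1 := ⟨hermCnt F q n 0 - 1, by omega⟩
  obtain ⟨r, hr⟩ : ∃ r, q ^ 2 = r + 1 := ⟨q ^ 2 - 1, by
    have : 0 < q ^ 2 := by positivity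
    omega⟩
  have hr0 : 0 < r + 1 := by omega
  rw [hk, hr] at h1
  have h5 : (r + 1) * (k + 1) - (r + 1) = (r + 1) * k := by
    have : (r + 1) * (k + 1) = (r + 1) * k + (r + 1) := by ring
    omega
  have h6 : (r + 1) ^ 2 - (r + 1) = (r + 1) * r := by
    have : (r + 1) ^ 2 = (r + 1) * r + (r + 1) := by ring
    omega
  rw [h5, h6] at h1
  rw [hk, hr]
  simp only [Nat.add_sub_cancel]
  have h7 : (r + 1) * k = (r + 1) * (Nat.card {W : Submodule F (Fin (n + 2) → F) // finrank F W = 2 ∧ v ∈ W ∧ ∀ x ∈ W, ∀ y ∈ W, hermForm (n + 2) F q x y = 0} * r) := by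
    rw [h1]; ring
  exact (Nat.eq_of_mul_eq_mul_left hr0 h7).symm

theorem herm_total (hF : Fintype.card F = q ^ 2) (n c : ℕ)
    (hc : ∀ v : Fin (n + 2) → F, v ≠ 0 → hermForm (n + 2) F q v v = 0 →
      Nat.card {W : Submodule F (Fin (n + 2) → F) // finrank F W = 2 ∧ v ∈ W ∧ ∀ x ∈ W, ∀ y ∈ W, hermForm (n + 2) F q x y = 0} = c) :
    (hermCnt F q (n + 2) 0 - 1) * c =
      Nat.card {W : Submodule F (Fin (n + 2) → F) // finrank F W = 2 ∧ ∀ x ∈ W, ∀ y ∈ W, hermForm (n + 2) F q x y = 0} * (q ^ 4 - 1) := by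
  classical
  have h1 := ti_total (h := hermForm (n + 2) F q) c hc
  have h2 : q ^ 4 - 1 = Fintype.card F ^ 2 - 1 := by
    rw [hF]; ring_nf
  rw [h2, ← h1]
  congr 1
  have h3 := Set.ncard_diff (s := ({0} : Set (Fin (n + 2) → F)))
    (t := {w | hermForm (n + 2) F q w w = 0}) (by
      intro x hx
      rw [Set.mem_singleton_iff.1 hx]
      simp [hermForm])
  rw [Set.ncard_singleton, ← Nat.card_coe_set_eq, ← Nat.card_coe_set_eq] at h3
  show Nat.card {w : Fin (n + 2) → F // hermForm (n + 2) F q w w = 0} - 1 = _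
  have h4 : Nat.card {w : Fin (n + 2) → F // hermForm (n + 2) F q w w = 0} - 1 =
      Nat.card ↑({w | hermForm (n + 2) F q w w = 0} : Set (Fin (n + 2) → F)) - 1 := rfl
  rw [h4, ← h3]
  apply Nat.card_congr
  exact
    { toFun := fun w => ⟨w.1, w.2.2, w.2.1⟩
      invFun := fun w => ⟨w.1, w.2.2, w.2.1⟩
      left_inv := fun _ => rfl
      right_inv := fun _ => rfl }

end Cfsg.Agent.H03
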