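import Mathlib
import Cfsg.Agent.Lib.H03.TIHerm
import Cfsg.Agent.Lib.H09.SUInv

/-! Stabilisers of totally isotropic subspaces in unitary groups. -/

set_option autoImplicit false

namespace Cfsg.Agent.H03.TS

open Cfsg Matrix Module Cfsg.Agent.Lead

variable {F : Type*} [Field F] [Fintype F] {q n : ℕ}

local notation "herm" => Cfsg.hermForm n F q

/-- The matrix of an element of `GU`. -/
abbrev gM (g : GU n F q) : Matrix (Fin n) (Fin n) F := ((g : GL (Fin n) F) : Matrix (Fin n) (Fin n) F)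

lemma gM_pres (g : GU n F q) (u v : Fin n → F) : herm (gM g *ᵥ u) (gM g *ᵥ v) = herm u v := g.2 u v

lemma gM_mul (g g' : GU n F q) : gM (g * g') = gM g * gM g' := rfl

lemma gM_one : gM (1 : GU n F q) = 1 := rfl

lemma gM_inv_mulVec (g : GU n F q) (x : Fin n → F) : gM g⁻¹ *ᵥ (gM g *ᵥ x) = x := by
  rw [mulVec_mulVec, ← gM_mul, inv_mul_cancel, gM_one, one_mulVec]

lemma gM_mulVec_inv (g : GU n F q) (x : Fin n → F) : gM g *ᵥ (gM g⁻¹ *ᵥ x) = x := by
  rw [mulVec_mulVec, ← gM_mul, mul_inv_cancel, gM_one, one_mulVec]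

lemma gM_inj (g : GU n F q) : Function.Injective (gM g).mulVecLin := by
  intro x y hxy
  have h : gM g *ᵥ x = gM g *ᵥ y := hxy
  rw [← gM_inv_mulVec g x, h, gM_inv_mulVec]

lemma exists_gu_of_equiv (e : (Fin n → F) ≃ₗ[F] (Fin n → F)) (he : ∀ u v, herm (e u) (e v) = herm u v) :
    ∃ A : GU n F q, ∀ x, gM A *ᵥ x = e x := by
  classical
  let G : GL (Fin n) F :=
    { val := LinearMap.toMatrix' e.toLinearMap
      inv := LinearMap.toMatrix' e.symm.toLinearMap
      val_inv := by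
        rw [← LinearMap.toMatrix'_comp]
        simp
      inv_val := by
        rw [← LinearMap.toMatrix'_comp]
        simp }
  have hG : ∀ x, (G : Matrix (Fin n) (Fin n) F) *ᵥ x = e x := fun x => LinearMap.toMatrix'_mulVec _ x
  refine ⟨⟨G, ?_⟩, hG⟩
  intro u v
  show herm ((G : Matrix (Fin n) (Fin n) F) *ᵥ u) ((G : Matrix (Fin n) (Fin n) F) *ᵥ v) = herm u v
  rw [hG, hG, he]

/-- Witt: isometries between subspaces extend to `GU`. -/
lemma exists_gu_extend (hF : Fintype.card F = q ^ 2) {X Y : Submodule F (Fin n → F)} (φ : X ≃ₗ[F] Y)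
    (hφ : ∀ x x' : X, herm (φ x : Fin n → F) (φ x' : Fin n → F) = herm (x : Fin n → F) (x' : Fin n → F)) :
    ∃ A : GU n F q, ∀ x : X, gM A *ᵥ (x : Fin n → F) = (φ x : Fin n → F) := by
  classical
  obtain ⟨σ, hσ⟩ := Lead.exists_frob hF
  have hσ1 : σ ≠ RingHom.id F := by
    intro h
    obtain ⟨x, hx⟩ := S0837.exists_ne_frob hF
    apply hx
    rw [← hσ, h]
    rfl
  have hσ2 : ∀ a : F, σ (σ a) = a := by
    intro a
    rw [hσ, hσ, ← pow_mul, ← sq, ← hF, FiniteField.pow_card]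
  let B := H09.SUI.formB (n := n) hF σ hσ
  obtain ⟨g, hg1, hg2⟩ := Cfsg.Agent.S0751.result σ hσ1 hσ2 B (H09.SUI.formB_symm hF σ hσ)
    (H09.SUI.formB_nondeg hF σ hσ) X Y φ (fun x x' => hφ x' x)
  obtain ⟨A, hA⟩ := exists_gu_of_equiv (q := q) g (fun u v => hg1 v u)
  exact ⟨A, fun x => by rw [hA, hg2]⟩

lemma exists_gu_sub (hF : Fintype.card F = q ^ 2) {X Y : Submodule F (Fin n → F)}
    (hfr : finrank F X = finrank F Y)
    (hX : ∀ u ∈ X, ∀ v ∈ X, herm u v = 0) (hY : ∀ u ∈ Y, ∀ v ∈ Y, herm u v = 0) :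
    ∃ A : GU n F q, ∀ x, x ∈ X ↔ gM A *ᵥ x ∈ Y := by
  classical
  let φ : X ≃ₗ[F] Y := LinearEquiv.ofFinrankEq X Y hfr
  obtain ⟨A, hA⟩ := exists_gu_extend hF φ (fun x x' => by
    rw [hY _ (φ x).2 _ (φ x').2, hX _ x.2 _ x'.2])
  refine ⟨A, fun x => ⟨fun hx => ?_, fun hx => ?_⟩⟩
  · have := hA ⟨x, hx⟩
    rw [show (⟨x, hx⟩ : X).1 = x from rfl] at this
    rw [this]
    exact (φ ⟨x, hx⟩).2
  · have h1 := hA (φ.symm ⟨_, hx⟩)
    rw [φ.apply_symm_apply] at h1
    have h2 : ((φ.symm ⟨_, hx⟩ : X) : Fin n → F) = x := gM_inj A h1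
    rw [← h2]
    exact (φ.symm ⟨_, hx⟩).2

lemma exists_gu_vec (hF : Fintype.card F = q ^ 2) {u u' : Fin n → F} (hu : u ≠ 0) (hu' : u' ≠ 0)
    (huu : herm u u = 0) (huu' : herm u' u' = 0) : ∃ A : GU n F q, gM A *ᵥ u = u' := by
  classical
  let e1 := LinearEquiv.toSpanNonzeroSingleton F (Fin n → F) u hu
  let e2 := LinearEquiv.toSpanNonzeroSingleton F (Fin n → F) u' hu'
  let φ := e1.symm.trans e2
  have hTI : ∀ w : Fin n → F, herm w w = 0 → ∀ x ∈ (F ∙ w), ∀ y ∈ (F ∙ w), herm x y = 0 := by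
    intro w hw x hx y hy
    obtain ⟨a, rfl⟩ := Submodule.mem_span_singleton.1 hx
    obtain ⟨b, rfl⟩ := Submodule.mem_span_singleton.1 hy
    rw [herm_smul_left, herm_smul_right hF, hw]
    simp
  obtain ⟨A, hA⟩ := exists_gu_extend hF φ (fun x x' => by
    rw [hTI u' huu' _ (φ x).2 _ (φ x').2, hTI u huu _ x.2 _ x'.2])
  refine ⟨A, ?_⟩
  have h1 := hA (e1 1)
  have h2 : φ (e1 1) = e2 1 := by simp [φ]
  rw [h2] at h1
  have h3 : ((e1 1 : F ∙ u) : Fin n → F) = u := congrArg Subtype.val (LinearEquiv.toSpanNonzeroSingleton_one F _ u hu)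
  have h4 : ((e2 1 : F ∙ u') : Fin n → F) = u' := congrArg Subtype.val (LinearEquiv.toSpanNonzeroSingleton_one F _ u' hu')
  rw [h3, h4] at h1
  exact h1

/-- Stabiliser in `GU`. -/
def stabGU (W : Submodule F (Fin n → F)) : Subgroup (GU n F q) :=
  (Cfsg.stabilizing (Units.coeHom (Matrix (Fin n) (Fin n) F)) (W : Set (Fin n → F))).subgroupOf (GU n F q)

lemma mem_stabGU {W : Submodule F (Fin n → F)} {g : GU n F q} :
    g ∈ stabGU W ↔ ∀ v, v ∈ W ↔ gM g *ᵥ v ∈ W := Iff.rfl

lemma map_iff_of_inj {M : Matrix (Fin n) (Fin n) F} (hM : Function.Injective M.mulVecLin)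
    {W : Submodule F (Fin n → F)} (h : ∀ x ∈ W, M *ᵥ x ∈ W) : ∀ x, x ∈ W ↔ M *ᵥ x ∈ W := by
  classical
  have h1 : W.map M.mulVecLin = W := by
    apply Submodule.eq_of_le_of_finrank_eq
    · rintro _ ⟨x, hx, rfl⟩
      exact h x hx
    · exact (Submodule.equivMapOfInjective _ hM W).finrank_eq.symm
  intro x
  refine ⟨h x, fun hx => ?_⟩
  have h2 : M *ᵥ x ∈ W.map M.mulVecLin := by
    rw [h1]; exact hx
  obtain ⟨y, hy, hyx⟩ := h2
  have h3 := hM hyx
  rwa [← h3]

lemma exists_partner (hF : Fintype.card F = q ^ 2) {v : Fin n → F} (hv : v ≠ 0) (hvv : herm v v = 0) :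
    ∃ u, herm u u = 0 ∧ herm v u = 1 ∧ herm u v = 1 := by
  classical
  have hq2 := two_le_q hF
  obtain ⟨x, hx⟩ := H12.UTrans.exists_herm_one hF hv
  have hx' : herm x v = 1 := by
    rw [herm_conj hF v x, hx, one_pow]
  have hr : (herm x x) ^ q = herm x x := (herm_conj hF x x).symm
  have hneg : (- herm x x) ^ q = - herm x x := by
    rw [neg_pow, H12.UTrans.neg_one_pow_q hF, hr]
    ring
  obtain ⟨t, ht⟩ := H12.UTrans.exists_trace_eq hF (- herm x x) hneg
  refine ⟨x + t • v, ?_, ?_, ?_⟩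
  · simp only [herm_add_left, herm_add_right hF, herm_smul_left, herm_smul_right hF, hvv, hx, hx']
    linear_combination ht
  · simp only [herm_add_right hF, herm_smul_right hF, hvv, hx]
    ring
  · simp only [herm_add_left, herm_smul_left, hvv, hx']
    ring

/-- The hyperbolic diagonal -/
noncomputable def hM (q : ℕ) (v u : Fin n → F) (a b : F) : Matrix (Fin n) (Fin n) F :=
  1 + (a - 1) • Matrix.vecMulVec v (fun j => u j ^ q) + (b - 1) • Matrix.vecMulVec u (fun j => v j ^ q)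

lemma hM_mulVec (v u : Fin n → F) (a b : F) (x : Fin n → F) :
    hM q v u a b *ᵥ x = x + ((a - 1) * herm x u) • v + ((b - 1) * herm x v) • u := by
  funext k
  simp only [hM, Matrix.add_mulVec, Matrix.one_mulVec, Matrix.smul_mulVec,
    Matrix.vecMulVec_mulVec, Pi.add_apply, Pi.smul_apply, smul_eq_mul, Cfsg.hermForm,
    MulOpposite.smul_eq_mul_unop, MulOpposite.unop_op, dotProduct]
  have h1 : ∀ w : Fin n → F, (∑ i, w i ^ q * x i) = ∑ i, x i * w i ^ q :=
    fun w => Finset.sum_congr rfl fun i _ => mul_comm _ _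
  rw [h1, h1]
  ring

lemma hM_det (v u : Fin n → F) (a b : F) (hvv : herm v v = 0) (huu : herm u u = 0) (hvu : herm v u = 1)
    (huv : herm u v = 1) : (hM q v u a b).det = a * b := by
  let A : Matrix (Fin n) (Fin 2) F := Matrix.of fun i j => ![(a - 1) * v i, (b - 1) * u i] j
  let C : Matrix (Fin 2) (Fin n) F := Matrix.of fun j i => ![u i ^ q, v i ^ q] j
  have e : hM q v u a b = 1 + A * C := by
    ext i j
    simp only [hM, Matrix.add_apply, Matrix.smul_apply, Matrix.vecMulVec_apply, smul_eq_mul,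
      Matrix.mul_apply, Fin.sum_univ_two, A, C, Matrix.of_apply, Matrix.cons_val_zero, Matrix.cons_val_one]
    ring
  have hs : ∀ (κ : F) (x w : Fin n → F), (∑ i, w i ^ q * (κ * x i)) = κ * herm x w := by
    intro κ x w
    simp only [Cfsg.hermForm, Finset.mul_sum]
    exact Finset.sum_congr rfl fun i _ => by ring
  rw [e, Matrix.det_one_add_mul_comm, Matrix.det_fin_two]
  simp only [Matrix.add_apply, Matrix.mul_apply, A, C, Matrix.of_apply, Matrix.cons_val_zero, Matrix.cons_val_one,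
    Matrix.one_apply_eq]
  simp only [hs, hvv, huu, hvu, huv]
  simp

lemma hM_pres (hF : Fintype.card F = q ^ 2) (v u : Fin n → F) (a b : F) (hvv : herm v v = 0) (huu : herm u u = 0)
    (hvu : herm v u = 1) (huv : herm u v = 1) (hab : a ^ q * b = 1) (hba : a * b ^ q = 1) (x y : Fin n → F) :
    herm (hM q v u a b *ᵥ x) (hM q v u a b *ᵥ y) = herm x y := by
  have hk : ∀ c : F, (c - 1) ^ q = c ^ q - 1 := by
    intro c
    obtain ⟨φ, hφ⟩ := Lead.exists_frob hF
    rw [← hφ, ← hφ, map_sub, map_one]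
  rw [hM_mulVec, hM_mulVec]
  simp only [herm_add_left, herm_add_right hF, herm_smul_left, herm_smul_right hF, hvv, huu, hvu, huv, mul_pow]
  rw [← herm_conj hF y u, ← herm_conj hF y v, hk, hk]
  linear_combination (herm x u * herm v y) * hba + (herm x v * herm u y) * hab

lemma exists_hilbert (hF : Fintype.card F = q ^ 2) {x : F} (hx : x ^ (q + 1) = 1) :
    ∃ a : F, a ≠ 0 ∧ a * (a⁻¹) ^ q = x := by
  classical
  have hq2 := two_le_q hF
  have hc0 : x ≠ 0 := by
    rintro rfl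
    rw [zero_pow (by omega)] at hx
    exact zero_ne_one hx
  obtain ⟨g, hg⟩ := IsCyclic.exists_generator (α := Fˣ)
  obtain ⟨k, hk⟩ := Subgroup.mem_zpowers_iff.1 (hg (Units.mk0 x hc0))
  have hord : orderOf g = q ^ 2 - 1 := by
    rw [orderOf_eq_card_of_forall_mem_zpowers hg, Nat.card_eq_fintype_card, Fintype.card_units, hF]
  have h1 : (Units.mk0 x hc0) ^ (q + 1) = 1 := by
    apply Units.ext
    simpa using hx
  rw [← hk] at h1
  have h2 : g ^ (k * ((q + 1 : ℕ) : ℤ)) = 1 := by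
    rw [_root_.zpow_mul, zpow_natCast]; exact h1
  have h3 : ((q ^ 2 - 1 : ℕ) : ℤ) ∣ k * ((q + 1 : ℕ) : ℤ) := by
    rw [← hord]; exact orderOf_dvd_iff_zpow_eq_one.2 h2
  have h4 : ((q ^ 2 - 1 : ℕ) : ℤ) = ((q - 1 : ℕ) : ℤ) * ((q + 1 : ℕ) : ℤ) := by
    rw [← Nat.cast_mul]
    congr 1
    rw [pow_two]
    obtain ⟨r, rfl⟩ : ∃ r, q = r + 1 := ⟨q - 1, by omega⟩
    simp only [Nat.add_sub_cancel]
    have : (r + 1) * (r + 1) = r * (r + 1 + 1) + 1 := by ring
    omega
  rw [h4] at h3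
  have hq1 : ((q + 1 : ℕ) : ℤ) ≠ 0 := by
    have : q + 1 ≠ 0 := by omega
    exact_mod_cast this
  obtain ⟨j, hj⟩ := (mul_dvd_mul_iff_right hq1).1 h3
  set y : F := ((g ^ j : Fˣ) : F) with hy
  have hy0 : y ≠ 0 := Units.ne_zero _
  refine ⟨y⁻¹, inv_ne_zero hy0, ?_⟩
  rw [inv_inv]
  have h5 : (g ^ j) ^ (q - 1) = Units.mk0 x hc0 := by
    rw [← hk, hj, ← zpow_natCast, ← _root_.zpow_mul]
    congr 1
    ring
  have h6 : y ^ (q - 1) = x := by
    have := congrArg Units.val h5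
    simpa [hy] using this
  rw [← h6]
  have h7 : y ^ q = y ^ (q - 1) * y := by
    rw [← pow_succ, Nat.sub_add_cancel (by omega)]
  rw [h7]
  field_simp

/-- elements of the stabilizer of arbitrary admissible determinant. -/
lemma exists_stab_det (hF : Fintype.card F = q ^ 2) (hn : 1 ≤ n) {W : Submodule F (Fin n → F)}
    (hW : ∀ u ∈ W, ∀ v ∈ W, herm u v = 0) {x : F} (hx : x ^ (q + 1) = 1) :
    ∃ g : GU n F q, g ∈ stabGU W ∧ (gM g).det = x := by
  classical
  have hq2 := two_le_q hF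
  by_cases hbot : W = ⊥
  · obtain ⟨g, hg⟩ := exists_GU_det hF hn x hx
    refine ⟨g, ?_, hg⟩
    rw [mem_stabGU, hbot]
    intro v
    apply map_iff_of_inj (gM_inj g)
    intro y hy
    rw [(Submodule.mem_bot F).1 hy, mulVec_zero]
    exact Submodule.zero_mem _
  · obtain ⟨v, hvW, hv⟩ := Submodule.exists_mem_ne_zero_of_ne_bot hbot
    have hvv := hW v hvW v hvW
    obtain ⟨u, huu, hvu, huv⟩ := exists_partner hF hv hvv
    obtain ⟨a, ha, hax⟩ := exists_hilbert hF hx
    set b : F := (a⁻¹) ^ q with hb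
    have hab : a ^ q * b = 1 := by
      rw [hb, ← mul_pow, mul_inv_cancel₀ ha, one_pow]
    have hba : a * b ^ q = 1 := by
      rw [hb, pow_q_sq hF, mul_inv_cancel₀ ha]
    have hdet := hM_det (q := q) v u a b hvv huu hvu huv
    have hd0 : (hM q v u a b).det ≠ 0 := by
      rw [hdet, hax]
      rintro rfl
      rw [zero_pow (by omega)] at hx
      exact zero_ne_one hx
    let G : GL (Fin n) F := Matrix.GeneralLinearGroup.mkOfDetNeZero (hM q v u a b) hd0
    have hG : (G : Matrix (Fin n) (Fin n) F) = hM q v u a b := rfl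
    have hGU : G ∈ GU n F q := by
      intro y z
      show herm ((G : Matrix (Fin n) (Fin n) F) *ᵥ y) ((G : Matrix (Fin n) (Fin n) F) *ᵥ z) = herm y z
      rw [hG]
      exact hM_pres hF v u a b hvv huu hvu huv hab hba y z
    refine ⟨⟨G, hGU⟩, ?_, ?_⟩
    · rw [mem_stabGU]
      apply map_iff_of_inj (gM_inj _)
      intro y hy
      show (G : Matrix (Fin n) (Fin n) F) *ᵥ y ∈ W
      rw [hG, hM_mulVec, hW y hy v hvW]
      simp only [mul_zero, zero_smul, add_zero]
      exact W.add_mem hy (W.smul_mem _ hvW)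
    · show (G : Matrix (Fin n) (Fin n) F).det = x
      rw [hG, hdet, hax]

/-- (q+1)|Stab_SU| = |Stab_GU| -/
theorem card_stab_eq (hF : Fintype.card F = q ^ 2) (hn : 1 ≤ n) {W : Submodule F (Fin n → F)}
    (hW : ∀ u ∈ W, ∀ v ∈ W, herm u v = 0) :
    (q + 1) * Nat.card ↥((Cfsg.stabilizing (Cfsg.slToMat n F) (W : Set (Fin n → F))).subgroupOf (Cfsg.SU n F q)) =
      Nat.card (stabGU (q := q) W) := by
  classical
  have hq2 := two_le_q hF
  let f : stabGU (q := q) W →* Fˣ := (guDet (n := n) (F := F) (q := q)).comp (stabGU (q := q) W).subtype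
  have hrange : f.range = rootsOfUnity (q + 1) F := by
    ext x
    rw [mem_rootsOfUnity]
    constructor
    · rintro ⟨g, rfl⟩
      apply Units.ext
      simpa [f, guDet_coe] using det_pow_of_GU hF (g : GU n F q)
    · intro hx
      have hx' : ((x : Fˣ) : F) ^ (q + 1) = 1 := by
        have := congrArg Units.val hx
        simpa using this
      obtain ⟨g, hg1, hg2⟩ := exists_stab_det hF hn hW hx'
      exact ⟨⟨g, hg1⟩, Units.ext hg2⟩
  have hcard : Nat.card f.range = q + 1 := by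
    rw [hrange, card_rootsOfUnity_field, hF]
    apply Nat.gcd_eq_left
    refine ⟨q - 1, ?_⟩
    obtain ⟨r, rfl⟩ : ∃ r, q = r + 1 := ⟨q - 1, by omega⟩
    simp only [Nat.add_sub_cancel]
    have : (r + 1) ^ 2 = (r + 1 + 1) * r + 1 := by ring
    omega
  have h1 := Subgroup.card_eq_card_quotient_mul_card_subgroup f.ker
  have h2 : Nat.card (stabGU (q := q) W ⧸ f.ker) = q + 1 := by
    rw [Nat.card_congr (QuotientGroup.quotientKerEquivRange _).toEquiv, hcard]
  rw [h1, h2]
  congr 1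
  apply Nat.card_congr
  exact
    { toFun := fun s => ⟨⟨⟨Matrix.SpecialLinearGroup.toGL (s.1 : Matrix.SpecialLinearGroup (Fin n) F), s.1.2⟩, s.2⟩, by
        rw [MonoidHom.mem_ker]
        apply Units.ext
        simpa [f, guDet_coe, Matrix.SpecialLinearGroup.toGL] using (s.1 : Matrix.SpecialLinearGroup (Fin n) F).2⟩
      invFun := fun g => ⟨⟨⟨((g.1.1 : GU n F q) : GL (Fin n) F), by
          have := congrArg Units.val (MonoidHom.mem_ker.1 g.2)
          simpa [f, guDet_coe] using this⟩, g.1.1.2⟩, g.1.2⟩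
      left_inv := fun s => by
        apply Subtype.ext
        apply Subtype.ext
        apply Subtype.ext
        rfl
      right_inv := fun g => by
        apply Subtype.ext
        apply Subtype.ext
        apply Subtype.ext
        apply Units.ext
        rfl }

/-- Orbit-stabiliser -/
theorem card_GU_orbit (hF : Fintype.card F = q ^ 2) {W : Submodule F (Fin n → F)}
    (hW : ∀ u ∈ W, ∀ v ∈ W, herm u v = 0) :
    Nat.card (GU n F q) = Nat.card {Y : Submodule F (Fin n → F) // finrank F Y = finrank F W ∧ ∀ u ∈ Y, ∀ v ∈ Y, herm u v = 0} *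
      Nat.card (stabGU (q := q) W) := by
  classical
  haveI : Finite (Submodule F (Fin n → F)) := Finite.of_injective (fun W => (W : Set (Fin n → F))) (fun _ _ e => SetLike.coe_injective e)
  let f : GU n F q → {Y : Submodule F (Fin n → F) // finrank F Y = finrank F W ∧ ∀ u ∈ Y, ∀ v ∈ Y, herm u v = 0} := fun g =>
    ⟨W.map (gM g).mulVecLin, (Submodule.equivMapOfInjective _ (gM_inj g) W).finrank_eq.symm, by
      rintro _ ⟨x, hx, rfl⟩ _ ⟨y, hy, rfl⟩
      show herm (gM g *ᵥ x) (gM g *ᵥ y) = 0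
      rw [gM_pres, hW x hx y hy]⟩
  have hf : ∀ (g : GU n F q) (Y : {Y : Submodule F (Fin n → F) // finrank F Y = finrank F W ∧ ∀ u ∈ Y, ∀ v ∈ Y, herm u v = 0}),
      f g = Y ↔ ∀ x, x ∈ W ↔ gM g *ᵥ x ∈ Y.1 := by
    intro g Y
    constructor
    · intro h x
      have h1 : W.map (gM g).mulVecLin = Y.1 := congrArg Subtype.val h
      rw [← h1]
      constructor
      · intro hx
        exact ⟨x, hx, rfl⟩
      · rintro ⟨y, hy, hyx⟩
        rwa [← gM_inj g hyx]
    · intro h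
      apply Subtype.ext
      show W.map (gM g).mulVecLin = Y.1
      apply Submodule.eq_of_le_of_finrank_eq
      · rintro _ ⟨x, hx, rfl⟩
        exact (h x).1 hx
      · rw [Y.2.1]
        exact (Submodule.equivMapOfInjective _ (gM_inj g) W).finrank_eq.symm
  apply card_of_fibers f
  intro Y
  obtain ⟨g₀, hg₀⟩ := exists_gu_sub hF Y.2.1.symm hW Y.2.2
  apply Nat.card_congr
  exact
    { toFun := fun g => ⟨g₀⁻¹ * g.1, by
        rw [mem_stabGU]
        intro v
        have h1 := (hf g.1 Y).1 g.2 v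
        rw [h1, hg₀, gM_mul, ← mulVec_mulVec, gM_mulVec_inv]⟩
      invFun := fun s => ⟨g₀ * s.1, by
        rw [hf]
        intro v
        rw [gM_mul, ← mulVec_mulVec, ← hg₀]
        exact (mem_stabGU.1 s.2) v⟩
      left_inv := fun g => by
        apply Subtype.ext
        show g₀ * (g₀⁻¹ * g.1) = g.1
        group
      right_inv := fun s => by
        apply Subtype.ext
        show g₀⁻¹ * (g₀ * s.1) = s.1
        group }

end Cfsg.Agent.H03.TS
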