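import Mathlib
import Cfsg.Agent.Lib.Lead.PSUGen
import Cfsg.Agent.Lib.H03.TIStab

/-! Generation of `SU_n(q)` by transvections, `q ≥ 3`. -/

set_option autoImplicit false

namespace Cfsg.Agent.H03.SUG

open Matrix Cfsg.Agent.Lead Cfsg.Agent.Lead.PSU Cfsg.Agent.H12.UTrans
open scoped commutatorElement

variable {F : Type*} [Field F] [Fintype F] {q n : ℕ}

local notation "herm" => Cfsg.hermForm n F q

/-- The group generated by all transvections. -/
def TT (n : ℕ) (F : Type*) [Field F] [Fintype F] (q : ℕ) : Subgroup (Cfsg.SU n F q) :=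
  Subgroup.closure {A : ↥(Cfsg.SU n F q) | ∃ (v : Fin n → F) (c : F), Cfsg.hermForm n F q v v = 0 ∧
    ((A : Matrix.SpecialLinearGroup (Fin n) F) : Matrix (Fin n) (Fin n) F) = Cfsg.unitaryTransvection n q v c}

variable (hF : Fintype.card F = q ^ 2) (hn : 0 < n)
include hF

lemma ut_mulVec' (v : Fin n → F) (c : F) (x : Fin n → F) :
    Cfsg.unitaryTransvection n q v c *ᵥ x = x + (c * herm x v) • v := by
  funext k
  simp only [Cfsg.unitaryTransvection, Matrix.add_mulVec, Matrix.one_mulVec, Matrix.smul_mulVec,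
    Matrix.vecMulVec_mulVec, Pi.add_apply, Pi.smul_apply, smul_eq_mul, Cfsg.hermForm,
    MulOpposite.smul_eq_mul_unop, MulOpposite.unop_op, dotProduct]
  have h2 : (∑ i, v i ^ q * x i) = ∑ i, x i * v i ^ q :=
    Finset.sum_congr rfl fun i _ => mul_comm _ _
  rw [h2]
  ring

lemma efun_zero (u : Fin n → F) (τ : F) (x : Fin n → F) : Efun q u 0 τ x = x + (τ * herm x u) • u := by
  unfold Efun
  rw [herm_zero_right hF, smul_zero, add_zero, sub_zero]

lemma E_zero_mem {u : Fin n → F} {τ : F} (h : Adm q u 0 τ) : E hF hn u 0 τ h ∈ TT n F q := by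
  apply Subgroup.subset_closure
  refine ⟨u, τ, h.uu, ?_⟩
  apply Matrix.mulVec_injective
  funext x
  rw [ut_mulVec' hF]
  show act (E hF hn u 0 τ h) x = _
  rw [act_E, efun_zero hF]

lemma conj_mem (g : Cfsg.SU n F q) {t : Cfsg.SU n F q} (ht : t ∈ TT n F q) : g * t * g⁻¹ ∈ TT n F q := by
  unfold TT at ht
  induction ht using Subgroup.closure_induction with
  | mem x hx =>
    obtain ⟨v, c, hv, hxm⟩ := hx
    apply Subgroup.subset_closure
    refine ⟨act g v, c, by rw [herm_act]; exact hv, ?_⟩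
    apply Matrix.mulVec_injective
    funext y
    rw [ut_mulVec' hF]
    show act (g * x * g⁻¹) y = _
    have h1 : ∀ z, act x z = z + (c * herm z v) • v := by
      intro z
      show ((x : Matrix.SpecialLinearGroup (Fin n) F) : Matrix (Fin n) (Fin n) F) *ᵥ z = _
      rw [hxm, ut_mulVec' hF]
    rw [act_mul, act_mul, h1, act_add, act_smul, act_act_inv]
    have h2 : herm (act g⁻¹ y) v = herm y (act g v) := by
      rw [← herm_act g, act_act_inv]
    rw [h2]
  | one => simp [Subgroup.one_mem]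
  | mul u v _ _ hu hv =>
    have : g * (u * v) * g⁻¹ = (g * u * g⁻¹) * (g * v * g⁻¹) := by group
    rw [this]
    exact Subgroup.mul_mem _ hu hv
  | inv u _ hu =>
    have : g * u⁻¹ * g⁻¹ = (g * u * g⁻¹)⁻¹ := by group
    rw [this]
    exact Subgroup.inv_mem _ hu

/-- The Weyl element -/
noncomputable def NN {u u' : Fin n → F} {τ σ : F} (h1 : Adm q u 0 τ) (h2 : Adm q u' 0 σ) : Cfsg.SU n F q :=
  E hF hn u 0 τ h1 * E hF hn u' 0 σ h2 * E hF hn u 0 τ h1

lemma NN_mem {u u' : Fin n → F} {τ σ : F} (h1 : Adm q u 0 τ) (h2 : Adm q u' 0 σ) : NN hF hn h1 h2 ∈ TT n F q :=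
  (TT n F q).mul_mem ((TT n F q).mul_mem (E_zero_mem hF hn h1) (E_zero_mem hF hn h2)) (E_zero_mem hF hn h1)

lemma NN_act {u u' : Fin n → F} {τ : F} (hτ : τ ≠ 0) (h1 : Adm q u 0 τ) (h2 : Adm q u' 0 (-τ⁻¹))
    (huu' : herm u u' = 1) (hu'u : herm u' u = 1) (x : Fin n → F) :
    act (NN hF hn h1 h2) x = x + (τ * herm x u - herm x u') • u - (herm x u' / τ + herm x u) • u' := by
  have huu : herm u u = 0 := h1.uu
  have hu'u' : herm u' u' = 0 := h2.uu
  unfold NN
  rw [act_mul, act_mul, act_E, act_E, act_E, efun_zero hF, efun_zero hF, efun_zero hF]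
  simp only [herm_add_left, herm_smul_left, huu, hu'u', huu', hu'u]
  match_scalars <;> field_simp <;> ring

include hn in
/-- the torus element in `T` -/
lemma exists_torus {u u' : Fin n → F} (huu : herm u u = 0) (hu'u' : herm u' u' = 0)
    (huu' : herm u u' = 1) (hu'u : herm u' u = 1) {lam : F} (hlam0 : lam ≠ 0) (hlamq : lam ^ q = lam) :
    ∃ H ∈ TT n F q, ∀ y, act H y = y + ((lam - 1) * herm y u') • u + ((lam⁻¹ - 1) * herm y u) • u' := by
  classical
  have hq2 := two_le_q hF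
  obtain ⟨α, hα⟩ := Cfsg.Agent.S0837.exists_ne_frob hF
  set τ := α - α ^ q with hτdef
  have hτ0 : τ ≠ 0 := fun h => hα (sub_eq_zero.1 h).symm
  have hτq : τ ^ q = - τ := by
    rw [hτdef, pow_sub_q hF, pow_q_sq hF]
    ring
  have hadm : ∀ {w : Fin n → F} {t : F}, herm w w = 0 → t ^ q = - t → Adm q w 0 t := by
    intro w t hw ht
    refine ⟨hw, herm_zero_left hF w, ?_⟩
    rw [ht, herm_zero_left hF]
    ring
  have hinv : ∀ t : F, t ^ q = - t → (-t⁻¹) ^ q = - (-t⁻¹) := by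
    intro t ht
    rw [pow_neg_q hF, pow_inv_q hF, ht]
    simp
  have hlτ : (lam * τ) ^ q = - (lam * τ) := by
    rw [mul_pow, hlamq, hτq]
    ring
  have hlτ0 : lam * τ ≠ 0 := mul_ne_zero hlam0 hτ0
  have a1 := hadm huu hτq
  have a2 := hadm hu'u' (hinv τ hτq)
  have a3 := hadm huu hlτ
  have a4 := hadm hu'u' (hinv _ hlτ)
  refine ⟨NN hF hn a3 a4 * (NN hF hn a1 a2)⁻¹, (TT n F q).mul_mem (NN_mem hF hn a3 a4) ((TT n F q).inv_mem (NN_mem hF hn a1 a2)), ?_⟩
  intro y
  obtain ⟨x, rfl⟩ : ∃ x, y = act (NN hF hn a1 a2) x := ⟨act (NN hF hn a1 a2)⁻¹ y, (act_act_inv _ y).symm⟩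
  rw [act_mul, act_inv_act, NN_act hF hn hlτ0 a3 a4 huu' hu'u, NN_act hF hn hτ0 a1 a2 huu' hu'u]
  simp only [herm_add_left, herm_sub_left hF, herm_smul_left, huu, hu'u', huu', hu'u]
  match_scalars <;> field_simp <;> ring

/-- partner -/
lemma E_mem_of_torus {lam : F} (hlam0 : lam ≠ 0) (hlam1 : lam ≠ 1) (hlamq : lam ^ q = lam)
    {u a : Fin n → F} {b : F} (h : Adm q u a b) : E hF hn u a b h ∈ TT n F q := by
  classical
  have hq2 := two_le_q hF
  by_cases hu : u = 0
  · subst hu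
    rw [E_zero_b_one hF hn h.uu]
    exact Subgroup.one_mem _
  obtain ⟨u', hu'u', huu', hu'u⟩ := H03.TS.exists_partner hF hu h.uu
  have huu := h.uu
  obtain ⟨H, hH, hHact⟩ := exists_torus hF hn huu hu'u' huu' hu'u hlam0 hlamq
  set κ := herm a u' with hκ
  set a' := a - κ • u with ha'
  have ha'u : herm a' u = 0 := by
    rw [ha', herm_sub_left hF, herm_smul_left, h.au, huu]
    ring
  have ha'u' : herm a' u' = 0 := by
    rw [ha', herm_sub_left hF, herm_smul_left, huu', ← hκ]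
    ring
  have hμ : lam - 1 ≠ 0 := sub_ne_zero.2 hlam1
  set μ := (lam - 1)⁻¹ with hμdef
  have hμ0 : μ ≠ 0 := inv_ne_zero hμ
  set a'' := μ • a' with ha''
  have ha''u : herm a'' u = 0 := by rw [ha'', herm_smul_left, ha'u, mul_zero]
  have ha''u' : herm a'' u' = 0 := by rw [ha'', herm_smul_left, ha'u', mul_zero]
  have hfix : ∀ y : Fin n → F, (- herm y y) ^ q = - herm y y := by
    intro y
    rw [pow_neg_q hF, herm_self_fixed hF]
  obtain ⟨b₀, hb₀⟩ := exists_trace_eq hF _ (hfix a'')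
  have hX : Adm q u a'' b₀ := ⟨huu, ha''u, by rw [hb₀]; ring⟩
  set X := E hF hn u a'' b₀ hX with hXdef
  have hHu : act H u = lam • u := by
    rw [hHact, huu', huu]
    match_scalars <;> simp
  have hHa : act H a'' = a'' := by
    rw [hHact, ha''u, ha''u']
    simp
  have hc1 := E_conj hF hn H hX
  have hX2 : Adm q (lam • u) a'' b₀ :=
    ⟨by rw [herm_smul_left, herm_smul_right hF, huu]; simp, by rw [herm_smul_right hF, ha''u]; simp, hX.tr⟩
  have hc2 : H * X * H⁻¹ = E hF hn (lam • u) a'' b₀ hX2 := by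
    rw [hXdef, hc1]
    apply su_ext
    intro x
    rw [act_E, act_E, hHu, hHa]
  rw [E_scale hF hn hlam0 hX2] at hc2
  have hXinv : X⁻¹ = E hF hn u (-a'') (b₀ ^ q) (Adm.inv hF hX) := by
    rw [hXdef, E_inv hF hn hX]
  have hY : H * X * H⁻¹ * X⁻¹ ∈ TT n F q := by
    have h1 : H * X * H⁻¹ * X⁻¹ = H * (X * H⁻¹ * X⁻¹) := by group
    rw [h1]
    exact (TT n F q).mul_mem hH (conj_mem hF X ((TT n F q).inv_mem hH))
  rw [hc2, hXinv, E_mul hF hn] at hY
  set bs := lam ^ (q + 1) * b₀ + b₀ ^ q - herm (-a'') (lam ^ q • a'') with hbs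
  have hadmY := Adm.mul hF (Adm.scale hF hlam0 hX2) (Adm.inv hF hX)
  have heq : lam ^ q • a'' + -a'' = a' := by
    have e : (lam - 1) * μ = 1 := mul_inv_cancel₀ hμ
    rw [hlamq, ha'']
    calc lam • (μ • a') + -(μ • a') = ((lam - 1) * μ) • a' := by module
      _ = a' := by rw [e, one_smul]
  have hadmA : Adm q u a' bs := by
    rw [heq] at hadmY
    exact hadmY
  have hY2 : E hF hn u a' bs hadmA ∈ TT n F q := by
    have : E hF hn u a' bs hadmA = E hF hn u (lam ^ q • a'' + -a'') bs (Adm.mul hF (Adm.scale hF hlam0 hX2) (Adm.inv hF hX)) :=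
      E_congr hF hn _ _ heq.symm rfl
    rw [this]
    exact hY
  -- final
  have hua' : herm u a' = 0 := herm_eq_zero_symm hF ha'u
  have haa : herm a a = herm a' a' := by
    have h1 : a = a' + κ • u := by rw [ha']; abel
    have h2 : herm (a' + κ • u) (a' + κ • u) = herm a' a' := by
      simp only [herm_add_left, herm_add_right hF, herm_smul_left, herm_smul_right hF, ha'u, hua', huu]
      ring
    rw [← h2, ← h1]
  set b₂ := b - bs with hb₂
  have hb₂tr : b₂ + b₂ ^ q = 0 := by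
    have e1 : b + b ^ q + herm a a = 0 := h.tr
    have e2 : bs + bs ^ q + herm a' a' = 0 := hadmA.tr
    rw [haa] at e1
    rw [hb₂, pow_sub_q hF]
    linear_combination e1 - e2
  have hκuu : herm (κ • u) (κ • u) = 0 := by
    rw [herm_smul_left, herm_smul_right hF, huu]
    simp
  have hA2 : Adm q u (κ • u) b₂ := ⟨huu, by rw [herm_smul_left, huu, mul_zero], by rw [hκuu, add_zero]; exact hb₂tr⟩
  set τ := κ + b₂ - κ ^ q with hτ
  have hAτ : Adm q u 0 τ := by
    refine ⟨huu, herm_zero_left hF u, ?_⟩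
    rw [herm_zero_left hF, add_zero, hτ, pow_sub_q hF, pow_add_q hF, pow_q_sq hF]
    linear_combination hb₂tr
  have hE2 : E hF hn u (κ • u) b₂ hA2 = E hF hn u 0 τ hAτ := by
    apply su_ext
    intro x
    rw [act_E, act_E, efun_zero hF]
    unfold Efun
    rw [herm_smul_right hF, hτ]
    match_scalars <;> ring
  have hfinal : E hF hn u a b h = E hF hn u a' bs hadmA * E hF hn u (κ • u) b₂ hA2 := by
    rw [E_mul hF hn]
    apply E_congr hF hn
    · rw [ha']; abel
    · rw [herm_smul_left, hua', hb₂]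
      ring
  rw [hfinal, hE2]
  exact (TT n F q).mul_mem hY2 (E_zero_mem hF hn hAτ)

/-- Generation, `q ≥ 3`. -/
theorem TT_eq_top_of_lam {lam : F} (hlam0 : lam ≠ 0) (hlam1 : lam ≠ 1) (hlamq : lam ^ q = lam) (hn3 : 3 ≤ n) :
    TT n F q = ⊤ := by
  rw [eq_top_iff]
  intro g _
  have hn0 : 0 < n := by omega
  have h1 := G0_eq_top hF hn0 hn3 g
  have h2 : G0 hF hn0 ≤ TT n F q := by
    unfold G0
    rw [Subgroup.closure_le]
    rintro _ ⟨u, a, b, h, rfl⟩
    exact E_mem_of_torus hF hn0 hlam0 hlam1 hlamq h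
  exact h2 h1

end Cfsg.Agent.H03.SUG
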