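import Mathlib
import Cfsg.Agent.Lib.H03.Orbit
import Cfsg.Agent.Lib.H17.AbelianIrred

set_option autoImplicit false

namespace Cfsg.Agent.H03

open MulAction

/-- A free action has order dividing the size of an invariant set. -/
theorem card_dvd_ncard_of_free {G α : Type*} [Group G] [Finite G] [Finite α] [MulAction G α] (X : Set α)
    (hX : ∀ g : G, ∀ x ∈ X, g • x ∈ X) (hfree : ∀ g : G, g ≠ 1 → ∀ x ∈ X, g • x ≠ x) :
    Nat.card G ∣ X.ncard := by
  apply dvd_ncard_of_invariant X hX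
  intro x hx
  have h1 : stabilizer G x = ⊥ := by
    rw [eq_bot_iff]
    intro g hg
    by_contra hne
    exact hfree g hne x hx hg
  have h2 := index_stabilizer G x
  rw [h1, Subgroup.index_bot] at h2
  rw [h2]

section
variable {p : ℕ} [hp : Fact p.Prime] {V : Type*} [AddCommGroup V] [Module (ZMod p) V] [Finite V]
variable (H : Subgroup (V ≃ₗ[ZMod p] V))

/-- Being free on non-zero vectors -/
def LinFree : Prop := ∀ h : H, h ≠ 1 → ∀ v : V, v ≠ 0 → (h : V ≃ₗ[ZMod p] V) v ≠ v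

variable {H}

theorem linFree_of_reg (hreg : ∀ v w : V, v ≠ 0 → w ≠ 0 → ∃! h : H, (h : V ≃ₗ[ZMod p] V) v = w) :
    LinFree H := by
  intro h h1 v hv hfix
  obtain ⟨k, -, hk⟩ := hreg v v hv hv
  have e1 := hk h hfix
  have e2 := hk 1 (by simp)
  exact h1 (e1.trans e2.symm)

/-- The action -/
def linAct (A : Subgroup H) : MulAction A V where
  smul a v := ((a : H) : V ≃ₗ[ZMod p] V) v
  one_smul v := rfl
  mul_smul a b v := rfl

theorem card_dvd_of_inv (hfree : LinFree H) (A : Subgroup H) (W : Submodule (ZMod p) V)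
    (hW : ∀ a ∈ A, ∀ v ∈ W, ((a : H) : V ≃ₗ[ZMod p] V) v ∈ W) :
    Nat.card A ∣ p ^ Module.finrank (ZMod p) W - 1 := by
  classical
  letI := linAct (p := p) (V := V) (H := H) A
  haveI : Finite (V ≃ₗ[ZMod p] V) := Finite.of_injective (fun e : V ≃ₗ[ZMod p] V => (e : V → V)) DFunLike.coe_injective
  haveI : Module.Finite (ZMod p) V := Module.Finite.of_finite
  have h := card_dvd_ncard_of_free (G := A) ((W : Set V) \ {0})
    (by
      rintro ⟨a, ha⟩ x ⟨hx, hx0⟩
      refine ⟨hW a ha x hx, ?_⟩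
      intro h0
      apply hx0
      have h1 : ((a : H) : V ≃ₗ[ZMod p] V) x = 0 := h0
      exact ((a : H) : V ≃ₗ[ZMod p] V).map_eq_zero_iff.mp h1)
    (by
      rintro ⟨a, ha⟩ hne x ⟨-, hx0⟩
      apply hfree a
      · intro h1
        exact hne (Subtype.ext h1)
      · exact hx0)
  have hc : ((W : Set V) \ {0}).ncard = p ^ Module.finrank (ZMod p) W - 1 := by
    have h1 := Set.ncard_sdiff_singleton_add_one (s := (W : Set V)) (a := 0) (by simp) (Set.toFinite _)
    have h2 : (W : Set V).ncard = p ^ Module.finrank (ZMod p) W := by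
      rw [← Nat.card_coe_set_eq]
      have h3 := Module.natCard_eq_pow_finrank (K := ZMod p) (V := W)
      rw [Nat.card_zmod] at h3
      exact h3
    omega
  rwa [hc] at h

theorem exists_minimal_inv (A : Subgroup H) : ∀ (W₀ : Submodule (ZMod p) V), W₀ ≠ ⊥ →
    (∀ a ∈ A, ∀ v ∈ W₀, ((a : H) : V ≃ₗ[ZMod p] V) v ∈ W₀) →
    ∃ W : Submodule (ZMod p) V, W ≤ W₀ ∧ W ≠ ⊥ ∧ (∀ a ∈ A, ∀ v ∈ W, ((a : H) : V ≃ₗ[ZMod p] V) v ∈ W) ∧
      ∀ W' : Submodule (ZMod p) V, W' ≤ W → (∀ a ∈ A, ∀ v ∈ W', ((a : H) : V ≃ₗ[ZMod p] V) v ∈ W') →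
        W' = ⊥ ∨ W' = W := by
  haveI : Fintype V := Fintype.ofFinite V
  classical
  haveI : Finite (Submodule (ZMod p) V) := Finite.of_injective (fun W => (W : Set V)) SetLike.coe_injective
  have key : WellFoundedLT (Submodule (ZMod p) V) := inferInstance
  intro W₀
  induction W₀ using key.induction with
  | ind W₀ ih =>
    intro hne hinv
    by_cases hmin : ∀ W' : Submodule (ZMod p) V, W' ≤ W₀ →
        (∀ a ∈ A, ∀ v ∈ W', ((a : H) : V ≃ₗ[ZMod p] V) v ∈ W') → W' = ⊥ ∨ W' = W₀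
    · exact ⟨W₀, le_rfl, hne, hinv, hmin⟩
    · push Not at hmin
      obtain ⟨W', hle, hinv', hbot, hneq⟩ := hmin
      obtain ⟨W, h1, h2, h3, h4⟩ := ih W' (lt_of_le_of_ne hle hneq) hbot hinv'
      exact ⟨W, h1.trans hle, h2, h3, h4⟩

/-- An abelian group acting freely is cyclic. -/
theorem isCyclic_of_linFree (hfree : LinFree H) (A : Subgroup H) (hAc : IsMulCommutative A)
    (hV : Nontrivial V) : IsCyclic A := by
  classical
  obtain ⟨W, -, hW0, hWinv, hWmin⟩ := exists_minimal_inv A ⊤ (top_ne_bot) (fun _ _ _ _ => trivial)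
  haveI : Nontrivial W := Submodule.nontrivial_iff_ne_bot.mpr hW0
  haveI : Finite (V ≃ₗ[ZMod p] V) := Finite.of_injective (fun e : V ≃ₗ[ZMod p] V => (e : V → V)) DFunLike.coe_injective
  letI : CommGroup A := { (inferInstance : Group A) with mul_comm := fun a b => hAc.is_comm.comm a b }
  let φ : A →* AddMonoid.End W :=
    { toFun := fun a =>
        { toFun := fun w => ⟨((a : H) : V ≃ₗ[ZMod p] V) w, hWinv a a.2 w w.2⟩
          map_zero' := Subtype.ext (map_zero _)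
          map_add' := fun x y => Subtype.ext (map_add _ _ _) }
      map_one' := rfl
      map_mul' := fun _ _ => rfl }
  have hφ : ∀ a w, ((φ a w : W) : V) = ((a : H) : V ≃ₗ[ZMod p] V) w := fun _ _ => rfl
  have hirr : ∀ U : AddSubgroup W, (∀ a, ∀ u ∈ U, φ a u ∈ U) → U = ⊥ ∨ U = ⊤ := by
    intro U hU
    let U' : Submodule (ZMod p) V := ((AddSubgroup.toZModSubmodule p) U).map W.subtype
    have hU'le : U' ≤ W := by
      rintro _ ⟨u, -, rfl⟩
      exact u.2
    have hU'inv : ∀ a ∈ A, ∀ v ∈ U', ((a : H) : V ≃ₗ[ZMod p] V) v ∈ U' := by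
      rintro a ha _ ⟨u, hu, rfl⟩
      exact ⟨φ ⟨a, ha⟩ u, hU _ u hu, rfl⟩
    rcases hWmin U' hU'le hU'inv with h | h
    · left
      rw [eq_bot_iff]
      intro u hu
      have h1 : (u : V) ∈ U' := ⟨u, hu, rfl⟩
      rw [h] at h1
      have h2 : (u : V) = 0 := h1
      exact Subtype.ext h2
    · right
      rw [eq_top_iff]
      intro u _
      have h1 : (u : V) ∈ U' := by rw [h]; exact u.2
      obtain ⟨u', hu', h2⟩ := h1
      have : u' = u := Subtype.ext h2
      rw [← this]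
      exact hu'
  obtain ⟨a, ha⟩ := Cfsg.Agent.H17.exists_gen_of_irreducible φ hirr
  have hinj : Function.Injective φ := by
    rw [injective_iff_map_eq_one]
    intro b hb
    by_contra hne
    obtain ⟨w, hw⟩ := exists_ne (0 : W)
    have h1 : ((b : H) : V ≃ₗ[ZMod p] V) w = w := by
      have := congrArg (fun f : AddMonoid.End W => ((f w : W) : V)) hb
      exact this
    refine hfree (b : H) ?_ w ?_ h1
    · intro h2
      exact hne (Subtype.ext h2)
    · intro h2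
      exact hw (Subtype.ext h2)
  refine ⟨a, fun b => ?_⟩
  obtain ⟨k, hk⟩ := ha b
  exact ⟨k, (hinj hk).symm⟩

theorem nontrivial_of_hI
    (hI : ∀ A : Subgroup H, A.Normal → IsCyclic A → ∃ W : Submodule (ZMod p) V, W ≠ ⊥ ∧ W ≠ ⊤ ∧
      ∀ a ∈ A, ∀ v ∈ W, ((a : H) : V ≃ₗ[ZMod p] V) v ∈ W) : Nontrivial V := by
  obtain ⟨W, h1, -, -⟩ := hI ⊥ inferInstance inferInstance
  obtain ⟨v, -, hv⟩ := Submodule.exists_mem_ne_zero_of_ne_bot h1
  exact ⟨⟨v, 0, hv⟩⟩

/-- `|H| = |V| - 1` for regular `H`. -/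
theorem card_of_reg (hreg : ∀ v w : V, v ≠ 0 → w ≠ 0 → ∃! h : H, (h : V ≃ₗ[ZMod p] V) v = w)
    (hV : Nontrivial V) : Nat.card H + 1 = Nat.card V := by
  classical
  haveI : Fintype V := Fintype.ofFinite V
  obtain ⟨v, hv⟩ := exists_ne (0 : V)
  let φ : H → {w : V // w ≠ 0} := fun h => ⟨(h : V ≃ₗ[ZMod p] V) v, fun h0 => hv (((h : V ≃ₗ[ZMod p] V).map_eq_zero_iff).mp h0)⟩
  have hφ : Function.Bijective φ := by
    constructor
    · intro h h' hh
      obtain ⟨k, -, hk⟩ := hreg v ((h : V ≃ₗ[ZMod p] V) v) hv (φ h).2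
      rw [hk h rfl, hk h' (congrArg Subtype.val hh).symm]
    · rintro ⟨w, hw⟩
      obtain ⟨k, hk, -⟩ := hreg v w hv hw
      exact ⟨k, Subtype.ext hk⟩
  rw [Nat.card_eq_of_bijective φ hφ, Nat.card_eq_fintype_card, Nat.card_eq_fintype_card,
    Fintype.card_subtype_compl]
  simp only [Fintype.card_subtype_eq]
  have : 0 < Fintype.card V := Fintype.card_pos
  omega

/-- The key numerical lemma: `A` is properly contained in its centraliser. -/
theorem centralizer_ne_of_reg (hreg : ∀ v w : V, v ≠ 0 → w ≠ 0 → ∃! h : H, (h : V ≃ₗ[ZMod p] V) v = w)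
    (hI : ∀ A : Subgroup H, A.Normal → IsCyclic A → ∃ W : Submodule (ZMod p) V, W ≠ ⊥ ∧ W ≠ ⊤ ∧
      ∀ a ∈ A, ∀ v ∈ W, ((a : H) : V ≃ₗ[ZMod p] V) v ∈ W)
    (A : Subgroup H) (hAn : A.Normal) (hAc : IsMulCommutative A) :
    Subgroup.centralizer (A : Set H) ≠ A := by
  classical
  intro heq
  have hfree := linFree_of_reg hreg
  have hV := nontrivial_of_hI hI
  have hcyc := isCyclic_of_linFree hfree A hAc hV
  haveI : Module.Finite (ZMod p) V := Module.Finite.of_finite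
  haveI : Finite (V ≃ₗ[ZMod p] V) := Finite.of_injective (fun e : V ≃ₗ[ZMod p] V => (e : V → V)) DFunLike.coe_injective
  obtain ⟨W₀, h1, h2, h3⟩ := hI A hAn hcyc
  have hk0 : 0 < Module.finrank (ZMod p) W₀ := by
    rw [Module.finrank_pos_iff]
    haveI := Submodule.nontrivial_iff_ne_bot.mpr h1
    infer_instance
  have hkm : Module.finrank (ZMod p) W₀ < Module.finrank (ZMod p) V := Submodule.finrank_lt h2
  obtain ⟨k, hk⟩ : ∃ k, k = Module.finrank (ZMod p) W₀ := ⟨_, rfl⟩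
  obtain ⟨m, hm⟩ : ∃ m, m = Module.finrank (ZMod p) V := ⟨_, rfl⟩
  rw [← hk] at hk0 hkm
  rw [← hm] at hkm
  have hd1 := card_dvd_of_inv hfree A W₀ h3
  rw [← hk] at hd1
  have hd2 := card_dvd_of_inv hfree A ⊤ (fun _ _ _ _ => trivial)
  rw [finrank_top, ← hm] at hd2
  obtain ⟨n, hn⟩ : ∃ n, n = Nat.card A := ⟨_, rfl⟩
  rw [← hn] at hd1 hd2
  have hp2 : 2 ≤ p := hp.out.two_le
  have hpow : ∀ e : ℕ, 0 < e → 2 ≤ p ^ e := by
    intro e he
    calc 2 ≤ p := hp2
      _ = p ^ 1 := (pow_one p).symm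
      _ ≤ p ^ e := Nat.pow_le_pow_right (by omega) he
  -- `n` divides `p ^ (m - k) - 1`
  have hcop : Nat.Coprime n (p ^ k) := by
    have hne1 : Nat.Coprime (p ^ k - 1) (p ^ k) := by
      have h5 := hpow k hk0
      have h6 : Nat.Coprime (p ^ k - 1) (p ^ k - 1 + 1) := Nat.coprime_self_add_right.mpr (Nat.coprime_one_right _)
      rwa [Nat.sub_add_cancel (by omega)] at h6
    exact Nat.Coprime.coprime_dvd_left hd1 hne1
  have hd3 : n ∣ p ^ (m - k) - 1 := by
    have h5 : p ^ m - 1 = p ^ k * (p ^ (m - k) - 1) + (p ^ k - 1) := by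
      have h6 : p ^ m = p ^ k * p ^ (m - k) := by
        rw [← pow_add]
        congr 1
        omega
      have h7 := hpow k hk0
      have h8 := hpow (m - k) (by omega)
      rw [h6, Nat.mul_sub, mul_one]
      have h9 : p ^ k ≤ p ^ k * p ^ (m - k) := Nat.le_mul_of_pos_right _ (by omega)
      omega
    rw [h5] at hd2
    have h6 := (Nat.dvd_add_left hd1).mp hd2
    exact hcop.dvd_of_dvd_mul_left h6
  have hnle1 : n + 1 ≤ p ^ k := by
    have := Nat.le_of_dvd (by have := hpow k hk0; omega) hd1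
    have := hpow k hk0
    omega
  have hnle2 : n + 1 ≤ p ^ (m - k) := by
    have := Nat.le_of_dvd (by have := hpow (m - k) (by omega); omega) hd3
    have := hpow (m - k) (by omega)
    omega
  have hVcard : Nat.card V = p ^ m := by
    rw [hm, Module.natCard_eq_pow_finrank (K := ZMod p), Nat.card_zmod]
  have hHcard := card_of_reg hreg hV
  rw [hVcard] at hHcard
  have hm' : p ^ m = p ^ k * p ^ (m - k) := by
    rw [← pow_add]
    congr 1
    omega
  -- upper bound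
  have hupper : Nat.card H ≤ n * n := by
    haveI := hAn
    let f : H →* MulAut A := MulAut.conjNormal
    have hker' : f.ker ≤ Subgroup.centralizer (A : Set H) := by
      intro g hg
      rw [Subgroup.mem_centralizer_iff]
      intro h hh
      have h5 : f g = 1 := hg
      have h6 := congrArg (fun φ : MulAut A => ((φ ⟨h, hh⟩ : A) : H)) h5
      have h7 : g * h * g⁻¹ = h := h6
      calc h * g = (g * h * g⁻¹) * g := by rw [h7]
        _ = g * h := by group
    have hker : f.ker ≤ A := hker'.trans heq.le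
    have h5 := Subgroup.card_mul_index f.ker
    rw [Subgroup.index_ker] at h5
    have h6 : Nat.card f.ker ≤ n := by
      rw [hn]
      exact Subgroup.card_le_of_le hker
    have h7 : Nat.card f.range ≤ n := by
      calc Nat.card f.range ≤ Nat.card (MulAut A) := Subgroup.card_le_card_group _
        _ = Nat.totient (Nat.card A) := IsCyclic.card_mulAut A
        _ ≤ Nat.card A := Nat.totient_le _
        _ = n := hn.symm
    rw [← h5]
    exact Nat.mul_le_mul h6 h7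
  have hnpos : 0 < n := by
    rw [hn]
    exact Nat.card_pos
  have h8 : (n + 1) * (n + 1) ≤ p ^ m := by
    rw [hm']
    exact Nat.mul_le_mul hnle1 hnle2
  nlinarith

/-- S0685 -/
theorem centralizer_nonab_of_reg (hreg : ∀ v w : V, v ≠ 0 → w ≠ 0 → ∃! h : H, (h : V ≃ₗ[ZMod p] V) v = w)
    (hI : ∀ A : Subgroup H, A.Normal → IsCyclic A → ∃ W : Submodule (ZMod p) V, W ≠ ⊥ ∧ W ≠ ⊤ ∧
      ∀ a ∈ A, ∀ v ∈ W, ((a : H) : V ≃ₗ[ZMod p] V) v ∈ W)
    (A : Subgroup H) (hAn : A.Normal) (hAc : IsMulCommutative A)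
    (hAmax : ∀ B : Subgroup H, B.Normal → IsMulCommutative B → A ≤ B → B = A) :
    A < Subgroup.centralizer (A : Set H) ∧ ¬ IsMulCommutative (Subgroup.centralizer (A : Set H)) := by
  have hle : A ≤ Subgroup.centralizer (A : Set H) := by
    intro a ha
    rw [Subgroup.mem_centralizer_iff]
    intro b hb
    have := hAc.is_comm.comm (⟨b, hb⟩ : A) ⟨a, ha⟩
    exact congrArg Subtype.val this
  have hne := centralizer_ne_of_reg hreg hI A hAn hAc
  refine ⟨lt_of_le_of_ne hle hne.symm, fun hc => hne ?_⟩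
  haveI := hAn
  exact hAmax _ inferInstance hc hle

/-- S0684 -/
theorem maxab_of_reg (hreg : ∀ v w : V, v ≠ 0 → w ≠ 0 → ∃! h : H, (h : V ≃ₗ[ZMod p] V) v = w)
    (hI : ∀ A : Subgroup H, A.Normal → IsCyclic A → ∃ W : Submodule (ZMod p) V, W ≠ ⊥ ∧ W ≠ ⊤ ∧
      ∀ a ∈ A, ∀ v ∈ W, ((a : H) : V ≃ₗ[ZMod p] V) v ∈ W)
    (A : Subgroup H) (hAn : A.Normal) (hAc : IsMulCommutative A) :
    IsCyclic A ∧ ∃ W : Submodule (ZMod p) V, W ≠ ⊥ ∧ W ≠ ⊤ ∧
      (∀ a ∈ A, ∀ v ∈ W, ((a : H) : V ≃ₗ[ZMod p] V) v ∈ W) ∧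
      (∀ W' : Submodule (ZMod p) V, W' ≤ W → (∀ a ∈ A, ∀ v ∈ W', ((a : H) : V ≃ₗ[ZMod p] V) v ∈ W') →
        W' = ⊥ ∨ W' = W) ∧ Nat.card A ∣ p ^ Module.finrank (ZMod p) W - 1 := by
  have hfree := linFree_of_reg hreg
  have hV := nontrivial_of_hI hI
  have hcyc := isCyclic_of_linFree hfree A hAc hV
  obtain ⟨W₀, h1, h2, h3⟩ := hI A hAn hcyc
  obtain ⟨W, hle, hW0, hinv, hmin⟩ := exists_minimal_inv A W₀ h1 h3
  refine ⟨hcyc, W, hW0, ?_, hinv, hmin, card_dvd_of_inv hfree A W hinv⟩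
  intro ht
  rw [ht, top_le_iff] at hle
  exact h2 hle

end

end Cfsg.Agent.H03
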