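import Mathlib

set_option autoImplicit false

namespace Cfsg.Agent.H03

/-- Matrices encoded by natural numbers. -/
abbrev Tup := ℕ × ℕ × ℕ × ℕ

section
variable (q : ℕ)

/-- the matrix of a tuple -/
def toM (t : Tup) : Matrix (Fin 2) (Fin 2) (ZMod q) :=
  !![((t.1 : ℕ) : ZMod q), ((t.2.1 : ℕ) : ZMod q); ((t.2.2.1 : ℕ) : ZMod q), ((t.2.2.2 : ℕ) : ZMod q)]

/-- multiplication of tuples -/
def mulN (x y : Tup) : Tup :=
  ((x.1 * y.1 + x.2.1 * y.2.2.1) % q, (x.1 * y.2.1 + x.2.1 * y.2.2.2) % q,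
    (x.2.2.1 * y.1 + x.2.2.2 * y.2.2.1) % q, (x.2.2.1 * y.2.1 + x.2.2.2 * y.2.2.2) % q)

theorem toM_mulN (x y : Tup) : toM q (mulN q x y) = toM q x * toM q y := by
  ext i j
  fin_cases i <;> fin_cases j <;> simp [toM, mulN, Matrix.mul_apply, Fin.sum_univ_two, ZMod.natCast_mod]

/-- Freeness test: `(a-1)(d-1) ≠ bc`. -/
def freeT (t : Tup) : Prop :=
  ((t.1 + q - 1) * (t.2.2.2 + q - 1)) % q ≠ (t.2.1 * t.2.2.1) % q

instance (t : Tup) : Decidable (freeT q t) := by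
  unfold freeT
  infer_instance

end

variable {q : ℕ} [hq : Fact q.Prime]

/-- `K`-closure: everything in a closure is in the list. -/
theorem closure_sub (X : Set (Matrix.GeneralLinearGroup (Fin 2) (ZMod q))) (S Gs : List Tup) (i0 : Tup)
    (hi0 : i0 ∈ S) (htoi0 : toM q i0 = 1)
    (hX : ∀ g ∈ X, ∃ x ∈ Gs, (g : Matrix (Fin 2) (Fin 2) (ZMod q)) = toM q x)
    (hcl : ∀ x ∈ Gs, ∀ t ∈ S, mulN q x t ∈ S) :
    ∀ g ∈ Subgroup.closure X, ∃ t ∈ S, (g : Matrix (Fin 2) (Fin 2) (ZMod q)) = toM q t := by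
  classical
  let K : Set (Matrix.GeneralLinearGroup (Fin 2) (ZMod q)) :=
    {g | ∃ t ∈ S, (g : Matrix (Fin 2) (Fin 2) (ZMod q)) = toM q t}
  let p : Matrix.GeneralLinearGroup (Fin 2) (ZMod q) → Prop := fun g => ∀ k ∈ K, g * k ∈ K
  have hpow : ∀ g, p g → ∀ n : ℕ, p (g ^ n) := by
    intro g hg n
    induction n with
    | zero =>
      intro k hk
      simpa using hk
    | succ n ih =>
      intro k hk
      rw [pow_succ, mul_assoc]
      exact ih _ (hg k hk)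
  have hp : ∀ g ∈ Subgroup.closure X, p g := by
    intro g hg
    induction hg using Subgroup.closure_induction with
    | mem g hg =>
      obtain ⟨x, hx, hgx⟩ := hX g hg
      rintro k ⟨t, ht, hkt⟩
      refine ⟨mulN q x t, hcl x hx t ht, ?_⟩
      rw [toM_mulN, ← hgx, ← hkt]
      rfl
    | one =>
      intro k hk
      simpa using hk
    | mul a b _ _ ha hb =>
      intro k hk
      rw [mul_assoc]
      exact ha _ (hb k hk)
    | inv a _ ha =>
      obtain ⟨n, hn, hn1⟩ := (isOfFinOrder_iff_pow_eq_one (x := a)).mp (isOfFinOrder_of_finite a)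
      have : a⁻¹ = a ^ (n - 1) := by
        rw [inv_eq_iff_mul_eq_one, ← pow_succ']
        rw [show n - 1 + 1 = n by omega]
        exact hn1
      rw [this]
      exact hpow a ha _
  intro g hg
  have h1 : (1 : Matrix.GeneralLinearGroup (Fin 2) (ZMod q)) ∈ K := by
    refine ⟨i0, hi0, ?_⟩
    rw [htoi0]
    rfl
  have := hp g hg 1 h1
  rwa [mul_one] at this

/-- Reachability of a list with parent data. -/
theorem reach_sub (X : Set (Matrix.GeneralLinearGroup (Fin 2) (ZMod q))) (S Gs : List Tup) (i0 : Tup)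
    (htoi0 : toM q i0 = 1) (d : Tup)
    (hX : ∀ x ∈ Gs, ∃ g ∈ X, (g : Matrix (Fin 2) (Fin 2) (ZMod q)) = toM q x)
    (Pa : List (ℕ × Tup))
    (hreach : ∀ i ∈ List.range S.length, S.getD i d = i0 ∨
      ((Pa.getD i (0, d)).1 < i ∧ (Pa.getD i (0, d)).2 ∈ Gs ∧
        S.getD i d = mulN q (Pa.getD i (0, d)).2 (S.getD (Pa.getD i (0, d)).1 d))) :
    ∀ t ∈ S, ∃ g ∈ Subgroup.closure X, (g : Matrix (Fin 2) (Fin 2) (ZMod q)) = toM q t := by
  have key : ∀ n, ∀ i, i < n → i < S.length →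
      ∃ g ∈ Subgroup.closure X, (g : Matrix (Fin 2) (Fin 2) (ZMod q)) = toM q (S.getD i d) := by
    intro n
    induction n with
    | zero => intro i hi; omega
    | succ n ih =>
      intro i hi hi2
      rcases hreach i (List.mem_range.mpr hi2) with h | ⟨h1, h2, h3⟩
      · exact ⟨1, Subgroup.one_mem _, by rw [h, htoi0]; rfl⟩
      · obtain ⟨g₁, hg₁, hg₁'⟩ := hX _ h2
        obtain ⟨g₂, hg₂, hg₂'⟩ := ih (Pa.getD i (0, d)).1 (by omega) (by omega)
        refine ⟨g₁ * g₂, Subgroup.mul_mem _ (Subgroup.subset_closure hg₁) hg₂, ?_⟩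
        rw [h3, toM_mulN, ← hg₁', ← hg₂']
        rfl
  intro t ht
  obtain ⟨i, hi, rfl⟩ := List.getElem_of_mem ht
  have := key (i + 1) i (by omega) hi
  rwa [List.getD_eq_getElem _ _ hi] at this

/-- Injectivity of `toM` on reduced tuples. -/
theorem toM_inj {x y : Tup} (hx : x.1 < q ∧ x.2.1 < q ∧ x.2.2.1 < q ∧ x.2.2.2 < q)
    (hy : y.1 < q ∧ y.2.1 < q ∧ y.2.2.1 < q ∧ y.2.2.2 < q) (h : toM q x = toM q y) : x = y := by
  have h00 := congrFun (congrFun h 0) 0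
  have h01 := congrFun (congrFun h 0) 1
  have h10 := congrFun (congrFun h 1) 0
  have h11 := congrFun (congrFun h 1) 1
  simp only [toM, Matrix.of_apply, Matrix.cons_val', Matrix.cons_val_zero, Matrix.cons_val_one,
    Matrix.cons_val_fin_one] at h00 h01 h10 h11
  rw [ZMod.natCast_eq_natCast_iff', Nat.mod_eq_of_lt hx.1, Nat.mod_eq_of_lt hy.1] at h00
  rw [ZMod.natCast_eq_natCast_iff', Nat.mod_eq_of_lt hx.2.1, Nat.mod_eq_of_lt hy.2.1] at h01
  rw [ZMod.natCast_eq_natCast_iff', Nat.mod_eq_of_lt hx.2.2.1, Nat.mod_eq_of_lt hy.2.2.1] at h10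
  rw [ZMod.natCast_eq_natCast_iff', Nat.mod_eq_of_lt hx.2.2.2, Nat.mod_eq_of_lt hy.2.2.2] at h11
  ext <;> assumption

/-- The order of a closure equals the length of the list. -/
theorem card_closure_eq (X : Set (Matrix.GeneralLinearGroup (Fin 2) (ZMod q))) (S : List Tup)
    (hS : ∀ g ∈ Subgroup.closure X, ∃ t ∈ S, (g : Matrix (Fin 2) (Fin 2) (ZMod q)) = toM q t)
    (hR : ∀ t ∈ S, ∃ g ∈ Subgroup.closure X, (g : Matrix (Fin 2) (Fin 2) (ZMod q)) = toM q t)
    (hnd : S.Nodup) (hlt : ∀ t ∈ S, t.1 < q ∧ t.2.1 < q ∧ t.2.2.1 < q ∧ t.2.2.2 < q) :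
    Nat.card (Subgroup.closure X) = S.length := by
  classical
  choose f hf1 hf2 using fun g : Subgroup.closure X => hS g g.2
  let φ : Subgroup.closure X → S.toFinset := fun g => ⟨f g, List.mem_toFinset.mpr (hf1 g)⟩
  have hφ : Function.Bijective φ := by
    constructor
    · intro g g' h
      have h1 : f g = f g' := congrArg Subtype.val h
      apply Subtype.ext
      apply Units.ext
      rw [hf2, hf2, h1]
    · rintro ⟨t, ht⟩
      have ht' := List.mem_toFinset.mp ht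
      obtain ⟨g, hg, hgt⟩ := hR t ht'
      refine ⟨⟨g, hg⟩, Subtype.ext ?_⟩
      apply toM_inj (hlt _ (hf1 _)) (hlt _ ht')
      rw [← hf2, ← hgt]
  rw [Nat.card_eq_of_bijective φ hφ, Nat.card_eq_fintype_card, Fintype.card_coe,
    List.toFinset_card_of_nodup hnd]

/-- From the test to freeness -/
theorem free_of_freeT (t : Tup) (ht : freeT q t) (hq0 : 0 < q) (v : Fin 2 → ZMod q) (hv : v ≠ 0) :
    (toM q t).mulVec v ≠ v := by
  haveI : NeZero q := ⟨hq0.ne'⟩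
  intro h
  have h0 : (toM q t - 1).mulVec v = 0 := by
    rw [Matrix.sub_mulVec, h, Matrix.one_mulVec, sub_self]
  have hdet : (toM q t - 1).det = 0 :=
    Matrix.exists_mulVec_eq_zero_iff.mp ⟨v, hv, h0⟩
  rw [Matrix.det_fin_two] at hdet
  simp only [toM, Matrix.sub_apply, Matrix.of_apply, Matrix.cons_val', Matrix.cons_val_zero,
    Matrix.cons_val_one, Matrix.cons_val_fin_one, Matrix.one_apply_eq] at hdet
  simp only [Matrix.one_apply_ne (zero_ne_one : (0 : Fin 2) ≠ 1),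
    Matrix.one_apply_ne (one_ne_zero : (1 : Fin 2) ≠ 0), sub_zero] at hdet
  apply ht
  have hc : ∀ a : ℕ, ((a + q - 1 : ℕ) : ZMod q) = (a : ZMod q) - 1 := by
    intro a
    have : a + q - 1 + 1 = a + q := by omega
    have h2 : ((a + q - 1 + 1 : ℕ) : ZMod q) = ((a + q : ℕ) : ZMod q) := by rw [this]
    push_cast at h2
    simp only [CharP.cast_eq_zero, add_zero] at h2
    rw [eq_sub_iff_add_eq]
    exact h2
  rw [← ZMod.natCast_eq_natCast_iff']
  push_cast
  rw [hc, hc]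
  linear_combination hdet

/-- Free of the right order implies regular. -/
theorem regular_of_free (H : Subgroup (Matrix.GeneralLinearGroup (Fin 2) (ZMod q)))
    (hfree : ∀ h ∈ H, h ≠ 1 → ∀ v : Fin 2 → ZMod q, v ≠ 0 →
      (h : Matrix (Fin 2) (Fin 2) (ZMod q)).mulVec v ≠ v)
    (hcard : Nat.card H = q ^ 2 - 1) :
    ∀ v w : Fin 2 → ZMod q, v ≠ 0 → w ≠ 0 →
      ∃! h : H, ((h : Matrix.GeneralLinearGroup (Fin 2) (ZMod q)) : Matrix (Fin 2) (Fin 2) (ZMod q)).mulVec v = w := by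
  classical
  intro v w hv hw
  have hne : ∀ (h : Matrix.GeneralLinearGroup (Fin 2) (ZMod q)) (u : Fin 2 → ZMod q), u ≠ 0 →
      (h : Matrix (Fin 2) (Fin 2) (ZMod q)).mulVec u ≠ 0 := by
    intro h u hu h0
    apply hu
    have h1 : ((h⁻¹ : Matrix.GeneralLinearGroup (Fin 2) (ZMod q)) : Matrix (Fin 2) (Fin 2) (ZMod q)).mulVec
        ((h : Matrix (Fin 2) (Fin 2) (ZMod q)).mulVec u) = u := by
      rw [Matrix.mulVec_mulVec, ← Units.val_mul, inv_mul_cancel, Units.val_one, Matrix.one_mulVec]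
    rw [← h1, h0, Matrix.mulVec_zero]
  let φ : H → {u : Fin 2 → ZMod q // u ≠ 0} := fun h =>
    ⟨((h : Matrix.GeneralLinearGroup (Fin 2) (ZMod q)) : Matrix (Fin 2) (Fin 2) (ZMod q)).mulVec v, hne _ _ hv⟩
  have hφ : Function.Injective φ := by
    intro h h' hh
    have h1 : ((h : Matrix.GeneralLinearGroup (Fin 2) (ZMod q)) : Matrix (Fin 2) (Fin 2) (ZMod q)).mulVec v =
        ((h' : Matrix.GeneralLinearGroup (Fin 2) (ZMod q)) : Matrix (Fin 2) (Fin 2) (ZMod q)).mulVec v :=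
      congrArg Subtype.val hh
    by_contra hn
    have hn' : (h' : Matrix.GeneralLinearGroup (Fin 2) (ZMod q))⁻¹ * h ≠ 1 := by
      intro he
      apply hn
      apply Subtype.ext
      exact (inv_mul_eq_one.mp he).symm
    apply hfree _ (H.mul_mem (H.inv_mem h'.2) h.2) hn' v hv
    rw [Units.val_mul, ← Matrix.mulVec_mulVec, h1, Matrix.mulVec_mulVec, ← Units.val_mul, inv_mul_cancel,
      Units.val_one, Matrix.one_mulVec]
  have hcard2 : Nat.card {u : Fin 2 → ZMod q // u ≠ 0} = q ^ 2 - 1 := by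
    rw [Nat.card_eq_fintype_card, Fintype.card_subtype_compl]
    simp [ZMod.card]
  have hbij : Function.Bijective φ := by
    rw [Nat.bijective_iff_injective_and_card]
    exact ⟨hφ, by rw [hcard, hcard2]⟩
  obtain ⟨h, hh⟩ := hbij.2 ⟨w, hw⟩
  refine ⟨h, congrArg Subtype.val hh, fun h' hh' => hφ ?_⟩
  rw [hh]
  exact Subtype.ext hh'

/-- The regular closure theorem (all in one). -/
theorem closure_regular (X : Set (Matrix.GeneralLinearGroup (Fin 2) (ZMod q))) (S Gs : List Tup) (i0 d : Tup)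
    (hi0 : i0 ∈ S) (htoi0 : toM q i0 = 1)
    (hX : ∀ g ∈ X, ∃ x ∈ Gs, (g : Matrix (Fin 2) (Fin 2) (ZMod q)) = toM q x)
    (hX' : ∀ x ∈ Gs, ∃ g ∈ X, (g : Matrix (Fin 2) (Fin 2) (ZMod q)) = toM q x)
    (hcl : ∀ x ∈ Gs, ∀ t ∈ S, mulN q x t ∈ S)
    (Pa : List (ℕ × Tup))
    (hreach : ∀ i ∈ List.range S.length, S.getD i d = i0 ∨
      ((Pa.getD i (0, d)).1 < i ∧ (Pa.getD i (0, d)).2 ∈ Gs ∧
        S.getD i d = mulN q (Pa.getD i (0, d)).2 (S.getD (Pa.getD i (0, d)).1 d)))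
    (hnd : S.Nodup) (hlt : ∀ t ∈ S, t.1 < q ∧ t.2.1 < q ∧ t.2.2.1 < q ∧ t.2.2.2 < q)
    (hfr : ∀ t ∈ S, t = i0 ∨ freeT q t) (hlen : S.length = q ^ 2 - 1)
    : Nat.card (Subgroup.closure X) = q ^ 2 - 1 ∧ ∀ v w : Fin 2 → ZMod q, v ≠ 0 → w ≠ 0 →
      ∃! h : Subgroup.closure X, ((h : Matrix.GeneralLinearGroup (Fin 2) (ZMod q)) : Matrix (Fin 2) (Fin 2) (ZMod q)).mulVec v = w := by
  have hS := closure_sub X S Gs i0 hi0 htoi0 hX hcl
  have hR := reach_sub X S Gs i0 htoi0 d hX' Pa hreach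
  have hcard := card_closure_eq X S hS hR hnd hlt
  rw [hlen] at hcard
  refine ⟨hcard, regular_of_free _ ?_ hcard⟩
  intro h hh h1 v hv
  obtain ⟨t, ht, hht⟩ := hS h hh
  rw [hht]
  rcases hfr t ht with rfl | hf
  · exfalso
    apply h1
    apply Units.ext
    rw [hht, htoi0]
    rfl
  · exact free_of_freeT t hf hq.out.pos v hv

/-- Free subgroups have order at most `q ^ 2 - 1`. -/
theorem card_le_of_free (H : Subgroup (Matrix.GeneralLinearGroup (Fin 2) (ZMod q)))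
    (hfree : ∀ h ∈ H, h ≠ 1 → ∀ v : Fin 2 → ZMod q, v ≠ 0 →
      (h : Matrix (Fin 2) (Fin 2) (ZMod q)).mulVec v ≠ v) :
    Nat.card H ≤ q ^ 2 - 1 := by
  classical
  obtain ⟨v, hv⟩ : ∃ v : Fin 2 → ZMod q, v ≠ 0 := ⟨fun _ => 1, fun h => one_ne_zero (congrFun h 0)⟩
  have hne : ∀ (h : Matrix.GeneralLinearGroup (Fin 2) (ZMod q)) (u : Fin 2 → ZMod q), u ≠ 0 →
      (h : Matrix (Fin 2) (Fin 2) (ZMod q)).mulVec u ≠ 0 := by
    intro h u hu h0
    apply hu
    have h1 : ((h⁻¹ : Matrix.GeneralLinearGroup (Fin 2) (ZMod q)) : Matrix (Fin 2) (Fin 2) (ZMod q)).mulVec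
        ((h : Matrix (Fin 2) (Fin 2) (ZMod q)).mulVec u) = u := by
      rw [Matrix.mulVec_mulVec, ← Units.val_mul, inv_mul_cancel, Units.val_one, Matrix.one_mulVec]
    rw [← h1, h0, Matrix.mulVec_zero]
  let φ : H → {u : Fin 2 → ZMod q // u ≠ 0} := fun h =>
    ⟨((h : Matrix.GeneralLinearGroup (Fin 2) (ZMod q)) : Matrix (Fin 2) (Fin 2) (ZMod q)).mulVec v, hne _ _ hv⟩
  have hφ : Function.Injective φ := by
    intro h h' hh
    have h1 : ((h : Matrix.GeneralLinearGroup (Fin 2) (ZMod q)) : Matrix (Fin 2) (Fin 2) (ZMod q)).mulVec v =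
        ((h' : Matrix.GeneralLinearGroup (Fin 2) (ZMod q)) : Matrix (Fin 2) (Fin 2) (ZMod q)).mulVec v :=
      congrArg Subtype.val hh
    by_contra hn
    have hn' : (h' : Matrix.GeneralLinearGroup (Fin 2) (ZMod q))⁻¹ * h ≠ 1 := by
      intro he
      apply hn
      apply Subtype.ext
      exact (inv_mul_eq_one.mp he).symm
    apply hfree _ (H.mul_mem (H.inv_mem h'.2) h.2) hn' v hv
    rw [Units.val_mul, ← Matrix.mulVec_mulVec, h1, Matrix.mulVec_mulVec, ← Units.val_mul, inv_mul_cancel,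
      Units.val_one, Matrix.one_mulVec]
  have hcard2 : Nat.card {u : Fin 2 → ZMod q // u ≠ 0} = q ^ 2 - 1 := by
    rw [Nat.card_eq_fintype_card, Fintype.card_subtype_compl]
    simp [ZMod.card]
  rw [← hcard2]
  exact Nat.card_le_card_of_injective φ hφ

/-- The closure with a scalar. -/
theorem closure_scalar_regular (A B C : Matrix.GeneralLinearGroup (Fin 2) (ZMod q)) (c : ℕ) (rr : ℕ) (hrr : rr.Prime)
    (hCs : (C : Matrix (Fin 2) (Fin 2) (ZMod q)) = toM q (c, 0, 0, c))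
    (S Gs : List Tup) (i0 d : Tup)
    (hi0 : i0 ∈ S) (htoi0 : toM q i0 = 1)
    (hX : ∀ g ∈ ({A, B} : Set _), ∃ x ∈ Gs, (g : Matrix (Fin 2) (Fin 2) (ZMod q)) = toM q x)
    (hX' : ∀ x ∈ Gs, ∃ g ∈ ({A, B} : Set _), (g : Matrix (Fin 2) (Fin 2) (ZMod q)) = toM q x)
    (hcl : ∀ x ∈ Gs, ∀ t ∈ S, mulN q x t ∈ S)
    (Pa : List (ℕ × Tup))
    (hreach : ∀ i ∈ List.range S.length, S.getD i d = i0 ∨
      ((Pa.getD i (0, d)).1 < i ∧ (Pa.getD i (0, d)).2 ∈ Gs ∧
        S.getD i d = mulN q (Pa.getD i (0, d)).2 (S.getD (Pa.getD i (0, d)).1 d)))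
    (hnd : S.Nodup) (hlt : ∀ t ∈ S, t.1 < q ∧ t.2.1 < q ∧ t.2.2.1 < q ∧ t.2.2.2 < q)
    (hcr : ((c : ℕ) : ZMod q) ^ rr = 1) (hc1 : ((c : ℕ) : ZMod q) ≠ 1)
    (hfr : ∀ r ∈ List.range rr, ∀ t ∈ S, (r = 0 ∧ t = i0) ∨ freeT q (mulN q (c ^ r % q, 0, 0, c ^ r % q) t))
    (hcop : Nat.Coprime S.length rr) (hlen : S.length * rr = q ^ 2 - 1) :
    Nat.card (Subgroup.closure ({A, B, C} : Set (Matrix.GeneralLinearGroup (Fin 2) (ZMod q)))) = q ^ 2 - 1 ∧
      ∀ v w : Fin 2 → ZMod q, v ≠ 0 → w ≠ 0 →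
      ∃! h : Subgroup.closure ({A, B, C} : Set (Matrix.GeneralLinearGroup (Fin 2) (ZMod q))),
        ((h : Matrix.GeneralLinearGroup (Fin 2) (ZMod q)) : Matrix (Fin 2) (Fin 2) (ZMod q)).mulVec v = w := by
  classical
  have hS := closure_sub ({A, B} : Set _) S Gs i0 hi0 htoi0 hX hcl
  have hR := reach_sub ({A, B} : Set _) S Gs i0 htoi0 d hX' Pa hreach
  have hcardK := card_closure_eq ({A, B} : Set _) S hS hR hnd hlt
  obtain ⟨K, hK⟩ : ∃ K, K = Subgroup.closure ({A, B} : Set (Matrix.GeneralLinearGroup (Fin 2) (ZMod q))) := ⟨_, rfl⟩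
  rw [← hK] at hS hcardK
  have hCsc : (C : Matrix (Fin 2) (Fin 2) (ZMod q)) = ((c : ℕ) : ZMod q) • (1 : Matrix (Fin 2) (Fin 2) (ZMod q)) := by
    rw [hCs]
    ext i j
    fin_cases i <;> fin_cases j <;> simp [toM]
  have hCcomm : ∀ g : Matrix.GeneralLinearGroup (Fin 2) (ZMod q), C * g = g * C := by
    intro g
    apply Units.ext
    rw [Units.val_mul, Units.val_mul, hCsc, Matrix.smul_mul, Matrix.mul_smul, one_mul, mul_one]
  have hCp : ∀ n : ℕ, ((C ^ n : Matrix.GeneralLinearGroup (Fin 2) (ZMod q)) : Matrix (Fin 2) (Fin 2) (ZMod q))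
      = toM q (c ^ n % q, 0, 0, c ^ n % q) := by
    intro n
    rw [Units.val_pow_eq_pow_val, hCsc, smul_pow, one_pow]
    ext i j
    fin_cases i <;> fin_cases j <;> simp [toM, ZMod.natCast_mod]
  have hCr : C ^ rr = 1 := by
    apply Units.ext
    rw [Units.val_pow_eq_pow_val, hCsc, smul_pow, one_pow, hcr, one_smul]
    rfl
  have hC1 : C ≠ 1 := by
    intro h
    apply hc1
    have h1 := congrFun (congrFun hCsc 0) 0
    rw [h] at h1
    simpa using h1.symm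
  haveI : Fact rr.Prime := ⟨hrr⟩
  have hCo : orderOf C = rr := orderOf_eq_prime hCr hC1
  -- structure of the closure
  have hstruct : ∀ g ∈ Subgroup.closure ({A, B, C} : Set (Matrix.GeneralLinearGroup (Fin 2) (ZMod q))),
      ∃ k : ℤ, ∃ s ∈ K, g = C ^ k * s := by
    intro g hg
    induction hg using Subgroup.closure_induction with
    | mem g hg =>
      rcases hg with rfl | rfl | rfl
      · exact ⟨0, g, by rw [hK]; exact Subgroup.subset_closure (by simp), by simp⟩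
      · exact ⟨0, g, by rw [hK]; exact Subgroup.subset_closure (by simp), by simp⟩
      · exact ⟨1, 1, K.one_mem, by simp⟩
    | one => exact ⟨0, 1, K.one_mem, by simp⟩
    | mul a b _ _ ha hb =>
      obtain ⟨k, s, hs, rfl⟩ := ha
      obtain ⟨l, s', hs', rfl⟩ := hb
      refine ⟨k + l, s * s', K.mul_mem hs hs', ?_⟩
      have h1 : Commute s (C ^ l) := ((show Commute C s from hCcomm s).zpow_left l).symm
      rw [zpow_add, mul_assoc, mul_assoc, ← mul_assoc s, h1.eq, mul_assoc]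
    | inv a _ ha =>
      obtain ⟨k, s, hs, rfl⟩ := ha
      refine ⟨-k, s⁻¹, K.inv_mem hs, ?_⟩
      have h1 : Commute s (C ^ k) := ((show Commute C s from hCcomm s).zpow_left k).symm
      rw [mul_inv_rev, zpow_neg]
      exact (h1.inv_inv).eq
  have hfree : ∀ h ∈ Subgroup.closure ({A, B, C} : Set (Matrix.GeneralLinearGroup (Fin 2) (ZMod q))), h ≠ 1 →
      ∀ v : Fin 2 → ZMod q, v ≠ 0 → (h : Matrix (Fin 2) (Fin 2) (ZMod q)).mulVec v ≠ v := by
    intro h hh h1 v hv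
    obtain ⟨k, s, hs, rfl⟩ := hstruct h hh
    obtain ⟨t, ht, hst⟩ := hS s hs
    have hrpos : (0 : ℤ) < rr := by exact_mod_cast hrr.pos
    obtain ⟨r, hr⟩ : ∃ r : ℕ, (r : ℤ) = k % (rr : ℤ) :=
      ⟨(k % (rr : ℤ)).toNat, Int.toNat_of_nonneg (Int.emod_nonneg _ hrpos.ne')⟩
    have hrlt : r < rr := by
      have := Int.emod_lt_of_pos k hrpos
      omega
    have hCk : C ^ k = C ^ r := by
      rw [← zpow_natCast, hr, ← zpow_mod_orderOf, hCo]
    rw [hCk] at h1 ⊢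
    rcases hfr r (List.mem_range.mpr hrlt) t ht with ⟨rfl, rfl⟩ | hf
    · exfalso
      apply h1
      apply Units.ext
      rw [pow_zero, one_mul, hst, htoi0]
      rfl
    · have h3 := free_of_freeT _ hf hq.out.pos v hv
      rw [toM_mulN, ← hCp, ← hst] at h3
      exact h3
  have hcard : Nat.card (Subgroup.closure ({A, B, C} : Set (Matrix.GeneralLinearGroup (Fin 2) (ZMod q)))) = q ^ 2 - 1 := by
    apply le_antisymm (card_le_of_free _ hfree)
    rw [← hlen]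
    apply Nat.le_of_dvd Nat.card_pos
    apply Nat.Coprime.mul_dvd_of_dvd_of_dvd hcop
    · rw [← hcardK]
      apply Subgroup.card_dvd_of_le
      rw [hK]
      apply Subgroup.closure_mono
      intro x hx
      rcases hx with rfl | rfl
      · simp
      · simp
    · rw [← hCo]
      have hmem : C ∈ Subgroup.closure ({A, B, C} : Set (Matrix.GeneralLinearGroup (Fin 2) (ZMod q))) :=
        Subgroup.subset_closure (by simp)
      exact Subgroup.orderOf_dvd_natCard _ hmem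
  exact ⟨hcard, regular_of_free _ hfree hcard⟩

end Cfsg.Agent.H03
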