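import Cfsg.Agent.Lib.Lead.SpGen
/-! `Sp_{2m}(F)` is generated by symplectic transvections over any field (copied from Lead.SpGen, removing the unused finiteness). -/
set_option autoImplicit false
set_option linter.unusedSimpArgs false
set_option linter.style.haveILetI false
set_option linter.unusedSectionVars false
set_option linter.unusedVariables false
namespace Cfsg.Agent.H03.SpF
open Matrix Cfsg.Agent.Lead

variable {l : Type*} [Fintype l] [DecidableEq l] {F : Type*} [Field F]
variable {k : ℕ} {e f : Fin k → (l ⊕ l → F)}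

lemma transpose_J_mul_apply (A : Matrix (l ⊕ l) (l ⊕ l) F) (x y : l ⊕ l) :
    (Aᵀ * J l F * A) x y = sympForm (fun c => A c x) (fun c => A c y) := by
  have : (Aᵀ * J l F * A) x y = (fun c => A c x) ⬝ᵥ (J l F *ᵥ (fun c => A c y)) := by
    rw [Matrix.mul_assoc, Matrix.mul_apply]
    simp only [Matrix.transpose_apply, dotProduct]
    refine Finset.sum_congr rfl fun c _ => ?_
    rw [Matrix.mul_apply]
    rfl
  exact this

/-- partial symplectic bases -/
def TupF (l : Type*) [Fintype l] [DecidableEq l] (F : Type*) [Field F] (k : ℕ) : Type _ :=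
  {p : (Fin k → (l ⊕ l → F)) × (Fin k → (l ⊕ l → F)) // IsPartial p.1 p.2}

/-- Elements of `Sp_{2m}` are the same as symplectic bases. -/
noncomputable def spEquivTupF (m : ℕ) : symplecticGroup (Fin m) F ≃ TupF (Fin m) F m where
  toFun A := ⟨(fun i c => (A : Matrix _ _ F) c (Sum.inl i), fun i c => (A : Matrix _ _ F) c (Sum.inr i)), by
    have hA := SymplecticGroup.mem_iff'.1 A.2
    have key := fun x y => congrFun (congrFun hA x) y
    simp only [transpose_J_mul_apply] at key
    refine ⟨fun i j => ?_, fun i j => ?_, fun i j => ?_⟩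
    · have h1 := key (Sum.inl i) (Sum.inl j)
      simp only [J, Matrix.fromBlocks_apply₁₁, Matrix.zero_apply] at h1
      exact h1
    · have h1 := key (Sum.inr i) (Sum.inr j)
      simp only [J, Matrix.fromBlocks_apply₂₂, Matrix.zero_apply] at h1
      exact h1
    · have h1 := key (Sum.inl i) (Sum.inr j)
      simp only [J, Matrix.fromBlocks_apply₁₂, Matrix.neg_apply, Matrix.one_apply] at h1
      refine h1.trans ?_
      split_ifs <;> simp⟩
  invFun t := ⟨Matrix.of fun c x => Sum.elim (fun i => t.1.1 i c) (fun i => t.1.2 i c) x, by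
    rw [SymplecticGroup.mem_iff']
    obtain ⟨⟨e, f⟩, h⟩ := t
    ext x y
    rw [transpose_J_mul_apply]
    rcases x with i | i <;> rcases y with j | j
    · exact (h.1 i j).trans (by simp [J])
    · refine (h.2.2 i j).trans ?_
      simp only [J, Matrix.fromBlocks_apply₁₂, Matrix.neg_apply, Matrix.one_apply]
      split_ifs <;> simp
    · refine (form_f_e h i j).trans ?_
      simp only [J, Matrix.fromBlocks_apply₂₁, Matrix.one_apply]
    · exact (h.2.1 i j).trans (by simp [J])⟩
  left_inv A := by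
    apply Subtype.ext
    ext c x
    rcases x with i | i <;> rfl
  right_inv t := by
    apply Subtype.ext
    rfl

lemma perp_addF {x y : l ⊕ l → F} (hx : Perp e f x) (hy : Perp e f y) : Perp e f (x + y) :=
  ⟨fun i => by rw [sympForm_add_left, hx.1, hy.1, add_zero],
    fun i => by rw [sympForm_add_left, hx.2, hy.2, add_zero]⟩

lemma perp_smulF {x : l ⊕ l → F} (c : F) (hx : Perp e f x) : Perp e f (c • x) :=
  ⟨fun i => by rw [sympForm_smul_left, hx.1, mul_zero],
    fun i => by rw [sympForm_smul_left, hx.2, mul_zero]⟩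

lemma exists_perp_form_oneF (h : IsPartial e f) {a : l ⊕ l → F} (ha : Perp e f a) (ha0 : a ≠ 0) :
    ∃ b, Perp e f b ∧ sympForm a b = 1 := by
  obtain ⟨z, hz⟩ := sympForm_nondeg ha0
  have h1 : sympForm a (proj e f z) = sympForm a z := by
    simp only [proj, sympForm_add_right]
    have : sympForm a (∑ i, (sympForm z (f i) • e i - sympForm z (e i) • f i)) = 0 := by
      rw [sympForm_swap, sympForm_sum_left, neg_eq_zero]
      refine Finset.sum_eq_zero fun i _ => ?_
      rw [sympForm_sub_left, sympForm_smul_left, sympForm_smul_left, sympForm_swap (e i),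
        sympForm_swap (f i), ha.1, ha.2]
      simp
    rw [this, add_zero]
  refine ⟨(sympForm a z)⁻¹ • proj e f z, perp_smulF _ (proj_perp h z), ?_⟩
  rw [sympForm_smul_right, h1, inv_mul_cancel₀ hz]


lemma isPartial_cons_iffF (a b : l ⊕ l → F) :
    IsPartial (Fin.cons a e : Fin (k + 1) → (l ⊕ l → F)) (Fin.cons b f) ↔
      IsPartial e f ∧ Perp e f a ∧ Perp e f b ∧ sympForm a b = -1 := by
  constructor
  · rintro ⟨h1, h2, h3⟩
    refine ⟨⟨fun i j => ?_, fun i j => ?_, fun i j => ?_⟩, ⟨fun i => ?_, fun i => ?_⟩,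
      ⟨fun i => ?_, fun i => ?_⟩, ?_⟩
    · simpa using h1 i.succ j.succ
    · simpa using h2 i.succ j.succ
    · simpa using h3 i.succ j.succ
    · simpa using h1 0 i.succ
    · simpa [Fin.succ_ne_zero, eq_comm] using h3 0 i.succ
    · have := h3 i.succ 0
      simp [Fin.succ_ne_zero] at this
      rw [sympForm_swap, this, neg_zero]
    · simpa using h2 0 i.succ
    · simpa using h3 0 0
  · rintro ⟨⟨h1, h2, h3⟩, ⟨ha1, ha2⟩, ⟨hb1, hb2⟩, hab⟩
    refine ⟨fun i j => ?_, fun i j => ?_, fun i j => ?_⟩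
    · refine Fin.cases ?_ (fun i => ?_) i <;> refine Fin.cases ?_ (fun j => ?_) j
      · simp
      · simpa using ha1 j
      · simp only [Fin.cons_succ, Fin.cons_zero]
        rw [sympForm_swap, ha1, neg_zero]
      · simpa using h1 i j
    · refine Fin.cases ?_ (fun i => ?_) i <;> refine Fin.cases ?_ (fun j => ?_) j
      · simp
      · simpa using hb2 j
      · simp only [Fin.cons_succ, Fin.cons_zero]
        rw [sympForm_swap, hb2, neg_zero]
      · simpa using h2 i j
    · refine Fin.cases ?_ (fun i => ?_) i <;> refine Fin.cases ?_ (fun j => ?_) j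
      · simpa using hab
      · simp only [Fin.cons_succ, Fin.cons_zero]
        rw [ha2]
        simp [Fin.succ_ne_zero, eq_comm]
      · simp only [Fin.cons_succ, Fin.cons_zero]
        rw [sympForm_swap, hb1, neg_zero]
        simp [Fin.succ_ne_zero]
      · simpa using h3 i j


lemma perp_form_leftF {x z : l ⊕ l → F} (hx : sympForm x z = 0) : sympForm z x = 0 := by
  rw [sympForm_swap, hx, neg_zero]

/-- Elements fixing a partial basis. -/
def FixesAllF (e f : Fin k → (l ⊕ l → F)) (h : symplecticGroup l F) : Prop :=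
  (∀ i, (h : Matrix (l ⊕ l) (l ⊕ l) F) *ᵥ e i = e i) ∧ ∀ i, (h : Matrix (l ⊕ l) (l ⊕ l) F) *ᵥ f i = f i

lemma fixesAll_mulF {g h : symplecticGroup l F} (hg : FixesAllF e f g) (hh : FixesAllF e f h) :
    FixesAllF e f (g * h) := by
  constructor
  · intro i
    change ((g : Matrix (l ⊕ l) (l ⊕ l) F) * (h : Matrix (l ⊕ l) (l ⊕ l) F)) *ᵥ e i = e i
    rw [← Matrix.mulVec_mulVec, hh.1, hg.1]
  · intro i
    change ((g : Matrix (l ⊕ l) (l ⊕ l) F) * (h : Matrix (l ⊕ l) (l ⊕ l) F)) *ᵥ f i = f i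
    rw [← Matrix.mulVec_mulVec, hh.2, hg.2]

lemma step_fixesAllF {x y : l ⊕ l → F} (hx : Perp e f x) (hy : Perp e f y) (c : F) :
    FixesAllF e f (sympT (y - x) c) :=
  ⟨fun i => step_fix c (by rw [perp_form_leftF (hy.1 i), perp_form_leftF (hx.1 i)]),
    fun i => step_fix c (by rw [perp_form_leftF (hy.2 i), perp_form_leftF (hx.2 i)])⟩

/-- Move a nonzero vector of the complement to another one by transvections. -/
lemma move_vecF (hp : IsPartial e f) {a a' : l ⊕ l → F} (ha : Perp e f a) (ha' : Perp e f a')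
    (h0 : a ≠ 0) (h0' : a' ≠ 0) :
    ∃ h ∈ spTransGroup l F, FixesAllF e f h ∧ (h : Matrix (l ⊕ l) (l ⊕ l) F) *ᵥ a = a' := by
  by_cases hf : sympForm a a' = 0
  · obtain ⟨z₁, hz₁, h1⟩ := exists_perp_form_oneF hp ha h0
    obtain ⟨z₂, hz₂, h2⟩ := exists_perp_form_oneF hp ha' h0'
    obtain ⟨z, hz, h3, h4⟩ : ∃ z, Perp e f z ∧ sympForm a z ≠ 0 ∧ sympForm z a' ≠ 0 := by
      by_cases h5 : sympForm z₁ a' = 0
      · by_cases h6 : sympForm a z₂ = 0
        · refine ⟨z₁ + z₂, perp_addF hz₁ hz₂, ?_, ?_⟩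
          · rw [sympForm_add_right, h6, add_zero, h1]; exact one_ne_zero
          · rw [sympForm_add_left, h5, zero_add, sympForm_swap, h2]
            simp
        · refine ⟨z₂, hz₂, h6, ?_⟩
          rw [sympForm_swap, h2]; simp
      · exact ⟨z₁, hz₁, by rw [h1]; exact one_ne_zero, h5⟩
    refine ⟨sympT (a' - z) (sympForm z a')⁻¹ * sympT (z - a) (sympForm a z)⁻¹,
      mul_mem (sympT_mem _ _) (sympT_mem _ _),
      fixesAll_mulF (step_fixesAllF hz ha' _) (step_fixesAllF ha hz _), ?_⟩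
    change ((sympT (a' - z) (sympForm z a')⁻¹ : symplecticGroup l F).1 *
      (sympT (z - a) (sympForm a z)⁻¹ : symplecticGroup l F).1) *ᵥ a = a'
    rw [← Matrix.mulVec_mulVec, step_move h3, step_move h4]
  · exact ⟨sympT (a' - a) (sympForm a a')⁻¹, sympT_mem _ _, step_fixesAllF ha ha' _, step_move hf⟩

/-- Keep `a` fixed and move the partner. -/
lemma move_partnerF (hp : IsPartial e f) {a b b' : l ⊕ l → F} (ha : Perp e f a) (hb : Perp e f b)
    (hb' : Perp e f b') (hab : sympForm a b = -1) (hab' : sympForm a b' = -1) :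
    ∃ h ∈ spTransGroup l F, FixesAllF e f h ∧ (h : Matrix (l ⊕ l) (l ⊕ l) F) *ᵥ a = a ∧
      (h : Matrix (l ⊕ l) (l ⊕ l) F) *ᵥ b = b' := by
  by_cases hf : sympForm b b' = 0
  · have hz : Perp e f (a + b) := perp_addF ha hb
    have h3 : sympForm b (a + b) ≠ 0 := by
      rw [sympForm_add_right, sympForm_self, add_zero, sympForm_swap, hab]; simp
    have h4 : sympForm (a + b) b' ≠ 0 := by
      rw [sympForm_add_left, hab', hf]; simp
    refine ⟨sympT (b' - (a + b)) (sympForm (a + b) b')⁻¹ * sympT ((a + b) - b) (sympForm b (a + b))⁻¹,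
      mul_mem (sympT_mem _ _) (sympT_mem _ _),
      fixesAll_mulF (step_fixesAllF hz hb' _) (step_fixesAllF hb hz _), ?_, ?_⟩
    · change ((sympT (b' - (a + b)) (sympForm (a + b) b')⁻¹ : symplecticGroup l F).1 *
        (sympT ((a + b) - b) (sympForm b (a + b))⁻¹ : symplecticGroup l F).1) *ᵥ a = a
      have e1 : (sympT ((a + b) - b) (sympForm b (a + b))⁻¹ : symplecticGroup l F).1 *ᵥ a = a :=
        step_fix _ (by rw [sympForm_add_right, sympForm_self, zero_add])
      have e2 : (sympT (b' - (a + b)) (sympForm (a + b) b')⁻¹ : symplecticGroup l F).1 *ᵥ a = a :=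
        step_fix _ (by rw [hab', sympForm_add_right, sympForm_self, zero_add, hab])
      rw [← Matrix.mulVec_mulVec, e1, e2]
    · change ((sympT (b' - (a + b)) (sympForm (a + b) b')⁻¹ : symplecticGroup l F).1 *
        (sympT ((a + b) - b) (sympForm b (a + b))⁻¹ : symplecticGroup l F).1) *ᵥ b = b'
      rw [← Matrix.mulVec_mulVec, step_move h3, step_move h4]
  · refine ⟨sympT (b' - b) (sympForm b b')⁻¹, sympT_mem _ _, step_fixesAllF hb hb' _,
      step_fix _ (by rw [hab, hab']), step_move hf⟩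


/-- The transvection group acts transitively on partial symplectic bases (Witt's theorem). -/
theorem tuple_transitiveF (k : ℕ) (e f e' f' : Fin k → (l ⊕ l → F)) (hp : IsPartial e f)
    (hp' : IsPartial e' f') :
    ∃ h ∈ spTransGroup l F, (∀ i, (h : Matrix (l ⊕ l) (l ⊕ l) F) *ᵥ e i = e' i) ∧
      ∀ i, (h : Matrix (l ⊕ l) (l ⊕ l) F) *ᵥ f i = f' i := by
  induction k with
  | zero => exact ⟨1, one_mem _, fun i => i.elim0, fun i => i.elim0⟩
  | succ k ih =>
    rw [← Fin.cons_self_tail e, ← Fin.cons_self_tail f] at hp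
    rw [← Fin.cons_self_tail e', ← Fin.cons_self_tail f'] at hp'
    obtain ⟨h1, h2, h3, h4⟩ := (isPartial_cons_iffF _ _).1 hp
    obtain ⟨h1', h2', h3', h4'⟩ := (isPartial_cons_iffF _ _).1 hp'
    obtain ⟨h₀, hh₀, he₀, hf₀⟩ := ih _ _ _ _ h1 h1'
    -- images of the extra pair
    set A := (h₀ : Matrix (l ⊕ l) (l ⊕ l) F) with hA
    have hform := fun x y => sympForm_mulVec h₀.2 x y
    have hPa : Perp (Fin.tail e') (Fin.tail f') (A *ᵥ e 0) :=
      ⟨fun i => by rw [← he₀ i, hform]; exact h2.1 i, fun i => by rw [← hf₀ i, hform]; exact h2.2 i⟩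
    have hPb : Perp (Fin.tail e') (Fin.tail f') (A *ᵥ f 0) :=
      ⟨fun i => by rw [← he₀ i, hform]; exact h3.1 i, fun i => by rw [← hf₀ i, hform]; exact h3.2 i⟩
    have hab : sympForm (A *ᵥ e 0) (A *ᵥ f 0) = -1 := by rw [hform]; exact h4
    have ha0 : A *ᵥ e 0 ≠ 0 := by
      intro h
      rw [h, sympForm_zero_left] at hab
      exact one_ne_zero (neg_eq_zero.1 hab.symm)
    have ha'0 : e' 0 ≠ 0 := by
      intro h
      rw [h, sympForm_zero_left] at h4'
      exact one_ne_zero (neg_eq_zero.1 h4'.symm)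
    obtain ⟨h₁, hh₁, hfix₁, hmove₁⟩ := move_vecF h1' hPa h2' ha0 ha'0
    have hform₁ := fun x y => sympForm_mulVec h₁.2 x y
    set B := (h₁ : Matrix (l ⊕ l) (l ⊕ l) F) with hB
    have hPb' : Perp (Fin.tail e') (Fin.tail f') (B *ᵥ (A *ᵥ f 0)) :=
      ⟨fun i => by rw [← hfix₁.1 i, hform₁]; exact hPb.1 i,
        fun i => by rw [← hfix₁.2 i, hform₁]; exact hPb.2 i⟩
    have hab₂ : sympForm (e' 0) (B *ᵥ (A *ᵥ f 0)) = -1 := by
      rw [← hmove₁, hform₁]; exact hab
    obtain ⟨h₂, hh₂, hfix₂, hfixa, hmove₂⟩ := move_partnerF h1' h2' hPb' h3' hab₂ h4'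
    refine ⟨h₂ * h₁ * h₀, mul_mem (mul_mem hh₂ hh₁) hh₀, fun i => ?_, fun i => ?_⟩
    · change ((h₂ : Matrix (l ⊕ l) (l ⊕ l) F) * B * A) *ᵥ e i = e' i
      rw [← Matrix.mulVec_mulVec, ← Matrix.mulVec_mulVec]
      refine Fin.cases ?_ (fun j => ?_) i
      · rw [hmove₁, hfixa]
      · have h5 := he₀ j
        simp only [Fin.tail] at h5
        rw [h5]
        have h6 := hfix₁.1 j
        have h7 := hfix₂.1 j
        simp only [Fin.tail] at h6 h7
        rw [h6, h7]
    · change ((h₂ : Matrix (l ⊕ l) (l ⊕ l) F) * B * A) *ᵥ f i = f' i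
      rw [← Matrix.mulVec_mulVec, ← Matrix.mulVec_mulVec]
      refine Fin.cases ?_ (fun j => ?_) i
      · exact hmove₂
      · have h5 := hf₀ j
        simp only [Fin.tail] at h5
        rw [h5]
        have h6 := hfix₁.2 j
        have h7 := hfix₂.2 j
        simp only [Fin.tail] at h6 h7
        rw [h6, h7]

/-- `Sp_{2m}(F)` is generated by transvections. -/
theorem spTransGroup_eq_topF (m : ℕ) : spTransGroup (Fin m) F = ⊤ := by
  rw [eq_top_iff]
  intro A _
  let t := spEquivTupF (F := F) m 1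
  let t' := spEquivTupF (F := F) m A
  obtain ⟨h, hh, h1, h2⟩ := tuple_transitiveF m t.1.1 t.1.2 t'.1.1 t'.1.2 t.2 t'.2
  have key : h = A := by
    apply Subtype.ext
    ext c x
    rcases x with i | i
    · have : (h.1 * (1 : Matrix (Fin m ⊕ Fin m) (Fin m ⊕ Fin m) F)) c (Sum.inl i) = A.1 c (Sum.inl i) :=
        congrFun (h1 i) c
      rwa [Matrix.mul_one] at this
    · have : (h.1 * (1 : Matrix (Fin m ⊕ Fin m) (Fin m ⊕ Fin m) F)) c (Sum.inr i) = A.1 c (Sum.inr i) :=
        congrFun (h2 i) c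
      rwa [Matrix.mul_one] at this
  rw [← key]
  exact hh


end Cfsg.Agent.H03.SpF
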