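import Mathlib
import Cfsg.Agent.Lib.Lead.SpOrder
import Cfsg.Agent.Lib.Lead.SpGen
import Cfsg.Agent.Lib.H11.Symp2
import Cfsg.Agent.Lib.H11.SpReg
import Cfsg.Agent.S0749

set_option autoImplicit false

namespace Cfsg.Agent.H03.SpPara

open Matrix Cfsg.Agent.H11

/-- Counting by orbit-stabiliser: the elements moving `x₀` into `Y`. -/
theorem fiber_count {G X : Type*} [Group G] [MulAction G X] [Finite G] [Finite X]
    [MulAction.IsPretransitive G X] (x₀ : X) (Y : Set X) :
    Nat.card {g : G // g • x₀ ∈ Y} * Nat.card X = Nat.card Y * Nat.card G := by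
  classical
  set S := MulAction.stabilizer G x₀ with hS
  have h1 : Nat.card S * Nat.card X = Nat.card G := by
    rw [← MulAction.index_stabilizer_of_transitive G x₀]
    exact Subgroup.card_mul_index S
  choose r hr using fun x : X => MulAction.exists_smul_eq G x₀ x
  let E : {g : G // g • x₀ ∈ Y} ≃ Y × S :=
    { toFun := fun g => (⟨g.1 • x₀, g.2⟩, ⟨(r (g.1 • x₀))⁻¹ * g.1, by
        rw [MulAction.mem_stabilizer_iff, mul_smul, inv_smul_eq_iff, hr]⟩)
      invFun := fun p => ⟨r p.1.1 * p.2.1, by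
        have h2 : (r p.1.1 * p.2.1) • x₀ = p.1.1 := by
          rw [mul_smul, MulAction.mem_stabilizer_iff.mp p.2.2, hr]
        rw [h2]
        exact p.1.2⟩
      left_inv := by
        rintro ⟨g, hg⟩
        apply Subtype.ext
        simp
      right_inv := by
        rintro ⟨⟨y, hy⟩, ⟨s, hs⟩⟩
        have h2 : (r y * s) • x₀ = y := by
          rw [mul_smul, MulAction.mem_stabilizer_iff.mp hs, hr]
        simp [h2] }
  rw [Nat.card_congr E, Nat.card_prod, mul_assoc, h1]

variable {F : Type*} [Field F] {m : ℕ}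

/-- Linearly independent totally isotropic tuples. -/
def TI (m k : ℕ) (F : Type*) [Field F] : Type _ :=
  {x : Fin k → (Fin m ⊕ Fin m → F) // LinearIndependent F x ∧ ∀ i j, Cfsg.sympForm m F (x i) (x j) = 0}

theorem sp_mulVec_inj (g : symplecticGroup (Fin m) F) :
    Function.Injective (fun v : Fin m ⊕ Fin m → F => (g : Matrix (Fin m ⊕ Fin m) (Fin m ⊕ Fin m) F) *ᵥ v) := by
  intro u v h
  have := congrArg (fun w => ((g⁻¹ : symplecticGroup (Fin m) F) : Matrix (Fin m ⊕ Fin m) (Fin m ⊕ Fin m) F) *ᵥ w) h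
  simpa only [Lead.sp_inv_mulVec'] using this

theorem act_mem {k : ℕ} (g : symplecticGroup (Fin m) F) (x : Fin k → (Fin m ⊕ Fin m → F))
    (hx : LinearIndependent F x ∧ ∀ i j, Cfsg.sympForm m F (x i) (x j) = 0) :
    LinearIndependent F (fun i => (g : Matrix (Fin m ⊕ Fin m) (Fin m ⊕ Fin m) F) *ᵥ x i) ∧
      ∀ i j, Cfsg.sympForm m F ((g : Matrix (Fin m ⊕ Fin m) (Fin m ⊕ Fin m) F) *ᵥ x i)
        ((g : Matrix (Fin m ⊕ Fin m) (Fin m ⊕ Fin m) F) *ᵥ x j) = 0 := by
  refine ⟨?_, fun i j => ?_⟩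
  · have h1 : LinearMap.ker (Matrix.toLin' (g : Matrix (Fin m ⊕ Fin m) (Fin m ⊕ Fin m) F)) = ⊥ := by
      rw [LinearMap.ker_eq_bot]
      intro u v h
      apply sp_mulVec_inj g
      rw [Matrix.toLin'_apply, Matrix.toLin'_apply] at h
      exact h
    have e : (fun i => (g : Matrix (Fin m ⊕ Fin m) (Fin m ⊕ Fin m) F) *ᵥ x i) =
        (Matrix.toLin' (g : Matrix (Fin m ⊕ Fin m) (Fin m ⊕ Fin m) F)) ∘ x := by
      funext i
      rw [Function.comp_apply, Matrix.toLin'_apply]
    rw [e]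
    exact hx.1.map' _ h1
  · rw [sympForm_mulVec g.2]
    exact hx.2 i j

noncomputable instance (k : ℕ) : SMul (symplecticGroup (Fin m) F) (TI m k F) where
  smul g t := ⟨fun i => (g : Matrix (Fin m ⊕ Fin m) (Fin m ⊕ Fin m) F) *ᵥ t.1 i, act_mem g t.1 t.2⟩

theorem smul_val {k : ℕ} (g : symplecticGroup (Fin m) F) (t : TI m k F) (i : Fin k) :
    (g • t).1 i = (g : Matrix (Fin m ⊕ Fin m) (Fin m ⊕ Fin m) F) *ᵥ t.1 i := rfl

noncomputable instance (k : ℕ) : MulAction (symplecticGroup (Fin m) F) (TI m k F) where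
  one_smul t := by
    apply Subtype.ext
    funext i
    rw [smul_val]
    exact Matrix.one_mulVec _
  mul_smul g h t := by
    apply Subtype.ext
    funext i
    rw [smul_val, smul_val, smul_val, Matrix.mulVec_mulVec]
    rfl

/-- A totally isotropic family spans a totally isotropic subspace. -/
theorem form_span {k : ℕ} (x : Fin k → (Fin m ⊕ Fin m → F)) (hx : ∀ i j, Cfsg.sympForm m F (x i) (x j) = 0)
    {a b : Fin m ⊕ Fin m → F} (ha : a ∈ Submodule.span F (Set.range x)) (hb : b ∈ Submodule.span F (Set.range x)) :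
    Cfsg.sympForm m F a b = 0 := by
  induction ha using Submodule.span_induction with
  | mem a ha =>
    obtain ⟨i, rfl⟩ := ha
    induction hb using Submodule.span_induction with
    | mem b hb =>
      obtain ⟨j, rfl⟩ := hb
      exact hx i j
    | zero => simp [Cfsg.sympForm]
    | add u v _ _ hu hv => rw [sympForm_add_right, hu, hv, add_zero]
    | smul c u _ hu => rw [sympForm_smul_right, hu, mul_zero]
  | zero => simp [Cfsg.sympForm]
  | add u v _ _ hu hv => rw [sympForm_add_left, hu, hv, add_zero]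
  | smul c u _ hu => rw [sympForm_smul_left, hu, mul_zero]

instance instTrans (k : ℕ) : MulAction.IsPretransitive (symplecticGroup (Fin m) F) (TI m k F) := by
  refine ⟨fun x y => ?_⟩
  classical
  let bx := Module.Basis.span x.2.1
  let by' := Module.Basis.span y.2.1
  let φ : Submodule.span F (Set.range x.1) ≃ₗ[F] Submodule.span F (Set.range y.1) := bx.equiv by' (Equiv.refl _)
  have hφi : ∀ i, ((φ (bx i) : Submodule.span F (Set.range y.1)) : Fin m ⊕ Fin m → F) = y.1 i := by
    intro i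
    have h1 : φ (bx i) = by' i := by simp [φ]
    rw [h1, Module.Basis.span_apply]
  obtain ⟨g, hg, hgφ⟩ := Cfsg.Agent.S0749.result (sympBilin m F) sympBilin_nondegenerate (fun z => sympForm_self z)
    (Submodule.span F (Set.range x.1)) (Submodule.span F (Set.range y.1)) φ
    (fun a a' => by
      rw [sympBilin_apply, sympBilin_apply, form_span x.1 x.2.2 a.2 a'.2, form_span y.1 y.2.2 (φ a).2 (φ a').2])
  let M : Matrix (Fin m ⊕ Fin m) (Fin m ⊕ Fin m) F := LinearMap.toMatrix' g.toLinearMap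
  have hM : ∀ v, M *ᵥ v = g v := fun v => by simp [M]
  have hMs : M ∈ symplecticGroup (Fin m) F := by
    apply mem_symplectic_of_preserves
    intro u v
    rw [hM, hM]
    exact hg u v
  refine ⟨⟨M, hMs⟩, ?_⟩
  apply Subtype.ext
  funext i
  rw [smul_val]
  show M *ᵥ x.1 i = y.1 i
  rw [hM]
  have h2 := hgφ (bx i)
  rw [hφi, Module.Basis.span_apply] at h2
  exact h2

section card
variable [Fintype F] {q : ℕ}

/-- The perpendicular space of a tuple. -/
noncomputable def Spn {k : ℕ} (t : TI m k F) : Submodule F (Fin m ⊕ Fin m → F) := Submodule.span F (Set.range t.1)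

noncomputable def Orth {k : ℕ} (t : TI m k F) : Submodule F (Fin m ⊕ Fin m → F) := (sympBilin m F).orthogonal (Spn t)

theorem mem_Orth {k : ℕ} (t : TI m k F) (v : Fin m ⊕ Fin m → F) :
    v ∈ Orth t ↔ ∀ i, Cfsg.sympForm m F (t.1 i) v = 0 := by
  rw [Orth, mem_symp_orthogonal]
  constructor
  · intro h i
    exact h _ (Submodule.subset_span ⟨i, rfl⟩)
  · intro h w hw
    induction hw using Submodule.span_induction with
    | mem a ha =>
      obtain ⟨i, rfl⟩ := ha
      exact h i
    | zero => simp [Cfsg.sympForm]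
    | add u w _ _ hu hw => rw [sympForm_add_left, hu, hw, add_zero]
    | smul c u _ hu => rw [sympForm_smul_left, hu, mul_zero]

theorem card_fiber (hF : Fintype.card F = q) {k : ℕ} (t : TI m k F) :
    Nat.card {v : Fin m ⊕ Fin m → F // v ∈ Orth t ∧ v ∉ Spn t} = q ^ (2 * m - k) - q ^ k := by
  classical
  have hfS : Module.finrank F (Spn t) = k := by
    rw [Spn, finrank_span_eq_card t.2.1, Fintype.card_fin]
  have hfO : Module.finrank F (Orth t) = 2 * m - k := by
    rw [Orth, finrank_symp_orthogonal, hfS]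
  have hle : Spn t ≤ Orth t := by
    intro v hv
    rw [mem_Orth]
    intro i
    exact form_span t.1 t.2.2 (Submodule.subset_span ⟨i, rfl⟩) hv
  have hcO : Nat.card (Orth t) = q ^ (2 * m - k) := by
    rw [Module.natCard_eq_pow_finrank (K := F), hfO, Nat.card_eq_fintype_card, hF]
  have hcS : Nat.card (Spn t) = q ^ k := by
    rw [Module.natCard_eq_pow_finrank (K := F), hfS, Nat.card_eq_fintype_card, hF]
  have h1 : Nat.card {v : Fin m ⊕ Fin m → F // v ∈ Orth t ∧ v ∉ Spn t} = ((Orth t : Set (Fin m ⊕ Fin m → F)) \ (Spn t : Set (Fin m ⊕ Fin m → F))).ncard := by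
    rw [← Nat.card_coe_set_eq]
    rfl
  rw [h1, Set.ncard_sdiff (by exact_mod_cast hle) (Set.toFinite _)]
  congr 1

/-- Removing the first vector. -/
noncomputable def succEquiv (k : ℕ) :
    TI m (k + 1) F ≃ Σ t : TI m k F, {v : Fin m ⊕ Fin m → F // v ∈ Orth t ∧ v ∉ Spn t} where
  toFun x :=
    have hLI := linearIndependent_finCons.mp (show LinearIndependent F (Fin.cons (x.1 0) (Fin.tail x.1) : Fin (k + 1) → _) by
      rw [Fin.cons_self_tail]; exact x.2.1)
    let t : TI m k F := ⟨Fin.tail x.1, hLI.1, fun i j => x.2.2 _ _⟩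
    ⟨t, ⟨x.1 0, (mem_Orth t _).mpr (fun i => x.2.2 _ _), hLI.2⟩⟩
  invFun p := ⟨Fin.cons p.2.1 p.1.1, by
    refine ⟨linearIndependent_finCons.mpr ⟨p.1.2.1, p.2.2.2⟩, ?_⟩
    have h1 := (mem_Orth p.1 _).mp p.2.2.1
    intro i j
    refine Fin.cases ?_ (fun i => ?_) i <;> refine Fin.cases ?_ (fun j => ?_) j
    · exact sympForm_self _
    · simp only [Fin.cons_zero, Fin.cons_succ]
      rw [sympForm_comm, h1, neg_zero]
    · simp only [Fin.cons_zero, Fin.cons_succ]
      exact h1 i
    · simp only [Fin.cons_succ]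
      exact p.1.2.2 i j⟩
  left_inv x := by
    apply Subtype.ext
    exact Fin.cons_self_tail x.1
  right_inv := by
    rintro ⟨t, v, hv⟩
    rfl

instance (k : ℕ) : Finite (TI m k F) := by
  unfold TI
  infer_instance

theorem card_TI (hF : Fintype.card F = q) (k : ℕ) :
    Nat.card (TI m k F) = ∏ i ∈ Finset.range k, (q ^ (2 * m - i) - q ^ i) := by
  classical
  induction k with
  | zero =>
    simp only [Finset.range_zero, Finset.prod_empty]
    have : Unique (TI m 0 F) := by
      refine ⟨⟨⟨Fin.elim0, linearIndependent_empty_type, fun i => i.elim0⟩⟩, fun x => ?_⟩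
      apply Subtype.ext
      funext i
      exact i.elim0
    exact Nat.card_unique
  | succ k ih =>
    haveI := Fintype.ofFinite (TI m k F)
    rw [Nat.card_congr (succEquiv k), Nat.card_sigma, Finset.prod_range_succ, ← ih]
    simp only [card_fiber hF, Finset.sum_const, smul_eq_mul, Finset.card_univ, Nat.card_eq_fintype_card]

theorem pure_arith {q : ℕ} (hq : 1 ≤ q) (m k : ℕ) (hk : k ≤ m) :
    q ^ (k * (k + 1) / 2 + 2 * k * (m - k)) * (q ^ ((m - k) ^ 2) * ∏ i ∈ Finset.range (m - k), (q ^ (2 * (i + 1)) - 1)) *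
      ∏ i ∈ Finset.range k, (q ^ (2 * m - i) - q ^ i) = q ^ (m ^ 2) * ∏ i ∈ Finset.range m, (q ^ (2 * (i + 1)) - 1) := by
  induction k with
  | zero => simp
  | succ k ih =>
    rw [← ih (by omega)]
    obtain ⟨s, rfl⟩ : ∃ s, m = k + s + 1 := ⟨m - k - 1, by omega⟩
    have e1 : k + s + 1 - (k + 1) = s := by omega
    have e2 : k + s + 1 - k = s + 1 := by omega
    rw [e1, e2, Finset.prod_range_succ (fun i => q ^ (2 * (i + 1)) - 1) s, Finset.prod_range_succ (fun i => q ^ (2 * (k + s + 1) - i) - q ^ i) k]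
    have e3 : q ^ (2 * (k + s + 1) - k) - q ^ k = q ^ k * (q ^ (2 * (s + 1)) - 1) := by
      rw [Nat.mul_sub, mul_one, ← pow_add]
      congr 2
      omega
    rw [e3]
    have e4 : k * (k + 1) / 2 + 2 * k * (s + 1) + (s + 1) ^ 2 = (k + 1) * (k + 1 + 1) / 2 + 2 * (k + 1) * s + s ^ 2 + k := by
      have h1 : (k + 1) * (k + 1 + 1) = k * (k + 1) + 2 * (k + 1) := by ring
      have h2 : (k + 1) * (k + 1 + 1) / 2 = k * (k + 1) / 2 + (k + 1) := by
        rw [h1, Nat.add_mul_div_left _ _ (by norm_num : 0 < 2)]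
      rw [h2]
      ring
    have e5 : ∀ a b c d : ℕ, q ^ (k * (k + 1) / 2 + 2 * k * (s + 1)) * (q ^ ((s + 1) ^ 2) * (a * b)) * c = q ^ ((k + 1) * (k + 1 + 1) / 2 + 2 * (k + 1) * s) * (q ^ (s ^ 2) * a) * (c * (q ^ k * b)) := by
      intro a b c _
      have : q ^ (k * (k + 1) / 2 + 2 * k * (s + 1)) * q ^ ((s + 1) ^ 2) = q ^ ((k + 1) * (k + 1 + 1) / 2 + 2 * (k + 1) * s) * q ^ (s ^ 2) * q ^ k := by
        rw [← pow_add, ← pow_add, ← pow_add, e4]
      calc _ = (q ^ (k * (k + 1) / 2 + 2 * k * (s + 1)) * q ^ ((s + 1) ^ 2)) * (a * b) * c := by ring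
        _ = _ := by rw [this]; ring
    exact (e5 _ _ _ 0).symm

end card

end Cfsg.Agent.H03.SpPara
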