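import Mathlib
import Cfsg.Prelude.Def_PLocal
import Cfsg.Agent.Lib.H03.Thompson

set_option autoImplicit false

namespace Cfsg.Agent.H03

open Cfsg

universe u

section

variable {S S' : Type u} [Group S] [Group S'] {p : ℕ}

theorem isStableEmbedding_comp_equiv (η : S ≃* S') {H : Type u} [Group H] {τ : S' →* H}
    (h : IsStableEmbedding p τ) : IsStableEmbedding p (τ.comp η.toMonoidHom) := by
  obtain ⟨h1, h2, ⟨P, hP⟩, h4, h5, h6⟩ := h
  have hrange : (τ.comp η.toMonoidHom).range = τ.range := by
    rw [MonoidHom.range_comp]
    have : η.toMonoidHom.range = ⊤ := MonoidHom.range_eq_top.mpr η.surjective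
    rw [this, ← MonoidHom.range_eq_map]
  have e1 : (thompsonSubgroup p S).map (τ.comp η.toMonoidHom) = (thompsonSubgroup p S').map τ := by
    rw [← Subgroup.map_map, thompsonSubgroup_map]
  have e2 : (omegaCenterThompson p S).map (τ.comp η.toMonoidHom)
      = (omegaCenterThompson p S').map τ := by
    rw [← Subgroup.map_map, omegaCenterThompson_map_equiv]
  refine ⟨?_, h2, ⟨P, ?_⟩, h4, ?_, ?_⟩
  · exact h1.comp η.injective
  · rw [hrange]; exact hP
  · rw [e1]; exact h5
  · intro V _ hV
    rw [e2] at hV
    exact h6 V hV

/-- The family defining `W(S)`. -/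
def stableFamily (p : ℕ) (S : Type u) [Group S] : Set (Subgroup S) :=
  {W : Subgroup S | omegaOne p (Subgroup.center S) ≤ W ∧
    ∀ (H : Type u) [Group H] (τ : S →* H), IsStableEmbedding p τ → (W.map τ).Normal}

theorem stableNormalClosure_eq : stableNormalClosure p S = sInf (stableFamily p S) := rfl

theorem omegaOne_center_map_equiv (η : S ≃* S') :
    (omegaOne p (Subgroup.center S)).map η.toMonoidHom = omegaOne p (Subgroup.center S') := by
  rw [omegaOne_map _ η.injective, center_map_equiv]

theorem stableFamily_map (η : S ≃* S') {W : Subgroup S} (h : W ∈ stableFamily p S) :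
    W.map η.toMonoidHom ∈ stableFamily p S' := by
  refine ⟨?_, ?_⟩
  · rw [← omegaOne_center_map_equiv η]
    exact Subgroup.map_mono h.1
  · intro H _ τ hτ
    have := h.2 H (τ.comp η.toMonoidHom) (isStableEmbedding_comp_equiv η hτ)
    rwa [← Subgroup.map_map] at this

theorem stableNormalClosure_map_le (η : S ≃* S') :
    (stableNormalClosure p S).map η.toMonoidHom ≤ stableNormalClosure p S' := by
  refine le_sInf fun W' hW' => ?_
  have h1 : stableNormalClosure p S ≤ W'.map η.symm.toMonoidHom :=
    sInf_le (stableFamily_map η.symm hW')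
  have h2 := Subgroup.map_mono (f := η.toMonoidHom) h1
  rwa [map_map_symm] at h2

theorem stableNormalClosure_map (η : S ≃* S') :
    (stableNormalClosure p S).map η.toMonoidHom = stableNormalClosure p S' := by
  apply le_antisymm (stableNormalClosure_map_le η)
  have h := Subgroup.map_mono (f := η.toMonoidHom) (stableNormalClosure_map_le (p := p) η.symm)
  rwa [map_map_symm] at h

end

section

variable {S : Type u} [Group S] [Finite S] {p : ℕ}

theorem omegaCenterThompson_map_normal {H : Type u} [Group H] {τ : S →* H}
    (hτ : IsStableEmbedding p τ) : ((omegaCenterThompson p S).map τ).Normal := by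
  obtain ⟨h1, _, _, _, h5, _⟩ := hτ
  rw [omegaCenterThompson_map τ h1]
  have := h5
  have : (Subgroup.centralizer (((thompsonSubgroup p S).map τ : Subgroup H) : Set H)).Normal :=
    Subgroup.normal_centralizer
  have : ((thompsonSubgroup p S).map τ ⊓
      Subgroup.centralizer (((thompsonSubgroup p S).map τ : Subgroup H) : Set H)).Normal :=
    Subgroup.normal_inf_normal _ _
  exact omegaOne_normal

theorem omegaCenterThompson_mem_stableFamily :
    omegaCenterThompson p S ∈ stableFamily p S :=
  ⟨omegaOne_center_le, fun _ _ _ hτ => omegaCenterThompson_map_normal hτ⟩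

theorem omegaOne_center_le_stableNormalClosure :
    omegaOne p (Subgroup.center S) ≤ stableNormalClosure p S :=
  le_sInf fun _ hW => hW.1

theorem stableNormalClosure_le_omegaCenterThompson :
    stableNormalClosure p S ≤ omegaCenterThompson p S :=
  sInf_le omegaCenterThompson_mem_stableFamily

/-- `W(S)` itself has normal images under stable embeddings. -/
theorem stableNormalClosure_map_normal {H : Type u} [Group H] {τ : S →* H}
    (hτ : IsStableEmbedding p τ) : ((stableNormalClosure p S).map τ).Normal := by
  constructor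
  rintro _ ⟨s, hs, rfl⟩ g
  have hinj := hτ.1
  have hΩ := omegaCenterThompson_map_normal hτ
  obtain ⟨s₀, _, hs₀⟩ := hΩ.conj_mem (τ s) ⟨s, stableNormalClosure_le_omegaCenterThompson hs, rfl⟩ g
  refine ⟨s₀, ?_, hs₀⟩
  rw [stableNormalClosure_eq]
  change s₀ ∈ sInf (stableFamily p S)
  rw [Subgroup.mem_sInf]
  intro W hW
  have hs' : s ∈ W := by
    have : stableNormalClosure p S ≤ W := sInf_le hW
    exact this hs
  have := hW.2 H τ hτ
  obtain ⟨s₁, hs₁, he⟩ := (inferInstance : (W.map τ).Normal).conj_mem (τ s) ⟨s, hs', rfl⟩ g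
  have : s₀ = s₁ := hinj (hs₀.trans he.symm)
  rwa [this]

theorem stableNormalClosure_mem_stableFamily :
    stableNormalClosure p S ∈ stableFamily p S :=
  ⟨omegaOne_center_le_stableNormalClosure, fun _ _ _ hτ => stableNormalClosure_map_normal hτ⟩

theorem stableNormalClosure_isEA : IsElementaryAbelian p (stableNormalClosure p S) := by
  have h := stableNormalClosure_le_omegaCenterThompson (S := S) (p := p)
  have h2 := omegaCenterThompson_isEA (P := S) (p := p)
  exact ⟨isMulCommutative_of_forall fun x hx y hy =>
    mul_comm_of_isMulCommutative h2.1 (h hx) (h hy), fun a ha => h2.2 a (h ha)⟩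

end

end Cfsg.Agent.H03
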