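import Mathlib
import Cfsg.Prelude.Def_PLocal
import Cfsg.Agent.Lib.H03.Stable
import Cfsg.Agent.Lib.H01.Fitting

set_option autoImplicit false

namespace Cfsg.Agent.H03

open Cfsg
open scoped commutatorElement

universe u

section commutators

variable {H : Type*} [Group H]

/-- Replacing `a` by `b ≡ a` modulo a normal subgroup `C` centralizing `U`
does not change the commutator with `U`. -/
theorem commutator_zpowers_le_of_congr {C U : Subgroup H} [C.Normal] {a b : H}
    (hab : (QuotientGroup.mk a : H ⧸ C) = QuotientGroup.mk b)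
    (hU : ∀ u ∈ U, ∀ c ∈ C, u * c = c * u) :
    ⁅U, Subgroup.zpowers a⁆ ≤ ⁅U, Subgroup.zpowers b⁆ := by
  rw [Subgroup.commutator_le]
  intro u hu g hg
  obtain ⟨k, rfl⟩ := Subgroup.mem_zpowers_iff.mp hg
  have h1 : (QuotientGroup.mk (b ^ k) : H ⧸ C) = QuotientGroup.mk (a ^ k) := by
    rw [QuotientGroup.mk_zpow, QuotientGroup.mk_zpow, hab]
  have h2 := QuotientGroup.eq.mp h1
  -- `a ^ k = b ^ k * c`
  set c := (b ^ k)⁻¹ * a ^ k with hc
  have h3 : a ^ k = b ^ k * c := by rw [hc]; group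
  have h4 : ⁅u, a ^ k⁆ = ⁅u, b ^ k⁆ := by
    rw [h3, commutatorElement_def, commutatorElement_def]
    have h5 : u * c = c * u := hU u hu c h2
    have h6 : u⁻¹ * c = c * u⁻¹ := by
      have : c * u⁻¹ = u⁻¹ * (u * c) * u⁻¹ := by group
      rw [this, h5]; group
    calc u * (b ^ k * c) * u⁻¹ * (b ^ k * c)⁻¹
        = u * b ^ k * (c * u⁻¹) * c⁻¹ * (b ^ k)⁻¹ := by group
      _ = u * b ^ k * (u⁻¹ * c) * c⁻¹ * (b ^ k)⁻¹ := by rw [h6]
      _ = u * b ^ k * u⁻¹ * (b ^ k)⁻¹ := by group
  rw [h4]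
  exact Subgroup.commutator_mem_commutator hu (Subgroup.zpow_mem_zpowers b k)

theorem commutator_zpowers_eq_of_congr {C U : Subgroup H} [C.Normal] {a b : H}
    (hab : (QuotientGroup.mk a : H ⧸ C) = QuotientGroup.mk b)
    (hU : ∀ u ∈ U, ∀ c ∈ C, u * c = c * u) :
    ⁅U, Subgroup.zpowers a⁆ = ⁅U, Subgroup.zpowers b⁆ :=
  le_antisymm (commutator_zpowers_le_of_congr hab hU) (commutator_zpowers_le_of_congr hab.symm hU)

/-- Quadratic action depends only on the class modulo the centralizer. -/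
theorem quad_congr {V : Subgroup H} [V.Normal] {a b : H}
    (hab : (QuotientGroup.mk a : H ⧸ Subgroup.centralizer (V : Set H)) = QuotientGroup.mk b)
    (hq : ⁅⁅V, Subgroup.zpowers a⁆, Subgroup.zpowers a⁆ = ⊥) :
    ⁅⁅V, Subgroup.zpowers b⁆, Subgroup.zpowers b⁆ = ⊥ := by
  have hV : ∀ u ∈ V, ∀ c ∈ Subgroup.centralizer (V : Set H), u * c = c * u := by
    intro u hu c hc
    exact (Subgroup.mem_centralizer_iff.mp hc u hu)
  have h1 := commutator_zpowers_eq_of_congr hab hV
  have h2 : ⁅V, Subgroup.zpowers a⁆ ≤ V := Subgroup.commutator_le_left _ _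
  have hV1 : ∀ u ∈ ⁅V, Subgroup.zpowers a⁆, ∀ c ∈ Subgroup.centralizer (V : Set H), u * c = c * u :=
    fun u hu c hc => hV u (h2 hu) c hc
  have h3 := commutator_zpowers_eq_of_congr hab hV1
  rw [← h1, ← h3, hq]

/-- Conjugate of a quadratic element on a normal subgroup is quadratic. -/
theorem quad_conj {V : Subgroup H} [hV : V.Normal] {a : H} (h : H)
    (hq : ⁅⁅V, Subgroup.zpowers a⁆, Subgroup.zpowers a⁆ = ⊥) :
    ⁅⁅V, Subgroup.zpowers (h * a * h⁻¹)⁆, Subgroup.zpowers (h * a * h⁻¹)⁆ = ⊥ := by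
  have h1 : V.map (MulAut.conj h).toMonoidHom = V := by
    ext x
    constructor
    · rintro ⟨y, hy, rfl⟩
      exact hV.conj_mem y hy h
    · intro hx
      refine ⟨h⁻¹ * x * h, ?_, ?_⟩
      · have := hV.conj_mem x hx h⁻¹
        simpa using this
      · change h * (h⁻¹ * x * h) * h⁻¹ = x
        group
  have h2 : (Subgroup.zpowers a).map (MulAut.conj h).toMonoidHom
      = Subgroup.zpowers (h * a * h⁻¹) := by
    rw [MonoidHom.map_zpowers]; rfl
  have h3 := congrArg (Subgroup.map (MulAut.conj h).toMonoidHom) hq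
  rw [Subgroup.map_commutator, Subgroup.map_commutator, h1, h2, Subgroup.map_bot] at h3
  exact h3

theorem commute_of_commutator_eq_bot {U : Subgroup H} {x : H}
    (h : ⁅U, Subgroup.zpowers x⁆ = ⊥) {u : H} (hu : u ∈ U) : u * x = x * u := by
  have h1 : ⁅u, x⁆ ∈ ⁅U, Subgroup.zpowers x⁆ :=
    Subgroup.commutator_mem_commutator hu (Subgroup.mem_zpowers x)
  rw [h, Subgroup.mem_bot, commutatorElement_eq_one_iff_mul_comm] at h1
  exact h1

theorem commutator_eq_bot_of_commute {U : Subgroup H} {x : H}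
    (h : ∀ u ∈ U, u * x = x * u) : ⁅U, Subgroup.zpowers x⁆ = ⊥ := by
  rw [eq_bot_iff, Subgroup.commutator_le]
  intro u hu g hg
  obtain ⟨k, rfl⟩ := Subgroup.mem_zpowers_iff.mp hg
  rw [Subgroup.mem_bot, commutatorElement_eq_one_iff_mul_comm]
  exact (Commute.zpow_right (show Commute u x from h u hu) k)

end commutators

section pcore

variable {H : Type*} [Group H] [Finite H] {p : ℕ} [Fact p.Prime]

/-- An element of `O_p(H/C)` is in the image of every Sylow subgroup, in every conjugate. -/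
theorem exists_sylow_rep {C : Subgroup H} [C.Normal] {a : H} (P : Sylow p H)
    (ha : (QuotientGroup.mk a : H ⧸ C) ∈ pCore p (H ⧸ C)) :
    ∃ y ∈ (P : Subgroup H), (QuotientGroup.mk y : H ⧸ C) = QuotientGroup.mk a := by
  have hsurj : Function.Surjective (QuotientGroup.mk' C) := QuotientGroup.mk'_surjective C
  have h1 := Cfsg.Agent.H01.pCore_le_sylow p (P.mapSurjective hsurj) ha
  rw [Sylow.coe_mapSurjective] at h1
  obtain ⟨y, hy, hye⟩ := h1
  exact ⟨y, hy, hye⟩

theorem conj_mem_pCore_quotient {C : Subgroup H} [C.Normal] {a : H} (h : H)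
    (ha : (QuotientGroup.mk a : H ⧸ C) ∈ pCore p (H ⧸ C)) :
    (QuotientGroup.mk (h * a * h⁻¹) : H ⧸ C) ∈ pCore p (H ⧸ C) := by
  have hn := Cfsg.Agent.H01.pCore_normal (G := H ⧸ C) p
  have := hn.conj_mem _ ha (QuotientGroup.mk h)
  simpa using this

end pcore

section noquad

variable {S H : Type u} [Group S] [Group H] {p : ℕ} [Fact p.Prime]

/-- No element of `S` acts quadratically and nontrivially on `U`. -/
def NoQuad (U : Subgroup S) : Prop :=
  ∀ x : S, ⁅⁅U, Subgroup.zpowers x⁆, Subgroup.zpowers x⁆ = ⊥ → ⁅U, Subgroup.zpowers x⁆ = ⊥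

/-- Key lemma: an element acting quadratically on the normal closure of `τ(U)`, for `NoQuad U`,
`τ(S)` Sylow and `p`-stable action, centralizes it. -/
theorem quad_key [Finite H] {τ : S →* H} (hinj : Function.Injective τ) (P : Sylow p H)
    (hP : (P : Subgroup H) = τ.range) {U : Subgroup S} (hU : NoQuad U) {V : Subgroup H}
    [hVn : V.Normal] (hUV : U.map τ ≤ V)
    (hgen : V = Subgroup.normalClosure ((U.map τ : Subgroup H) : Set H))
    (hpst : IsPStableOn p V) {a : H} (hqa : ⁅⁅V, Subgroup.zpowers a⁆, Subgroup.zpowers a⁆ = ⊥) :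
    ⁅V, Subgroup.zpowers a⁆ = ⊥ := by
  have ha := hpst a hqa
  -- `a` centralizes each conjugate of `τ(U)`.
  have key : ∀ (c : H), ∀ u ∈ U, (c * τ u * c⁻¹) * a = a * (c * τ u * c⁻¹) := by
    intro c u hu
    set b := c⁻¹ * a * c⁻¹⁻¹ with hb
    have hmem := conj_mem_pCore_quotient (p := p) c⁻¹ ha
    obtain ⟨y, hy, hye⟩ := exists_sylow_rep P hmem
    rw [hP] at hy
    obtain ⟨y', rfl⟩ := hy
    -- `y'` is quadratic on `U`
    have hqb : ⁅⁅V, Subgroup.zpowers b⁆, Subgroup.zpowers b⁆ = ⊥ := quad_conj c⁻¹ hqa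
    have hqy : ⁅⁅V, Subgroup.zpowers (τ y')⁆, Subgroup.zpowers (τ y')⁆ = ⊥ :=
      quad_congr hye.symm hqb
    have hqU : ⁅⁅U, Subgroup.zpowers y'⁆, Subgroup.zpowers y'⁆ = ⊥ := by
      have h1 : (⁅⁅U, Subgroup.zpowers y'⁆, Subgroup.zpowers y'⁆).map τ = ⊥ := by
        rw [Subgroup.map_commutator, Subgroup.map_commutator, MonoidHom.map_zpowers, eq_bot_iff,
          ← hqy]
        exact Subgroup.commutator_mono (Subgroup.commutator_mono hUV le_rfl) le_rfl
      exact (Subgroup.map_eq_bot_iff_of_injective _ hinj).mp h1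
    have hcU := hU y' hqU
    have h1 : u * y' = y' * u := commute_of_commutator_eq_bot hcU hu
    have h2 : τ u * τ y' = τ y' * τ u := by rw [← map_mul, ← map_mul, h1]
    -- `b = τ y' * c'` where `c'` centralizes `V`
    have h3 := QuotientGroup.eq.mp hye
    set c' := (τ y')⁻¹ * b with hc'
    have h4 : b = τ y' * c' := by rw [hc']; group
    have h5 : τ u ∈ V := hUV ⟨u, hu, rfl⟩
    have h6 : τ u * c' = c' * τ u := Subgroup.mem_centralizer_iff.mp h3 _ h5
    have h7 : τ u * b = b * τ u := by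
      rw [h4]
      calc τ u * (τ y' * c') = (τ u * τ y') * c' := by group
        _ = τ y' * (τ u * c') := by rw [h2]; group
        _ = τ y' * (c' * τ u) := by rw [h6]
        _ = τ y' * c' * τ u := by group
    -- conclude
    have h8 : c⁻¹ * a * c = b := by rw [hb]; group
    calc (c * τ u * c⁻¹) * a = c * (τ u * (c⁻¹ * a * c)) * c⁻¹ := by group
      _ = c * (τ u * b) * c⁻¹ := by rw [h8]
      _ = c * (b * τ u) * c⁻¹ := by rw [h7]
      _ = c * ((c⁻¹ * a * c) * τ u) * c⁻¹ := by rw [h8]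
      _ = a * (c * τ u * c⁻¹) := by group
  have hVc : V ≤ Subgroup.centralizer ({a} : Set H) := by
    rw [hgen, Subgroup.normalClosure, Subgroup.closure_le]
    intro v hv
    rw [Group.mem_conjugatesOfSet_iff] at hv
    obtain ⟨w, ⟨u, hu, rfl⟩, hw⟩ := hv
    obtain ⟨c, rfl⟩ := isConj_iff.mp hw
    change _ ∈ Subgroup.centralizer ({a} : Set H)
    rw [Subgroup.mem_centralizer_iff]
    intro z hz
    rw [Set.mem_singleton_iff] at hz
    subst hz
    exact (key c u hu).symm
  apply commutator_eq_bot_of_commute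
  intro u hu
  have := Subgroup.mem_centralizer_iff.mp (hVc hu) a rfl
  exact this.symm

/-- `NoQuad` passes to the normal closure under a stable embedding. -/
theorem noQuad_of_normalClosure [Finite S] {τ : S →* H} (hτ : IsStableEmbedding p τ)
    {U V' : Subgroup S} (hU : NoQuad U) (hUV' : U ≤ V')
    (hV'Ω : V' ≤ omegaCenterThompson p S)
    (hgen : V'.map τ = Subgroup.normalClosure ((U.map τ : Subgroup H) : Set H)) : NoQuad V' := by
  obtain ⟨hinj, hfin, ⟨P, hP⟩, _, _, hstab⟩ := hτ
  intro x hx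
  set V := V'.map τ with hV
  have hVn : V.Normal := by rw [hgen]; exact Subgroup.normalClosure_normal
  have hqa : ⁅⁅V, Subgroup.zpowers (τ x)⁆, Subgroup.zpowers (τ x)⁆ = ⊥ := by
    have h1 := congrArg (Subgroup.map τ) hx
    rw [Subgroup.map_commutator, Subgroup.map_commutator, MonoidHom.map_zpowers,
      Subgroup.map_bot] at h1
    exact h1
  have hpst : IsPStableOn p V := hstab V (Subgroup.map_mono hV'Ω)
  have hc := quad_key hinj P hP hU (Subgroup.map_mono hUV') hgen hpst hqa
  apply commutator_eq_bot_of_commute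
  intro u hu
  apply hinj
  rw [map_mul, map_mul]
  exact commute_of_commutator_eq_bot hc ⟨u, hu, rfl⟩

omit [Fact p.Prime] in
theorem noQuad_omegaOne_center : NoQuad (omegaOne p (Subgroup.center S)) := by
  intro x _
  apply commutator_eq_bot_of_commute
  intro u hu
  exact (Subgroup.mem_center_iff.mp (omegaOne_le hu) x).symm

/-- `W(S)` has no quadratic nontrivial action. -/
theorem noQuad_stableNormalClosure [Finite S] : NoQuad (stableNormalClosure p S) := by
  classical
  set W := stableNormalClosure p S with hW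
  have hΩ0 : omegaOne p (Subgroup.center S) ≤ W := omegaOne_center_le_stableNormalClosure
  let F := {U : Subgroup S // U ≤ W ∧ omegaOne p (Subgroup.center S) ≤ U ∧ NoQuad U}
  have hne : Nonempty F := ⟨⟨omegaOne p (Subgroup.center S), hΩ0, le_rfl, noQuad_omegaOne_center⟩⟩
  obtain ⟨U, hU⟩ := Finite.exists_max (fun U : F => Nat.card (U : Subgroup S))
  obtain ⟨U, hUW, hUΩ, hUq⟩ := U
  have hfam : U ∈ stableFamily p S := by
    refine ⟨hUΩ, ?_⟩
    intro H _ τ hτ
    have hWn : (W.map τ).Normal := stableNormalClosure_map_normal hτ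
    have hcl : Subgroup.normalClosure ((U.map τ : Subgroup H) : Set H) ≤ W.map τ :=
      Subgroup.normalClosure_le_normal (Subgroup.map_mono hUW)
    set V' := (Subgroup.normalClosure ((U.map τ : Subgroup H) : Set H)).comap τ with hV'
    have hmapV' : V'.map τ = Subgroup.normalClosure ((U.map τ : Subgroup H) : Set H) := by
      apply Subgroup.map_comap_eq_self
      exact hcl.trans (Subgroup.map_le_range _ _)
    have hUV' : U ≤ V' := by
      intro u hu
      exact Subgroup.le_normalClosure ⟨u, hu, rfl⟩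
    have hV'W : V' ≤ W := by
      intro v hv
      obtain ⟨w, hw, he⟩ := hcl hv
      rwa [← hτ.1 he]
    have hq' : NoQuad V' := noQuad_of_normalClosure hτ hUq hUV'
      (hV'W.trans stableNormalClosure_le_omegaCenterThompson) hmapV'
    have hcard := hU ⟨V', hV'W, hUΩ.trans hUV', hq'⟩
    have he : U = V' := Subgroup.eq_of_le_of_card_ge hUV' hcard
    rw [he, hmapV']
    exact Subgroup.normalClosure_normal
  have hWU : W ≤ U := sInf_le hfam
  have : W = U := le_antisymm hWU hUW
  rw [this]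
  exact hUq

end noquad

end Cfsg.Agent.H03
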