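import Mathlib
import Cfsg.Agent.Lib.H03.TIStab

/-! The number of totally isotropic subspaces of given dimension. -/

set_option autoImplicit false

namespace Cfsg.Agent.H03.TS

open Cfsg Matrix Module Cfsg.Agent.Lead

variable {F : Type*} [Field F] [Fintype F] {q n : ℕ}

/-- double counting of pairs (point, subspace) -/
theorem ti_total_k {V : Type*} [AddCommGroup V] [Module F V] [FiniteDimensional F V] {h : V → V → F} (k c : ℕ)
    (hc : ∀ v : V, v ≠ 0 → h v v = 0 →
      Nat.card {W : Submodule F V // finrank F W = k ∧ v ∈ W ∧ ∀ x ∈ W, ∀ y ∈ W, h x y = 0} = c) :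
    Nat.card {v : V // v ≠ 0 ∧ h v v = 0} * c =
      Nat.card {W : Submodule F V // finrank F W = k ∧ ∀ x ∈ W, ∀ y ∈ W, h x y = 0} * (Fintype.card F ^ k - 1) := by
  classical
  haveI : Finite V := Module.finite_of_finite F
  haveI : Fintype V := Fintype.ofFinite V
  haveI : Finite (Submodule F V) := Finite.of_injective (fun W => (W : Set V)) (fun _ _ e => SetLike.coe_injective e)
  haveI : Fintype (Submodule F V) := Fintype.ofFinite _
  let e : (Σ v : {v : V // v ≠ 0 ∧ h v v = 0},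
        {W : Submodule F V // finrank F W = k ∧ v.1 ∈ W ∧ ∀ x ∈ W, ∀ y ∈ W, h x y = 0}) ≃
      (Σ W : {W : Submodule F V // finrank F W = k ∧ ∀ x ∈ W, ∀ y ∈ W, h x y = 0}, {x // x ∈ W.1 ∧ x ∉ (⊥ : Submodule F V)}) :=
    { toFun := fun p => ⟨⟨p.2.1, p.2.2.1, p.2.2.2.2⟩, ⟨p.1.1, p.2.2.2.1, by simpa using p.1.2.1⟩⟩
      invFun := fun p => ⟨⟨p.2.1, by simpa using p.2.2.2, p.1.2.2 _ p.2.2.1 _ p.2.2.1⟩,
        ⟨p.1.1, p.1.2.1, p.2.2.1, p.1.2.2⟩⟩
      left_inv := fun _ => rfl
      right_inv := fun _ => rfl }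
  have h1 := Nat.card_congr e
  rw [Nat.card_sigma, Nat.card_sigma] at h1
  have h2 : ∀ v : {v : V // v ≠ 0 ∧ h v v = 0},
      Nat.card {W : Submodule F V // finrank F W = k ∧ v.1 ∈ W ∧ ∀ x ∈ W, ∀ y ∈ W, h x y = 0} = c :=
    fun v => hc v.1 v.2.1 v.2.2
  have h3 : ∀ W : {W : Submodule F V // finrank F W = k ∧ ∀ x ∈ W, ∀ y ∈ W, h x y = 0},
      Nat.card {x // x ∈ W.1 ∧ x ∉ (⊥ : Submodule F V)} = Fintype.card F ^ k - 1 := by
    intro W
    rw [card_diff _ _ bot_le, card_sub, W.2.1]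
    simp
  simp only [h2, h3, Finset.sum_const, Finset.card_univ, smul_eq_mul, Nat.card_eq_fintype_card] at h1
  simpa only [Nat.card_eq_fintype_card] using h1

/-- dropping the two coordinates -/
noncomputable def dropL (n : ℕ) (F : Type*) [Field F] : (Fin (n + 2) → F) →ₗ[F] (Fin n → F) :=
  LinearMap.funLeft F F (fun i : Fin n => i.succ.succ)

/-- adding two zeros -/
def incL (n : ℕ) (F : Type*) [Field F] : (Fin n → F) →ₗ[F] (Fin (n + 2) → F) where
  toFun y := Fin.cons 0 (Fin.cons 0 y)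
  map_add' x y := by
    funext i
    refine Fin.cases ?_ (fun j => ?_) i
    · simp
    · refine Fin.cases ?_ (fun k => ?_) j
      · simp
      · simp
  map_smul' a x := by
    funext i
    refine Fin.cases ?_ (fun j => ?_) i
    · simp
    · refine Fin.cases ?_ (fun k => ?_) j
      · simp
      · simp

lemma drop_apply (x : Fin (n + 2) → F) (i : Fin n) : dropL n F x i = x i.succ.succ := rfl

lemma drop_inc (y : Fin n → F) : dropL n F (incL n F y) = y := by
  funext i
  rfl

lemma inc_inj : Function.Injective (incL n F) := fun x y h => by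
  have := congrArg (dropL n F) h
  rwa [drop_inc, drop_inc] at this

lemma herm_inc (x y : Fin n → F) (hq : q ≠ 0) :
    hermForm (n + 2) F q (incL n F x) (incL n F y) = hermForm n F q x y := by
  rw [herm_succ2]
  show (0 : F) * (0 : F) ^ q + (0 : F) * (0 : F) ^ q + hermForm n F q x y = _
  simp

lemma herm_spec_inc (c : F) (y : Fin n → F) (hq : q ≠ 0) :
    hermForm (n + 2) F q (specV n c) (incL n F y) = 0 := by
  rw [herm_succ2]
  have h3 : (fun i : Fin n => (specV n c) i.succ.succ) = 0 := by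
    funext i; rfl
  rw [h3]
  show (specV n c 0) * (0 : F) ^ q + (specV n c 1) * (0 : F) ^ q + hermForm n F q 0 y = _
  rw [zero_pow hq]
  simp [hermForm]

/-- splitting a vector orthogonal to `specV` -/
lemma split_perp (hF : Fintype.card F = q ^ 2) {c : F} (hc : c ^ (q + 1) = -1) (w : Fin (n + 2) → F)
    (hw : hermForm (n + 2) F q w (specV n c) = 0) :
    w = incL n F (dropL n F w) + (w 0) • specV n c := by
  have hq2 := two_le_q hF
  have h1 : (specV n c) 0 = 1 := rfl
  have h2 : (specV n c) 1 = c := rfl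
  have h3 : (fun i : Fin n => (specV n c) i.succ.succ) = 0 := by
    funext i; rfl
  rw [herm_succ2, h1, h2, h3] at hw
  have h4 : hermForm n F q (fun i => w i.succ.succ) (0 : Fin n → F) = 0 := by
    simp [hermForm, zero_pow (show q ≠ 0 by omega)]
  rw [h4, add_zero, one_pow, mul_one] at hw
  have h5 : w 1 = w 0 * c := by
    have h6 : w 0 * c = - (w 1 * c ^ (q + 1)) := by
      have : w 0 = - (w 1 * c ^ q) := by linear_combination hw
      rw [this, pow_succ]
      ring
    rw [h6, hc]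
    ring
  funext i
  refine Fin.cases ?_ (fun j => ?_) i
  · show w 0 = (0 : F) + w 0 * 1
    ring
  · refine Fin.cases ?_ (fun k => ?_) j
    · show w 1 = (0 : F) + w 0 * c
      rw [h5]; ring
    · show w k.succ.succ = w k.succ.succ + w 0 * 0
      ring

/-- The subspaces containing `specV` -/
theorem count_through_spec (hF : Fintype.card F = q ^ 2) {c : F} (hc : c ^ (q + 1) = -1) (k : ℕ) :
    Nat.card {W : Submodule F (Fin (n + 2) → F) // finrank F W = k + 1 ∧ specV n c ∈ W ∧ ∀ x ∈ W, ∀ y ∈ W, hermForm (n + 2) F q x y = 0} =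
      Nat.card {Y : Submodule F (Fin n → F) // finrank F Y = k ∧ ∀ x ∈ Y, ∀ y ∈ Y, hermForm n F q x y = 0} := by
  classical
  have hq2 := two_le_q hF
  have hq0 : q ≠ 0 := by omega
  have hs := spec_iso hF n hc
  have hs0 := spec_ne n c
  set v₀ := specV n c with hv₀
  have hnot : ∀ Y : Submodule F (Fin n → F), v₀ ∉ Y.map (incL n F) := by
    rintro Y ⟨y, _, hy⟩
    have h1 : (incL n F y) 0 = v₀ 0 := congrFun hy 0
    have h2 : (incL n F y) 0 = 0 := rfl
    have h3 : v₀ 0 = 1 := rfl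
    rw [h2, h3] at h1
    exact zero_ne_one h1
  have hdec : ∀ W : Submodule F (Fin (n + 2) → F), v₀ ∈ W → (∀ x ∈ W, ∀ y ∈ W, hermForm (n + 2) F q x y = 0) →
      (W.map (dropL n F)).map (incL n F) ⊔ (F ∙ v₀) = W := by
    intro W hv hTI
    apply le_antisymm
    · apply sup_le
      · rintro _ ⟨_, ⟨w, hw, rfl⟩, rfl⟩
        have h1 := split_perp hF hc w (hTI w hw _ hv)
        have h2 : incL n F (dropL n F w) = w - (w 0) • v₀ := by
          rw [eq_sub_iff_add_eq]
          exact h1.symm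
        show incL n F (dropL n F w) ∈ W
        rw [h2]
        exact W.sub_mem hw (W.smul_mem _ hv)
      · exact (Submodule.span_singleton_le_iff_mem _ _).2 hv
    · intro w hw
      rw [split_perp hF hc w (hTI w hw _ hv)]
      exact Submodule.add_mem_sup ⟨_, ⟨w, hw, rfl⟩, rfl⟩ (Submodule.smul_mem _ _ (Submodule.mem_span_singleton_self _))
  apply Nat.card_congr
  exact
    { toFun := fun W => ⟨W.1.map (dropL n F), by
        have h1 := hdec W.1 W.2.2.1 W.2.2.2
        have h2 := finrank_sup_span' (F := F) (hnot (W.1.map (dropL n F)))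
        rw [h1, W.2.1] at h2
        have h3 : finrank F ((W.1.map (dropL n F)).map (incL n F)) = finrank F (W.1.map (dropL n F)) :=
          (Submodule.equivMapOfInjective _ inc_inj _).finrank_eq.symm
        omega, by
        rintro _ ⟨x, hx, rfl⟩ _ ⟨y, hy, rfl⟩
        have hTI := W.2.2.2
        have hv := W.2.2.1
        have h1 : incL n F (dropL n F x) ∈ W.1 := by
          rw [← hdec W.1 hv hTI]
          exact Submodule.mem_sup_left ⟨_, ⟨x, hx, rfl⟩, rfl⟩
        have h2 : incL n F (dropL n F y) ∈ W.1 := by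
          rw [← hdec W.1 hv hTI]
          exact Submodule.mem_sup_left ⟨_, ⟨y, hy, rfl⟩, rfl⟩
        rw [← herm_inc _ _ hq0]
        exact hTI _ h1 _ h2⟩
      invFun := fun Y => ⟨Y.1.map (incL n F) ⊔ (F ∙ v₀), by
        rw [finrank_sup_span' (hnot Y.1)]
        rw [← (Submodule.equivMapOfInjective _ inc_inj Y.1).finrank_eq, Y.2.1], Submodule.mem_sup_right (Submodule.mem_span_singleton_self _), by
        have hs' := (herm_sesq hF (n + 2))
        rintro x hx y hy
        obtain ⟨_, ⟨a, ha, rfl⟩, _, hb, rfl⟩ := Submodule.mem_sup.1 hx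
        obtain ⟨_, ⟨c', hc', rfl⟩, _, hd, rfl⟩ := Submodule.mem_sup.1 hy
        obtain ⟨b, rfl⟩ := Submodule.mem_span_singleton.1 hb
        obtain ⟨d, rfl⟩ := Submodule.mem_span_singleton.1 hd
        have h1 : hermForm (n + 2) F q v₀ (incL n F c') = 0 := herm_spec_inc c c' hq0
        have h2 : hermForm (n + 2) F q (incL n F a) v₀ = 0 := hs'.symm0 _ _ (herm_spec_inc c a hq0)
        have h3 : hermForm (n + 2) F q (incL n F a) (incL n F c') = 0 := by
          rw [herm_inc _ _ hq0]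
          exact Y.2.2 a ha c' hc'
        simp only [hs'.add_left, hs'.add_right, hs'.smul_left, hs'.smul_right, h1, h2, h3, hs]
        simp⟩
      left_inv := fun W => by
        apply Subtype.ext
        exact hdec W.1 W.2.2.1 W.2.2.2
      right_inv := fun Y => by
        apply Subtype.ext
        show (Y.1.map (incL n F) ⊔ (F ∙ v₀)).map (dropL n F) = Y.1
        rw [Submodule.map_sup, Submodule.map_span, Set.image_singleton]
        have h1 : dropL n F v₀ = 0 := by
          funext i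
          rfl
        rw [h1, Submodule.span_singleton_eq_bot.2 rfl, sup_bot_eq, ← Submodule.map_comp]
        have h2 : (dropL n F).comp (incL n F) = LinearMap.id := by
          apply LinearMap.ext
          exact drop_inc
        rw [h2, Submodule.map_id] }

theorem count_through (hF : Fintype.card F = q ^ 2) {v : Fin (n + 2) → F} (hv : v ≠ 0)
    (hvv : hermForm (n + 2) F q v v = 0) (k : ℕ) :
    Nat.card {W : Submodule F (Fin (n + 2) → F) // finrank F W = k + 1 ∧ v ∈ W ∧ ∀ x ∈ W, ∀ y ∈ W, hermForm (n + 2) F q x y = 0} =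
      Nat.card {Y : Submodule F (Fin n → F) // finrank F Y = k ∧ ∀ x ∈ Y, ∀ y ∈ Y, hermForm n F q x y = 0} := by
  classical
  obtain ⟨c, hc⟩ := H12.UTrans.exists_c hF
  rw [← count_through_spec hF hc k]
  obtain ⟨A, hA⟩ := exists_gu_vec hF hv (spec_ne n c) hvv (spec_iso hF n hc)
  apply Nat.card_congr
  have hfr : ∀ (g : GU (n + 2) F q) (W : Submodule F (Fin (n + 2) → F)), finrank F (W.map (gM g).mulVecLin) = finrank F W :=
    fun g W => (Submodule.equivMapOfInjective _ (gM_inj g) W).finrank_eq.symm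
  have hTI : ∀ (g : GU (n + 2) F q) (W : Submodule F (Fin (n + 2) → F)), (∀ x ∈ W, ∀ y ∈ W, hermForm (n + 2) F q x y = 0) →
      ∀ x ∈ W.map (gM g).mulVecLin, ∀ y ∈ W.map (gM g).mulVecLin, hermForm (n + 2) F q x y = 0 := by
    rintro g W hW _ ⟨x, hx, rfl⟩ _ ⟨y, hy, rfl⟩
    show hermForm (n + 2) F q (gM g *ᵥ x) (gM g *ᵥ y) = 0
    rw [gM_pres, hW x hx y hy]
  have hcomp : ∀ (g : GU (n + 2) F q) (W : Submodule F (Fin (n + 2) → F)), (W.map (gM g).mulVecLin).map (gM g⁻¹).mulVecLin = W := by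
    intro g W
    ext x
    constructor
    · rintro ⟨_, ⟨y, hy, rfl⟩, rfl⟩
      show gM g⁻¹ *ᵥ (gM g *ᵥ y) ∈ W
      rwa [gM_inv_mulVec]
    · intro hx
      exact ⟨gM g *ᵥ x, ⟨x, hx, rfl⟩, gM_inv_mulVec g x⟩
  have hcomp' : ∀ (g : GU (n + 2) F q) (W : Submodule F (Fin (n + 2) → F)), (W.map (gM g⁻¹).mulVecLin).map (gM g).mulVecLin = W := by
    intro g W
    ext x
    constructor
    · rintro ⟨_, ⟨y, hy, rfl⟩, rfl⟩
      show gM g *ᵥ (gM g⁻¹ *ᵥ y) ∈ W
      rwa [gM_mulVec_inv]
    · intro hx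
      exact ⟨gM g⁻¹ *ᵥ x, ⟨x, hx, rfl⟩, gM_mulVec_inv g x⟩
  exact
    { toFun := fun W => ⟨W.1.map (gM A).mulVecLin, by rw [hfr, W.2.1], ⟨v, W.2.2.1, hA⟩, hTI A _ W.2.2.2⟩
      invFun := fun W => ⟨W.1.map (gM A⁻¹).mulVecLin, by rw [hfr, W.2.1], ⟨_, W.2.2.1, by
          show gM A⁻¹ *ᵥ (specV n c) = v
          rw [← hA, gM_inv_mulVec]⟩, hTI A⁻¹ _ W.2.2.2⟩
      left_inv := fun W => Subtype.ext (hcomp A W.1)
      right_inv := fun W => Subtype.ext (hcomp' A W.1) }

/-- Recursion for the number of TI subspaces -/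
theorem T_rec (hF : Fintype.card F = q ^ 2) (n k : ℕ) :
    Nat.card {W : Submodule F (Fin (n + 2) → F) // finrank F W = k + 1 ∧ ∀ x ∈ W, ∀ y ∈ W, hermForm (n + 2) F q x y = 0} *
      ((q ^ 2) ^ (k + 1) - 1) =
    (hermCnt F q (n + 2) 0 - 1) *
      Nat.card {Y : Submodule F (Fin n → F) // finrank F Y = k ∧ ∀ x ∈ Y, ∀ y ∈ Y, hermForm n F q x y = 0} := by
  classical
  have h1 := ti_total_k (F := F) (V := Fin (n + 2) → F) (h := hermForm (n + 2) F q) (k + 1)
    (Nat.card {Y : Submodule F (Fin n → F) // finrank F Y = k ∧ ∀ x ∈ Y, ∀ y ∈ Y, hermForm n F q x y = 0})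
    (fun v hv hvv => count_through hF hv hvv k)
  rw [hF] at h1
  rw [← h1]
  congr 1
  have h3 := Set.ncard_diff (s := ({0} : Set (Fin (n + 2) → F)))
    (t := {w | hermForm (n + 2) F q w w = 0}) (by
      intro x hx
      rw [Set.mem_singleton_iff.1 hx]
      simp [hermForm, zero_pow (show q ≠ 0 by have := two_le_q hF; omega)])
  rw [Set.ncard_singleton, ← Nat.card_coe_set_eq, ← Nat.card_coe_set_eq] at h3
  show _ = Nat.card {w : Fin (n + 2) → F // hermForm (n + 2) F q w w = 0} - 1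
  have h4 : Nat.card {w : Fin (n + 2) → F // hermForm (n + 2) F q w w = 0} - 1 =
      Nat.card ↑({w | hermForm (n + 2) F q w w = 0} : Set (Fin (n + 2) → F)) - 1 := rfl
  rw [h4, ← h3]
  apply Nat.card_congr
  exact
    { toFun := fun w => ⟨w.1, w.2.2, w.2.1⟩
      invFun := fun w => ⟨w.1, w.2.2, w.2.1⟩
      left_inv := fun _ => rfl
      right_inv := fun _ => rfl }

/-- One subspace of dimension zero. -/
lemma T_zero (n : ℕ) (q : ℕ) :
    Nat.card {Y : Submodule F (Fin n → F) // finrank F Y = 0 ∧ ∀ x ∈ Y, ∀ y ∈ Y, hermForm n F q x y = 0} = 1 := by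
  classical
  have hbot : ∀ Y : {Y : Submodule F (Fin n → F) // finrank F Y = 0 ∧ ∀ x ∈ Y, ∀ y ∈ Y, hermForm n F q x y = 0}, Y.1 = ⊥ :=
    fun Y => Submodule.finrank_eq_zero.1 Y.2.1
  haveI : Unique {Y : Submodule F (Fin n → F) // finrank F Y = 0 ∧ ∀ x ∈ Y, ∀ y ∈ Y, hermForm n F q x y = 0} :=
    { default := ⟨⊥, by simp, by
        rintro x hx y hy
        rw [(Submodule.mem_bot F).1 hx]
        simp [hermForm]⟩
      uniq := fun Y => Subtype.ext (hbot Y) }
  exact Nat.card_unique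

end Cfsg.Agent.H03.TS
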