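import Mathlib
import Cfsg.Prelude.Def_PLocal
import Cfsg.Agent.Lib.H03.Thompson
import Cfsg.Agent.Lib.H13.Basic
import Cfsg.Agent.Lib.H13.Residual

set_option autoImplicit false

namespace Cfsg.Agent.H03

open Cfsg

variable {G : Type*} [Group G] [Finite G] {p : ℕ} [Fact p.Prime]

theorem isPGroup_of_isEA {A : Subgroup G} (hA : IsElementaryAbelian p A) : IsPGroup p A := by
  rw [IsPGroup.iff_orderOf]
  rintro ⟨a, ha⟩
  have h1 : a ^ p = 1 := hA.2 a ha
  have h2 : orderOf a ∣ p := orderOf_dvd_of_pow_eq_one h1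
  rcases (Nat.dvd_prime (Fact.out : p.Prime)).mp h2 with h | h
  · refine ⟨0, ?_⟩
    rw [Subgroup.orderOf_mk, h, pow_zero]
  · refine ⟨1, ?_⟩
    rw [Subgroup.orderOf_mk, h, pow_one]

/-- A `p`-subgroup of `G` has a conjugate in any given Sylow subgroup. -/
theorem exists_conj_le_sylow {A : Subgroup G} (hA : IsPGroup p A) (S : Sylow p G) :
    ∃ g : G, A.map (MulAut.conj g).toMonoidHom ≤ S := by
  obtain ⟨T, hT⟩ := hA.exists_le_sylow
  obtain ⟨g, hg⟩ := MulAction.exists_smul_eq G T S
  refine ⟨g, ?_⟩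
  rw [← hg, Sylow.coe_subgroup_smul]
  rintro _ ⟨a, ha, rfl⟩
  exact Subgroup.smul_mem_pointwise_smul _ _ _ (hT ha)

/-- Pull back of a subgroup of `S` to `↥S`: EA with the same order. -/
theorem isEA_comap_subtype {S A : Subgroup G} (hA : IsElementaryAbelian p A) :
    IsElementaryAbelian p (A.comap S.subtype) := by
  refine ⟨isMulCommutative_of_forall ?_, ?_⟩
  · intro x hx y hy
    apply Subtype.ext
    exact mul_comm_of_isMulCommutative hA.1 hx hy
  · intro a ha
    apply Subtype.ext
    exact hA.2 _ ha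

theorem card_comap_subtype {S A : Subgroup G} (h : A ≤ S) :
    Nat.card (A.comap S.subtype) = Nat.card A := by
  have h1 : (A.comap S.subtype).map S.subtype = A := by
    apply Subgroup.map_comap_eq_self
    rwa [Subgroup.range_subtype]
  have h2 : Nat.card ((A.comap S.subtype).map S.subtype) = Nat.card (A.comap S.subtype) :=
    Subgroup.card_map_of_injective S.subtype_injective
  rw [← h2, h1]

/-- Maximal EA subgroups of a Sylow subgroup are maximal EA subgroups of `G`. -/
theorem maxEA_map_subtype (S : Sylow p G) {A : Subgroup (S : Subgroup G)}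
    (hA : A ∈ maxElementaryAbelianSubgroups p (S : Subgroup G)) :
    A.map (S : Subgroup G).subtype ∈ maxElementaryAbelianSubgroups p G := by
  refine ⟨isEA_map _ hA.1, fun B hB => ?_⟩
  obtain ⟨g, hg⟩ := exists_conj_le_sylow (isPGroup_of_isEA hB) S
  have hB' : IsElementaryAbelian p (B.map (MulAut.conj g).toMonoidHom) := isEA_map _ hB
  have h1 := hA.2 _ (isEA_comap_subtype (S := (S : Subgroup G)) hB')
  rw [card_comap_subtype hg, Cfsg.Agent.H13.card_map_conj] at h1
  rw [show Nat.card (A.map (S : Subgroup G).subtype) = Nat.card A from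
    Subgroup.card_map_of_injective (S : Subgroup G).subtype_injective]
  exact h1

/-- Maximal EA subgroups of `G` inside a Sylow subgroup are maximal EA there. -/
theorem maxEA_comap_subtype (S : Sylow p G) {A : Subgroup G}
    (hA : A ∈ maxElementaryAbelianSubgroups p G) (hle : A ≤ S) :
    A.comap (S : Subgroup G).subtype ∈ maxElementaryAbelianSubgroups p (S : Subgroup G) := by
  refine ⟨isEA_comap_subtype hA.1, fun B hB => ?_⟩
  rw [card_comap_subtype hle]
  have := hA.2 _ (isEA_map (S : Subgroup G).subtype hB)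
  rwa [show Nat.card (B.map (S : Subgroup G).subtype) = Nat.card B from
    Subgroup.card_map_of_injective (S : Subgroup G).subtype_injective] at this

theorem thompsonOf_le_sylow (S : Subgroup G) : thompsonSubgroupOf p S ≤ S := by
  rw [thompsonSubgroupOf]
  rintro _ ⟨a, _, rfl⟩
  exact a.2

/-- The normalizer of `S ⊓ C`, if all max EA of `S` lie in `C`, normalizes `J(S)`. -/
theorem normalizer_inf_le_normalizer_thompson (S : Subgroup G) (C : Subgroup G)
    (hAC : ∀ A ∈ maxElementaryAbelianSubgroups p ↥S, A.map S.subtype ≤ C) :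
    Subgroup.normalizer ((S ⊓ C : Subgroup G) : Set G) ≤
      Subgroup.normalizer (thompsonSubgroupOf p S : Set G) := by
  intro n hn
  apply Cfsg.Agent.H13.mem_normalizer_of_map_conj_le
  rw [thompsonSubgroupOf, Subgroup.map_le_iff_le_comap, Subgroup.map_le_iff_le_comap,
    thompsonSubgroup]
  refine sSup_le fun A hA => ?_
  rw [← Subgroup.map_le_iff_le_comap, ← Subgroup.map_le_iff_le_comap]
  set A₁ := A.map S.subtype with hA₁
  have hA₁le : A₁.map (MulAut.conj n).toMonoidHom ≤ S ⊓ C := by
    rw [← Cfsg.Agent.H13.map_conj_eq_of_mem_normalizer hn]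
    exact Subgroup.map_mono (le_inf (by
      rintro _ ⟨a, _, rfl⟩
      exact a.2) (hAC A hA))
  set A₂ := (A₁.map (MulAut.conj n).toMonoidHom).comap S.subtype with hA₂
  have hA₂map : A₂.map S.subtype = A₁.map (MulAut.conj n).toMonoidHom := by
    apply Subgroup.map_comap_eq_self
    rw [Subgroup.range_subtype]
    exact hA₁le.trans inf_le_left
  have hA₁EA : IsElementaryAbelian p A₁ := isEA_map _ hA.1
  have hA₃EA : IsElementaryAbelian p (A₁.map (MulAut.conj n).toMonoidHom) := isEA_map _ hA₁EA
  have hA₂EA : IsElementaryAbelian p A₂ := isEA_comap_subtype hA₃EA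
  have hA₂card : Nat.card A₂ = Nat.card A := by
    have h1 : Nat.card (A₂.map S.subtype) = Nat.card A₂ :=
      Subgroup.card_map_of_injective S.subtype_injective
    have h2 : Nat.card A₁ = Nat.card A := Subgroup.card_map_of_injective S.subtype_injective
    rw [← h1, hA₂map, ← h2]
    exact Cfsg.Agent.H13.card_map_conj n A₁
  have hA₂max : A₂ ∈ maxElementaryAbelianSubgroups p ↥S :=
    ⟨hA₂EA, fun B hB => by rw [hA₂card]; exact hA.2 B hB⟩
  rw [← hA₂map]
  exact Subgroup.map_mono (le_sSup hA₂max)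

/-- Frattini: `C ⊔ N(J(S))` is everything if all max EA of `S` lie in the normal subgroup `C`. -/
theorem frattini_thompson (S : Sylow p G) (C : Subgroup G) [hCn : C.Normal]
    (hAC : ∀ A ∈ maxElementaryAbelianSubgroups p (S : Subgroup G),
      A.map (S : Subgroup G).subtype ≤ C) (g : G) :
    ∃ c ∈ C, ∃ n ∈ Subgroup.normalizer (thompsonSubgroupOf p (S : Subgroup G) : Set G), g = c * n := by
  obtain ⟨Q, hQ⟩ := Cfsg.Agent.H13.exists_sylow_inf_normal S C
  have hFr := Sylow.normalizer_sup_eq_top (p := p) (N := C) Q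
  rw [hQ, sup_comm] at hFr
  have hg : g ∈ ((C ⊔ Subgroup.normalizer (((S : Subgroup G) ⊓ C : Subgroup G) : Set G) : Subgroup G) : Set G) := by
    rw [hFr]
    trivial
  rw [Subgroup.normal_mul] at hg
  obtain ⟨c, hc, m, hm, rfl⟩ := Set.mem_mul.mp hg
  exact ⟨c, hc, m, normalizer_inf_le_normalizer_thompson _ C hAC hm, rfl⟩

end Cfsg.Agent.H03
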