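import Mathlib
import Cfsg.Prelude.Def_ClassicalGeometry
import Cfsg.Agent.Lib.H03.TICount

/-! The Weyl group of type `C_m`: the normaliser of the diagonal torus of `Sp_{2m}(q)`. -/

set_option autoImplicit false

namespace Cfsg.Agent.H03.WC

open Matrix

variable {m : ℕ} {F : Type*} [Field F]

abbrev II (m : ℕ) := Fin m ⊕ Fin m

lemma J_apply (a b : II m) : J (Fin m) F a b = if b = Sum.swap a then Sum.elim (fun _ => (-1 : F)) (fun _ => 1) a else 0 := by
  rcases a with k | k <;> rcases b with l | l <;> simp [J, Matrix.one_apply, eq_comm] <;> (split_ifs <;> simp)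

lemma J_self_swap (a : II m) : J (Fin m) F a (Sum.swap a) ≠ 0 := by
  rw [J_apply, if_pos rfl]
  rcases a with k | k <;> simp

lemma J_sq (a : II m) : J (Fin m) F a (Sum.swap a) * J (Fin m) F a (Sum.swap a) = 1 := by
  rw [J_apply, if_pos rfl]
  rcases a with k | k <;> simp

lemma J_anti (a b : II m) : J (Fin m) F a b = - J (Fin m) F b a := by
  have := congrFun (congrFun (J_transpose (Fin m) F) b) a
  rw [Matrix.transpose_apply] at this
  rw [this]
  simp

/-- Column `c` of `A` is supported at `π c`. -/
def IsMon (A : Matrix (II m) (II m) F) (π : Equiv.Perm (II m)) : Prop := ∀ c j, j ≠ π c → A j c = 0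

lemma IsMon.mul {A B : Matrix (II m) (II m) F} {π ρ : Equiv.Perm (II m)} (hA : IsMon A π) (hB : IsMon B ρ) :
    IsMon (A * B) (π * ρ) := by
  intro c j hj
  rw [Matrix.mul_apply, Finset.sum_eq_single (ρ c)]
  · rw [hA (ρ c) j hj, zero_mul]
  · intro k _ hk
    rw [hB c k hk, mul_zero]
  · simp

lemma IsMon.mul_apply {A B : Matrix (II m) (II m) F} {ρ : Equiv.Perm (II m)} (hB : IsMon B ρ) (c j : II m) :
    (A * B) j c = A j (ρ c) * B (ρ c) c := by
  rw [Matrix.mul_apply, Finset.sum_eq_single (ρ c)]
  · intro k _ hk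
    rw [hB c k hk, mul_zero]
  · simp

/-- The relation of a monomial symplectic matrix -/
lemma mon_form {A : Matrix (II m) (II m) F} {π : Equiv.Perm (II m)} (hA : A ∈ symplecticGroup (Fin m) F) (h : IsMon A π)
    (a b : II m) : A (π a) a * J (Fin m) F (π a) (π b) * A (π b) b = J (Fin m) F a b := by
  have h1 := congrFun (congrFun (SymplecticGroup.mem_iff'.1 hA) a) b
  rw [← h1, Matrix.mul_assoc, Matrix.mul_apply, Finset.sum_eq_single (π a)]
  · rw [IsMon.mul_apply h, Matrix.transpose_apply, mul_assoc]
  · intro k _ hk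
    rw [Matrix.transpose_apply, h a k hk, zero_mul]
  · simp

lemma mon_ne {A : Matrix (II m) (II m) F} {π : Equiv.Perm (II m)} (hA : A ∈ symplecticGroup (Fin m) F) (h : IsMon A π)
    (c : II m) : A (π c) c ≠ 0 := by
  intro h0
  have := mon_form hA h c (Sum.swap c)
  rw [h0, zero_mul, zero_mul] at this
  exact J_self_swap (F := F) c this.symm

lemma mon_comm {A : Matrix (II m) (II m) F} {π : Equiv.Perm (II m)} (hA : A ∈ symplecticGroup (Fin m) F) (h : IsMon A π)
    (c : II m) : π (Sum.swap c) = Sum.swap (π c) := by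
  by_contra hne
  have := mon_form hA h c (Sum.swap c)
  rw [J_apply (F := F) (π c), if_neg hne, mul_zero, zero_mul] at this
  exact J_self_swap (F := F) c this.symm

lemma mon_unique {A : Matrix (II m) (II m) F} {π ρ : Equiv.Perm (II m)} (hA : A ∈ symplecticGroup (Fin m) F) (h : IsMon A π)
    (h2 : IsMon A ρ) : π = ρ := by
  apply Equiv.ext
  intro c
  by_contra hne
  exact mon_ne hA h c (h2 c _ hne)

lemma form_eq {A : Matrix (II m) (II m) F} {π : Equiv.Perm (II m)} (h : IsMon A π) (a b : II m) :
    (Aᵀ * J (Fin m) F * A) a b = A (π a) a * J (Fin m) F (π a) (π b) * A (π b) b := by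
  rw [Matrix.mul_assoc, Matrix.mul_apply, Finset.sum_eq_single (π a)]
  · rw [IsMon.mul_apply h, Matrix.transpose_apply, mul_assoc]
  · intro k _ hk
    rw [Matrix.transpose_apply, h a k hk, zero_mul]
  · simp

lemma sp_of_mon {A : Matrix (II m) (II m) F} {π : Equiv.Perm (II m)} (h : IsMon A π)
    (hf : ∀ a b, A (π a) a * J (Fin m) F (π a) (π b) * A (π b) b = J (Fin m) F a b) : A ∈ symplecticGroup (Fin m) F := by
  rw [SymplecticGroup.mem_iff']
  ext a b
  rw [form_eq h, hf]

variable (m F) in
/-- the diagonal torus -/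
abbrev TT : Subgroup (symplecticGroup (Fin m) F) :=
  ⨅ i : Fin m ⊕ Fin m, Cfsg.stabilizing (Cfsg.spToMat m F)
    ((Submodule.span F {(Pi.single i (1 : F) : Fin m ⊕ Fin m → F)} : Submodule F (Fin m ⊕ Fin m → F)) : Set (Fin m ⊕ Fin m → F))

lemma mem_TT {t : symplecticGroup (Fin m) F} : t ∈ TT m F ↔ IsMon t.1 1 := by
  rw [Subgroup.mem_iInf]
  constructor
  · intro h c j hj
    have h1 : (Pi.single c (1 : F) : II m → F) ∈ (Submodule.span F {(Pi.single c (1 : F) : Fin m ⊕ Fin m → F)} : Submodule F (Fin m ⊕ Fin m → F)) :=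
      Submodule.mem_span_singleton_self _
    have h2 := ((h c) (Pi.single c 1)).1 h1
    obtain ⟨a, ha⟩ := Submodule.mem_span_singleton.1 h2
    have h3 := congrFun ha j
    have hj' : j ≠ c := hj
    have e1 : (Cfsg.spToMat m F t *ᵥ (Pi.single c (1 : F) : II m → F)) = t.1.col c := by
      exact Matrix.mulVec_single_one _ _
    rw [e1] at h3
    simp [Pi.single_apply, hj'] at h3
    exact h3.symm
  · intro h c v
    have hne := mon_ne t.2 h
    have hv : ∀ (w : II m → F) (j : II m), (t.1 *ᵥ w) j = t.1 j j * w j := by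
      intro w j
      rw [Matrix.mulVec, dotProduct, Finset.sum_eq_single j]
      · intro k _ hk
        rw [h k j (Ne.symm hk), zero_mul]
      · simp
    constructor
    · intro hvs
      obtain ⟨a, rfl⟩ := Submodule.mem_span_singleton.1 hvs
      refine Submodule.mem_span_singleton.2 ⟨a * t.1 c c, ?_⟩
      funext j
      show _ = (t.1 *ᵥ (a • (Pi.single c (1 : F) : II m → F))) j
      rw [hv]
      by_cases hj : j = c
      · subst hj
        simp [mul_comm]
      · simp [Pi.single_apply, hj]
    · intro hvs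
      obtain ⟨a, ha⟩ := Submodule.mem_span_singleton.1 hvs
      refine Submodule.mem_span_singleton.2 ⟨v c, ?_⟩
      funext j
      by_cases hj : j = c
      · subst hj
        simp
      · have h3 := congrFun ha j
        have h4 : (t.1 *ᵥ v) j = t.1 j j * v j := hv v j
        have h5 : (Cfsg.spToMat m F t *ᵥ v) j = (t.1 *ᵥ v) j := rfl
        rw [h5, h4] at h3
        simp [Pi.single_apply, hj] at h3
        have h6 := hne j
        simp only [Equiv.Perm.coe_one, id_eq] at h6
        have h7 : v j = 0 := by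
          rcases h3 with h7 | h7
          · first | exact h7 | exact absurd h7 h6
          · first | exact h7 | exact absurd h7 h6
        simp [Pi.single_apply, hj, h7]

lemma IsMon.inv {g : symplecticGroup (Fin m) F} {π : Equiv.Perm (II m)} (h : IsMon g.1 π) : IsMon (g⁻¹).1 π⁻¹ := by
  intro c j hj
  obtain ⟨d, rfl⟩ := π.surjective c
  have hj' : j ≠ d := by simpa using hj
  have h1 : ((g⁻¹).1 * g.1) j d = (1 : Matrix (II m) (II m) F) j d := by
    rw [← Submonoid.coe_mul, inv_mul_cancel]
    rfl
  rw [IsMon.mul_apply h, Matrix.one_apply_ne hj'] at h1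
  rcases mul_eq_zero.1 h1 with h2 | h2
  · exact h2
  · exact absurd h2 (mon_ne g.2 h d)

lemma norm_of_mon {g : symplecticGroup (Fin m) F} {π : Equiv.Perm (II m)} (h : IsMon g.1 π) :
    g ∈ Subgroup.normalizer ((TT m F : Subgroup (symplecticGroup (Fin m) F)) : Set (symplecticGroup (Fin m) F)) := by
  rw [Subgroup.mem_normalizer_iff]
  intro t
  rw [mem_TT, mem_TT]
  constructor
  · intro ht
    have := (h.mul ht).mul h.inv
    simpa using this
  · intro ht
    have h1 := (h.inv.mul ht).mul h
    have e : g⁻¹ * (g * t * g⁻¹) * g = t := by group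
    have e2 : ((g⁻¹ * (g * t * g⁻¹) * g : symplecticGroup (Fin m) F)).1 = (g⁻¹).1 * (g * t * g⁻¹ : symplecticGroup (Fin m) F).1 * g.1 := rfl
    rw [← e2, e] at h1
    simpa using h1

lemma diag_mem {D : II m → F} (hD : ∀ a, D a * D (Sum.swap a) = 1) : Matrix.diagonal D ∈ symplecticGroup (Fin m) F := by
  rw [SymplecticGroup.mem_iff, Matrix.diagonal_transpose]
  ext a b
  rw [Matrix.mul_diagonal, Matrix.diagonal_mul]
  by_cases h : b = Sum.swap a
  · subst h
    have := hD a
    linear_combination (J (Fin m) F a (Sum.swap a)) * this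
  · rw [J_apply, if_neg h]
    simp

lemma exists_perm_ne (g : symplecticGroup (Fin m) F) : ∃ τ : Equiv.Perm (II m), ∀ c, g.1 (τ c) c ≠ 0 := by
  have h1 : g.1.det ≠ 0 := (SymplecticGroup.symplectic_det g.2).ne_zero
  rw [Matrix.det_apply'] at h1
  obtain ⟨σ, -, hσ⟩ := Finset.exists_ne_zero_of_sum_ne_zero h1
  refine ⟨σ, fun c => ?_⟩
  have h2 : ∏ i, g.1 (σ i) i ≠ 0 := right_ne_zero_of_mul hσ
  exact Finset.prod_ne_zero_iff.1 h2 c (Finset.mem_univ c)

lemma mon_of_norm {lam : F} (h0 : lam ≠ 0) (h1 : lam ^ 2 ≠ 1) {g : symplecticGroup (Fin m) F}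
    (hg : g ∈ Subgroup.normalizer ((TT m F : Subgroup (symplecticGroup (Fin m) F)) : Set (symplecticGroup (Fin m) F))) :
    ∃ τ : Equiv.Perm (II m), IsMon g.1 τ := by
  obtain ⟨τ, hτ⟩ := exists_perm_ne g
  refine ⟨τ, ?_⟩
  intro c j hj
  by_contra hjc
  have hlam1 : lam ≠ 1 := by
    rintro rfl
    simp at h1
  have hlam2 : lam⁻¹ ≠ lam := by
    intro h
    apply h1
    field_simp at h
    rw [h]
  have hsw : Sum.swap c ≠ c := by
    rcases c with k | k <;> simp
  let D : II m → F := fun a => if a = c then lam else if a = Sum.swap c then lam⁻¹ else 1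
  have hDc : D c = lam := by simp [D]
  have hDs : D (Sum.swap c) = lam⁻¹ := by simp [D, hsw]
  have hD : ∀ a, D a * D (Sum.swap a) = 1 := by
    intro a
    by_cases h3 : a = c
    · subst h3
      rw [hDc, hDs]
      field_simp
    · by_cases h4 : a = Sum.swap c
      · subst h4
        rw [Sum.swap_swap, hDc, hDs]
        field_simp
      · have h5 : Sum.swap a ≠ c := by
          intro h
          apply h4
          rw [← h, Sum.swap_swap]
        have h6 : Sum.swap a ≠ Sum.swap c := fun h => h3 (Sum.swap_leftInverse.injective h)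
        simp [D, h3, h4, h5, h6]
  let t : symplecticGroup (Fin m) F := ⟨Matrix.diagonal D, diag_mem hD⟩
  have ht : t ∈ TT m F := by
    rw [mem_TT]
    intro c' j' hj'
    show Matrix.diagonal D j' c' = 0
    exact Matrix.diagonal_apply_ne _ hj'
  have ht' : g * t * g⁻¹ ∈ TT m F := (Subgroup.mem_normalizer_iff.1 hg t).1 ht
  have ht'm := mem_TT.1 ht'
  obtain ⟨t', ht'e⟩ : ∃ t', t' = g * t * g⁻¹ := ⟨_, rfl⟩
  rw [← ht'e] at ht'm
  have hcomm : g.1 * Matrix.diagonal D = t'.1 * g.1 := by
    have : g * t = t' * g := by rw [ht'e]; group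
    exact congrArg Subtype.val this
  have key : ∀ j' c', g.1 j' c' * D c' = t'.1 j' j' * g.1 j' c' := by
    intro j' c'
    have := congrFun (congrFun hcomm j') c'
    rw [Matrix.mul_diagonal, Matrix.mul_apply, Finset.sum_eq_single j'] at this
    · exact this
    · intro k _ hk
      rw [show t'.1 j' k = 0 from ht'm k j' (Ne.symm hk), zero_mul]
    · simp
  have e1 : t'.1 j j = lam := by
    have := key j c
    rw [hDc] at this
    have h3 : g.1 j c * (lam - t'.1 j j) = 0 := by linear_combination this
    rcases mul_eq_zero.1 h3 with h4 | h4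
    · exact absurd h4 hjc
    · exact (sub_eq_zero.1 h4).symm
  obtain ⟨c', rfl⟩ := τ.surjective j
  have e2 : D c' = t'.1 (τ c') (τ c') := by
    have := key (τ c') c'
    have h3 : g.1 (τ c') c' * (D c' - t'.1 (τ c') (τ c')) = 0 := by linear_combination this
    rcases mul_eq_zero.1 h3 with h4 | h4
    · exact absurd h4 (hτ c')
    · exact sub_eq_zero.1 h4
  rw [e1] at e2
  have hc' : c' = c := by
    by_contra h3
    by_cases h4 : c' = Sum.swap c
    · rw [h4, hDs] at e2
      exact hlam2 e2
    · have : D c' = 1 := by simp [D, h3, h4]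
      rw [this] at e2
      exact hlam1 e2.symm
  rw [hc'] at hj
  exact hj rfl

/-- Perms commuting with the swap. -/
abbrev WW (m : ℕ) := {π : Equiv.Perm (II m) // ∀ a, π (Sum.swap a) = Sum.swap (π a)}

lemma exists_sp_of_W (π : WW m) : ∃ g : symplecticGroup (Fin m) F, IsMon g.1 π.1 := by
  classical
  let s : II m → F := Sum.elim (fun _ => 1) (fun k => - J (Fin m) F (π.1 (Sum.inl k)) (π.1 (Sum.inr k)))
  let P : Matrix (II m) (II m) F := Matrix.of (fun a b => if a = π.1 b then s b else 0)
  have hP : IsMon P π.1 := by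
    intro c j hj
    simp [P, hj]
  have hPv : ∀ a, P (π.1 a) a = s a := by
    intro a
    simp [P]
  have hsp : P ∈ symplecticGroup (Fin m) F := by
    apply sp_of_mon hP
    intro a b
    rw [hPv, hPv]
    by_cases hb : b = Sum.swap a
    · subst hb
      rw [π.2 a]
      rcases a with k | k
      · have h1 := J_sq (F := F) (π.1 (Sum.inl k))
        have h2 := π.2 (Sum.inl k)
        simp only [Sum.swap_inl] at h2 ⊢
        simp only [s, Sum.elim_inl, Sum.elim_inr]
        rw [h2]
        have h3 : J (Fin m) F (Sum.inl k) (Sum.inr k) = -1 := by simp [J]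
        rw [h3]
        linear_combination h1 * (-1 : F)
      · have h1 := J_sq (F := F) (π.1 (Sum.inl k))
        have h2 := π.2 (Sum.inl k)
        simp only [Sum.swap_inl] at h2
        simp only [Sum.swap_inr, s, Sum.elim_inl, Sum.elim_inr]
        rw [h2]
        have h3 : J (Fin m) F (Sum.inr k) (Sum.inl k) = 1 := by simp [J]
        rw [h3]
        have h4 := J_anti (F := F) (Sum.swap (π.1 (Sum.inl k))) (π.1 (Sum.inl k))
        rw [Sum.swap_swap, h4]
        linear_combination h1
    · have h1 : J (Fin m) F a b = 0 := by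
        rw [J_apply, if_neg hb]
      have h2 : J (Fin m) F (π.1 a) (π.1 b) = 0 := by
        rw [J_apply, if_neg]
        rw [← π.2 a]
        exact fun h => hb (π.1.injective h)
      rw [h1, h2]
      simp
  exact ⟨⟨P, hsp⟩, hP⟩

lemma exists_lam {q : ℕ} [Fintype F] (hF : Fintype.card F = q) (hq : 4 ≤ q) : ∃ lam : F, lam ≠ 0 ∧ lam ^ 2 ≠ 1 := by
  classical
  by_contra hc
  push Not at hc
  have h1 : (Finset.univ : Finset F) ⊆ {0, 1, -1} := by
    intro x _
    simp only [Finset.mem_insert, Finset.mem_singleton]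
    by_cases h0 : x = 0
    · exact Or.inl h0
    · right
      have h2 := hc x h0
      have h3 : (x - 1) * (x + 1) = 0 := by linear_combination h2
      rcases mul_eq_zero.1 h3 with h4 | h4
      · left; exact sub_eq_zero.1 h4
      · right; exact eq_neg_of_add_eq_zero_left h4
  have h2 := Finset.card_le_card h1
  have h3 : ({0, 1, -1} : Finset F).card ≤ 3 := Finset.card_le_three
  rw [Finset.card_univ, hF] at h2
  omega

/-- The torus has order `(q - 1)^m`. -/
theorem card_TT [Fintype F] : Nat.card (TT m F) = (Fintype.card F - 1) ^ m := by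
  classical
  have hu : Nat.card (Fin m → Fˣ) = (Fintype.card F - 1) ^ m := by
    rw [Nat.card_eq_fintype_card, Fintype.card_fun, Fintype.card_units, Fintype.card_fin]
  rw [← hu]
  apply Nat.card_congr
  have hdiag : ∀ u : Fin m → Fˣ, ∀ a, (Sum.elim (fun k => ((u k : Fˣ) : F)) (fun k => ((u k)⁻¹ : Fˣ)) : II m → F) a *
      (Sum.elim (fun k => ((u k : Fˣ) : F)) (fun k => ((u k)⁻¹ : Fˣ)) : II m → F) (Sum.swap a) = 1 := by
    intro u a
    rcases a with k | k <;> simp
  refine
    { toFun := fun t k => Units.mk0 (t.1.1 (Sum.inl k) (Sum.inl k)) (mon_ne t.1.2 (mem_TT.1 t.2) (Sum.inl k))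
      invFun := fun u => ⟨⟨Matrix.diagonal _, diag_mem (hdiag u)⟩, mem_TT.2 (fun c j hj => Matrix.diagonal_apply_ne _ (by simpa using hj))⟩
      left_inv := ?_
      right_inv := ?_ }
  · intro t
    apply Subtype.ext
    apply Subtype.ext
    have hm := mem_TT.1 t.2
    ext a b
    show Matrix.diagonal _ a b = t.1.1 a b
    by_cases hab : a = b
    · subst hab
      rw [Matrix.diagonal_apply_eq]
      rcases a with k | k
      · simp
        rfl
      · have h1 := mon_form t.1.2 hm (Sum.inl k) (Sum.inr k)
        simp only [Equiv.Perm.coe_one, id_eq] at h1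
        have h3 : J (Fin m) F (Sum.inl k) (Sum.inr k) = -1 := by simp [J]
        rw [h3] at h1
        have h4 : t.1.1 (Sum.inl k) (Sum.inl k) * t.1.1 (Sum.inr k) (Sum.inr k) = 1 := by
          linear_combination -h1
        simp only [Sum.elim_inr, Units.val_inv_eq_inv_val, Units.val_mk0]
        exact inv_eq_of_mul_eq_one_right h4
    · rw [Matrix.diagonal_apply_ne _ hab]
      exact (hm b a hab).symm
  · intro u
    funext k
    apply Units.ext
    simp

/-- The Weyl group has order `2^m m!`. -/
theorem card_WW : Nat.card (WW m) = 2 ^ m * m.factorial := by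
  classical
  have h1 : Nat.card (Equiv.Perm (Fin m) × (Fin m → Bool)) = 2 ^ m * m.factorial := by
    rw [Nat.card_prod, Nat.card_eq_fintype_card, Nat.card_eq_fintype_card, Fintype.card_perm, Fintype.card_fun,
      Fintype.card_fin, Fintype.card_bool]
    ring
  rw [← h1]
  let base : II m → Fin m := Sum.elim id id
  have hbs : ∀ a : II m, base (Sum.swap a) = base a := by
    intro a
    rcases a with k | k <;> rfl
  have hbase : ∀ a b : II m, base a = base b → a = b ∨ a = Sum.swap b := by
    intro a b h
    rcases a with k | k <;> rcases b with l | l <;> simp [base] at h ⊢ <;> exact h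
  have hinj : ∀ π : WW m, Function.Injective (fun k => base (π.1 (Sum.inl k))) := by
    intro π k l hkl
    rcases hbase _ _ hkl with h | h
    · exact Sum.inl_injective (π.1.injective h)
    · rw [← π.2] at h
      have := π.1.injective h
      simp at this
  let ε : Fin m → Bool → II m := fun k b => if b then Sum.inr k else Sum.inl k
  have hεs : ∀ k b, Sum.swap (ε k b) = ε k (!b) := by
    intro k b
    cases b <;> simp [ε]
  have hbaseε : ∀ k b, base (ε k b) = k := by
    intro k b
    cases b <;> simp [ε, base]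
  let Φ : WW m → Equiv.Perm (Fin m) × (Fin m → Bool) := fun π =>
    (Equiv.ofBijective _ (Finite.injective_iff_bijective.1 (hinj π)), fun k => (π.1 (Sum.inl k)).isRight)
  have hrec : ∀ a : II m, a = ε (base a) a.isRight := by
    intro a
    rcases a with k | k <;> simp [ε, base]
  apply Nat.card_congr
  refine Equiv.ofBijective Φ ⟨?_, ?_⟩
  · intro π ρ h
    have h1 : ∀ k, π.1 (Sum.inl k) = ρ.1 (Sum.inl k) := by
      intro k
      have h2 : base (π.1 (Sum.inl k)) = base (ρ.1 (Sum.inl k)) := by
        have := congrArg (fun p : Equiv.Perm (Fin m) × (Fin m → Bool) => p.1 k) h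
        exact this
      have h3 : (π.1 (Sum.inl k)).isRight = (ρ.1 (Sum.inl k)).isRight := by
        have := congrArg (fun p : Equiv.Perm (Fin m) × (Fin m → Bool) => p.2 k) h
        exact this
      rw [hrec (π.1 (Sum.inl k)), hrec (ρ.1 (Sum.inl k)), h2, h3]
    apply Subtype.ext
    apply Equiv.ext
    rintro (k | k)
    · exact h1 k
    · have e1 := π.2 (Sum.inl k)
      have e2 := ρ.2 (Sum.inl k)
      simp only [Sum.swap_inl] at e1 e2
      rw [e1, e2, h1]
  · rintro ⟨σ, e⟩
    let f : II m → II m := Sum.elim (fun k => ε (σ k) (e k)) (fun k => ε (σ k) (!(e k)))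
    have hfinj : Function.Injective f := by
      rintro (k | k) (l | l) h <;> simp only [f, Sum.elim_inl, Sum.elim_inr] at h
      · have h2 := congrArg base h
        rw [hbaseε, hbaseε] at h2
        rw [σ.injective h2]
      · exfalso
        have h2 := congrArg base h
        rw [hbaseε, hbaseε] at h2
        have h3 := σ.injective h2
        subst h3
        cases hb : e k <;> simp [hb, ε] at h
      · exfalso
        have h2 := congrArg base h
        rw [hbaseε, hbaseε] at h2
        have h3 := σ.injective h2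
        subst h3
        cases hb : e k <;> simp [hb, ε] at h
      · have h2 := congrArg base h
        rw [hbaseε, hbaseε] at h2
        rw [σ.injective h2]
    let π : Equiv.Perm (II m) := Equiv.ofBijective f (Finite.injective_iff_bijective.1 hfinj)
    have hπ : ∀ a, π (Sum.swap a) = Sum.swap (π a) := by
      rintro (k | k)
      · show f (Sum.inr k) = Sum.swap (f (Sum.inl k))
        simp only [f, Sum.elim_inl, Sum.elim_inr, hεs]
      · show f (Sum.inl k) = Sum.swap (f (Sum.inr k))
        simp only [f, Sum.elim_inl, Sum.elim_inr, hεs, Bool.not_not]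
    refine ⟨⟨π, hπ⟩, ?_⟩
    apply Prod.ext
    · apply Equiv.ext
      intro k
      show base (f (Sum.inl k)) = σ k
      simp only [f, Sum.elim_inl, hbaseε]
    · funext k
      show (f (Sum.inl k)).isRight = e k
      simp only [f, Sum.elim_inl]
      cases hb : e k <;> simp [ε]

theorem card_normalizer_TT [Fintype F] (lam : F) (h0 : lam ≠ 0) (h1 : lam ^ 2 ≠ 1) :
    Nat.card (Subgroup.normalizer ((TT m F : Subgroup (symplecticGroup (Fin m) F)) : Set (symplecticGroup (Fin m) F))) =
      2 ^ m * m.factorial * (Fintype.card F - 1) ^ m := by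
  classical
  rw [← card_WW, ← card_TT (m := m) (F := F)]
  haveI : Finite (symplecticGroup (Fin m) F) := inferInstance
  have hex := fun g : Subgroup.normalizer ((TT m F : Subgroup (symplecticGroup (Fin m) F)) : Set (symplecticGroup (Fin m) F)) =>
    mon_of_norm h0 h1 g.2
  choose τ hτ using hex
  let Ψ : Subgroup.normalizer ((TT m F : Subgroup (symplecticGroup (Fin m) F)) : Set (symplecticGroup (Fin m) F)) → WW m :=
    fun g => ⟨τ g, mon_comm g.1.2 (hτ g)⟩
  apply H03.card_of_fibers Ψ
  intro π
  obtain ⟨P, hP⟩ := exists_sp_of_W (F := F) π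
  have hPN := norm_of_mon hP
  apply Nat.card_congr
  refine
    { toFun := fun g => ⟨P⁻¹ * g.1.1, mem_TT.2 ?_⟩
      invFun := fun t => ⟨⟨P * t.1, Subgroup.mul_mem _ hPN (Subgroup.le_normalizer t.2)⟩, ?_⟩
      left_inv := ?_
      right_inv := ?_ }
  · have h2 : τ g.1 = π.1 := congrArg Subtype.val g.2
    have h3 := (IsMon.inv hP).mul (h2 ▸ hτ g.1)
    simpa using h3
  · apply Subtype.ext
    have h3 : IsMon (P * t.1 : symplecticGroup (Fin m) F).1 π.1 := by
      have := hP.mul (mem_TT.1 t.2)
      simpa using this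
    exact mon_unique (P * t.1).2 (hτ _) h3
  · intro g
    apply Subtype.ext
    apply Subtype.ext
    simp
  · intro t
    apply Subtype.ext
    simp

end Cfsg.Agent.H03.WC
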