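import Mathlib
import Cfsg.Agent.Lib.H21.CharBasis
import Cfsg.Agent.Lib.H21.CharInd
import Cfsg.Agent.Lib.H23.FS
import Cfsg.Agent.Lib.H23.AcdTwo

/-!
The dual of a finite abelian group, in multiplicative notation.
-/

set_option autoImplicit false

namespace Cfsg.Agent.H03.ZC

open Cfsg Finset
open scoped ComplexConjugate

universe u

section Dual

variable {A : Type*} [CommGroup A]

/-- The dual of a finite abelian group. -/
abbrev Dl (A : Type*) [CommGroup A] := AddChar (Additive A) ℂ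

/-- Evaluation of a dual element. -/
def ev (μ : Dl A) (a : A) : ℂ := μ (Additive.ofMul a)

@[simp] theorem ev_one (μ : Dl A) : ev μ 1 = 1 := by
  show μ (Additive.ofMul 1) = 1
  rw [ofMul_one]
  exact AddChar.map_zero_eq_one μ

theorem ev_mul (μ : Dl A) (a b : A) : ev μ (a * b) = ev μ a * ev μ b := by
  show μ (Additive.ofMul (a * b)) = _
  rw [ofMul_mul]
  exact AddChar.map_add_eq_mul μ _ _

@[simp] theorem ev_zero (a : A) : ev (0 : Dl A) a = 1 := rfl

theorem ev_add (μ ν : Dl A) (a : A) : ev (μ + ν) a = ev μ a * ev ν a := rfl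

theorem ev_ne_zero (μ : Dl A) (a : A) : ev μ a ≠ 0 := by
  intro h
  have h1 : ev μ (a * a⁻¹) = ev μ a * ev μ a⁻¹ := ev_mul μ a a⁻¹
  rw [mul_inv_cancel, ev_one, h, zero_mul] at h1
  exact one_ne_zero h1

theorem ext_ev {μ ν : Dl A} (h : ∀ a, ev μ a = ev ν a) : μ = ν := by
  ext a
  exact h (Additive.toMul a)

variable [Fintype A]

theorem card_add : Fintype.card (Additive A) = Fintype.card A :=
  Fintype.card_congr Additive.ofMul.symm

theorem conj_ev (μ : Dl A) (a : A) : conj (ev μ a) = ev μ a⁻¹ := by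
  show conj (μ (Additive.ofMul a)) = μ (Additive.ofMul a⁻¹)
  rw [ofMul_inv, AddChar.map_neg_eq_conj]

theorem ev_mul_conj (μ : Dl A) (a : A) : ev μ a * conj (ev μ a) = 1 := by
  rw [conj_ev, ← ev_mul, mul_inv_cancel, ev_one]

theorem ev_neg (μ : Dl A) (a : A) : ev (-μ) a = conj (ev μ a) := by
  rw [conj_ev]
  show (-μ) (Additive.ofMul a) = μ (Additive.ofMul a⁻¹)
  rw [AddChar.neg_apply, ofMul_inv]

open Classical in
theorem sum_ev (μ : Dl A) : ∑ a : A, ev μ a = if μ = 0 then (Fintype.card A : ℂ) else 0 := by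
  have h := AddChar.sum_eq_ite (A := Additive A) (R := ℂ) μ
  have h2 : ∑ a : A, ev μ a = ∑ a : Additive A, μ a :=
    Fintype.sum_equiv Additive.ofMul _ _ (fun _ => rfl)
  rw [h2, h, card_add]

open Classical in
theorem sum_ev_mul_conj (μ ν : Dl A) :
    ∑ a : A, ev μ a * conj (ev ν a) = if μ = ν then (Fintype.card A : ℂ) else 0 := by
  have h1 : ∀ a : A, ev μ a * conj (ev ν a) = ev (μ + -ν) a := by
    intro a
    rw [ev_add, ev_neg]
  simp only [h1]
  rw [sum_ev]
  simp only [add_neg_eq_zero]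

open Classical in
theorem sum_dual (a : A) : ∑ μ : Dl A, ev μ a = if a = 1 then (Fintype.card A : ℂ) else 0 := by
  have h := AddChar.sum_apply_eq_ite (α := Additive A) (Additive.ofMul a)
  have h2 : ∑ μ : Dl A, ev μ a = ∑ ψ : AddChar (Additive A) ℂ, ψ (Additive.ofMul a) := rfl
  rw [h2, h]
  have h3 : (Additive.ofMul a = 0) ↔ a = 1 := by
    rw [← ofMul_one]
    exact Additive.ofMul.injective.eq_iff
  simp only [h3, card_add]

open Classical in
theorem sum_dual_mul_conj (a b : A) :
    ∑ μ : Dl A, ev μ a * conj (ev μ b) = if a = b then (Fintype.card A : ℂ) else 0 := by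
  have h1 : ∀ μ : Dl A, ev μ a * conj (ev μ b) = ev μ (a * b⁻¹) := by
    intro μ
    rw [conj_ev, ev_mul]
  simp only [h1]
  rw [sum_dual]
  simp only [mul_inv_eq_one]

theorem card_dual : Fintype.card (Dl A) = Fintype.card A := by
  rw [AddChar.card_eq, card_add]

theorem exists_ev_ne {a : A} (ha : a ≠ 1) : ∃ μ : Dl A, ev μ a ≠ 1 := by
  have h : Additive.ofMul a ≠ 0 := by
    intro h1
    apply ha
    exact Additive.ofMul.injective (h1.trans ofMul_one.symm)
  exact AddChar.exists_apply_ne_zero.2 h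

/-- A dual element as a homomorphism to units. -/
noncomputable def evHom (μ : Dl A) : A →* ℂˣ where
  toFun a := Units.mk0 (ev μ a) (ev_ne_zero μ a)
  map_one' := by
    ext
    simp
  map_mul' a b := by
    ext
    simp [ev_mul]

theorem isIrr_ev (μ : Dl A) : IsIrrCharacter A (ev μ) :=
  Cfsg.Agent.H23.isIrrCharacter_hom (evHom μ)

omit [Fintype A] in
theorem isChar_ev (μ : Dl A) : IsCharacter A (ev μ) :=
  Cfsg.Agent.H23.isCharacter_hom (evHom μ)

end Dual

end Cfsg.Agent.H03.ZC
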