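import Cfsg.Agent.Lib.H03.ZC0

/-!
Character sums for a "Frobenius-type" abelian subgroup.
-/

set_option autoImplicit false

namespace Cfsg.Agent.H03.ZC

open Cfsg Finset Cfsg.Agent.H21
open scoped ComplexConjugate

universe u v w

/-- The configuration. -/
structure FC (G : Type u) (A : Type v) (B : Type w) [Group G] [CommGroup A] [Fintype A] [Fintype B] where
  ι : A →* G
  hι : Function.Injective ι
  c : B → A →* A
  b₀ : B
  hb₀ : ∀ a, c b₀ a = a
  hcinj : ∀ b, Function.Injective (c b)
  hinjb : ∀ a, a ≠ 1 → Function.Injective (fun b => c b a)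
  hconjc : ∀ b a, IsConj (ι (c b a)) (ι a)
  hconj : ∀ a a', a ≠ 1 → IsConj (ι a) (ι a') → ∃ b, a' = c b a
  hcent : ∀ a, a ≠ 1 → ∀ g : G, g * ι a = ι a * g → g ∈ ι.range
  hcard : Nat.card G = (Fintype.card A + 1) * Fintype.card A * Fintype.card B
  hinv : Nat.card {w : G // w * w = 1 ∧ w ∉ ι.range} = Fintype.card A * Fintype.card B

variable {G : Type u} {A : Type v} {B : Type w} [Group G] [CommGroup A] [Fintype A] [Fintype B]
  (C : FC G A B)

namespace FC

/-- Twist of a dual element. -/
noncomputable def tw (b : B) (μ : Dl A) : Dl A where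
  toFun x := ev μ (C.c b (Additive.toMul x))
  map_zero_eq_one' := by
    simp
  map_add_eq_mul' x y := by
    rw [toMul_add, map_mul, ev_mul]

theorem ev_tw (b : B) (μ : Dl A) (a : A) : ev (C.tw b μ) a = ev μ (C.c b a) := rfl

variable [Fintype G]

/-- The multiplicity of a dual element in the restriction of a class function. -/
noncomputable def aC (μ : Dl A) (χ : G → ℂ) : ℂ :=
  (Fintype.card A : ℂ)⁻¹ * ∑ a : A, χ (C.ι a) * conj (ev μ a)

theorem aC_eq_inner (μ : Dl A) (χ : G → ℂ) :
    C.aC μ χ = classInner (χ ∘ C.ι) (ev μ) := by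
  simp only [aC, classInner, Nat.card_eq_fintype_card, Function.comp]

theorem aC_nat (μ : Dl A) {χ : G → ℂ} (h : IsCharacter G χ) : ∃ m : ℕ, C.aC μ χ = m := by
  rw [aC_eq_inner]
  exact classInner_isCharacter_nat (isCharacter_comp C.ι h) (isChar_ev μ)

theorem n_ne : (Fintype.card A : ℂ) ≠ 0 := by
  have : Fintype.card A ≠ 0 := Fintype.card_ne_zero
  exact_mod_cast this

omit [Fintype G] in
theorem card_range : Nat.card C.ι.range = Fintype.card A := by
  rw [← Nat.card_eq_fintype_card]
  exact (Nat.card_congr (MonoidHom.ofInjective C.hι).toEquiv).symm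

omit [Fintype G] in
theorem centralizer_eq {a : A} (ha : a ≠ 1) :
    Subgroup.centralizer ({C.ι a} : Set G) = C.ι.range := by
  ext g
  rw [Subgroup.mem_centralizer_iff]
  constructor
  · intro h
    exact C.hcent a ha g (h _ (Set.mem_singleton _)).symm
  · rintro ⟨a₁, rfl⟩ x hx
    rw [Set.mem_singleton_iff.1 hx, ← map_mul, ← map_mul, mul_comm]

open Classical in
/-- The number of twists carrying `μ'` to `μ`. -/
noncomputable def N (μ' μ : Dl A) : ℕ := (univ.filter (fun b : B => C.tw b μ' = μ)).card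

variable [Fintype (IrrCharacter G)]

open Classical in
/-- Column orthogonality on the abelian subgroup. -/
theorem K_eq (a a' : A) :
    ∑ χ : IrrCharacter G, χ.1 (C.ι a) * conj (χ.1 (C.ι a')) =
      if a = 1 then (if a' = 1 then (Nat.card G : ℂ) else 0)
      else (if ∃ b, a' = C.c b a then (Fintype.card A : ℂ) else 0) := by
  by_cases ha : a = 1
  · subst ha
    rw [if_pos rfl]
    by_cases ha' : a' = 1
    · subst ha'
      rw [if_pos rfl, column_orthogonality_of_isConj (IsConj.refl _)]
      simp only [map_one]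
      congr 1
      have : Subgroup.centralizer ({1} : Set G) = ⊤ := by
        ext g
        simp [Subgroup.mem_centralizer_iff]
      rw [this]
      exact Nat.card_congr Subgroup.topEquiv.toEquiv
    · rw [if_neg ha']
      apply column_orthogonality_of_not_isConj
      rw [map_one]
      intro h
      have h1 := isConj_one_right.1 h
      exact ha' (C.hι (h1.trans (map_one _).symm))
  · rw [if_neg ha]
    by_cases hb : ∃ b, a' = C.c b a
    · rw [if_pos hb]
      obtain ⟨b, rfl⟩ := hb
      rw [column_orthogonality_of_isConj (C.hconjc b a).symm]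
      have ha' : C.c b a ≠ 1 := by
        intro h
        apply ha
        exact C.hcinj b (h.trans (map_one _).symm)
      rw [C.centralizer_eq ha', C.card_range]
    · rw [if_neg hb]
      apply column_orthogonality_of_not_isConj
      intro h
      exact hb (C.hconj a a' ha h)

open Classical in
/-- The first orthogonality relation. -/
theorem sum_aC_mul (μ μ' : Dl A) :
    ∑ χ : IrrCharacter G, C.aC μ χ.1 * conj (C.aC μ' χ.1) =
      (Fintype.card B : ℂ) + (C.N μ' μ : ℂ) := by
  have hn := n_ne (A := A)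
  set n : ℂ := (Fintype.card A : ℂ) with hndef
  have h1 : ∀ χ : IrrCharacter G, C.aC μ χ.1 * conj (C.aC μ' χ.1) =
      (n⁻¹ * n⁻¹) * ∑ a : A, ∑ a' : A, (conj (ev μ a) * ev μ' a') *
        (χ.1 (C.ι a) * conj (χ.1 (C.ι a'))) := by
    intro χ
    simp only [aC, map_mul, map_sum, map_inv₀, Complex.conj_conj, map_natCast]
    rw [mul_mul_mul_comm, Finset.sum_mul_sum]
    congr 1
    refine Finset.sum_congr rfl fun a _ => Finset.sum_congr rfl fun a' _ => ?_
    ring
  simp only [h1]
  rw [← Finset.mul_sum]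
  have h2 : ∑ χ : IrrCharacter G, ∑ a : A, ∑ a' : A, (conj (ev μ a) * ev μ' a') *
        (χ.1 (C.ι a) * conj (χ.1 (C.ι a'))) =
      ∑ a : A, ∑ a' : A, (conj (ev μ a) * ev μ' a') *
        (if a = 1 then (if a' = 1 then (Nat.card G : ℂ) else 0)
         else (if ∃ b, a' = C.c b a then n else 0)) := by
    rw [Finset.sum_comm]
    refine Finset.sum_congr rfl fun a _ => ?_
    rw [Finset.sum_comm]
    refine Finset.sum_congr rfl fun a' _ => ?_
    rw [← Finset.mul_sum, K_eq]
  rw [h2]
  -- inner sum for fixed `a`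
  have h3 : ∀ a : A, a ≠ 1 → ∑ a' : A, (conj (ev μ a) * ev μ' a') *
        (if ∃ b, a' = C.c b a then n else 0) =
      conj (ev μ a) * n * ∑ b : B, ev (C.tw b μ') a := by
    intro a ha
    have h4 : ∀ a' : A, (conj (ev μ a) * ev μ' a') * (if ∃ b, a' = C.c b a then n else 0) =
        if a' ∈ (univ.image (fun b : B => C.c b a)) then (conj (ev μ a) * n * ev μ' a') else 0 := by
      intro a'
      have h5 : a' ∈ (univ.image (fun b : B => C.c b a)) ↔ ∃ b, a' = C.c b a := by
        simp only [mem_image, mem_univ, true_and]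
        exact ⟨fun ⟨b, hb⟩ => ⟨b, hb.symm⟩, fun ⟨b, hb⟩ => ⟨b, hb.symm⟩⟩
      by_cases h6 : ∃ b, a' = C.c b a
      · rw [if_pos h6, if_pos (h5.2 h6)]
        ring
      · rw [if_neg h6, if_neg (fun h => h6 (h5.1 h))]
        ring
    simp only [h4]
    rw [Finset.sum_ite_mem, Finset.univ_inter, Finset.sum_image (fun b _ b' _ h => C.hinjb a ha h),
      Finset.mul_sum]
    rfl
  have h4 : ∑ a : A, ∑ a' : A, (conj (ev μ a) * ev μ' a') *
        (if a = 1 then (if a' = 1 then (Nat.card G : ℂ) else 0)
         else (if ∃ b, a' = C.c b a then n else 0)) =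
      (Nat.card G : ℂ) + n * ∑ a : A, (if a = 1 then 0 else
        conj (ev μ a) * ∑ b : B, ev (C.tw b μ') a) := by
    rw [Finset.mul_sum, ← Finset.add_sum_erase univ _ (mem_univ (1 : A)),
      ← Finset.add_sum_erase univ (fun a : A => n * (if a = 1 then 0 else
        conj (ev μ a) * ∑ b : B, ev (C.tw b μ') a)) (mem_univ (1 : A))]
    have h5 : ∑ a' : A, (conj (ev μ 1) * ev μ' a') *
        (if (1 : A) = 1 then (if a' = 1 then (Nat.card G : ℂ) else 0)
         else (if ∃ b, a' = C.c b 1 then n else 0)) = (Nat.card G : ℂ) := by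
      simp only [↓reduceIte]
      rw [Finset.sum_eq_single 1]
      · simp
      · intro a' _ ha'
        simp [ha']
      · intro h
        exact absurd (mem_univ _) h
    rw [h5]
    simp only [if_true, mul_zero, zero_add]
    congr 1
    refine Finset.sum_congr rfl fun a ha => ?_
    have ha1 : a ≠ 1 := (mem_erase.1 ha).1
    simp only [if_neg ha1]
    rw [h3 a ha1]
    ring
  rw [h4]
  have h5 : ∑ a : A, (if a = 1 then 0 else conj (ev μ a) * ∑ b : B, ev (C.tw b μ') a) =
      n * (C.N μ' μ : ℂ) - (Fintype.card B : ℂ) := by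
    have h6 : ∀ a : A, (if a = 1 then (0 : ℂ) else conj (ev μ a) * ∑ b : B, ev (C.tw b μ') a) =
        ∑ b : B, (ev (C.tw b μ') a * conj (ev μ a) - if a = 1 then 1 else 0) := by
      intro a
      by_cases ha : a = 1
      · subst ha
        simp
      · simp only [if_neg ha, sub_zero]
        rw [Finset.mul_sum]
        exact Finset.sum_congr rfl fun b _ => by ring
    simp only [h6]
    rw [Finset.sum_comm]
    simp only [Finset.sum_sub_distrib, sum_ev_mul_conj, Finset.sum_ite_eq', mem_univ, if_true]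
    simp only [Finset.sum_const, Finset.card_univ, nsmul_eq_mul, mul_one]
    congr 1
    rw [N, Finset.card_filter]
    push_cast
    rw [Finset.mul_sum]
    refine Finset.sum_congr rfl fun b _ => ?_
    by_cases hb : C.tw b μ' = μ
    · simp [hb, hndef]
    · simp [hb]
  rw [h5, C.hcard]
  push_cast
  rw [← hndef]
  field_simp
  ring

open Classical in
/-- The Frobenius-Schur sum. -/
theorem sum_fs_aC (μ : Dl A) :
    ∑ χ : IrrCharacter G, Cfsg.Agent.H23.fsInd χ.1 * C.aC μ χ.1 =
      (Fintype.card B : ℂ) + (if μ + μ = 0 then 1 else 0) := by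
  have hn := n_ne (A := A)
  set n : ℂ := (Fintype.card A : ℂ) with hndef
  have h1 : ∑ χ : IrrCharacter G, Cfsg.Agent.H23.fsInd χ.1 * C.aC μ χ.1 =
      n⁻¹ * ∑ a : A, conj (ev μ a) * Cfsg.Agent.H23.sqrtCount (C.ι a) := by
    simp only [aC]
    rw [Finset.mul_sum]
    simp only [Finset.mul_sum]
    rw [Finset.sum_comm]
    refine Finset.sum_congr rfl fun a _ => ?_
    rw [← Cfsg.Agent.H23.sum_fsInd_mul (C.ι a), Finset.mul_sum, Finset.mul_sum]
    refine Finset.sum_congr rfl fun χ _ => ?_
    rw [← hndef]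
    ring
  rw [h1]
  -- the function `T`
  let T : G → ℂ := fun w => ∑ a : A, conj (ev μ a) * (if w * w = C.ι a then 1 else 0)
  have h2 : ∑ a : A, conj (ev μ a) * Cfsg.Agent.H23.sqrtCount (C.ι a) = ∑ w : G, T w := by
    simp only [T, Cfsg.Agent.H23.sqrtCount, Finset.mul_sum]
    rw [Finset.sum_comm]
  rw [h2]
  have hT1 : ∀ a₀ : A, T (C.ι a₀) = conj (ev μ (a₀ * a₀)) := by
    intro a₀
    simp only [T]
    rw [Finset.sum_eq_single (a₀ * a₀)]
    · simp [map_mul]
    · intro a _ ha
      have : C.ι a₀ * C.ι a₀ ≠ C.ι a := by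
        intro h
        apply ha
        rw [← map_mul] at h
        exact (C.hι h).symm
      simp [this]
    · intro h
      exact absurd (mem_univ _) h
  have hT2 : ∀ w : G, w ∉ C.ι.range → T w = if w * w = 1 then 1 else 0 := by
    intro w hw
    simp only [T]
    by_cases hw1 : w * w = 1
    · rw [if_pos hw1, Finset.sum_eq_single 1]
      · simp [hw1]
      · intro a _ ha
        have : (1 : G) ≠ C.ι a := by
          intro h
          apply ha
          exact C.hι (h.symm.trans (map_one _).symm)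
        simp [hw1, this]
      · intro h
        exact absurd (mem_univ _) h
    · rw [if_neg hw1]
      apply Finset.sum_eq_zero
      intro a _
      by_cases hwa : w * w = C.ι a
      · exfalso
        have ha : a ≠ 1 := by
          rintro rfl
          rw [map_one] at hwa
          exact hw1 hwa
        apply hw
        apply C.hcent a ha
        rw [← hwa]
        group
      · simp [hwa]
  have h3 : ∑ w : G, T w = ∑ a₀ : A, T (C.ι a₀) +
      ∑ w ∈ univ.filter (fun w : G => w ∉ C.ι.range), T w := by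
    rw [← Finset.sum_filter_add_sum_filter_not univ (fun w : G => w ∈ C.ι.range)]
    congr 1
    have : univ.filter (fun w : G => w ∈ C.ι.range) = univ.image C.ι := by
      ext w
      simp [MonoidHom.mem_range]
    rw [this, Finset.sum_image (fun a _ b _ h => C.hι h)]
  rw [h3]
  have h4 : ∑ a₀ : A, T (C.ι a₀) = if μ + μ = 0 then n else 0 := by
    simp only [hT1]
    have h5 : ∀ a₀ : A, conj (ev μ (a₀ * a₀)) = conj (ev (μ + μ) a₀) := by
      intro a₀
      rw [ev_mul, ev_add]
    simp only [h5]
    rw [← map_sum, sum_ev]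
    by_cases h : μ + μ = 0
    · simp [h, hndef]
    · simp [h]
  have h5 : ∑ w ∈ univ.filter (fun w : G => w ∉ C.ι.range), T w = n * (Fintype.card B : ℂ) := by
    have h6 : ∀ w ∈ univ.filter (fun w : G => w ∉ C.ι.range), T w = if w * w = 1 then 1 else 0 := by
      intro w hw
      exact hT2 w (mem_filter.1 hw).2
    rw [Finset.sum_congr rfl h6, Finset.sum_boole, Finset.filter_filter]
    have h7 := C.hinv
    rw [Nat.card_eq_fintype_card, Fintype.card_subtype] at h7
    have h8 : univ.filter (fun w : G => w ∉ C.ι.range ∧ w * w = 1) =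
        univ.filter (fun w : G => w * w = 1 ∧ w ∉ C.ι.range) := by
      ext w
      simp [and_comm]
    rw [h8, h7]
    push_cast
    rfl
  rw [h4, h5]
  by_cases h : μ + μ = 0
  · simp only [h, if_true]
    field_simp
    ring
  · simp only [h, if_false]
    field_simp
    ring

omit [Fintype (IrrCharacter G)] in
/-- Invariance under twisting. -/
theorem aC_tw (b : B) (μ : Dl A) {χ : G → ℂ} (hχ : IsCharacter G χ) :
    C.aC (C.tw b μ) χ = C.aC μ χ := by
  simp only [aC, ev_tw]
  congr 1
  have hbij : Function.Bijective (C.c b) :=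
    (Finite.injective_iff_bijective).1 (C.hcinj b)
  rw [← hbij.sum_comp (fun a => χ (C.ι a) * conj (ev μ a))]
  refine Finset.sum_congr rfl fun a _ => ?_
  congr 1
  obtain ⟨k, hk⟩ := isConj_iff.1 (C.hconjc b a)
  rw [← hk, Cfsg.Agent.H21.isCharacter_conj hχ]

omit [Fintype G] [Fintype (IrrCharacter G)] in
theorem aC_neg_conj (μ : Dl A) (χ : G → ℂ) :
    C.aC (-μ) (fun g => conj (χ g)) = conj (C.aC μ χ) := by
  simp only [aC, map_mul, map_sum, map_inv₀, map_natCast, ev_neg, Complex.conj_conj]

omit [Fintype G] [Fintype (IrrCharacter G)] in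
theorem tw_zero (b : B) : C.tw b (0 : Dl A) = 0 := by
  apply ext_ev
  intro a
  rw [ev_tw]
  simp

omit [Fintype G] [Fintype (IrrCharacter G)] in
theorem eq_zero_of_twist_eq {μ' : Dl A} {b b' : B} (hbb : b ≠ b')
    (h : C.tw b μ' = C.tw b' μ') : μ' = 0 := by
  classical
  let φ : A →* A := (C.c b) * (C.c b')⁻¹
  have hφ : Function.Injective φ := by
    rw [injective_iff_map_eq_one]
    intro a ha
    by_contra ha1
    apply hbb
    apply C.hinjb a ha1
    have h1 : C.c b a * (C.c b' a)⁻¹ = 1 := ha
    exact mul_inv_eq_one.1 h1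
  have hφs : Function.Surjective φ := Finite.surjective_of_injective hφ
  apply ext_ev
  intro a
  obtain ⟨a₁, rfl⟩ := hφs a
  have h1 : ev (C.tw b μ') a₁ = ev (C.tw b' μ') a₁ := by rw [h]
  rw [ev_tw, ev_tw] at h1
  have h2 : φ a₁ = C.c b a₁ * (C.c b' a₁)⁻¹ := rfl
  rw [h2, ev_mul, h1, ← ev_mul, mul_inv_cancel, ev_one]
  simp

omit [Fintype G] [Fintype (IrrCharacter G)] in
open Classical in
theorem N_le_one {μ' μ : Dl A} (hμ : μ ≠ 0) : C.N μ' μ ≤ 1 := by
  rw [N, Finset.card_le_one]
  intro b hb b' hb'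
  simp only [mem_filter, mem_univ, true_and] at hb hb'
  by_contra hbb
  have h0 := C.eq_zero_of_twist_eq hbb (hb.trans hb'.symm)
  rw [h0, C.tw_zero] at hb
  exact hμ hb.symm

omit [Fintype G] [Fintype (IrrCharacter G)] in
open Classical in
theorem N_self {μ : Dl A} (hμ : μ ≠ 0) : C.N μ μ = 1 := by
  apply le_antisymm (C.N_le_one hμ)
  rw [N, Nat.succ_le_iff, Finset.card_pos]
  refine ⟨C.b₀, ?_⟩
  simp only [mem_filter, mem_univ, true_and]
  apply ext_ev
  intro a
  rw [ev_tw, C.hb₀]

omit [Fintype G] [Fintype (IrrCharacter G)] in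
open Classical in
theorem N_zero (μ : Dl A) (hμ : μ ≠ 0) : C.N (0 : Dl A) μ = 0 := by
  rw [N, Finset.card_eq_zero, Finset.filter_eq_empty_iff]
  intro b _ h
  rw [C.tw_zero] at h
  exact hμ h.symm

omit [Fintype G] [Fintype (IrrCharacter G)] in
open Classical in
theorem sum_N (μ : Dl A) : ∑ μ' : Dl A, C.N μ' μ = Fintype.card B := by
  simp only [N, Finset.card_filter]
  rw [Finset.sum_comm]
  have h1 : ∀ b : B, ∑ μ' : Dl A, (if C.tw b μ' = μ then 1 else 0) = 1 := by
    intro b
    have hinj : Function.Injective (C.tw b) := by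
      intro μ₁ μ₂ h
      apply ext_ev
      intro a
      have hbij : Function.Bijective (C.c b) :=
        (Finite.injective_iff_bijective).1 (C.hcinj b)
      obtain ⟨a₁, rfl⟩ := hbij.2 a
      have h2 : ev (C.tw b μ₁) a₁ = ev (C.tw b μ₂) a₁ := by rw [h]
      exact h2
    obtain ⟨μ₀, rfl⟩ := (Finite.surjective_of_injective hinj) μ
    rw [Finset.sum_eq_single μ₀]
    · simp
    · intro μ₁ _ h
      rw [if_neg (fun h2 => h (hinj h2))]
    · intro h
      exact absurd (mem_univ _) h
  simp only [h1]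
  simp

omit [Fintype G] [Fintype (IrrCharacter G)] in
open Classical in
theorem sum_aC_one (χ : G → ℂ) : ∑ μ : Dl A, C.aC μ χ = χ 1 := by
  have hn := n_ne (A := A)
  simp only [aC]
  rw [← Finset.mul_sum, Finset.sum_comm]
  have h1 : ∀ a : A, ∑ μ : Dl A, χ (C.ι a) * conj (ev μ a) =
      χ (C.ι a) * (if a = 1 then (Fintype.card A : ℂ) else 0) := by
    intro a
    rw [← Finset.mul_sum, ← map_sum, sum_dual]
    by_cases h : a = 1
    · simp [h]
    · simp [h]
  simp only [h1]
  rw [Finset.sum_eq_single 1]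
  · simp only [if_true, map_one]
    field_simp
  · intro a _ ha
    simp [ha]
  · intro h
    exact absurd (mem_univ _) h

omit [Fintype G] [Fintype (IrrCharacter G)] in
open Classical in
theorem sum_aC_sq (χ : G → ℂ) : ∑ μ : Dl A, C.aC μ χ * conj (C.aC μ χ) =
    (Fintype.card A : ℂ)⁻¹ * ∑ a : A, χ (C.ι a) * conj (χ (C.ι a)) := by
  have hn := n_ne (A := A)
  have h1 : ∀ μ : Dl A, C.aC μ χ * conj (C.aC μ χ) =
      ((Fintype.card A : ℂ)⁻¹ * (Fintype.card A : ℂ)⁻¹) * ∑ a : A, ∑ a' : A,
        (χ (C.ι a) * conj (χ (C.ι a'))) * (ev μ a' * conj (ev μ a)) := by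
    intro μ
    simp only [aC, map_mul, map_sum, map_inv₀, Complex.conj_conj, map_natCast]
    rw [mul_mul_mul_comm, Finset.sum_mul_sum]
    congr 1
    refine Finset.sum_congr rfl fun a _ => Finset.sum_congr rfl fun a' _ => ?_
    ring
  simp only [h1]
  rw [← Finset.mul_sum, Finset.sum_comm]
  have h2 : ∀ a : A, ∑ μ : Dl A, ∑ a' : A, (χ (C.ι a) * conj (χ (C.ι a'))) * (ev μ a' * conj (ev μ a)) =
      (Fintype.card A : ℂ) * (χ (C.ι a) * conj (χ (C.ι a))) := by
    intro a
    rw [Finset.sum_comm]
    simp only [← Finset.mul_sum, sum_dual_mul_conj]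
    rw [Finset.sum_eq_single a]
    · simp only [if_true]
      ring
    · intro a' _ ha'
      simp [ha']
    · intro h
      exact absurd (mem_univ _) h
  simp only [h2]
  rw [← Finset.mul_sum]
  field_simp

end FC

end Cfsg.Agent.H03.ZC
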