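import Cfsg.Agent.Lib.H03.ZC1

/-!
The non-real character attached to a dual element of order greater than two.
-/

set_option autoImplicit false

namespace Cfsg.Agent.H03.ZC

open Cfsg Finset Cfsg.Agent.H21
open scoped ComplexConjugate

universe u v w

variable {G : Type u} {A : Type v} {B : Type w} [Group G] [CommGroup A] [Fintype A] [Fintype B]
  (C : FC G A B) [Fintype G] [Fintype (IrrCharacter G)]

namespace FC

/-- An integer form of the Frobenius-Schur indicator. -/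
theorem exists_nu (χ : IrrCharacter G) : ∃ z : ℤ, (z = 0 ∨ z = 1 ∨ z = -1) ∧
    (z : ℂ) = Cfsg.Agent.H23.fsInd χ.1 ∧ (z ≠ 0 → ∀ g, conj (χ.1 g) = χ.1 g) ∧
    (z = 0 → ¬ ∀ g, conj (χ.1 g) = χ.1 g) := by
  by_cases h : ∀ g, conj (χ.1 g) = χ.1 g
  · rcases Cfsg.Agent.H23.fsInd_of_real χ h with h1 | h1
    · exact ⟨1, by simp, by simp [h1], fun _ => h, fun h2 => by simp at h2⟩
    · exact ⟨-1, by simp, by simp [h1], fun _ => h, fun h2 => by simp at h2⟩
  · exact ⟨0, by simp, by simp [Cfsg.Agent.H23.fsInd_of_not_real χ h], fun h2 => absurd rfl h2,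
      fun _ => h⟩

theorem add_le_sum_of_nonneg {ι : Type*} [DecidableEq ι] (s : Finset ι) (f : ι → ℤ)
    (hf : ∀ i ∈ s, 0 ≤ f i) {a b : ι} (ha : a ∈ s) (hb : b ∈ s) (hab : a ≠ b) :
    f a + f b ≤ ∑ i ∈ s, f i := by
  rw [← Finset.add_sum_erase s f ha]
  have h1 : b ∈ s.erase a := Finset.mem_erase.2 ⟨hab.symm, hb⟩
  have h2 : f b ≤ ∑ i ∈ s.erase a, f i :=
    Finset.single_le_sum (f := f) (fun i hi => hf i (Finset.mem_of_mem_erase hi)) h1
  omega

open Classical in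
/-- Existence of the non-real character. -/
theorem exists_chi (μ : Dl A) (hμ2 : μ + μ ≠ 0) :
    ∃ χ₁ : IrrCharacter G, (¬ ∀ g, conj (χ₁.1 g) = χ₁.1 g) ∧
      ∀ μ' : Dl A, μ' ≠ 0 → C.aC μ' χ₁.1 = (C.N μ' μ : ℂ) := by
  have hμ : μ ≠ 0 := by
    rintro rfl
    exact hμ2 (add_zero 0)
  choose aN haN using fun (μ : Dl A) (χ : IrrCharacter G) => C.aC_nat μ (isCharacter_of_irr χ.2)
  choose nu hnu1 hnu2 hnu3 hnu4 using exists_nu (G := G)
  -- conjugation on irreducibles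
  let cj : IrrCharacter G → IrrCharacter G := fun χ =>
    ⟨fun g => conj (χ.1 g), Cfsg.Agent.H23.isIrrCharacter_conjFun χ.2⟩
  have hconjN : ∀ (μ : Dl A) (χ : IrrCharacter G), aN (-μ) (cj χ) = aN μ χ := by
    intro μ χ
    have h1 := C.aC_neg_conj μ χ.1
    have h2 : C.aC (-μ) (cj χ).1 = (aN (-μ) (cj χ) : ℂ) := haN _ _
    have h3 : (cj χ).1 = fun g => conj (χ.1 g) := rfl
    rw [h3] at h2
    rw [h2, haN, Complex.conj_natCast] at h1
    exact_mod_cast h1
  have hreal : ∀ (χ : IrrCharacter G), (∀ g, conj (χ.1 g) = χ.1 g) → cj χ = χ := by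
    intro χ h
    apply Subtype.ext
    funext g
    exact h g
  -- the sums in `ℤ`
  have hS1 : ∀ μ₁ μ₂ : Dl A, ∑ χ : IrrCharacter G, (aN μ₁ χ : ℤ) * (aN μ₂ χ : ℤ) =
      (Fintype.card B : ℤ) + (C.N μ₂ μ₁ : ℤ) := by
    intro μ₁ μ₂
    have h1 := C.sum_aC_mul μ₁ μ₂
    simp only [haN, Complex.conj_natCast] at h1
    exact_mod_cast h1
  have hS2 : ∀ μ₁ : Dl A, ∑ χ : IrrCharacter G, nu χ * (aN μ₁ χ : ℤ) =
      (Fintype.card B : ℤ) + (if μ₁ + μ₁ = 0 then 1 else 0) := by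
    intro μ₁
    have h1 := C.sum_fs_aC μ₁
    simp only [haN, ← hnu2] at h1
    have h2 : ((∑ χ : IrrCharacter G, nu χ * (aN μ₁ χ : ℤ) : ℤ) : ℂ) =
        (((Fintype.card B : ℤ) + (if μ₁ + μ₁ = 0 then 1 else 0) : ℤ) : ℂ) := by
      push_cast
      exact h1
    exact_mod_cast h2
  -- the nonnegative terms
  let t : Dl A → IrrCharacter G → ℤ := fun μ₁ χ => (aN μ₁ χ : ℤ) * (aN μ₁ χ : ℤ) - nu χ * (aN μ₁ χ : ℤ)
  have ht0 : ∀ μ₁ χ, 0 ≤ t μ₁ χ := by
    intro μ₁ χ
    simp only [t]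
    rcases hnu1 χ with h | h | h <;> rw [h] <;> nlinarith [Int.natCast_nonneg (aN μ₁ χ), mul_self_nonneg ((aN μ₁ χ : ℤ)), (show (0:ℤ) ≤ (aN μ₁ χ : ℤ) - 1 ∨ aN μ₁ χ = 0 by omega)]
  have hSt : ∀ μ₁ : Dl A, μ₁ ≠ 0 → ∑ χ, t μ₁ χ = 1 - (if μ₁ + μ₁ = 0 then 1 else 0) := by
    intro μ₁ h
    simp only [t]
    rw [Finset.sum_sub_distrib, hS1 μ₁ μ₁, hS2 μ₁, C.N_self h]
    push_cast
    ring
  have hU : ∀ μ₁ : Dl A, μ₁ ≠ 0 → ∀ χ χ', t μ₁ χ ≠ 0 → t μ₁ χ' ≠ 0 → χ = χ' := by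
    intro μ₁ h χ χ' h1 h2
    by_contra hne
    have h3 := add_le_sum_of_nonneg univ (t μ₁) (fun i _ => ht0 μ₁ i) (mem_univ χ) (mem_univ χ') hne
    rw [hSt μ₁ h] at h3
    have h4 := ht0 μ₁ χ
    have h5 := ht0 μ₁ χ'
    split_ifs at h3 <;> omega
  -- existence
  obtain ⟨χ₁, hχ₁⟩ : ∃ χ₁, t μ χ₁ ≠ 0 := by
    by_contra hcon
    push Not at hcon
    have h1 := hSt μ hμ
    rw [Finset.sum_eq_zero (fun χ _ => hcon χ), if_neg hμ2] at h1
    omega
  have hle1 : t μ χ₁ ≤ 1 := by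
    have h1 := Finset.single_le_sum (f := t μ) (fun i _ => ht0 μ i) (mem_univ χ₁)
    rw [hSt μ hμ, if_neg hμ2] at h1
    simpa using h1
  have hχ₁' : t μ χ₁ = 1 := by
    have := ht0 μ χ₁
    omega
  have hnu₁ : nu χ₁ = 0 ∧ aN μ χ₁ = 1 := by
    simp only [t] at hχ₁'
    obtain ⟨a, ha⟩ : ∃ a, a = aN μ χ₁ := ⟨_, rfl⟩
    rw [← ha] at hχ₁' ⊢
    have hcases : a = 0 ∨ a = 1 ∨ 2 ≤ a := by omega
    rcases hnu1 χ₁ with h | h | h <;> rw [h] at hχ₁'
    · refine ⟨h, ?_⟩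
      rcases hcases with rfl | rfl | h2
      · simp at hχ₁'
      · rfl
      · exfalso
        have : (2 : ℤ) ≤ a := by exact_mod_cast h2
        nlinarith
    · exfalso
      rcases hcases with rfl | rfl | h2
      · simp at hχ₁'
      · simp at hχ₁'
      · have : (2 : ℤ) ≤ a := by exact_mod_cast h2
        nlinarith
    · exfalso
      rcases hcases with rfl | rfl | h2
      · simp at hχ₁'
      · simp at hχ₁'
      · have : (2 : ℤ) ≤ a := by exact_mod_cast h2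
        nlinarith
  have hν0 : ∀ (μ₁ : Dl A) (χ : IrrCharacter G), nu χ = 0 → aN μ₁ χ ≠ 0 → t μ₁ χ ≠ 0 := by
    intro μ₁ χ h1 h2
    simp only [t, h1, zero_mul, sub_zero]
    have : (aN μ₁ χ : ℤ) ≠ 0 := by exact_mod_cast h2
    exact mul_ne_zero this this
  have hreal2 : ∀ χ : IrrCharacter G, χ ≠ χ₁ → aN μ χ ≠ 0 → ∀ g, conj (χ.1 g) = χ.1 g := by
    intro χ hne h1
    apply hnu3
    intro h2
    exact hne (hU μ hμ χ χ₁ (hν0 μ χ h2 h1) hχ₁)
  have hneg : ∀ (μ' : Dl A) (χ : IrrCharacter G), (∀ g, conj (χ.1 g) = χ.1 g) →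
      aN (-μ') χ = aN μ' χ := by
    intro μ' χ h
    have := hconjN μ' χ
    rwa [hreal χ h] at this
  have hG2 : ∀ μ' : Dl A, (aN μ' χ₁ : ℤ) - (aN (-μ') χ₁ : ℤ) = (C.N μ' μ : ℤ) - (C.N (-μ') μ : ℤ) := by
    intro μ'
    have h1 := hS1 μ μ'
    have h2 := hS1 μ (-μ')
    have h3 : ∑ χ : IrrCharacter G, (aN μ χ : ℤ) * ((aN μ' χ : ℤ) - (aN (-μ') χ : ℤ)) =
        (C.N μ' μ : ℤ) - (C.N (-μ') μ : ℤ) := by
      simp only [mul_sub]
      rw [Finset.sum_sub_distrib, h1, h2]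
      ring
    rw [← h3, Finset.sum_eq_single χ₁]
    · rw [hnu₁.2]
      simp
    · intro χ _ hne
      by_cases h4 : aN μ χ = 0
      · simp [h4]
      · rw [hneg μ' χ (hreal2 χ hne h4)]
        simp
    · intro h
      exact absurd (mem_univ _) h
  have hcjnu : nu (cj χ₁) = 0 := by
    by_contra h
    have h2 := hnu3 (cj χ₁) h
    apply hnu4 χ₁ hnu₁.1
    intro g
    have h3 : conj (conj (χ₁.1 g)) = conj (χ₁.1 g) := h2 g
    rw [Complex.conj_conj] at h3
    exact h3.symm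
  refine ⟨χ₁, hnu4 χ₁ hnu₁.1, fun μ' hμ' => ?_⟩
  rw [haN]
  suffices h : aN μ' χ₁ = C.N μ' μ by rw [h]
  by_cases hN : C.N μ' μ = 0
  · rw [hN]
    by_contra hne
    have h2 := hG2 μ'
    rw [hN] at h2
    have h3 : aN (-μ') χ₁ ≠ 0 := by
      intro h4
      rw [h4] at h2
      push_cast at h2
      omega
    have h4 : aN (-μ') (cj χ₁) ≠ 0 := by
      rw [hconjN]
      exact hne
    have h5 := hU (-μ') (neg_ne_zero.2 hμ') χ₁ (cj χ₁) (hν0 _ _ hnu₁.1 h3) (hν0 _ _ hcjnu h4)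
    apply hnu4 χ₁ hnu₁.1
    intro g
    exact (congrFun (congrArg Subtype.val h5) g).symm
  · have hN1 : C.N μ' μ = 1 := by
      have := C.N_le_one (μ' := μ') hμ
      omega
    rw [hN1]
    have hpos : 0 < C.N μ' μ := by omega
    rw [N, Finset.card_pos] at hpos
    obtain ⟨b, hb⟩ := hpos
    simp only [mem_filter, mem_univ, true_and] at hb
    have h2 := C.aC_tw b μ' (isCharacter_of_irr χ₁.2)
    rw [hb, haN, haN] at h2
    have h3 : aN μ χ₁ = aN μ' χ₁ := by exact_mod_cast h2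
    rw [← h3, hnu₁.2]

open Classical in
/-- The bound, given the estimate for multiplicities of the trivial character. -/
theorem bound_of_F7
    (hF7 : ∀ ψ : IrrCharacter G, ψ.1 ≠ (fun _ => 1) → ∀ m : ℕ, C.aC 0 ψ.1 = m →
      (Fintype.card A + 1) * m ≤ 2 * charDegree ψ.1)
    (hd : 1 < Fintype.card B) (μ : Dl A) (hμ2 : μ + μ ≠ 0) :
    Fintype.card A ≤ 2 * Fintype.card B + 1 := by
  have hμ : μ ≠ 0 := by
    rintro rfl
    exact hμ2 (add_zero 0)
  have hn := n_ne (A := A)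
  obtain ⟨χ₁, hnr, hN⟩ := C.exists_chi μ hμ2
  obtain ⟨a₀, ha₀⟩ := C.aC_nat 0 (isCharacter_of_irr χ₁.2)
  -- the orbit sum
  have hsumN : ∑ μ' ∈ univ.erase (0 : Dl A), (C.N μ' μ : ℂ) = (Fintype.card B : ℂ) := by
    have h1 := C.sum_N μ
    rw [← Finset.add_sum_erase univ _ (mem_univ (0 : Dl A)), C.N_zero μ hμ, zero_add] at h1
    rw [← h1]
    push_cast
    rfl
  have hdeg : χ₁.1 1 = (a₀ : ℂ) + (Fintype.card B : ℂ) := by
    rw [← C.sum_aC_one χ₁.1, ← Finset.add_sum_erase univ _ (mem_univ (0 : Dl A)), ha₀, ← hsumN]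
    congr 1
    refine Finset.sum_congr rfl fun μ' hμ' => ?_
    exact hN μ' (mem_erase.1 hμ').1
  have hP : (Fintype.card A : ℂ)⁻¹ * ∑ a : A, χ₁.1 (C.ι a) * conj (χ₁.1 (C.ι a)) =
      (a₀ : ℂ) * a₀ + (Fintype.card B : ℂ) := by
    rw [← C.sum_aC_sq χ₁.1, ← Finset.add_sum_erase univ _ (mem_univ (0 : Dl A)), ha₀,
      Complex.conj_natCast, ← hsumN]
    congr 1
    refine Finset.sum_congr rfl fun μ' hμ' => ?_
    rw [hN μ' (mem_erase.1 hμ').1, Complex.conj_natCast]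
    have h1 := C.N_le_one (μ' := μ') hμ
    have h2 : C.N μ' μ = 0 ∨ C.N μ' μ = 1 := by omega
    rcases h2 with h2 | h2 <;> simp [h2]
  have hdegN : charDegree χ₁.1 = a₀ + Fintype.card B := by
    have h1 := one_eq_charDegree (isCharacter_of_irr χ₁.2)
    rw [hdeg] at h1
    exact_mod_cast h1.symm
  have hχ₁ne : χ₁.1 ≠ (fun _ => 1) := by
    intro h
    apply hnr
    intro g
    rw [h]
    simp
  have h7 := hF7 χ₁ hχ₁ne a₀ ha₀
  rw [hdegN] at h7
  by_cases ha0 : a₀ = 0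
  · subst ha0
    simp only [Nat.cast_zero, zero_add, mul_zero] at hdeg hP h7 hdegN
    -- the product character
    let θ : G → ℂ := fun g => χ₁.1 g * conj (χ₁.1 g)
    have hθ : IsCharacter G θ :=
      isCharacter_mul (isCharacter_of_irr χ₁.2)
        (isCharacter_of_irr (Cfsg.Agent.H23.isIrrCharacter_conjFun χ₁.2))
    obtain ⟨m, hm, hm'⟩ := isCharacter_decomp hθ
    have hval : ∀ g, θ g = ∑ ψ : IrrCharacter G, (m ψ : ℂ) * ψ.1 g := by
      intro g
      have := congrFun hm g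
      simp only [Finset.sum_apply, Pi.smul_apply, nsmul_eq_mul] at this
      exact this
    let one : IrrCharacter G := ⟨fun _ => 1, isIrrCharacter_one⟩
    have hm1 : m one = 1 := by
      have h1 := hm' one
      have h2 : classInner θ one.1 = classInner χ₁.1 χ₁.1 := by
        simp only [classInner, θ, one]
        simp
      rw [h2, classInner_self_irr] at h1
      exact_mod_cast h1.symm
    choose a0N ha0N using fun ψ : IrrCharacter G => C.aC_nat 0 (isCharacter_of_irr ψ.2)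
    have hsum1 : ∑ ψ : IrrCharacter G, m ψ * a0N ψ = Fintype.card B := by
      have h1 : (∑ ψ : IrrCharacter G, (m ψ : ℂ) * (a0N ψ : ℂ)) = (Fintype.card B : ℂ) := by
        rw [← hP]
        simp only [← ha0N, aC, ev_zero, map_one, mul_one]
        simp only [Finset.mul_sum]
        rw [Finset.sum_comm]
        refine Finset.sum_congr rfl fun a _ => ?_
        have := hval (C.ι a)
        simp only [θ] at this
        rw [this, Finset.mul_sum]
        refine Finset.sum_congr rfl fun ψ _ => ?_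
        ring
      exact_mod_cast h1
    have hsum2 : ∑ ψ : IrrCharacter G, m ψ * charDegree ψ.1 =
        Fintype.card B * Fintype.card B := by
      have h1 : (∑ ψ : IrrCharacter G, (m ψ : ℂ) * (charDegree ψ.1 : ℂ)) =
          (Fintype.card B : ℂ) * (Fintype.card B : ℂ) := by
        have h2 := hval 1
        simp only [θ] at h2
        rw [hdeg, Complex.conj_natCast] at h2
        rw [h2]
        refine Finset.sum_congr rfl fun ψ _ => ?_
        rw [one_eq_charDegree (isCharacter_of_irr ψ.2)]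
      exact_mod_cast h1
    have hone0 : a0N one = 1 := by
      have h1 := ha0N one
      have h2 : C.aC 0 one.1 = 1 := by
        simp only [aC, one, ev_zero, map_one, mul_one]
        simp only [Finset.sum_const, Finset.card_univ, nsmul_eq_mul, mul_one]
        exact inv_mul_cancel₀ hn
      rw [h2] at h1
      exact_mod_cast h1.symm
    have honed : charDegree one.1 = 1 := by
      have h1 := one_eq_charDegree (isCharacter_of_irr one.2)
      have h2 : one.1 1 = 1 := rfl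
      rw [h2] at h1
      exact_mod_cast h1.symm
    rw [← Finset.add_sum_erase univ _ (mem_univ one), hm1, hone0] at hsum1
    rw [← Finset.add_sum_erase univ _ (mem_univ one), hm1, honed] at hsum2
    set X := ∑ ψ ∈ univ.erase one, m ψ * a0N ψ with hX
    set Y := ∑ ψ ∈ univ.erase one, m ψ * charDegree ψ.1 with hY
    have hXY : (Fintype.card A + 1) * X ≤ 2 * Y := by
      rw [hX, hY, Finset.mul_sum, Finset.mul_sum]
      apply Finset.sum_le_sum
      intro ψ hψ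
      have hne : ψ ≠ one := (mem_erase.1 hψ).1
      have h1 := hF7 ψ (fun h => hne (Subtype.ext h)) (a0N ψ) (ha0N ψ)
      calc (Fintype.card A + 1) * (m ψ * a0N ψ) = m ψ * ((Fintype.card A + 1) * a0N ψ) := by ring
        _ ≤ m ψ * (2 * charDegree ψ.1) := Nat.mul_le_mul_left _ h1
        _ = 2 * (m ψ * charDegree ψ.1) := by ring
    simp only [one_mul] at hsum1 hsum2
    have hX1 : 1 ≤ X := by omega
    have hd' : Fintype.card B = X + 1 := by omega
    rw [hd'] at hsum2 ⊢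
    have hY' : Y = X * X + 2 * X := by nlinarith
    rw [hY'] at hXY
    by_contra hcon
    push Not at hcon
    nlinarith
  · have h1 : 1 ≤ a₀ := Nat.one_le_iff_ne_zero.2 ha0
    by_contra hcon
    push Not at hcon
    nlinarith

end FC

end Cfsg.Agent.H03.ZC
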