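import Cfsg.Agent.Lib.H03.ZC2

/-!
Induction from a point stabiliser: the estimate for multiplicities of the trivial character.
-/

set_option autoImplicit false

namespace Cfsg.Agent.H03.ZC

open Cfsg Finset Cfsg.Agent.H21
open scoped ComplexConjugate

universe u v w

/-- The configuration `L = A ⋊ B`. -/
structure FL (G : Type u) (A : Type v) (B : Type w) [Group G] [Fintype G] [CommGroup A] [Fintype A]
    [CommGroup B] [Fintype B] where
  ι : A →* G
  j : B →* G
  L : Subgroup G
  r : L →* B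
  s : G
  hιL : ∀ a, ι a ∈ L
  hjL : ∀ b, j b ∈ L
  hrι : ∀ a, r ⟨ι a, hιL a⟩ = 1
  hrj : ∀ b, r ⟨j b, hjL b⟩ = b
  hbij : Function.Bijective (fun p : A × B => (⟨ι p.1 * j p.2, L.mul_mem (hιL p.1) (hjL p.2)⟩ : L))
  hW1 : ∀ a, a ≠ 1 → ∀ t : G, t⁻¹ * ι a * t ∈ L → t ∈ L
  hW2 : ∀ b, b ≠ 1 → ∀ t : G, t⁻¹ * j b * t ∈ L → t ∈ L ∨ s⁻¹ * t ∈ L
  hsL : s ∉ L
  hsinv : ∀ b, s⁻¹ * j b * s = j b⁻¹
  hconj : ∀ a b, b ≠ 1 → IsConj (ι a * j b) (j b)
  hindex : L.index = Fintype.card A + 1
  hodd : Odd (Fintype.card B)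

variable {G : Type u} {A : Type v} {B : Type w} [Group G] [Fintype G] [CommGroup A] [Fintype A]
  [CommGroup B] [Fintype B] (D : FL G A B)

namespace FL

noncomputable instance : Fintype D.L := Fintype.ofFinite _

theorem ι_inj_of_bij : Function.Injective D.ι := by
  intro a a' h
  have h1 := D.hbij.1 (a₁ := (a, 1)) (a₂ := (a', 1)) (by
    apply Subtype.ext
    simp [h])
  exact congrArg Prod.fst h1

theorem card_L : Nat.card D.L = Fintype.card A * Fintype.card B := by
  rw [← Nat.card_eq_fintype_card, ← Nat.card_eq_fintype_card, ← Nat.card_prod]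
  exact (Nat.card_eq_of_bijective _ D.hbij).symm

/-- The inflated linear character. -/
noncomputable def θ (l : Dl B) : D.L → ℂ := fun g => ev l (D.r g)

theorem isChar_θ (l : Dl B) : IsCharacter D.L (D.θ l) :=
  isCharacter_comp D.r (isChar_ev l)

/-- The induced character. -/
noncomputable def Ψ (l : Dl B) : G → ℂ := indFun D.L (D.θ l)

theorem isChar_Ψ (l : Dl B) : IsCharacter G (D.Ψ l) :=
  isCharacter_indFun D.L (D.isChar_θ l)

theorem Ψ_one (l : Dl B) : D.Ψ l 1 = (Fintype.card A : ℂ) + 1 := by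
  simp only [Ψ]
  rw [indFun_one, D.hindex]
  simp [θ]

/-- Rewriting the sum over `L`. -/
theorem sum_L (f : D.L → ℂ) : ∑ g : D.L, f g = ∑ b : B, ∑ a : A,
    f ⟨D.ι a * D.j b, D.L.mul_mem (D.hιL a) (D.hjL b)⟩ := by
  rw [← D.hbij.sum_comp f, Fintype.sum_prod_type, Finset.sum_comm]

theorem r_mul (a : A) (b : B) :
    D.r ⟨D.ι a * D.j b, D.L.mul_mem (D.hιL a) (D.hjL b)⟩ = b := by
  have : (⟨D.ι a * D.j b, D.L.mul_mem (D.hιL a) (D.hjL b)⟩ : D.L) =
      ⟨D.ι a, D.hιL a⟩ * ⟨D.j b, D.hjL b⟩ := rfl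
  rw [this, map_mul, D.hrι, D.hrj, one_mul]

theorem card_L_ne : (Nat.card D.L : ℂ) ≠ 0 := by
  have := Nat.card_pos (α := D.L)
  exact_mod_cast this.ne'

open Classical in
theorem Ψ_ι (l : Dl B) {a : A} (ha : a ≠ 1) : D.Ψ l (D.ι a) = 1 := by
  have hne := D.card_L_ne
  simp only [Ψ, indFun]
  have h1 : ∀ t : G, extendByZero D.L (D.θ l) (t⁻¹ * D.ι a * t) = if t ∈ D.L then 1 else 0 := by
    intro t
    by_cases ht : t ∈ D.L
    · rw [if_pos ht]
      have hm : t⁻¹ * D.ι a * t ∈ D.L := D.L.mul_mem (D.L.mul_mem (D.L.inv_mem ht) (D.hιL a)) ht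
      have h2 := extendByZero_coe D.L (D.θ l) ⟨_, hm⟩
      simp only at h2
      rw [h2]
      simp only [θ]
      have h3 : (⟨t⁻¹ * D.ι a * t, hm⟩ : D.L) = (⟨t, ht⟩ : D.L)⁻¹ * ⟨D.ι a, D.hιL a⟩ * ⟨t, ht⟩ := rfl
      rw [h3, map_mul, map_mul, D.hrι, mul_one, map_inv, inv_mul_cancel, ev_one]
    · rw [if_neg ht]
      apply extendByZero_of_not_mem
      intro hm
      exact ht (D.hW1 a ha t hm)
  simp only [h1]
  rw [Finset.sum_boole]
  have h2 : ((univ.filter (fun t : G => t ∈ D.L)).card : ℂ) = (Nat.card D.L : ℂ) := by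
    congr 1
    rw [← Fintype.card_subtype]
    exact (Nat.card_eq_fintype_card).symm
  rw [h2]
  exact inv_mul_cancel₀ hne

open Classical in
theorem Ψ_j (l : Dl B) {b : B} (hb : b ≠ 1) : D.Ψ l (D.j b) = ev l b + ev l b⁻¹ := by
  have hne := D.card_L_ne
  simp only [Ψ, indFun]
  have h1 : ∀ t : G, extendByZero D.L (D.θ l) (t⁻¹ * D.j b * t) =
      (if t ∈ D.L then ev l b else 0) + (if D.s⁻¹ * t ∈ D.L then ev l b⁻¹ else 0) := by
    intro t
    by_cases ht : t ∈ D.L
    · have hst : D.s⁻¹ * t ∉ D.L := by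
        intro h
        apply D.hsL
        have h2 : D.s = t * (D.s⁻¹ * t)⁻¹ := by group
        rw [h2]
        exact D.L.mul_mem ht (D.L.inv_mem h)
      rw [if_pos ht, if_neg hst, add_zero]
      have hm : t⁻¹ * D.j b * t ∈ D.L := D.L.mul_mem (D.L.mul_mem (D.L.inv_mem ht) (D.hjL b)) ht
      have h2 := extendByZero_coe D.L (D.θ l) ⟨_, hm⟩
      simp only at h2
      rw [h2]
      simp only [θ]
      have h3 : (⟨t⁻¹ * D.j b * t, hm⟩ : D.L) = (⟨t, ht⟩ : D.L)⁻¹ * ⟨D.j b, D.hjL b⟩ * ⟨t, ht⟩ := rfl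
      rw [h3, map_mul, map_mul, D.hrj, map_inv]
      rw [mul_comm (D.r ⟨t, ht⟩)⁻¹ b, mul_assoc, inv_mul_cancel, mul_one]
    · rw [if_neg ht, zero_add]
      by_cases hst : D.s⁻¹ * t ∈ D.L
      · rw [if_pos hst]
        have h4 : t⁻¹ * D.j b * t = (D.s⁻¹ * t)⁻¹ * D.j b⁻¹ * (D.s⁻¹ * t) := by
          rw [← D.hsinv b]
          group
        rw [h4]
        have hm : (D.s⁻¹ * t)⁻¹ * D.j b⁻¹ * (D.s⁻¹ * t) ∈ D.L :=
          D.L.mul_mem (D.L.mul_mem (D.L.inv_mem hst) (D.hjL _)) hst
        have h2 := extendByZero_coe D.L (D.θ l) ⟨_, hm⟩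
        simp only at h2
        rw [h2]
        simp only [θ]
        have h3 : (⟨(D.s⁻¹ * t)⁻¹ * D.j b⁻¹ * (D.s⁻¹ * t), hm⟩ : D.L) =
            (⟨D.s⁻¹ * t, hst⟩ : D.L)⁻¹ * ⟨D.j b⁻¹, D.hjL _⟩ * ⟨D.s⁻¹ * t, hst⟩ := rfl
        rw [h3, map_mul, map_mul, D.hrj, map_inv]
        rw [mul_comm (D.r ⟨D.s⁻¹ * t, hst⟩)⁻¹ b⁻¹, mul_assoc, inv_mul_cancel, mul_one]
      · rw [if_neg hst]
        apply extendByZero_of_not_mem
        intro hm
        rcases D.hW2 b hb t hm with h | h
        · exact ht h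
        · exact hst h
  simp only [h1]
  rw [Finset.sum_add_distrib, Finset.sum_ite, Finset.sum_ite]
  simp only [Finset.sum_const_zero, add_zero, Finset.sum_const, nsmul_eq_mul]
  have h2 : ((univ.filter (fun t : G => t ∈ D.L)).card : ℂ) = (Nat.card D.L : ℂ) := by
    congr 1
    rw [← Fintype.card_subtype]
    exact (Nat.card_eq_fintype_card).symm
  have h3 : ((univ.filter (fun t : G => D.s⁻¹ * t ∈ D.L)).card : ℂ) = (Nat.card D.L : ℂ) := by
    rw [← h2]
    congr 1
    apply Finset.card_bij (fun t _ => D.s⁻¹ * t)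
    · intro t ht
      simpa using ht
    · intro t _ t' _ h
      exact mul_left_cancel h
    · intro t ht
      refine ⟨D.s * t, by simpa using ht, by group⟩
  rw [h2, h3]
  field_simp

theorem isClass_Ψ (l : Dl B) : IsClassFunction G (D.Ψ l) := indFun_isClass D.L (D.θ l)

open Classical in
theorem sum_Ψ_fiber (l' : Dl B) (b : B) :
    ∑ a : A, D.Ψ l' (D.ι a * D.j b) = (Fintype.card A : ℂ) * (ev l' b + ev l' b⁻¹) := by
  by_cases hb : b = 1
  · subst hb
    simp only [map_one, mul_one, inv_one, ev_one]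
    rw [← Finset.add_sum_erase univ _ (mem_univ (1 : A)), map_one, D.Ψ_one]
    rw [Finset.sum_congr rfl (fun a ha => D.Ψ_ι l' (mem_erase.1 ha).1)]
    simp only [Finset.sum_const, Finset.card_erase_of_mem (mem_univ (1 : A)), Finset.card_univ,
      nsmul_eq_mul, mul_one]
    have h1 : 1 ≤ Fintype.card A := Fintype.card_pos
    rw [Nat.cast_sub h1]
    push_cast
    ring
  · have h1 : ∀ a : A, D.Ψ l' (D.ι a * D.j b) = ev l' b + ev l' b⁻¹ := by
      intro a
      obtain ⟨k, hk⟩ := isConj_iff.1 (D.hconj a b hb)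
      have h2 := D.isClass_Ψ l' (D.ι a * D.j b) k
      rw [hk] at h2
      rw [← h2, D.Ψ_j l' hb]
    simp only [h1, Finset.sum_const, Finset.card_univ, nsmul_eq_mul]

open Classical in
theorem inner_Ψ (l l' : Dl B) :
    classInner (D.Ψ l) (D.Ψ l') = (if l = l' then 1 else 0) + (if l = -l' then 1 else 0) := by
  have hne := D.card_L_ne
  simp only [Ψ]
  rw [frobenius_reciprocity D.L (D.θ l) _ (indFun_isClass D.L (D.θ l'))]
  simp only [classInner]
  rw [D.sum_L]
  have h1 : ∀ b : B, ∑ a : A, D.θ l ⟨D.ι a * D.j b, D.L.mul_mem (D.hιL a) (D.hjL b)⟩ *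
      conj (indFun D.L (D.θ l') (D.ι a * D.j b)) =
      (Fintype.card A : ℂ) * (ev l b * conj (ev l' b) + ev l b * conj (ev (-l') b)) := by
    intro b
    have h2 : ∀ a : A, D.θ l ⟨D.ι a * D.j b, D.L.mul_mem (D.hιL a) (D.hjL b)⟩ = ev l b := by
      intro a
      simp only [θ]
      rw [D.r_mul]
    simp only [h2]
    rw [← Finset.mul_sum, ← map_sum]
    have h3 := D.sum_Ψ_fiber l' b
    simp only [Ψ] at h3
    rw [h3, map_mul, map_add, Complex.conj_natCast, conj_ev l' b⁻¹, inv_inv, ev_neg,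
      Complex.conj_conj]
    ring
  simp only [h1]
  rw [← Finset.mul_sum, Finset.sum_add_distrib, sum_ev_mul_conj, sum_ev_mul_conj, D.card_L]
  have hn : (Fintype.card A : ℂ) ≠ 0 := by
    have : Fintype.card A ≠ 0 := Fintype.card_ne_zero
    exact_mod_cast this
  have hd : (Fintype.card B : ℂ) ≠ 0 := by
    have : Fintype.card B ≠ 0 := Fintype.card_ne_zero
    exact_mod_cast this
  push_cast
  split_ifs <;> field_simp <;> ring

open Classical in
theorem sum_inner (χ : G → ℂ) (hχ : IsClassFunction G χ) :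
    ∑ l : Dl B, classInner (D.Ψ l) χ =
      (Fintype.card A : ℂ)⁻¹ * ∑ a : A, conj (χ (D.ι a)) := by
  have hne := D.card_L_ne
  have hn : (Fintype.card A : ℂ) ≠ 0 := by
    have : Fintype.card A ≠ 0 := Fintype.card_ne_zero
    exact_mod_cast this
  have hd : (Fintype.card B : ℂ) ≠ 0 := by
    have : Fintype.card B ≠ 0 := Fintype.card_ne_zero
    exact_mod_cast this
  have hF : ∀ l : Dl B, classInner (D.Ψ l) χ = (Nat.card D.L : ℂ)⁻¹ *
      ∑ b : B, ∑ a : A, ev l b * conj (χ (D.ι a * D.j b)) := by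
    intro l
    simp only [Ψ]
    rw [frobenius_reciprocity D.L _ χ hχ]
    simp only [classInner]
    rw [D.sum_L]
    simp only [θ, D.r_mul]
  simp only [hF]
  rw [← Finset.mul_sum, D.card_L]
  have h1 : ∑ l : Dl B, ∑ b : B, ∑ a : A, ev l b * conj (χ (D.ι a * D.j b)) =
      (Fintype.card B : ℂ) * ∑ a : A, conj (χ (D.ι a)) := by
    rw [Finset.sum_comm]
    rw [Finset.sum_eq_single (1 : B)]
    · simp only [ev_one, one_mul, map_one, mul_one]
      simp only [Finset.sum_const, Finset.card_univ, nsmul_eq_mul]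
      rw [card_dual]
    · intro b _ hb
      rw [Finset.sum_comm]
      apply Finset.sum_eq_zero
      intro a _
      rw [← Finset.sum_mul, sum_dual, if_neg hb, zero_mul]
    · intro h
      exact absurd (mem_univ _) h
  rw [h1]
  push_cast
  field_simp

omit [Fintype G] in
theorem two_torsion (hodd : Odd (Fintype.card B)) {l : Dl B} (h : l + l = 0) : l = 0 := by
  apply ext_ev
  intro b
  obtain ⟨k, hk⟩ := hodd
  have h1 : b = b ^ (k + 1) * b ^ (k + 1) := by
    rw [← pow_add]
    have h2 : b ^ Fintype.card B = 1 := pow_card_eq_one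
    rw [hk] at h2
    calc b = b ^ (2 * k + 1) * b := by rw [h2, one_mul]
      _ = b ^ (k + 1 + (k + 1)) := by
        rw [← pow_succ]
        congr 1
        ring
  rw [h1, ev_mul, ← ev_add, h]
  simp

open Classical in
/-- The estimate. -/
theorem F7 (ψ : IrrCharacter G) (hψ : ψ.1 ≠ (fun _ => 1)) (m : ℕ)
    (hm : (Fintype.card A : ℂ)⁻¹ * ∑ a : A, ψ.1 (D.ι a) = m) :
    (Fintype.card A + 1) * m ≤ 2 * charDegree ψ.1 := by
  have hψchar := isCharacter_of_irr ψ.2
  haveI : Fintype (IrrCharacter G) := Fintype.ofFinite _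
  choose c hc using fun l : Dl B => classInner_isCharacter_nat (D.isChar_Ψ l) hψchar
  have hsum : ∑ l : Dl B, c l = m := by
    have h1 := D.sum_inner ψ.1 (isClassFunction_of_isCharacter hψchar)
    simp only [hc] at h1
    have h2 := congrArg conj hm
    simp only [map_mul, map_inv₀, map_natCast, map_sum, Complex.conj_natCast] at h2
    rw [h2] at h1
    exact_mod_cast h1
  have hn1 : 1 ≤ Fintype.card A := Fintype.card_pos
  have hnot : ∀ l : Dl B, l ≠ 0 → l ≠ -l := by
    intro l hl h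
    apply hl
    apply two_torsion D.hodd
    nth_rewrite 1 [h]
    simp
  by_cases hA : ∃ l₀ : Dl B, l₀ ≠ 0 ∧ c l₀ ≠ 0
  · obtain ⟨l₀, hl₀, hcl₀⟩ := hA
    have hnorm : classInner (D.Ψ l₀) (D.Ψ l₀) = 1 := by
      rw [D.inner_Ψ, if_pos rfl, if_neg (hnot l₀ hl₀), add_zero]
    have hirr := isIrrCharacter_of_inner_self_eq_one (D.isChar_Ψ l₀) hnorm
    have hψeq : ψ = ⟨D.Ψ l₀, hirr⟩ := by
      by_contra hne
      have h2 := classInner_irr (⟨D.Ψ l₀, hirr⟩ : IrrCharacter G) ψ
      rw [if_neg (Ne.symm hne)] at h2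
      have h3 : classInner (D.Ψ l₀) ψ.1 = 0 := h2
      rw [hc] at h3
      exact hcl₀ (by exact_mod_cast h3)
    have hψval : ψ.1 = D.Ψ l₀ := congrArg Subtype.val hψeq
    have hm2 : m = 2 := by
      have h1 : ∀ l : Dl B, (c l : ℂ) = (if l = l₀ then 1 else 0) + (if l = -l₀ then 1 else 0) := by
        intro l
        rw [← hc, hψval, D.inner_Ψ]
      have h2 : ((∑ l : Dl B, c l : ℕ) : ℂ) = 2 := by
        push_cast
        simp only [h1]
        rw [Finset.sum_add_distrib]
        simp only [Finset.sum_ite_eq', mem_univ, if_true]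
        norm_num
      rw [hsum] at h2
      exact_mod_cast h2
    have hdeg : charDegree ψ.1 = Fintype.card A + 1 := by
      have h1 := one_eq_charDegree hψchar
      rw [hψval, D.Ψ_one] at h1
      rw [hψval]
      exact_mod_cast h1.symm
    rw [hm2, hdeg]
    omega
  · push Not at hA
    have hm0 : m = c 0 := by
      rw [← hsum]
      rw [Finset.sum_eq_single (0 : Dl B)]
      · intro l _ hl
        exact hA l hl
      · intro h
        exact absurd (mem_univ _) h
    by_cases hm1 : m = 0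
    · simp [hm1]
    -- the Steinberg character
    let one : IrrCharacter G := ⟨fun _ => 1, isIrrCharacter_one⟩
    have hone : classInner (D.Ψ 0) one.1 = 1 := by
      simp only [Ψ]
      rw [frobenius_reciprocity D.L _ _ (isClassFunction_of_isCharacter (isCharacter_of_irr one.2))]
      simp only [classInner, θ, one, ev_zero, map_one, mul_one]
      simp only [Finset.sum_const, Finset.card_univ, nsmul_eq_mul, mul_one]
      rw [Nat.card_eq_fintype_card]
      apply inv_mul_cancel₀
      have : Fintype.card D.L ≠ 0 := Fintype.card_ne_zero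
      exact_mod_cast this
    let St : G → ℂ := fun g => D.Ψ 0 g - 1
    have hStin : ∀ χ : G → ℂ, classInner St χ = classInner (D.Ψ 0) χ - classInner one.1 χ := by
      intro χ
      simp only [classInner, St, one, sub_mul, Finset.sum_sub_distrib, mul_sub]
    have hStclass : IsClassFunction G St := by
      intro g k
      simp only [St]
      rw [D.isClass_Ψ 0 g k]
    have hStchar : IsCharacter G St := by
      apply isCharacter_of_inner_nat hStclass
      intro χ
      rw [hStin]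
      by_cases hχ : χ = one
      · refine ⟨0, ?_⟩
        rw [hχ, hone, classInner_self_irr]
        simp
      · have h1 := classInner_irr one χ
        rw [if_neg (Ne.symm hχ)] at h1
        rw [h1, sub_zero]
        exact classInner_isCharacter_nat (D.isChar_Ψ 0) (isCharacter_of_irr χ.2)
    have hStnorm : classInner St St = 1 := by
      rw [hStin]
      have h1 : classInner (D.Ψ 0) St = classInner (D.Ψ 0) (D.Ψ 0) - classInner (D.Ψ 0) one.1 := by
        simp only [classInner, St, one, map_sub, mul_sub, Finset.sum_sub_distrib]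
      have h2 : classInner one.1 St = classInner one.1 (D.Ψ 0) - classInner one.1 one.1 := by
        simp only [classInner, St, one, map_sub, mul_sub, Finset.sum_sub_distrib]
      have h3 : classInner one.1 (D.Ψ 0) = 1 := by
        rw [← classInner_comm_conj, hone]
        simp
      rw [h1, h2, h3, hone, classInner_self_irr, D.inner_Ψ]
      simp
    have hStirr := isIrrCharacter_of_inner_self_eq_one hStchar hStnorm
    have hψone : ψ ≠ one := fun h => hψ (congrArg Subtype.val h)
    have hSψ : classInner St ψ.1 = (c 0 : ℂ) := by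
      rw [hStin, ← hc]
      have h1 := classInner_irr one ψ
      rw [if_neg (Ne.symm hψone)] at h1
      rw [h1, sub_zero]
    have hψeq : ψ = ⟨St, hStirr⟩ := by
      by_contra hne
      have h2 := classInner_irr (⟨St, hStirr⟩ : IrrCharacter G) ψ
      rw [if_neg (Ne.symm hne)] at h2
      have h3 : classInner St ψ.1 = 0 := h2
      rw [hSψ] at h3
      apply hm1
      rw [hm0]
      exact_mod_cast h3
    have hc01 : c 0 = 1 := by
      have h2 := classInner_irr (⟨St, hStirr⟩ : IrrCharacter G) ψ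
      rw [if_pos hψeq.symm] at h2
      have h3 : classInner St ψ.1 = 1 := h2
      rw [hSψ] at h3
      exact_mod_cast h3
    have hψval : ψ.1 = St := congrArg Subtype.val hψeq
    have hdeg : charDegree ψ.1 = Fintype.card A := by
      have h1 := one_eq_charDegree hψchar
      rw [hψval] at h1 ⊢
      have h2 : St 1 = (Fintype.card A : ℂ) := by
        simp only [St]
        rw [D.Ψ_one]
        ring
      rw [h2] at h1
      exact_mod_cast h1.symm
    rw [hm0, hc01, hdeg]
    omega

end FL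

end Cfsg.Agent.H03.ZC
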