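import Cfsg.Agent.Lib.H03.ZC3
import Cfsg.Agent.Lib.H03.ZS1

/-!
From a Zassenhaus action to the character configurations.
-/

set_option autoImplicit false

namespace Cfsg.Agent.H03.ZC

open Cfsg Finset MulAction Cfsg.Agent.H21
open scoped ComplexConjugate

universe u v

variable {G : Type u} {Ω : Type v} [Group G] [MulAction G Ω]

/-- The basic data on a point stabiliser with regular normal subgroup. -/
structure ZF (x y : Ω) (F : Subgroup G) : Prop where
  hxy : x ≠ y
  h3 : ∀ (g : G) (a b c : Ω), a ≠ b → b ≠ c → a ≠ c → g • a = a → g • b = b → g • c = c → g = 1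
  h2 : ∀ a b c d : Ω, a ≠ b → c ≠ d → ∃ g : G, g • a = c ∧ g • b = d
  hFle : F ≤ stabilizer G x
  hFn : (F.subgroupOf (stabilizer G x)).Normal
  hreg : ∀ y z : Ω, y ≠ x → z ≠ x → ∃! u : F, (u : G) • y = z

namespace ZF

variable {x y : Ω} {F : Subgroup G} (Z : ZF x y F)
include Z

theorem fix_unique {u : G} {w : Ω} (hu : u ∈ F) (hu1 : u ≠ 1) (hw : u • w = w) : w = x := by
  by_contra hne
  obtain ⟨k, -, hk⟩ := Z.hreg w w hne hne
  have e1 := hk ⟨u, hu⟩ hw
  have e2 := hk 1 (one_smul _ _)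
  exact hu1 (congrArg Subtype.val (e1.trans e2.symm))

theorem conj_mem {g u : G} (hg : g • x = x) (hu : u ∈ F) : g * u * g⁻¹ ∈ F := by
  have h1 := Z.hFn.conj_mem ⟨u, Z.hFle hu⟩ (by rw [Subgroup.mem_subgroupOf]; exact hu) ⟨g, hg⟩
  rw [Subgroup.mem_subgroupOf] at h1
  exact h1

theorem decomp {g : G} (hg : g • x = x) :
    ∃ u ∈ F, ∃ h, h ∈ stabilizer G x ⊓ stabilizer G y ∧ g = u * h := by
  have hgy : g • y ≠ x := by
    intro h
    apply Z.hxy
    exact MulAction.injective g (hg.trans h.symm)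
  obtain ⟨u, hu, -⟩ := Z.hreg y (g • y) Z.hxy.symm hgy
  refine ⟨u, u.2, (u : G)⁻¹ * g, ⟨?_, ?_⟩, by group⟩
  · show ((u : G)⁻¹ * g) • x = x
    rw [mul_smul, hg, inv_smul_eq_iff]
    exact (Z.hFle u.2).symm
  · show ((u : G)⁻¹ * g) • y = y
    rw [mul_smul, inv_smul_eq_iff]
    exact hu.symm

theorem inter {u : G} (hu : u ∈ F) (hy : u • y = y) : u = 1 := by
  by_contra hu1
  exact Z.hxy.symm (Z.fix_unique hu hu1 hy)

theorem commute_H {h u : G} (hh : h ∈ stabilizer G x ⊓ stabilizer G y) (hu : u ∈ F) (hu1 : u ≠ 1)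
    (hc : u * h = h * u) : h = 1 := by
  by_contra hh1
  apply hu1
  exact Cfsg.Agent.H03.ZS.kernel_commute_eq_one Z.h3 Z.hxy F Z.hFle Z.hreg hh.1 hh.2 hh1 hu hc

theorem card_F [Fintype Ω] : Nat.card F = Fintype.card Ω - 1 := by
  classical
  have hFa : ∀ u ∈ F, u • x = x := fun u hu => Z.hFle hu
  let e : F → {z : Ω // z ≠ x} := fun u => ⟨(u : G) • y, by
    intro h
    apply Z.hxy
    exact MulAction.injective (u : G) ((hFa u u.2).trans h.symm)⟩
  have he : Function.Bijective e := by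
    constructor
    · intro u v huv
      have h1 : (u : G) • y = (v : G) • y := congrArg Subtype.val huv
      obtain ⟨w, -, hw⟩ := Z.hreg y ((u : G) • y) Z.hxy.symm (e u).2
      exact (hw u rfl).trans (hw v h1.symm).symm
    · rintro ⟨z, hz⟩
      obtain ⟨w, hw, -⟩ := Z.hreg y z Z.hxy.symm hz
      exact ⟨w, Subtype.ext hw⟩
  rw [Nat.card_eq_of_bijective e he, Nat.card_eq_fintype_card, Fintype.card_subtype_compl,
    Fintype.card_subtype_eq]

/-- An involution of the point stabiliser lies in `F`. -/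
theorem mem_of_sq {w : G} (hodd : Odd (Nat.card ↥(stabilizer G x ⊓ stabilizer G y : Subgroup G)))
    (hw : w • x = x) (hww : w * w = 1) : w ∈ F := by
  obtain ⟨u, hu, h, hh, rfl⟩ := Z.decomp hw
  have h1 : h * h = (h * u * h⁻¹)⁻¹ * u⁻¹ := by
    have h2 : u * h * (u * h) = 1 := hww
    have h3 : h * u * h⁻¹ * (h * h) = u⁻¹ := by
      have : h * u * h⁻¹ * (h * h) = u⁻¹ * (u * h * (u * h)) := by group
      rw [this, h2, mul_one]
    rw [← h3]
    group
  have hF : h * h ∈ F := by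
    rw [h1]
    exact F.mul_mem (F.inv_mem (Z.conj_mem hh.1 hu)) (F.inv_mem hu)
  have h2 : h * h = 1 := by
    apply Z.inter hF
    have : h • y = y := hh.2
    rw [mul_smul, this, this]
  have h3 : h = 1 := by
    have h4 : orderOf (⟨h, hh⟩ : ↥(stabilizer G x ⊓ stabilizer G y : Subgroup G)) ∣ 2 := by
      apply orderOf_dvd_of_pow_eq_one
      apply Subtype.ext
      simpa [pow_two] using h2
    have h5 := Odd.of_dvd_nat hodd (orderOf_dvd_natCard
      (⟨h, hh⟩ : ↥(stabilizer G x ⊓ stabilizer G y : Subgroup G)))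
    have h6 : orderOf (⟨h, hh⟩ : ↥(stabilizer G x ⊓ stabilizer G y : Subgroup G)) = 1 := by
      rcases (Nat.dvd_prime Nat.prime_two).1 h4 with h7 | h7
      · exact h7
      · rw [h7] at h5
        exact absurd h5 (by decide)
    have h7 := orderOf_eq_one_iff.1 h6
    exact congrArg Subtype.val h7
  rw [h3, mul_one]
  exact hu

end ZF

section Swap

variable [Fintype Ω]

omit [Fintype Ω] in
/-- The set of elements swapping two points has the size of the stabiliser. -/
theorem card_swap (a b : Ω) (s₀ : G) (hs1 : s₀ • a = b) (hs2 : s₀ • b = a) :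
    Nat.card {g : G // g • a = b ∧ g • b = a} =
      Nat.card ↥(stabilizer G a ⊓ stabilizer G b : Subgroup G) := by
  apply Nat.card_congr
  refine ⟨fun g => ⟨s₀⁻¹ * g.1, ?_, ?_⟩, fun h => ⟨s₀ * h.1, ?_, ?_⟩, ?_, ?_⟩
  · show (s₀⁻¹ * g.1) • a = a
    rw [mul_smul, g.2.1, inv_smul_eq_iff, hs1]
  · show (s₀⁻¹ * g.1) • b = b
    rw [mul_smul, g.2.2, inv_smul_eq_iff, hs2]
  · rw [mul_smul, show h.1 • a = a from h.2.1, hs1]
  · rw [mul_smul, show h.1 • b = b from h.2.2, hs2]
  · intro g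
    apply Subtype.ext
    simp
  · intro h
    apply Subtype.ext
    simp

/-- The two point stabilisers all have the same order. -/
theorem card_H_eq [Finite G]
    (h2 : ∀ a b c d : Ω, a ≠ b → c ≠ d → ∃ g : G, g • a = c ∧ g • b = d) {a b c d : Ω}
    (hab : a ≠ b) (hcd : c ≠ d) :
    Nat.card ↥(stabilizer G a ⊓ stabilizer G b : Subgroup G) =
      Nat.card ↥(stabilizer G c ⊓ stabilizer G d : Subgroup G) := by
  have h1 := Subgroup.card_mul_index (stabilizer G a ⊓ stabilizer G b : Subgroup G)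
  have h3 := Subgroup.card_mul_index (stabilizer G c ⊓ stabilizer G d : Subgroup G)
  rw [Cfsg.Agent.H03.ZS.card_two_trans h2 hab] at h1
  rw [Cfsg.Agent.H03.ZS.card_two_trans h2 hcd] at h3
  have h4 := h1.trans h3.symm
  have hpos : 0 < Fintype.card Ω * (Fintype.card Ω - 1) := by
    by_contra hcon
    rw [Nat.not_lt, Nat.le_zero] at hcon
    have h5 : 0 < Nat.card G := Nat.card_pos
    rw [hcon, mul_zero] at h1
    omega
  exact Nat.eq_of_mul_eq_mul_right hpos h4

/-- The count of involutions outside the point stabiliser. -/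
theorem card_invol [Fintype G] (h2 : ∀ a b c d : Ω, a ≠ b → c ≠ d → ∃ g : G, g • a = c ∧ g • b = d)
    {x y : Ω} (hxy : x ≠ y) (hinvol : ∀ a b : Ω, a ≠ b → ∀ s : G, s • a = b → s • b = a → s * s = 1) :
    Nat.card {w : G // w * w = 1 ∧ w • x ≠ x} =
      (Fintype.card Ω - 1) * Nat.card ↥(stabilizer G x ⊓ stabilizer G y : Subgroup G) := by
  classical
  rw [Nat.card_eq_fintype_card, Fintype.card_subtype]
  rw [Finset.card_eq_sum_card_fiberwise (f := fun w : G => w • x) (t := univ.erase x)]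
  · have h1 : ∀ z ∈ univ.erase x, ((univ.filter (fun w : G => w * w = 1 ∧ w • x ≠ x)).filter
        (fun w => w • x = z)).card = Nat.card ↥(stabilizer G x ⊓ stabilizer G y : Subgroup G) := by
      intro z hz
      have hzx : z ≠ x := (mem_erase.1 hz).1
      obtain ⟨s₀, hs1, hs2⟩ := h2 x z z x hzx.symm hzx
      rw [card_H_eq h2 hxy hzx.symm, ← card_swap x z s₀ hs1 hs2, Nat.card_eq_fintype_card,
        Fintype.card_subtype]
      congr 1
      ext w
      simp only [mem_filter, mem_univ, true_and]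
      constructor
      · rintro ⟨⟨h1, h3⟩, h4⟩
        refine ⟨h4, ?_⟩
        rw [← h4, ← mul_smul, h1, one_smul]
      · rintro ⟨h1, h3⟩
        refine ⟨⟨hinvol x z hzx.symm w h1 h3, ?_⟩, h1⟩
        rw [h1]
        exact hzx
    rw [Finset.sum_congr rfl h1]
    simp only [Finset.sum_const, smul_eq_mul]
    rw [Finset.card_erase_of_mem (mem_univ _), Finset.card_univ]
  · intro w hw
    have hw' := (mem_filter.1 hw).2.2
    exact mem_coe.2 (mem_erase.2 ⟨hw', mem_univ _⟩)

end Swap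

end Cfsg.Agent.H03.ZC
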