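import Cfsg.Agent.Lib.H03.ZC4

/-!
The bound `|Ω| - 2 ≤ 2 |H|` from the character argument.
-/

set_option autoImplicit false

namespace Cfsg.Agent.H03.ZC

open Cfsg Finset MulAction Cfsg.Agent.H21
open scoped ComplexConjugate

universe u v

variable {G : Type u} {Ω : Type v} [Group G] [MulAction G Ω]

/-- The case of a kernel of exponent two. -/
theorem bound_exp2 [Finite G] [Fintype Ω] {x y : Ω} {F : Subgroup G} (Z : ZF x y F)
    (hexp : ∀ u ∈ F, u * u = 1) :
    Fintype.card Ω - 2 ≤ Nat.card ↥(stabilizer G x ⊓ stabilizer G y : Subgroup G) := by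
  classical
  have hFa : ∀ u ∈ F, u • x = x := fun u hu => Z.hFle hu
  obtain ⟨s₀, hs1, hs2⟩ := Z.h2 x y y x Z.hxy Z.hxy.symm
  rw [← card_swap x y s₀ hs1 hs2]
  have hspec : ∀ c : {c : Ω // c ≠ x ∧ c ≠ y}, ∃ w : G, w • x = y ∧ w • y = x ∧
      w • c.1 = c.1 ∧ ∀ z : Ω, w • z = z → z = c.1 := by
    rintro ⟨c, hcx, hcy⟩
    obtain ⟨t, ht, -⟩ := Z.h2 x y c (if c = y then x else y) Z.hxy (by
      split_ifs with h
      · exact hcx
      · exact h)
    have h1 : t⁻¹ • x ≠ x := by
      intro h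
      apply hcx
      rw [inv_smul_eq_iff] at h
      rw [← ht, ← h]
    have h3 : t⁻¹ • y ≠ x := by
      intro h
      apply hcy
      rw [inv_smul_eq_iff] at h
      rw [← ht, ← h]
    obtain ⟨u, hu, -⟩ := Z.hreg (t⁻¹ • x) (t⁻¹ • y) h1 h3
    have huu := hexp u u.2
    have h4 : (t * u.1 * t⁻¹) • x = y := by
      rw [mul_smul, mul_smul, hu, smul_inv_smul]
    have hww : (t * u.1 * t⁻¹) * (t * u.1 * t⁻¹) = 1 := by
      calc (t * u.1 * t⁻¹) * (t * u.1 * t⁻¹) = t * (u.1 * u.1) * t⁻¹ := by group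
        _ = 1 := by rw [huu]; group
    refine ⟨t * u.1 * t⁻¹, h4, ?_, ?_, ?_⟩
    · rw [← h4, ← mul_smul, hww, one_smul]
    · show (t * u.1 * t⁻¹) • c = c
      have h5 : t⁻¹ • c = x := by rw [inv_smul_eq_iff, ht]
      rw [mul_smul, mul_smul, h5, hFa u.1 u.2, ht]
    · intro z hz
      have hu1 : u.1 ≠ 1 := by
        intro h
        have h5 : t⁻¹ • x = t⁻¹ • y := by
          rw [← hu, h, one_smul]
        exact Z.hxy (MulAction.injective _ h5)
      have h5 : u.1 • (t⁻¹ • z) = t⁻¹ • z := by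
        have h6 : t⁻¹ • ((t * u.1 * t⁻¹) • z) = t⁻¹ • z := by rw [hz]
        rw [mul_smul, mul_smul, inv_smul_smul] at h6
        exact h6
      have h6 := Z.fix_unique u.2 hu1 h5
      rw [inv_smul_eq_iff] at h6
      rw [h6, ht]
  choose i hi1 hi2 hi3 hi4 using hspec
  let f : {c : Ω // c ≠ x ∧ c ≠ y} → {g : G // g • x = y ∧ g • y = x} :=
    fun c => ⟨i c, hi1 c, hi2 c⟩
  have hf : Function.Injective f := by
    intro c c' h
    have h1 : i c = i c' := congrArg Subtype.val h
    apply Subtype.ext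
    exact (hi4 c c'.1 (by rw [h1]; exact hi3 c')).symm
  have h1 := Nat.card_le_card_of_injective f hf
  have h3 : Nat.card {c : Ω // c ≠ x ∧ c ≠ y} = Fintype.card Ω - 2 := by
    rw [Nat.card_eq_fintype_card, Fintype.card_subtype]
    have h4 : univ.filter (fun c : Ω => c ≠ x ∧ c ≠ y) = (univ.erase x).erase y := by
      ext c
      simp [and_comm]
    rw [h4, Finset.card_erase_of_mem (mem_erase.2 ⟨Z.hxy.symm, mem_univ _⟩),
      Finset.card_erase_of_mem (mem_univ _), Finset.card_univ]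
    omega
  rwa [h3] at h1

/-- The main bound. -/
theorem bound_char [Fintype G] [Fintype Ω] {x y : Ω} {F : Subgroup G} (Z : ZF x y F)
    (hFab : IsMulCommutative F)
    (hodd : Odd (Nat.card ↥(stabilizer G x ⊓ stabilizer G y : Subgroup G)))
    (hHab : ∀ a ∈ (stabilizer G x ⊓ stabilizer G y : Subgroup G),
      ∀ b ∈ (stabilizer G x ⊓ stabilizer G y : Subgroup G), a * b = b * a)
    (hne : ∃ h ∈ (stabilizer G x ⊓ stabilizer G y : Subgroup G), h ≠ 1)
    (hinv : ∀ s : G, s • x = y → s • y = x → ∀ h ∈ (stabilizer G x ⊓ stabilizer G y : Subgroup G),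
      s * h * s⁻¹ = h⁻¹)
    (hinvol : ∀ a b : Ω, a ≠ b → ∀ s : G, s • a = b → s • b = a → s * s = 1) :
    Fintype.card Ω - 2 ≤ 2 * Nat.card ↥(stabilizer G x ⊓ stabilizer G y : Subgroup G) := by
  classical
  set H : Subgroup G := stabilizer G x ⊓ stabilizer G y with hHdef
  by_cases hex2 : ∀ u ∈ F, u * u = 1
  · have : Fintype.card Ω - 2 ≤ Nat.card H := bound_exp2 Z hex2
    omega
  letI commF : CommGroup F := { (inferInstance : Group F) with
    mul_comm := fun a b => hFab.is_comm.comm a b }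
  letI commH : CommGroup H := { (inferInstance : Group H) with
    mul_comm := fun a b => Subtype.ext (hHab a.1 a.2 b.1 b.2) }
  letI : Fintype F := Fintype.ofFinite F
  letI : Fintype H := Fintype.ofFinite H
  letI : Fintype (IrrCharacter G) := Fintype.ofFinite _
  -- a dual element of order greater than two
  obtain ⟨μ, hμ2⟩ : ∃ μ : Dl F, μ + μ ≠ 0 := by
    push Not at hex2
    obtain ⟨u, hu, huu⟩ := hex2
    have h1 : (⟨u, hu⟩ : F) * ⟨u, hu⟩ ≠ 1 := fun h => huu (congrArg Subtype.val h)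
    obtain ⟨μ, hμ⟩ := exists_ev_ne h1
    refine ⟨μ, fun h => hμ ?_⟩
    rw [ev_mul, ← ev_add, h]
    simp
  have hFa : ∀ u ∈ F, u • x = x := fun u hu => Z.hFle hu
  have hcomm : ∀ a b : F, (a : G) * b = b * a := fun a b => congrArg Subtype.val (commF.mul_comm a b)
  obtain ⟨s, hs1, hs2⟩ := Z.h2 x y y x Z.hxy Z.hxy.symm
  have hcardF := Z.card_F
  have hΩ2 : 2 ≤ Fintype.card Ω := Fintype.one_lt_card_iff.2 ⟨x, y, Z.hxy⟩
  have hcF : Fintype.card F = Fintype.card Ω - 1 := by
    rw [← Nat.card_eq_fintype_card, hcardF]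
  have hidx := Cfsg.Agent.H03.ZS.card_two_trans Z.h2 Z.hxy
  rw [← hHdef] at hidx
  have hGc : Nat.card G = (Fintype.card F + 1) * Fintype.card F * Fintype.card H := by
    have h1 := Subgroup.card_mul_index H
    rw [hidx, Nat.card_eq_fintype_card (α := H)] at h1
    rw [← h1, hcF]
    have : Fintype.card Ω - 1 + 1 = Fintype.card Ω := by omega
    rw [this]
    ring
  -- the first configuration
  let cc : H → F →* F := fun b =>
    { toFun := fun a => ⟨b.1 * a.1 * b.1⁻¹, Z.conj_mem b.2.1 a.2⟩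
      map_one' := by
        apply Subtype.ext
        simp
      map_mul' := fun a a' => by
        apply Subtype.ext
        show b.1 * (a.1 * a'.1) * b.1⁻¹ = (b.1 * a.1 * b.1⁻¹) * (b.1 * a'.1 * b.1⁻¹)
        group }
  have hcc : ∀ (b : H) (a : F), (cc b a : G) = b.1 * a.1 * b.1⁻¹ := fun _ _ => rfl
  let C : FC G F H :=
    { ι := F.subtype
      hι := F.subtype_injective
      c := cc
      b₀ := 1
      hb₀ := fun a => by
        apply Subtype.ext
        rw [hcc]
        simp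
      hcinj := fun b a a' h => by
        have h1 : b.1 * a.1 * b.1⁻¹ = b.1 * a'.1 * b.1⁻¹ := congrArg Subtype.val h
        apply Subtype.ext
        simpa using h1
      hinjb := fun a ha b b' h => by
        have h1 : b.1 * a.1 * b.1⁻¹ = b'.1 * a.1 * b'.1⁻¹ := congrArg Subtype.val h
        have ha1 : a.1 ≠ 1 := fun h2 => ha (Subtype.ext h2)
        have h2 : b'.1⁻¹ * b.1 = 1 := by
          apply Z.commute_H (H.mul_mem (H.inv_mem b'.2) b.2) a.2 ha1
          have h3 : a.1 = b'.1⁻¹ * (b.1 * a.1 * b.1⁻¹) * b'.1 := by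
            rw [h1]
            group
          calc a.1 * (b'.1⁻¹ * b.1) = (b'.1⁻¹ * (b.1 * a.1 * b.1⁻¹) * b'.1) * (b'.1⁻¹ * b.1) := by
                rw [← h3]
            _ = b'.1⁻¹ * b.1 * a.1 := by group
        apply Subtype.ext
        exact (inv_mul_eq_one.1 h2).symm
      hconjc := fun b a => by
        rw [isConj_iff]
        refine ⟨b.1⁻¹, ?_⟩
        show b.1⁻¹ * (b.1 * a.1 * b.1⁻¹) * b.1⁻¹⁻¹ = a.1
        group
      hconj := fun a a' ha h => by
        obtain ⟨g, hg⟩ := isConj_iff.1 h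
        have hg' : g * a.1 * g⁻¹ = a'.1 := hg
        have ha1 : a.1 ≠ 1 := fun h2 => ha (Subtype.ext h2)
        have ha'1 : a'.1 ≠ 1 := by
          intro h2
          apply ha1
          have : a.1 = g⁻¹ * (g * a.1 * g⁻¹) * g := by group
          rw [this, hg', h2]
          group
        have hgx : g • x = x := by
          apply Z.fix_unique a'.2 ha'1
          rw [← hg', mul_smul, mul_smul, inv_smul_smul, hFa _ a.2]
        obtain ⟨u, hu, h₁, hh₁, rfl⟩ := Z.decomp hgx
        refine ⟨⟨h₁, hh₁⟩, ?_⟩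
        apply Subtype.ext
        rw [hcc, ← hg']
        have h2 : u * (h₁ * a.1 * h₁⁻¹) = (h₁ * a.1 * h₁⁻¹) * u :=
          hcomm ⟨u, hu⟩ ⟨_, Z.conj_mem hh₁.1 a.2⟩
        calc u * h₁ * a.1 * (u * h₁)⁻¹ = (u * (h₁ * a.1 * h₁⁻¹)) * u⁻¹ := by group
          _ = h₁ * a.1 * h₁⁻¹ := by rw [h2]; group
      hcent := fun a ha g hg => by
        have ha1 : a.1 ≠ 1 := fun h2 => ha (Subtype.ext h2)
        have hg' : g * a.1 = a.1 * g := hg
        have hgx : g • x = x := by
          apply Z.fix_unique a.2 ha1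
          rw [← mul_smul, ← hg', mul_smul, hFa _ a.2]
        obtain ⟨u, hu, h₁, hh₁, rfl⟩ := Z.decomp hgx
        have h2 : h₁ = 1 := by
          apply Z.commute_H hh₁ a.2 ha1
          have h3 : u * (h₁ * a.1) = u * (a.1 * h₁) := by
            have h4 : a.1 * u = u * a.1 := hcomm a ⟨u, hu⟩
            calc u * (h₁ * a.1) = u * h₁ * a.1 := by group
              _ = a.1 * (u * h₁) := hg'
              _ = (a.1 * u) * h₁ := by group
              _ = u * (a.1 * h₁) := by rw [h4]; group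
          exact (mul_left_cancel h3).symm
        rw [h2, mul_one]
        exact ⟨⟨u, hu⟩, rfl⟩
      hcard := hGc
      hinv := by
        have hmemr : ∀ w : G, w ∈ (F.subtype).range ↔ w ∈ F := fun w =>
          ⟨fun ⟨a, ha⟩ => ha ▸ a.2, fun h => ⟨⟨w, h⟩, rfl⟩⟩
        have h1 : Nat.card {w : G // w * w = 1 ∧ w ∉ (F.subtype).range} =
            Nat.card {w : G // w * w = 1 ∧ w • x ≠ x} := by
          apply Nat.card_congr
          apply Equiv.subtypeEquivRight
          intro w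
          rw [hmemr]
          constructor
          · rintro ⟨h1, h2⟩
            exact ⟨h1, fun h3 => h2 (Z.mem_of_sq hodd h3 h1)⟩
          · rintro ⟨h1, h2⟩
            exact ⟨h1, fun h3 => h2 (hFa w h3)⟩
        rw [h1, card_invol Z.h2 Z.hxy hinvol, hcF, ← hHdef, Nat.card_eq_fintype_card (α := H)] }
  -- the second configuration
  have hHx : H ≤ stabilizer G x := inf_le_left
  have hbij : Function.Bijective (fun p : F × H =>
      (⟨p.1.1 * p.2.1, (stabilizer G x).mul_mem (Z.hFle p.1.2) (hHx p.2.2)⟩ : stabilizer G x)) := by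
    constructor
    · rintro ⟨u, h₁⟩ ⟨u', h₁'⟩ he
      have h1 : u.1 * h₁.1 = u'.1 * h₁'.1 := congrArg Subtype.val he
      have h2 : u'.1⁻¹ * u.1 = h₁'.1 * h₁.1⁻¹ := by
        calc u'.1⁻¹ * u.1 = u'.1⁻¹ * (u.1 * h₁.1) * h₁.1⁻¹ := by group
          _ = u'.1⁻¹ * (u'.1 * h₁'.1) * h₁.1⁻¹ := by rw [h1]
          _ = h₁'.1 * h₁.1⁻¹ := by group
      have h3 : u'.1⁻¹ * u.1 = 1 := by
        apply Z.inter (F.mul_mem (F.inv_mem u'.2) u.2)
        rw [h2]
        exact (H.mul_mem h₁'.2 (H.inv_mem h₁.2)).2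
      have h4 : u.1 = u'.1 := (inv_mul_eq_one.1 h3).symm
      have h5 : h₁.1 = h₁'.1 := by
        rw [h4] at h1
        exact mul_left_cancel h1
      exact Prod.ext (Subtype.ext h4) (Subtype.ext h5)
    · rintro ⟨g, hg⟩
      obtain ⟨u, hu, h₁, hh₁, rfl⟩ := Z.decomp hg
      exact ⟨(⟨u, hu⟩, ⟨h₁, hh₁⟩), rfl⟩
  let e : F × H ≃ stabilizer G x := Equiv.ofBijective _ hbij
  have he : ∀ p : F × H, ((e p : stabilizer G x) : G) = p.1.1 * p.2.1 := fun _ => rfl
  let r₀ : stabilizer G x → H := fun g => (e.symm g).2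
  have hr₀ : ∀ (u : F) (h₁ : H) (g : stabilizer G x), (g : G) = u.1 * h₁.1 → r₀ g = h₁ := by
    intro u h₁ g hg
    have h1 : g = e (u, h₁) := Subtype.ext (by rw [he]; exact hg)
    show (e.symm g).2 = h₁
    rw [h1, Equiv.symm_apply_apply]
  let r : stabilizer G x →* H := MonoidHom.mk' r₀ (by
    intro g g'
    have h1 : ((e (e.symm g) : stabilizer G x) : G) = g := by rw [Equiv.apply_symm_apply]
    have h2 : ((e (e.symm g') : stabilizer G x) : G) = g' := by rw [Equiv.apply_symm_apply]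
    rw [he] at h1 h2
    have h3 : (g : G) * g' = (((e.symm g).1 * cc (e.symm g).2 (e.symm g').1).1) *
        ((e.symm g).2 * (e.symm g').2).1 := by
      show (g : G) * g' = ((e.symm g).1.1 * ((e.symm g).2.1 * (e.symm g').1.1 * (e.symm g).2.1⁻¹)) *
        ((e.symm g).2.1 * (e.symm g').2.1)
      nth_rewrite 1 [← h1]
      nth_rewrite 1 [← h2]
      group
    exact hr₀ _ _ (g * g') h3)
  have hr : ∀ (u : F) (h₁ : H) (g : stabilizer G x), (g : G) = u.1 * h₁.1 → r g = h₁ := hr₀
  let D : FL G F H :=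
    { ι := F.subtype
      j := H.subtype
      L := stabilizer G x
      r := r
      s := s
      hιL := fun a => Z.hFle a.2
      hjL := fun b => hHx b.2
      hrι := fun a => hr a 1 _ (by simp)
      hrj := fun b => hr 1 b _ (by simp)
      hbij := hbij
      hW1 := fun a ha t ht => by
        have ha1 : a.1 ≠ 1 := fun h2 => ha (Subtype.ext h2)
        have h1 : (t⁻¹ * a.1 * t) • x = x := ht
        rw [mul_smul, mul_smul, inv_smul_eq_iff] at h1
        exact Z.fix_unique a.2 ha1 h1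
      hW2 := fun b hb t ht => by
        have hb1 : b.1 ≠ 1 := fun h2 => hb (Subtype.ext h2)
        have h1 : (t⁻¹ * b.1 * t) • x = x := ht
        rw [mul_smul, mul_smul, inv_smul_eq_iff] at h1
        by_cases h2 : t • x = x
        · exact Or.inl h2
        by_cases h3 : t • x = y
        · right
          show (s⁻¹ * t) • x = x
          rw [mul_smul, h3, inv_smul_eq_iff, hs1]
        · exfalso
          exact hb1 (Z.h3 b.1 x y (t • x) Z.hxy (Ne.symm h3) (Ne.symm h2) b.2.1 b.2.2 h1)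
      hsL := fun h => by
        have h1 : s • x = x := h
        rw [hs1] at h1
        exact Z.hxy h1.symm
      hsinv := fun b => by
        have h1 : s⁻¹ • x = y := by rw [inv_smul_eq_iff, hs2]
        have h2 : s⁻¹ • y = x := by rw [inv_smul_eq_iff, hs1]
        have h3 := hinv s⁻¹ h1 h2 b.1 b.2
        rw [inv_inv] at h3
        exact h3
      hconj := fun a b hb => by
        have hb1 : b.1 ≠ 1 := fun h2 => hb (Subtype.ext h2)
        let φ : F → F := fun v => ⟨v.1 * (b.1 * v.1⁻¹ * b.1⁻¹),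
          F.mul_mem v.2 (Z.conj_mem b.2.1 (F.inv_mem v.2))⟩
        have hφ : Function.Injective φ := by
          intro v w hvw
          have h1 : v.1 * (b.1 * v.1⁻¹ * b.1⁻¹) = w.1 * (b.1 * w.1⁻¹ * b.1⁻¹) :=
            congrArg Subtype.val hvw
          by_contra hne
          have hne' : w.1⁻¹ * v.1 ≠ 1 := by
            intro h2
            apply hne
            exact Subtype.ext (inv_mul_eq_one.1 h2).symm
          apply hb1
          apply Z.commute_H b.2 (F.mul_mem (F.inv_mem w.2) v.2) hne'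
          have h3 : w.1⁻¹ * v.1 * (b.1 * v.1⁻¹ * b.1⁻¹) = b.1 * w.1⁻¹ * b.1⁻¹ := by
            calc w.1⁻¹ * v.1 * (b.1 * v.1⁻¹ * b.1⁻¹)
                = w.1⁻¹ * (v.1 * (b.1 * v.1⁻¹ * b.1⁻¹)) := by group
              _ = w.1⁻¹ * (w.1 * (b.1 * w.1⁻¹ * b.1⁻¹)) := by rw [h1]
              _ = b.1 * w.1⁻¹ * b.1⁻¹ := by group
          calc w.1⁻¹ * v.1 * b.1 = (w.1⁻¹ * v.1 * (b.1 * v.1⁻¹ * b.1⁻¹)) * (b.1 * v.1 ) := by group
            _ = (b.1 * w.1⁻¹ * b.1⁻¹) * (b.1 * v.1) := by rw [h3]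
            _ = b.1 * (w.1⁻¹ * v.1) := by group
        obtain ⟨v, hv⟩ := (Finite.surjective_of_injective hφ) a
        have h1 : v.1 * (b.1 * v.1⁻¹ * b.1⁻¹) = a.1 := congrArg Subtype.val hv
        rw [isConj_iff]
        refine ⟨v.1⁻¹, ?_⟩
        show v.1⁻¹ * (a.1 * b.1) * v.1⁻¹⁻¹ = b.1
        rw [← h1]
        group
      hindex := by
        have h1 := Subgroup.card_mul_index (stabilizer G x)
        have h2 : Nat.card (stabilizer G x) = Fintype.card F * Fintype.card H := by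
          rw [← Nat.card_eq_fintype_card, ← Nat.card_eq_fintype_card, ← Nat.card_prod]
          exact (Nat.card_eq_of_bijective _ hbij).symm
        rw [h2, hGc] at h1
        have hpos : 0 < Fintype.card F * Fintype.card H :=
          Nat.mul_pos Fintype.card_pos Fintype.card_pos
        apply Nat.eq_of_mul_eq_mul_left hpos
        rw [h1]
        ring
      hodd := by
        rw [← Nat.card_eq_fintype_card]
        exact hodd }
  have hF7 : ∀ ψ : IrrCharacter G, ψ.1 ≠ (fun _ => 1) → ∀ m : ℕ, C.aC 0 ψ.1 = m →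
      (Fintype.card F + 1) * m ≤ 2 * charDegree ψ.1 := by
    intro ψ hψ m hm
    apply D.F7 ψ hψ m
    rw [← hm]
    simp only [FC.aC, ev_zero, map_one, mul_one]
    rfl
  have hd : 1 < Fintype.card H := by
    obtain ⟨h, hh, hh1⟩ := hne
    rw [Fintype.one_lt_card_iff]
    exact ⟨⟨h, hh⟩, 1, fun h2 => hh1 (congrArg Subtype.val h2)⟩
  have hfinal := C.bound_of_F7 hF7 hd μ hμ2
  rw [hcF, ← Nat.card_eq_fintype_card (α := H)] at hfinal
  omega

end Cfsg.Agent.H03.ZC
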