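import Cfsg.Agent.Lib.H03.ZC5
import Cfsg.Agent.Lib.H03.Sharp2
import Cfsg.Agent.Lib.H03.RegNormal
import Cfsg.Agent.S0739

/-!
Reduction to the case of no normal `q`-complements.
-/

set_option autoImplicit false

namespace Cfsg.Agent.H03.ZC

open Cfsg Finset MulAction

universe u v

section RegN

variable {G : Type u} {Ω : Type v} [Group G] [MulAction G Ω]

/-- A regular normal abelian subgroup of a normal two-transitive subgroup is normal. -/
theorem reg_normal [Finite G] [Nonempty Ω] (N R : Subgroup G) [hNn : N.Normal] (hRN : R ≤ N)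
    (hN2 : ∀ a b c d : Ω, a ≠ b → c ≠ d → ∃ n ∈ N, n • a = c ∧ n • b = d)
    (hRn : ∀ n ∈ N, ∀ r ∈ R, n * r * n⁻¹ ∈ R)
    (hRc : ∀ r ∈ R, ∀ r' ∈ R, r * r' = r' * r)
    (hRt : ∀ a b : Ω, ∃ r ∈ R, r • a = b)
    (hRs : ∀ r ∈ R, ∀ a : Ω, r • a = a → r = 1)
    (hfaith : ∀ g : G, (∀ x : Ω, g • x = x) → g = 1) : R.Normal := by
  classical
  obtain ⟨a⟩ := ‹Nonempty Ω›
  have hconj : ∀ t ∈ R, t ≠ 1 → ∀ r ∈ R, r ≠ 1 → ∃ n ∈ N, n * t * n⁻¹ = r := by
    intro t ht ht1 r hr hr1
    have h1 : a ≠ t • a := fun h => ht1 (hRs t ht a h.symm)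
    have h3 : a ≠ r • a := fun h => hr1 (hRs r hr a h.symm)
    obtain ⟨n, hn, hn1, hn2⟩ := hN2 a (t • a) a (r • a) h1 h3
    refine ⟨n, hn, ?_⟩
    have h4 : (n * t * n⁻¹) • a = r • a := by
      have h5 : n⁻¹ • a = a := inv_smul_eq_iff.2 hn1.symm
      rw [mul_smul, mul_smul, h5, hn2]
    have h5 : (r⁻¹ * (n * t * n⁻¹)) • a = a := by
      rw [mul_smul, h4, inv_smul_smul]
    have h6 := hRs _ (R.mul_mem (R.inv_mem hr) (hRn n hn t ht)) a h5
    exact (inv_mul_eq_one.1 h6).symm
  refine ⟨fun r hr g => ?_⟩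
  by_cases hr1 : r = 1
  · rw [hr1]
    simpa using R.one_mem
  set Rg : Subgroup G := R.map (MulAut.conj g).toMonoidHom with hRg
  have hmemg : ∀ y : G, y ∈ Rg ↔ g⁻¹ * y * g ∈ R := by
    intro y
    rw [hRg, Subgroup.mem_map]
    constructor
    · rintro ⟨z, hz, rfl⟩
      have : g⁻¹ * (MulAut.conj g).toMonoidHom z * g = z := by
        simp [MulAut.conj_apply]
        group
      rwa [this]
    · intro h
      refine ⟨_, h, ?_⟩
      simp [MulAut.conj_apply]
      group
  have hr₁ : g * r * g⁻¹ ∈ Rg := by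
    rw [hmemg]
    have : g⁻¹ * (g * r * g⁻¹) * g = r := by group
    rwa [this]
  have hRgN : ∀ n ∈ N, ∀ y ∈ Rg, n * y * n⁻¹ ∈ Rg := by
    intro n hn y hy
    rw [hmemg] at hy ⊢
    have h1 : g⁻¹ * n * (g⁻¹)⁻¹ ∈ N := hNn.conj_mem n hn g⁻¹
    have h2 := hRn _ h1 _ hy
    have h3 : g⁻¹ * n * (g⁻¹)⁻¹ * (g⁻¹ * y * g) * (g⁻¹ * n * (g⁻¹)⁻¹)⁻¹ = g⁻¹ * (n * y * n⁻¹) * g := by
      group
    rwa [h3] at h2
  by_cases hT : ∃ t ∈ R, t ∈ Rg ∧ t ≠ 1
  · obtain ⟨t, htR, htg, ht1⟩ := hT
    have hle : R ≤ Rg := by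
      intro r' hr'
      by_cases hr'1 : r' = 1
      · rw [hr'1]
        exact Rg.one_mem
      obtain ⟨n, hn, rfl⟩ := hconj t htR ht1 r' hr' hr'1
      exact hRgN n hn t htg
    have hcard : Nat.card Rg = Nat.card R := by
      rw [hRg]
      exact Nat.card_congr (Subgroup.equivMapOfInjective R _ (MulAut.conj g).injective).symm.toEquiv
    have heq : R = Rg := Subgroup.eq_of_le_of_card_ge hle (le_of_eq hcard)
    rw [heq]
    exact hr₁
  · push Not at hT
    exfalso
    set r₁ := g * r * g⁻¹ with hr₁def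
    have hr₁N : r₁ ∈ N := hNn.conj_mem r (hRN hr) g
    have hr₁1 : r₁ ≠ 1 := by
      intro h
      apply hr1
      have : r = g⁻¹ * (g * r * g⁻¹) * g := by group
      rw [this, ← hr₁def, h]
      group
    have hcomm : ∀ r' ∈ R, r' * r₁ = r₁ * r' := by
      intro r' hr'
      by_contra hne
      have h1 : r' * r₁ * r'⁻¹ * r₁⁻¹ ∈ R :=
        R.mul_mem hr' (hRn r₁ hr₁N _ (R.inv_mem hr'))
          |> fun h => by
            have : r' * r₁ * r'⁻¹ * r₁⁻¹ = r' * (r₁ * r'⁻¹ * r₁⁻¹) := by group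
            rwa [this]
      have h2 : r' * r₁ * r'⁻¹ * r₁⁻¹ ∈ Rg :=
        Rg.mul_mem (hRgN r' (hRN hr') r₁ hr₁) (Rg.inv_mem hr₁)
      have h3 := hT _ h1 h2
      apply hne
      have h4 : r' * r₁ * r'⁻¹ = r₁ := mul_inv_eq_one.1 h3
      exact mul_inv_eq_iff_eq_mul.1 h4
    obtain ⟨r₀, hr₀, hr₀a⟩ := hRt a (r₁ • a)
    have hw : r₀⁻¹ * r₁ = 1 := by
      apply hfaith
      intro c
      obtain ⟨r', hr', rfl⟩ := hRt a c
      have h1 : r₀⁻¹ * r₁ * r' = r' * (r₀⁻¹ * r₁) := by
        calc r₀⁻¹ * r₁ * r' = r₀⁻¹ * (r₁ * r') := by group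
          _ = r₀⁻¹ * (r' * r₁) := by rw [hcomm r' hr']
          _ = (r₀⁻¹ * r') * r₁ := by group
          _ = (r' * r₀⁻¹) * r₁ := by rw [hRc _ (R.inv_mem hr₀) _ hr']
          _ = r' * (r₀⁻¹ * r₁) := by group
      rw [← mul_smul, h1, mul_smul]
      congr 1
      rw [mul_smul, ← hr₀a, inv_smul_smul]
    have h1 : r₁ = r₀ := (inv_mul_eq_one.1 hw).symm
    exact hr₁1 (hT r₁ (h1 ▸ hr₀) hr₁)

end RegN

section Main

variable {Ω : Type v} [Fintype Ω]

/-- The bound for odd two-point stabilisers. -/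
theorem bound_odd {G : Type u} [Group G] [Finite G] [MulAction G Ω]
    (hZ : IsZassenhausGroup G Ω) {x y : Ω} (hxy : x ≠ y) (F : Subgroup G)
    (hFle : F ≤ stabilizer G x) (hFn : (F.subgroupOf (stabilizer G x)).Normal)
    (hFab : IsMulCommutative F) (hreg : ∀ y z : Ω, y ≠ x → z ≠ x → ∃! u : F, (u : G) • y = z)
    (hodd : Odd (Nat.card ↥(stabilizer G x ⊓ stabilizer G y : Subgroup G))) :
    (∀ q : ℕ, q.Prime → q ∣ Nat.card ↥(stabilizer G x ⊓ stabilizer G y : Subgroup G) →
      ¬ ∃ N : Subgroup G, N.Normal ∧ N.index = q ^ (Nat.card G).factorization q) ∧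
    Fintype.card Ω - 2 ≤ 2 * Nat.card ↥(stabilizer G x ⊓ stabilizer G y : Subgroup G) := by
  classical
  induction hk : Nat.card G using Nat.strong_induction_on generalizing G with
  | _ k ih =>
  subst hk
  obtain ⟨hfaith, h2, h3, hne⟩ := Cfsg.Agent.H03.ZS.zass_facts hZ
  have Z : ZF x y F := ⟨hxy, h3, h2, hFle, hFn, hreg⟩
  set H : Subgroup G := stabilizer G x ⊓ stabilizer G y with hH
  letI : Fintype G := Fintype.ofFinite G
  have hcΩ2 : 2 ≤ Fintype.card Ω := Fintype.one_lt_card_iff.2 ⟨x, y, hxy⟩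
  by_cases hnil : ∀ q : ℕ, q.Prime → q ∣ Nat.card H →
      ¬ ∃ N : Subgroup G, N.Normal ∧ N.index = q ^ (Nat.card G).factorization q
  · have hcardH : ∀ a b : Ω, a ≠ b →
        Nat.card ↥(stabilizer G a ⊓ stabilizer G b : Subgroup G) = Nat.card H :=
      fun a b hab => card_H_eq h2 hab hxy
    have key := fun (a b : Ω) (hab : a ≠ b) => Cfsg.Agent.S0739.result hZ hab
      (by rw [hcardH a b hab]; exact hodd)
      (by
        intro q hq hqd
        rw [hcardH a b hab] at hqd
        exact hnil q hq hqd)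
    have hinvol : ∀ a b : Ω, a ≠ b → ∀ s : G, s • a = b → s • b = a → s * s = 1 := by
      intro a b hab s hs1 hs2
      have hmem : s * s ∈ (stabilizer G a ⊓ stabilizer G b : Subgroup G) := by
        constructor
        · show (s * s) • a = a
          rw [mul_smul, hs1, hs2]
        · show (s * s) • b = b
          rw [mul_smul, hs2, hs1]
      have h1 := (key a b hab).2.2 s hs1 hs2 (s * s) hmem
      have h4 : s * (s * s) * s⁻¹ = s * s := by group
      rw [h4] at h1
      have h5 : (⟨s * s, hmem⟩ : ↥(stabilizer G a ⊓ stabilizer G b : Subgroup G)) ^ 2 = 1 := by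
        apply Subtype.ext
        show (s * s) ^ 2 = 1
        rw [pow_two]
        nth_rewrite 1 [h1]
        group
      have h6 : orderOf (⟨s * s, hmem⟩ : ↥(stabilizer G a ⊓ stabilizer G b : Subgroup G)) ∣ 2 :=
        orderOf_dvd_of_pow_eq_one h5
      have h7 := orderOf_dvd_natCard (⟨s * s, hmem⟩ : ↥(stabilizer G a ⊓ stabilizer G b : Subgroup G))
      have h8 : Odd (orderOf (⟨s * s, hmem⟩ : ↥(stabilizer G a ⊓ stabilizer G b : Subgroup G))) :=
        Odd.of_dvd_nat (by rw [hcardH a b hab]; exact hodd) h7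
      have h9 : orderOf (⟨s * s, hmem⟩ : ↥(stabilizer G a ⊓ stabilizer G b : Subgroup G)) = 1 := by
        rcases (Nat.dvd_prime Nat.prime_two).1 h6 with h | h
        · exact h
        · rw [h] at h8
          exact absurd h8 (by decide)
      have h10 := orderOf_eq_one_iff.1 h9
      exact congrArg Subtype.val h10
    obtain ⟨hcyc, -, hinv⟩ := key x y hxy
    have hHab : ∀ a ∈ H, ∀ b ∈ H, a * b = b * a := by
      intro a ha b hb
      have := (IsCyclic.isMulCommutative (α := H)).is_comm.comm ⟨a, ha⟩ ⟨b, hb⟩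
      exact congrArg Subtype.val this
    obtain ⟨h₀, hh₀, hh₀a, hh₀b⟩ := hne x y hxy
    exact ⟨hnil, bound_char Z hFab hodd hHab ⟨h₀, ⟨hh₀a, hh₀b⟩, hh₀⟩ hinv hinvol⟩
  · exfalso
    push Not at hnil
    obtain ⟨q, hq, hqd, N, hNn, hNidx⟩ := hnil
    have hq2 : q ≠ 2 := by
      rintro rfl
      exact (Nat.not_even_iff_odd.2 hodd) (even_iff_two_dvd.2 hqd)
    have hq3 : 3 ≤ q := by
      have := hq.two_le
      omega
    have hdvd : Nat.card H ∣ Fintype.card Ω - 2 := Cfsg.Agent.H03.ZS.card_dvd_sub_two h3 hxy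
    have hFc := Z.card_F
    -- a third point
    obtain ⟨h₀, hh₀, hh₀a, hh₀b⟩ := hne x y hxy
    obtain ⟨c, hc⟩ : ∃ c : Ω, h₀ • c ≠ c := by
      by_contra hcon
      push Not at hcon
      exact hh₀ (hfaith h₀ hcon)
    have hcx : c ≠ x := by
      rintro rfl
      exact hc hh₀a
    have hcy : c ≠ y := by
      rintro rfl
      exact hc hh₀b
    have hcΩ3 : 3 ≤ Fintype.card Ω := by
      have h4 : ({x, y, c} : Finset Ω).card = 3 := by
        rw [Finset.card_insert_of_notMem, Finset.card_insert_of_notMem, Finset.card_singleton]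
        · simpa using hcy.symm
        · simp [hxy, hcx.symm]
      rw [← h4]
      exact Finset.card_le_univ _
    have hqF : ¬ q ∣ Nat.card F := by
      intro h
      rw [hFc] at h
      have h5 := hqd.trans hdvd
      have h6 : q ∣ (Fintype.card Ω - 1) - (Fintype.card Ω - 2) := Nat.dvd_sub h h5
      have h7 : (Fintype.card Ω - 1) - (Fintype.card Ω - 2) = 1 := by omega
      rw [h7] at h6
      exact hq.one_lt.ne' (Nat.dvd_one.1 h6)
    have hFN : F ≤ N := by
      intro u hu
      have h1 : u ^ N.index ∈ N := Subgroup.pow_index_mem N u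
      have hcop : N.index.Coprime (orderOf u) := by
        rw [hNidx]
        apply Nat.Coprime.pow_left
        rw [Nat.Prime.coprime_iff_not_dvd hq]
        intro h
        apply hqF
        have h4 : orderOf u ∣ Nat.card F := by
          have := orderOf_dvd_natCard (⟨u, hu⟩ : F)
          rwa [Subgroup.orderOf_mk] at this
        exact h.trans h4
      obtain ⟨m, hm⟩ := exists_pow_eq_self_of_coprime hcop
      rw [← hm]
      exact N.pow_mem h1 m
    haveI := hNn
    have hFa : ∀ u ∈ F, u • x = x := fun u hu => hFle hu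
    -- elements of conjugates of `F`
    have hFz : ∀ z a b : Ω, a ≠ z → b ≠ z → ∃ n ∈ N, n • z = z ∧ n • a = b := by
      intro z a b haz hbz
      obtain ⟨t, ht, -⟩ := h2 x y z (if z = y then x else y) hxy (by
        split_ifs with h
        · rw [h]; exact hxy.symm
        · exact h)
      have hta : t⁻¹ • a ≠ x := by
        intro h
        rw [inv_smul_eq_iff, ht] at h
        exact haz h
      have htb : t⁻¹ • b ≠ x := by
        intro h
        rw [inv_smul_eq_iff, ht] at h
        exact hbz h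
      obtain ⟨u, hu, -⟩ := hreg _ _ hta htb
      refine ⟨t * u.1 * t⁻¹, hNn.conj_mem _ (hFN u.2) t, ?_, ?_⟩
      · have h5 : t⁻¹ • z = x := by rw [inv_smul_eq_iff, ht]
        rw [mul_smul, mul_smul, h5, hFa _ u.2, ht]
      · rw [mul_smul, mul_smul, hu, smul_inv_smul]
    have hN2 : ∀ a b c e : Ω, a ≠ b → c ≠ e → ∃ n ∈ N, n • a = c ∧ n • b = e := by
      intro a b c₁ e hab hce
      obtain ⟨n₁, hn₁, hn₁a⟩ : ∃ n ∈ N, n • a = c₁ := by
        by_cases hac : a = c₁
        · exact ⟨1, N.one_mem, by rw [one_smul, hac]⟩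
        · obtain ⟨z, hz1, hz2⟩ : ∃ z : Ω, z ≠ a ∧ z ≠ c₁ := by
            by_contra hcon
            push Not at hcon
            have h4 : (univ : Finset Ω) ⊆ {a, c₁} := by
              intro w _
              simp only [mem_insert, mem_singleton]
              by_cases hwa : w = a
              · exact Or.inl hwa
              · exact Or.inr (hcon w hwa)
            have h5 := Finset.card_le_card h4
            have h6 : ({a, c₁} : Finset Ω).card ≤ 2 := Finset.card_le_two
            rw [Finset.card_univ] at h5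
            omega
          obtain ⟨n, hn, -, hna⟩ := hFz z a c₁ hz1.symm hz2.symm
          exact ⟨n, hn, hna⟩
      have hb' : n₁ • b ≠ c₁ := by
        intro h
        apply hab
        exact MulAction.injective n₁ (hn₁a.trans h.symm)
      obtain ⟨n₂, hn₂, hn₂c, hn₂b⟩ := hFz c₁ (n₁ • b) e hb' hce.symm
      refine ⟨n₂ * n₁, N.mul_mem hn₂ hn₁, ?_, ?_⟩
      · rw [mul_smul, hn₁a, hn₂c]
      · rw [mul_smul, hn₂b]
    have hN2' : ∀ a b c e : Ω, a ≠ b → c ≠ e → ∃ n : N, n • a = c ∧ n • b = e := by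
      intro a b c₁ e hab hce
      obtain ⟨n, hn, h4, h5⟩ := hN2 a b c₁ e hab hce
      exact ⟨⟨n, hn⟩, h4, h5⟩
    set H₀ : Subgroup N := stabilizer N x ⊓ stabilizer N y with hH₀
    have hv : (Nat.card G).factorization q ≠ 0 := by
      have h4 : q ∣ Nat.card G := hqd.trans (Subgroup.card_subgroup_dvd_card H)
      have h5 := Nat.Prime.factorization_pos_of_dvd hq (Nat.card_pos.ne') h4
      omega
    have hidx3 : 3 ≤ N.index := by
      rw [hNidx]
      calc 3 ≤ q := hq3
        _ = q ^ 1 := (pow_one q).symm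
        _ ≤ q ^ (Nat.card G).factorization q :=
          Nat.pow_le_pow_right hq.pos (Nat.one_le_iff_ne_zero.2 hv)
    have hcard : Nat.card H = Nat.card H₀ * N.index := by
      have h4 := Subgroup.card_mul_index H₀
      have h5 := Subgroup.card_mul_index N
      have h6 := Subgroup.card_mul_index H
      have h7 := Cfsg.Agent.H03.ZS.card_two_trans hN2' hxy
      have h8 := Cfsg.Agent.H03.ZS.card_two_trans h2 hxy
      rw [← hH₀] at h7
      rw [← hH] at h8
      rw [h7] at h4
      rw [h8] at h6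
      have hK : 0 < Fintype.card Ω * (Fintype.card Ω - 1) :=
        Nat.mul_pos (by omega) (by omega)
      apply Nat.eq_of_mul_eq_mul_right hK
      rw [h6, ← h5, ← h4]
      ring
    have hd₀pos : 0 < Nat.card H₀ := Nat.card_pos
    have h3d : 3 * Nat.card H₀ ≤ Nat.card H := by
      rw [hcard, mul_comm]
      exact Nat.mul_le_mul_left _ hidx3
    have hNlt : Nat.card N < Nat.card G := by
      rw [← Subgroup.card_mul_index N]
      have : 0 < Nat.card N := Nat.card_pos
      nlinarith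
    -- regular normal subgroups of `N` do not exist
    have h2N : MulAction.IsMultiplyPretransitive N Ω 2 :=
      MulAction.is_two_pretransitive_iff.2 (fun {a b c e} h h' => hN2' a b c e h h')
    have hnoreg : ∀ R' : Subgroup N, R'.Normal → (∀ a b : Ω, ∃ r : R', (r : N) • a = b) →
        (∀ (r : R') (a : Ω), (r : N) • a = a → r = 1) → False := by
      intro R' hR'n hR't hR's
      haveI := hR'n
      have hcΩ : 2 ≤ Nat.card Ω := by
        rw [Nat.card_eq_fintype_card]
        exact hcΩ2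
      have htrans : MulAction.IsPretransitive R' Ω := ⟨fun a b => by
        obtain ⟨r, hr⟩ := hR't a b
        exact ⟨r, hr⟩⟩
      have hstab : ∀ a : Ω, stabilizer R' a = ⊥ := by
        intro a
        rw [eq_bot_iff]
        intro r hr
        rw [Subgroup.mem_bot]
        exact hR's r a hr
      obtain ⟨-, -, hcomm, -⟩ := Cfsg.Agent.H03.regular_normal_of_two_trans hcΩ h2N R' htrans hstab
      set R : Subgroup G := R'.map N.subtype with hR
      have hmemR : ∀ r : G, r ∈ R ↔ ∃ h : r ∈ N, (⟨r, h⟩ : N) ∈ R' := by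
        intro r
        rw [hR, Subgroup.mem_map]
        constructor
        · rintro ⟨n, hn, rfl⟩
          exact ⟨n.2, hn⟩
        · rintro ⟨h, hh⟩
          exact ⟨_, hh, rfl⟩
      haveI : Nonempty Ω := ⟨x⟩
      have hRnormal : R.Normal := by
        apply reg_normal N R (by
          intro r hr
          exact ((hmemR r).1 hr).1) hN2
        · intro n hn r hr
          obtain ⟨h4, h5⟩ := (hmemR r).1 hr
          have h6 := hR'n.conj_mem _ h5 ⟨n, hn⟩
          exact (hmemR _).2 ⟨_, h6⟩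
        · intro r hr r' hr'
          obtain ⟨h4, h5⟩ := (hmemR r).1 hr
          obtain ⟨h6, h7⟩ := (hmemR r').1 hr'
          have h8 := hcomm.is_comm.comm (⟨_, h5⟩ : R') ⟨_, h7⟩
          have h9 := congrArg (fun w : R' => ((w : N) : G)) h8
          exact h9
        · intro a b
          obtain ⟨r, hr⟩ := hR't a b
          exact ⟨_, (hmemR _).2 ⟨r.1.2, r.2⟩, hr⟩
        · intro r hr a ha
          obtain ⟨h4, h5⟩ := (hmemR r).1 hr
          have h6 := hR's ⟨_, h5⟩ a ha
          have h7 := congrArg (fun w : R' => ((w : N) : G)) h6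
          exact h7
        · exact hfaith
      have hRtrans : MulAction.IsPretransitive R Ω := ⟨fun a b => by
        obtain ⟨r, hr⟩ := hR't a b
        exact ⟨⟨_, (hmemR _).2 ⟨r.1.2, r.2⟩⟩, hr⟩⟩
      obtain ⟨a, ha⟩ := hZ.2.2.2.2 R hRnormal hRtrans
      apply ha
      rw [eq_bot_iff]
      rintro ⟨r, hr⟩ hra
      rw [Subgroup.mem_bot]
      obtain ⟨h4, h5⟩ := (hmemR r).1 hr
      have h6 := hR's ⟨_, h5⟩ a hra
      have h7 := congrArg (fun w : R' => ((w : N) : G)) h6
      exact Subtype.ext h7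
    by_cases hd₀ : Nat.card H₀ = 1
    · -- sharply doubly transitive
      have hrig : ∀ (g : N) (a b : Ω), a ≠ b → g • a = a → g • b = b → g = 1 := by
        intro g a b hab h4 h5
        have h6 := card_H_eq hN2' hab hxy
        rw [← hH₀, hd₀] at h6
        have h7 : (⟨g, h4, h5⟩ : ↥(stabilizer N a ⊓ stabilizer N b : Subgroup N)) = 1 := by
          have := (Nat.card_eq_one_iff_unique.1 h6).1
          exact Subsingleton.elim _ _
        exact congrArg Subtype.val h7
      obtain ⟨E, p, j, -, -, -, hEn, -, -, hEt, hEs⟩ :=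
        Cfsg.Agent.H03.PR.sharp2_abstract (Γ := N) (Y := Ω) hcΩ2 hN2' hrig
      refine hnoreg E hEn ?_ ?_
      · intro a b
        obtain ⟨u, hu, hub⟩ := hEt a b
        exact ⟨⟨u, hu⟩, hub⟩
      · intro r a ha
        exact Subtype.ext (hEs r.1 r.2 a ha)
    · -- `N` is a Zassenhaus group
      have hN3 : 1 < Nat.card H₀ := by omega
      haveI : Nontrivial H₀ := (Finite.one_lt_card_iff_nontrivial (α := H₀)).1 hN3
      obtain ⟨w, hw⟩ := exists_ne (1 : H₀)
      have hZN : IsZassenhausGroup N Ω := by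
        refine ⟨⟨fun {n n'} hnn => ?_⟩, h2N, ?_, ?_, ?_⟩
        · apply Subtype.ext
          have : n.1⁻¹ * n'.1 = 1 := by
            apply hfaith
            intro c₁
            rw [mul_smul, inv_smul_eq_iff]
            exact (hnn c₁).symm
          exact inv_mul_eq_one.1 this
        · intro g a b c₁ hab hbc hac ha hb hc₁
          exact Subtype.ext (h3 g.1 a b c₁ hab hbc hac ha hb hc₁)
        · refine ⟨w.1, fun h => hw (Subtype.ext h), x, y, hxy, w.2.1, w.2.2⟩
        · intro R' hR'n hR'p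
          by_contra hcon
          push Not at hcon
          refine hnoreg R' hR'n ?_ ?_
          · intro a b
            obtain ⟨r, hr⟩ := hR'p.exists_smul_eq a b
            exact ⟨r, hr⟩
          · intro r a ha
            have h4 : r ∈ stabilizer R' a := ha
            rw [hcon a, Subgroup.mem_bot] at h4
            exact h4
      let F' : Subgroup N := F.subgroupOf N
      have hF'mem : ∀ u : N, u ∈ F' ↔ u.1 ∈ F := fun u => Subgroup.mem_subgroupOf
      have hF'le : F' ≤ stabilizer N x := fun u hu => hFle hu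
      have hF'n : (F'.subgroupOf (stabilizer N x)).Normal := by
        refine ⟨fun n hn g => ?_⟩
        rw [Subgroup.mem_subgroupOf, hF'mem] at hn ⊢
        exact Z.conj_mem g.2 hn
      have hF'ab : IsMulCommutative F' := by
        refine ⟨⟨fun a b => ?_⟩⟩
        have h4 := hFab.is_comm.comm (⟨a.1.1, a.2⟩ : F) ⟨b.1.1, b.2⟩
        have h5 : a.1.1 * b.1.1 = b.1.1 * a.1.1 := congrArg Subtype.val h4
        exact Subtype.ext (Subtype.ext h5)
      have hF'reg : ∀ y z : Ω, y ≠ x → z ≠ x → ∃! u : F', ((u : N) : G) • y = z := by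
        intro a b ha hb
        obtain ⟨u, hu, huu⟩ := hreg a b ha hb
        refine ⟨⟨⟨u.1, hFN u.2⟩, u.2⟩, hu, ?_⟩
        intro v hv
        have h4 := huu ⟨v.1.1, v.2⟩ hv
        have h5 : v.1.1 = u.1 := congrArg Subtype.val h4
        exact Subtype.ext (Subtype.ext h5)
      have hoddN : Odd (Nat.card H₀) := by
        apply Odd.of_dvd_nat hodd
        rw [hcard]
        exact dvd_mul_right _ _
      have hib := ih (Nat.card N) hNlt (G := N) hZN F' hF'le hF'n hF'ab hF'reg hoddN rfl |>.2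
      have h5 : Nat.card H ≤ Fintype.card Ω - 2 := Nat.le_of_dvd (by omega) hdvd
      rw [← hH₀] at hib
      omega

end Main

end Cfsg.Agent.H03.ZC
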