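import Cfsg.Agent.Lib.H03.ZC6
import Cfsg.Agent.Lib.H03.PR8

/-!
Recognition of `PSL₂(q)`, `q ≡ 3 (mod 4)`.
-/

set_option autoImplicit false

namespace Cfsg.Agent.H03.ZC

open Cfsg Finset MulAction Cfsg.Agent.H03.PR

universe u v

section Twist

variable {G : Type u} {α : Type v} [Group G] [MulAction G α]

/-- Twist elimination when `-1` is not a square. -/
theorem psl_twist_odd {K : Type*} [Field K] [Finite K] (inf : α) (c : K → α) (hc : Function.Injective c)
    (hcinf : ∀ y, c y ≠ inf) (hcs : ∀ x, x ≠ inf → ∃ y, c y = x)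
    (haff2 : ∀ a b : K, a ≠ 0 → ∃ g : G, g • inf = inf ∧ ∀ y : K, g • c y = c (a ^ 2 * y + b))
    (s : G) (hs1 : s • inf = c 0) (hs2 : s • c 0 = inf) (hfpf : ∀ y : K, s • c y ≠ c y)
    (hinvol : ∀ g : G, g • inf = c 0 → g • c 0 = inf → g * g = 1)
    (hm1 : ¬ IsSquare (-1 : K)) :
    ∃ t : G, t • inf = c 0 ∧ t • c 0 = inf ∧ ∀ x : K, x ≠ 0 → t • c x = c (-x⁻¹) := by
  classical
  letI : Fintype K := Fintype.ofFinite K
  have hone0 : (1 : K) ≠ 0 := one_ne_zero
  have hNN : ∀ a b : K, ¬ IsSquare a → ¬ IsSquare b → IsSquare (a * b) := by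
    intro a b ha hb
    have ha0 : a ≠ 0 := by
      rintro rfl
      exact ha IsSquare.zero
    have hb0 : b ≠ 0 := by
      rintro rfl
      exact hb IsSquare.zero
    rw [← quadraticChar_one_iff_isSquare (mul_ne_zero ha0 hb0), map_mul,
      quadraticChar_neg_one_iff_not_isSquare.2 ha, quadraticChar_neg_one_iff_not_isSquare.2 hb]
    norm_num
  have hM : ∀ x : K, x ≠ 0 → IsSquare x → ∃ g : G, g • inf = inf ∧ ∀ y : K, g • c y = c (x * y) := by
    intro x hx hxs
    obtain ⟨r, rfl⟩ := hxs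
    have hr : r ≠ 0 := left_ne_zero_of_mul hx
    obtain ⟨g, hg1, hg2⟩ := haff2 r 0 hr
    refine ⟨g, hg1, fun y => ?_⟩
    rw [hg2, add_zero, pow_two]
  have hss : s * s = 1 := hinvol s hs1 hs2
  have hsne : ∀ y : K, y ≠ 0 → s • c y ≠ inf := by
    intro y hy h
    apply hy
    apply hc
    exact MulAction.injective s (h.trans hs2.symm)
  let σ : K → K := fun y => if hy : y = 0 then 0 else Classical.choose (hcs _ (hsne y hy))
  have hσ : ∀ y : K, y ≠ 0 → c (σ y) = s • c y := by
    intro y hy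
    simp only [σ, dif_neg hy]
    exact Classical.choose_spec (hcs _ (hsne y hy))
  have hσmul : ∀ x y : K, x ≠ 0 → IsSquare x → y ≠ 0 → σ (x * y) = x⁻¹ * σ y := by
    intro x y hx hxs hy
    obtain ⟨g, hg1, hg2⟩ := hM x hx hxs
    have hg0 : g • c 0 = c 0 := by
      rw [hg2, mul_zero]
    have h1 : (s * g) * (s * g) = 1 := by
      apply hinvol
      · rw [mul_smul, hg1, hs1]
      · rw [mul_smul, hg0, hs2]
    have h2 : s * g = g⁻¹ * s := by
      have h3 : s * g * s = g⁻¹ := by
        rw [eq_inv_iff_mul_eq_one]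
        calc s * g * s * g = (s * g) * (s * g) := by group
          _ = 1 := h1
      rw [← h3, mul_assoc, hss, mul_one]
    apply hc
    rw [hσ _ (mul_ne_zero hx hy), ← hg2, ← mul_smul, h2, mul_smul, ← hσ y hy, inv_smul_eq_iff, hg2,
      ← mul_assoc, mul_inv_cancel₀ hx, one_mul]
  set κ : K := σ 1 with hκdef
  have hσS : ∀ x : K, x ≠ 0 → IsSquare x → σ x = x⁻¹ * κ := by
    intro x hx hxs
    have h1 := hσmul x 1 hx hxs hone0
    rwa [mul_one] at h1
  have hκ0 : κ ≠ 0 := by
    intro h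
    have h4 := hσ 1 hone0
    rw [← hκdef, h] at h4
    apply hcinf 1
    exact MulAction.injective s (h4.symm.trans hs1.symm)
  have hκns : ¬ IsSquare κ := by
    rintro ⟨r, hr⟩
    have hr0 : r ≠ 0 := by
      rintro rfl
      apply hκ0
      rw [hr, mul_zero]
    obtain ⟨x, hx0, hxs, hxx⟩ : ∃ x : K, x ≠ 0 ∧ IsSquare x ∧ x * x = κ := by
      by_cases hrs : IsSquare r
      · exact ⟨r, hr0, hrs, hr.symm⟩
      · refine ⟨-r, neg_ne_zero.2 hr0, ?_, ?_⟩
        · have h4 := hNN _ _ hm1 hrs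
          simpa using h4
        · rw [hr]
          ring
    have h4 := hσS x hx0 hxs
    have h5 : σ x = x := by
      rw [h4, ← hxx, ← mul_assoc, inv_mul_cancel₀ hx0, one_mul]
    apply hfpf x
    rw [← hσ x hx0, h5]
  have hx₀s : IsSquare (-κ) := by
    have h4 := hNN _ _ hm1 hκns
    simpa using h4
  have hx₀0 : -κ ≠ 0 := neg_ne_zero.2 hκ0
  obtain ⟨g₀, hg₀1, hg₀2⟩ := hM (-κ) hx₀0 hx₀s
  have ht1 : (s * g₀) • inf = c 0 := by
    rw [mul_smul, hg₀1, hs1]
  have ht2 : (s * g₀) • c 0 = inf := by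
    rw [mul_smul, hg₀2, mul_zero, hs2]
  have htt : (s * g₀) * (s * g₀) = 1 := hinvol _ ht1 ht2
  have hS : ∀ y : K, y ≠ 0 → IsSquare y → (s * g₀) • c y = c (-y⁻¹) := by
    intro y hy hys
    rw [mul_smul, hg₀2, ← hσ _ (mul_ne_zero hx₀0 hy),
      hσS _ (mul_ne_zero hx₀0 hy) (hx₀s.mul hys)]
    congr 1
    field_simp
  refine ⟨s * g₀, ht1, ht2, ?_⟩
  intro y hy
  by_cases hys : IsSquare y
  · exact hS y hy hys
  · have hy' : ¬ IsSquare y⁻¹ := by
      intro h
      apply hys
      have := h.inv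
      rwa [inv_inv] at this
    have hxs : IsSquare (-y⁻¹) := by
      have h4 := hNN _ _ hm1 hy'
      simpa using h4
    have hx0 : -y⁻¹ ≠ 0 := neg_ne_zero.2 (inv_ne_zero hy)
    have h4 := hS _ hx0 hxs
    have h5 : -(-y⁻¹)⁻¹ = y := by
      field_simp
    rw [h5] at h4
    rw [← h4, ← mul_smul, htt, one_smul]

end Twist

section Line

variable {G : Type u} {Ω : Type v} [Group G] [Finite G] [MulAction G Ω] [Fintype Ω]

/-- The recognition of `PSL₂(q)` for `q ≡ 3 (mod 4)`. -/
theorem psl_of_half_odd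
    (hfaith : ∀ g : G, (∀ x : Ω, g • x = x) → g = 1)
    (h2 : ∀ a b c d : Ω, a ≠ b → c ≠ d → ∃ g : G, g • a = c ∧ g • b = d)
    (h3 : ∀ (g : G) (x y z : Ω), x ≠ y → y ≠ z → x ≠ z → g • x = x → g • y = y → g • z = z → g = 1)
    {a b : Ω} (hab : a ≠ b) (F : Subgroup G) (hFle : F ≤ stabilizer G a)
    (hFn : (F.subgroupOf (stabilizer G a)).Normal) (hFab : IsMulCommutative F)
    (hreg : ∀ y z : Ω, y ≠ a → z ≠ a → ∃! u : F, (u : G) • y = z)
    (hDcomm : ∀ x ∈ (stabilizer G a ⊓ stabilizer G b : Subgroup G),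
      ∀ y ∈ (stabilizer G a ⊓ stabilizer G b : Subgroup G), x * y = y * x)
    (p f : ℕ) [hpF : Fact p.Prime] (hFp : ∀ u ∈ F, u ^ p = 1) (hcard : Fintype.card Ω = p ^ f + 1)
    (hq : 2 * Nat.card ↥(stabilizer G a ⊓ stabilizer G b : Subgroup G) + 1 = p ^ f)
    (hodd : Odd (Nat.card ↥(stabilizer G a ⊓ stabilizer G b : Subgroup G)))
    (hinvol : ∀ g : G, g • a = b → g • b = a → g * g = 1)
    (hfpf : ∀ g : G, g * g = 1 → g ≠ 1 → ∀ w : Ω, g • w ≠ w) :
    Nonempty (G ≃* Matrix.ProjectiveSpecialLinearGroup (Fin 2) (GaloisField p f)) := by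
  classical
  have hp : p.Prime := hpF.out
  set D : Subgroup G := stabilizer G a ⊓ stabilizer G b with hD
  have hf : f ≠ 0 := by
    rintro rfl
    rw [pow_zero] at hq
    obtain ⟨k, hk⟩ := hodd
    omega
  have hp2 : p ≠ 2 := by
    rintro rfl
    have h4 : 2 ∣ 2 ^ f := dvd_pow_self 2 hf
    omega
  have hFconj : ∀ g : G, g • a = a → ∀ u ∈ F, g * u * g⁻¹ ∈ F := by
    intro g hg u hu
    have h4 := hFn.conj_mem ⟨u, hFle hu⟩ hu ⟨g, hg⟩
    exact h4
  have hFa : ∀ u ∈ F, u • a = a := fun u hu => hFle hu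
  -- the vector space
  letI : CommGroup F := { (inferInstance : Group F) with
    mul_comm := fun a b => hFab.is_comm.comm a b }
  let pt : Additive F → Ω := fun v => (Additive.toMul v).1 • b
  have hptinj : Function.Injective pt := by
    intro x y hxy
    obtain ⟨w, -, hw⟩ := hreg b (pt y) hab.symm (by
      intro h
      apply hab
      have h4 : (Additive.toMul y).1 • b = (Additive.toMul y).1 • a :=
        h.trans (hFa _ (Additive.toMul y).2).symm
      exact (MulAction.injective _ h4).symm)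
    have h4 := hw (Additive.toMul x) hxy
    have h5 := hw (Additive.toMul y) rfl
    exact Additive.toMul.injective (h4.trans h5.symm)
  have hptne : ∀ v, pt v ≠ a := by
    intro v h
    apply hab
    have h4 : (Additive.toMul v).1 • b = (Additive.toMul v).1 • a :=
      h.trans (hFa _ (Additive.toMul v).2).symm
    exact (MulAction.injective _ h4).symm
  have hptsurj : ∀ y, y ≠ a → ∃ v, pt v = y := by
    intro y hy
    obtain ⟨w, hw, -⟩ := hreg b y hab.symm hy
    exact ⟨Additive.ofMul w, hw⟩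
  have hpt0 : pt 0 = b := one_smul _ _
  have hptadd : ∀ v w, pt (v + w) = (Additive.toMul v).1 • pt w := by
    intro v w
    exact mul_smul _ _ _
  haveI hVfin : Finite (Additive F) := inferInstance
  have hcV : Nat.card (Additive F) = p ^ f := by
    let e : Additive F → {y : Ω // y ≠ a} := fun v => ⟨pt v, hptne v⟩
    have he : Function.Bijective e := by
      constructor
      · intro x y hxy
        exact hptinj (congrArg Subtype.val hxy)
      · rintro ⟨y, hy⟩
        obtain ⟨v, hv⟩ := hptsurj y hy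
        exact ⟨v, Subtype.ext hv⟩
    rw [Nat.card_congr (Equiv.ofBijective e he), Nat.card_eq_fintype_card,
      Fintype.card_subtype_compl, Fintype.card_subtype_eq, hcard]
    omega
  let conjV : D → Additive F → Additive F := fun h v => Additive.ofMul ⟨h.1 * (Additive.toMul v).1 * h.1⁻¹,
    hFconj _ h.2.1 _ (Additive.toMul v).2⟩
  have hconjpt : ∀ (h : D) (v : Additive F), pt (conjV h v) = h.1 • pt v := by
    intro h v
    show (h.1 * (Additive.toMul v).1 * h.1⁻¹) • b = h.1 • (Additive.toMul v).1 • b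
    have h4 : h.1⁻¹ • b = b := inv_smul_eq_iff.2 h.2.2.symm
    rw [mul_smul, mul_smul, h4]
  let ρ : D →* AddMonoid.End (Additive F) :=
    { toFun := fun h =>
        { toFun := conjV h
          map_zero' := by
            apply hptinj
            rw [hconjpt, hpt0]
            exact h.2.2
          map_add' := fun x y => by
            apply Additive.toMul.injective
            apply Subtype.ext
            show h.1 * ((Additive.toMul x).1 * (Additive.toMul y).1) * h.1⁻¹ =
              (h.1 * (Additive.toMul x).1 * h.1⁻¹) * (h.1 * (Additive.toMul y).1 * h.1⁻¹)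
            group }
      map_one' := by
        apply AddMonoidHom.ext
        intro v
        apply hptinj
        show pt (conjV 1 v) = _
        rw [hconjpt]
        exact one_smul _ _
      map_mul' := fun x y => by
        apply AddMonoidHom.ext
        intro v
        apply hptinj
        show pt (conjV (x * y) v) = pt (conjV x (conjV y v))
        rw [hconjpt, hconjpt, hconjpt]
        exact mul_smul _ _ _ }
  have hρ : ∀ (h : D) (v : Additive F), ρ h v = conjV h v := fun _ _ => rfl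
  have hfree : ∀ (x : D) (v : Additive F), v ≠ 0 → ρ x v = v → x = 1 := by
    intro x v hv h4
    have h5 : x.1 • pt v = pt v := by
      rw [← hconjpt, ← hρ, h4]
    have h6 : pt v ≠ b := by
      intro h7
      apply hv
      apply hptinj
      rw [h7, hpt0]
    apply Subtype.ext
    exact h3 x.1 a b (pt v) hab h6.symm (hptne v).symm x.2.1 x.2.2 h5
  have hp0 : ∀ v : Additive F, p • v = 0 := by
    intro v
    apply Additive.toMul.injective
    apply Subtype.ext
    show (Additive.toMul v).1 ^ p = 1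
    exact hFp _ (Additive.toMul v).2
  have hVne : Nontrivial (Additive F) := by
    rw [← Finite.one_lt_card_iff_nontrivial, hcV]
    exact Nat.one_lt_pow hf hp.one_lt
  obtain ⟨v₀, hv₀⟩ := exists_ne (0 : Additive F)
  letI hDC : CommGroup D := { (inferInstance : Group D) with
    mul_comm := fun x y => Subtype.ext (hDcomm x.1 x.2 y.1 y.2) }
  obtain ⟨β, ι, hβadd, hβ1, hβρ, hιsq, hιsurj⟩ := field_of_half p f hp2 hf hp0 hcV ρ hfree hq v₀ hv₀
  let K := GaloisField p f
  have hβ0 : β 0 = 0 := by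
    have h4 := hβadd 0 0
    rw [add_zero] at h4
    exact left_eq_add.1 h4
  have hβneg : ∀ v, β (-v) = -β v := by
    intro v
    have h4 := hβadd v (-v)
    rw [add_neg_cancel, hβ0] at h4
    exact (neg_eq_of_add_eq_zero_right h4.symm).symm
  let c : K → Ω := fun x => pt (β.symm x)
  have hc : Function.Injective c := fun x y h => β.symm.injective (hptinj h)
  have hcinf : ∀ y, c y ≠ a := fun y => hptne _
  have hcs : ∀ x, x ≠ a → ∃ y, c y = x := by
    intro x hx
    obtain ⟨v, hv⟩ := hptsurj x hx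
    exact ⟨β v, by simp only [c, Equiv.symm_apply_apply, hv]⟩
  have hc0 : c 0 = b := by
    have h4 : β.symm 0 = 0 := by rw [Equiv.symm_apply_eq, hβ0]
    simp only [c, h4, hpt0]
  have hc1 : c 1 = pt v₀ := by
    have h4 : β.symm 1 = v₀ := by rw [Equiv.symm_apply_eq, hβ1]
    simp only [c, h4]
  have hcv : ∀ v, c (β v) = pt v := by
    intro v
    simp only [c, Equiv.symm_apply_apply]
  have hact : ∀ (u : F) (k : D) (y : K), (u.1 * k.1) • c y = c (ι k * y + β (Additive.ofMul u)) := by
    intro u k y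
    have h4 : c (ι k * y + β (Additive.ofMul u)) = pt (Additive.ofMul u + ρ k (β.symm y)) := by
      rw [← hcv (Additive.ofMul u + ρ k (β.symm y)), hβadd, hβρ, Equiv.apply_symm_apply, add_comm]
    rw [h4, hptadd, mul_smul, hρ, hconjpt]
    rfl
  have haff1 : ∀ g : G, g • a = a → ∃ a' b' : K, a' ≠ 0 ∧ ∀ y : K, g • c y = c (a' ^ 2 * y + b') := by
    intro g hg
    have hgb : g • b ≠ a := by
      intro h
      apply hab
      exact (MulAction.injective g (h.trans hg.symm)).symm
    obtain ⟨u, hu, -⟩ := hreg b (g • b) hab.symm hgb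
    have hkD : u.1⁻¹ * g ∈ D := by
      constructor
      · show (u.1⁻¹ * g) • a = a
        rw [mul_smul, hg, inv_smul_eq_iff, hFa u.1 u.2]
      · show (u.1⁻¹ * g) • b = b
        rw [mul_smul, inv_smul_eq_iff]
        exact hu.symm
    obtain ⟨a', ha', hk⟩ := hιsq ⟨_, hkD⟩
    refine ⟨a', β (Additive.ofMul u), ha', fun y => ?_⟩
    have h4 := hact u ⟨_, hkD⟩ y
    rw [hk] at h4
    rw [← h4]
    congr 1
    show g = u.1 * (u.1⁻¹ * g)
    group
  have haff2 : ∀ a' b' : K, a' ≠ 0 → ∃ g : G, g • a = a ∧ ∀ y : K, g • c y = c (a' ^ 2 * y + b') := by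
    intro a' b' ha'
    obtain ⟨k, hk⟩ := hιsurj a' ha'
    let u : F := Additive.toMul (β.symm b')
    refine ⟨u.1 * k.1, ?_, fun y => ?_⟩
    · rw [mul_smul, k.2.1, hFa u.1 u.2]
    · have h4 := hact u k y
      rw [hk] at h4
      rw [h4]
      congr 2
      exact β.apply_symm_apply b'
  letI : Fintype K := Fintype.ofFinite K
  have hcK : Fintype.card K = p ^ f := by
    rw [← Nat.card_eq_fintype_card]
    exact GaloisField.card p f hf
  have hm1 : ¬ IsSquare (-1 : K) := by
    rw [FiniteField.isSquare_neg_one_iff, not_not, hcK, ← hq]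
    obtain ⟨k, hk⟩ := hodd
    rw [hk]
    omega
  obtain ⟨s, hs1, hs2⟩ := h2 a b b a hab hab.symm
  have hsne : s ≠ 1 := by
    rintro rfl
    rw [one_smul] at hs1
    exact hab hs1
  obtain ⟨t, ht1, ht2, ht3⟩ := psl_twist_odd a c hc hcinf hcs haff2 s
    (by rw [hc0]; exact hs1) (by rw [hc0]; exact hs2)
    (fun y => hfpf s (hinvol s hs1 hs2) hsne (c y))
    (fun g hg1 hg2 => hinvol g (by rw [hg1, hc0]) (by rw [← hg2, hc0])) hm1
  exact psl_of_line a c hc hcinf hcs hfaith haff1 haff2 t ht1 ht2 ht3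

end Line

end Cfsg.Agent.H03.ZC
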