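import Mathlib
import Cfsg.Agent.Lib.H03.PR2

/-! Transitive groups of degree `p + 1` with small order: the regular Sylow subgroup of the point
stabiliser, semi-affine actions. -/

set_option autoImplicit false

namespace Cfsg.Agent.H03.ZP

open MulAction

universe u v

section Sylow

variable {Γ : Type u} {Ω : Type v} [Group Γ] [MulAction Γ Ω]

theorem exists_regular_sylow [Finite Γ] [Fintype Ω]
    (hfaith : ∀ g : Γ, (∀ x : Ω, g • x = x) → g = 1)
    (htrans : ∀ x y : Ω, ∃ g : Γ, g • x = y)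
    {p d : ℕ} (hp : p.Prime) (hΩ : Fintype.card Ω = p + 1) (hΓ : Nat.card Γ = (p + 1) * p * d)
    (hd : d < p) (a : Ω) :
    ∃ F : Subgroup Γ, F ≤ stabilizer Γ a ∧ (F.subgroupOf (stabilizer Γ a)).Normal ∧ Nat.card F = p ∧
      ∀ y z : Ω, y ≠ a → z ≠ a → ∃! u : F, (u : Γ) • y = z := by
  classical
  haveI : Fact p.Prime := ⟨hp⟩
  set S : Subgroup Γ := stabilizer Γ a with hSdef
  have hindex : S.index = p + 1 := by
    rw [hSdef, MulAction.index_stabilizer]
    have : MulAction.orbit Γ a = Set.univ := by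
      ext z
      simp only [Set.mem_univ, iff_true]
      obtain ⟨g, hg⟩ := htrans a z
      exact ⟨g, hg⟩
    rw [this, Set.ncard_univ, Nat.card_eq_fintype_card, hΩ]
  have hdpos : 0 < d := by
    rcases Nat.eq_zero_or_pos d with h | h
    · subst h
      have := Nat.card_pos (α := Γ)
      omega
    · exact h
  have hS : Nat.card S = p * d := by
    have h1 := Subgroup.card_mul_index S
    rw [hindex, hΓ] at h1
    have h4 : (p + 1) * (p * d) = (p + 1) * Nat.card S := by
      rw [mul_comm (p + 1) (Nat.card S), h1]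
      ring
    exact (Nat.eq_of_mul_eq_mul_left (Nat.succ_pos p) h4).symm
  have hndvd : ¬ p ∣ d := fun h => absurd (Nat.le_of_dvd hdpos h) (by omega)
  let Q : Sylow p S := default
  have hQcard : Nat.card Q = p := by
    have h1 := Sylow.card_eq_multiplicity Q
    have h2 : (Nat.card S).factorization p = 1 := by
      rw [hS, Nat.factorization_mul hp.ne_zero hdpos.ne', Finsupp.add_apply, hp.factorization_self,
        Nat.factorization_eq_zero_of_not_dvd hndvd]
    rw [h2, pow_one] at h1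
    exact h1
  have hQindex : (Q : Subgroup S).index = d := by
    have h1 := Subgroup.card_mul_index (Q : Subgroup S)
    have h2 : Nat.card (Q : Subgroup S) = p := hQcard
    rw [h2, hS] at h1
    exact Nat.eq_of_mul_eq_mul_left hp.pos h1
  have hone : Nat.card (Sylow p S) = 1 := by
    have h1 : Nat.card (Sylow p S) ∣ d := by
      rw [← hQindex]
      exact Sylow.card_dvd_index Q
    have h2 := Nat.le_of_dvd hdpos h1
    have h3 := card_sylow_modEq_one p S
    have h4 : Nat.card (Sylow p S) % p = 1 % p := h3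
    rw [Nat.mod_eq_of_lt (by omega : Nat.card (Sylow p S) < p),
      Nat.mod_eq_of_lt hp.one_lt] at h4
    exact h4
  have hsub : Subsingleton (Sylow p S) := (Nat.card_eq_one_iff_unique.1 hone).1
  have hQn : (Q : Subgroup S).Normal := Sylow.normal_of_subsingleton Q
  let F : Subgroup Γ := (Q : Subgroup S).map S.subtype
  have hFle : F ≤ S := Subgroup.map_subtype_le _
  have hFof : F.subgroupOf S = (Q : Subgroup S) :=
    Subgroup.comap_map_eq_self_of_injective S.subtype_injective _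
  have hFcard : Nat.card F = p := by
    have h1 : Nat.card F = Nat.card (Q : Subgroup S) :=
      (Nat.card_congr (Subgroup.equivMapOfInjective (Q : Subgroup S) S.subtype S.subtype_injective).toEquiv).symm
    rw [h1]
    exact hQcard
  refine ⟨F, hFle, by rw [hFof]; exact hQn, hFcard, ?_⟩
  have : Nontrivial F := by
    rw [← Finite.one_lt_card_iff_nontrivial, hFcard]
    exact hp.one_lt
  obtain ⟨u₀, hu₀⟩ := exists_ne (1 : F)
  have hu₀' : (u₀ : Γ) ≠ 1 := fun h => hu₀ (Subtype.ext h)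
  obtain ⟨y₀, hy₀⟩ : ∃ y : Ω, (u₀ : Γ) • y ≠ y := by
    by_contra hcon
    push Not at hcon
    exact hu₀' (hfaith _ hcon)
  have hFa : ∀ u : F, (u : Γ) • a = a := fun u => hFle u.2
  have hy₀a : y₀ ≠ a := by
    rintro rfl
    exact hy₀ (hFa u₀)
  have hne : ∀ (u : F) (y : Ω), y ≠ a → (u : Γ) • y ≠ a := by
    intro u y hy h
    apply hy
    exact MulAction.injective (u : Γ) (h.trans (hFa u).symm)
  let ψ : F → {z : Ω // z ≠ a} := fun u => ⟨(u : Γ) • y₀, hne u y₀ hy₀a⟩
  have hψ : Function.Injective ψ := by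
    intro u v huv
    have h1 : (u : Γ) • y₀ = (v : Γ) • y₀ := congrArg Subtype.val huv
    by_contra hne'
    have hw : v⁻¹ * u ≠ 1 := by
      intro h
      exact hne' (inv_mul_eq_one.1 h).symm
    have hfix : ((v⁻¹ * u : F) : Γ) • y₀ = y₀ := by
      show ((v : Γ)⁻¹ * (u : Γ)) • y₀ = y₀
      rw [mul_smul, h1, inv_smul_smul]
    have hmem : u₀ ∈ Subgroup.zpowers (v⁻¹ * u) := mem_zpowers_of_prime_card hFcard hw
    obtain ⟨k, hk⟩ := hmem
    apply hy₀
    have h2 : ((v⁻¹ * u : F) ^ k : F) = u₀ := hk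
    rw [← h2]
    have h3 : ((v⁻¹ * u : F) ^ k : F).1 = ((v⁻¹ * u : F) : Γ) ^ k := by simp
    rw [h3]
    have h4 : stabilizer Γ y₀ = stabilizer Γ y₀ := rfl
    have h5 : ((v⁻¹ * u : F) : Γ) ∈ stabilizer Γ y₀ := hfix
    exact (Subgroup.zpow_mem _ h5 k : _ ∈ stabilizer Γ y₀)
  have hcardY : Nat.card {z : Ω // z ≠ a} = p := by
    rw [Nat.card_eq_fintype_card, Fintype.card_subtype_compl, Fintype.card_subtype_eq, hΩ]
    omega
  have hψb : Function.Bijective ψ := by
    haveI : Fintype {z : Ω // z ≠ a} := Fintype.ofFinite _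
    exact (Nat.bijective_iff_injective_and_card ψ).2 ⟨hψ, by rw [hFcard, hcardY]⟩
  intro y z hy hz
  obtain ⟨v, hv⟩ := hψb.2 ⟨y, hy⟩
  obtain ⟨w, hw⟩ := hψb.2 ⟨z, hz⟩
  have hv' : (v : Γ) • y₀ = y := congrArg Subtype.val hv
  have hw' : (w : Γ) • y₀ = z := congrArg Subtype.val hw
  refine ⟨w * v⁻¹, ?_, ?_⟩
  · show ((w : Γ) * (v : Γ)⁻¹) • y = z
    rw [mul_smul, ← hv', inv_smul_smul, hw']
  · intro t ht
    have ht' : (t : Γ) • y = z := ht
    have h1 : ψ (t * v) = ψ w := by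
      apply Subtype.ext
      show ((t : Γ) * (v : Γ)) • y₀ = (w : Γ) • y₀
      rw [mul_smul, hv', ht', hw']
    have h2 := hψ h1
    rw [← h2]
    group

theorem two_trans_of_regular (htrans : ∀ x y : Ω, ∃ g : Γ, g • x = y) {a : Ω} (F : Subgroup Γ)
    (hFle : F ≤ stabilizer Γ a)
    (hreg : ∀ y z : Ω, y ≠ a → z ≠ a → ∃! u : F, (u : Γ) • y = z) :
    ∀ x y c d : Ω, x ≠ y → c ≠ d → ∃ g : Γ, g • x = c ∧ g • y = d := by
  intro x y c d hxy hcd
  obtain ⟨g₁, hg₁⟩ := htrans x a
  obtain ⟨g₂, hg₂⟩ := htrans c a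
  have h1 : g₁ • y ≠ a := by
    intro h
    exact hxy (MulAction.injective g₁ (hg₁.trans h.symm))
  have h2 : g₂ • d ≠ a := by
    intro h
    exact hcd (MulAction.injective g₂ (hg₂.trans h.symm))
  obtain ⟨u, hu, -⟩ := hreg _ _ h1 h2
  have hua : (u : Γ) • a = a := hFle u.2
  refine ⟨g₂⁻¹ * u.1 * g₁, ?_, ?_⟩
  · rw [mul_smul, mul_smul, hg₁, hua, inv_smul_eq_iff, hg₂]
  · rw [mul_smul, mul_smul, hu, inv_smul_smul]

theorem rigid_of_regular (hfaith : ∀ g : Γ, (∀ x : Ω, g • x = x) → g = 1)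
    (htrans : ∀ x y : Ω, ∃ g : Γ, g • x = y) {a : Ω} (F : Subgroup Γ)
    (hFle : F ≤ stabilizer Γ a) (hFn : (F.subgroupOf (stabilizer Γ a)).Normal) {p : ℕ}
    (hp : p.Prime) (hFp : Nat.card F = p)
    (hreg : ∀ y z : Ω, y ≠ a → z ≠ a → ∃! u : F, (u : Γ) • y = z) :
    ∀ (g : Γ) (x y z : Ω), x ≠ y → y ≠ z → x ≠ z → g • x = x → g • y = y → g • z = z → g = 1 := by
  classical
  haveI : Fact p.Prime := ⟨hp⟩
  have key : ∀ (g : Γ) (b c : Ω), a ≠ b → b ≠ c → a ≠ c → g • a = a → g • b = b → g • c = c → g = 1 := by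
    intro g b c hab hbc hac hga hgb hgc
    have hFconj : ∀ u ∈ F, g * u * g⁻¹ ∈ F := by
      intro u hu
      exact hFn.conj_mem ⟨u, hFle hu⟩ hu ⟨g, hga⟩
    obtain ⟨u, hu, huniq⟩ := hreg b c (Ne.symm hab) (Ne.symm hac)
    have hu1 : u ≠ 1 := by
      rintro rfl
      apply hbc
      rw [← hu]
      exact (one_smul Γ b).symm
    have hcomm : g * u.1 * g⁻¹ = u.1 := by
      have h1 := huniq ⟨g * u.1 * g⁻¹, hFconj _ u.2⟩ (by
        show (g * u.1 * g⁻¹) • b = c
        have h4 : g⁻¹ • b = b := inv_smul_eq_iff.2 hgb.symm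
        have h5 : u.1 • b = c := hu
        rw [mul_smul, mul_smul, h4, h5, hgc])
      exact congrArg Subtype.val h1
    have hall : ∀ w : F, g * w.1 * g⁻¹ = w.1 := by
      intro w
      obtain ⟨k, hk⟩ := mem_zpowers_of_prime_card hFp hu1 (g' := w)
      have h2 : (u ^ k : F) = w := hk
      rw [← h2]
      have h3 : ((u ^ k : F) : Γ) = (u : Γ) ^ k := by simp
      rw [h3, ← conj_zpow, hcomm]
    apply hfaith
    intro y
    by_cases hy : y = a
    · rw [hy]
      exact hga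
    obtain ⟨w, hw, -⟩ := hreg b y (Ne.symm hab) hy
    have hw' : w.1 • b = y := hw
    rw [← hw']
    have h6 : g * w.1 = w.1 * g := by
      have := hall w
      calc g * w.1 = (g * w.1 * g⁻¹) * g := by group
        _ = w.1 * g := by rw [this]
    rw [← mul_smul, h6, mul_smul, hgb]
  intro g x y z hxy hyz hxz hgx hgy hgz
  obtain ⟨t, ht⟩ := htrans x a
  have h1 : t * g * t⁻¹ = 1 := by
    apply key (t * g * t⁻¹) (t • y) (t • z)
    · rw [← ht]
      exact fun h => hxy (MulAction.injective t h)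
    · exact fun h => hyz (MulAction.injective t h)
    · rw [← ht]
      exact fun h => hxz (MulAction.injective t h)
    · rw [← ht, mul_smul, mul_smul, inv_smul_smul, hgx]
    · rw [mul_smul, mul_smul, inv_smul_smul, hgy]
    · rw [mul_smul, mul_smul, inv_smul_smul, hgz]
  have h2 : g = t⁻¹ * (t * g * t⁻¹) * t := by group
  rw [h2, h1]
  group

/-- The action of a group with a regular normal abelian subgroup and a point stabiliser with a
normal abelian subgroup regular on the other points is semi-affine. -/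
theorem semiaffine_of_regular (R F : Subgroup Γ) (hRn : R.Normal) (o e : Ω) (hoe : o ≠ e)
    (hRab : ∀ x ∈ R, ∀ y ∈ R, x * y = y * x)
    (hRreg : ∀ y : Ω, ∃ u ∈ R, u • o = y)
    (hRuniq : ∀ u ∈ R, ∀ v ∈ R, u • o = v • o → u = v)
    (hFle : F ≤ stabilizer Γ o) (hFn : ∀ g : Γ, g • o = o → ∀ u ∈ F, g * u * g⁻¹ ∈ F)
    (hFab : ∀ x ∈ F, ∀ y ∈ F, x * y = y * x)
    (hreg : ∀ y z : Ω, y ≠ o → z ≠ o → ∃! u : F, (u : Γ) • y = z) :
    ∃ _ : Field Ω, (∀ g : Γ, ∃ (a : Ωˣ) (b : Ω) (φ : Ω ≃+* Ω), ∀ x, g • x = (a : Ω) * φ x + b) ∧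
      ∃ ρ : ↥(stabilizer Γ o ⊓ stabilizer Γ e : Subgroup Γ) →* (Ω ≃+* Ω), ∀ h x, ρ h x = h.1 • x := by
  classical
  have hHreg : ∀ y : Ω, y ≠ o → ∃ h ∈ F, h • e = y := by
    intro y hy
    obtain ⟨u, hu, -⟩ := hreg e y (Ne.symm hoe) hy
    exact ⟨u.1, u.2, hu⟩
  have hHuniq : ∀ u ∈ F, ∀ v ∈ F, u • e = v • e → u = v := by
    intro u hu v hv huv
    obtain ⟨w, -, hw⟩ := hreg e (v • e) (Ne.symm hoe) (by
      intro h
      apply hoe
      have h1 : v • o = o := hFle hv
      exact MulAction.injective v (h1.trans h.symm))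
    have h1 := hw ⟨u, hu⟩ huv
    have h2 := hw ⟨v, hv⟩ rfl
    exact congrArg Subtype.val (h1.trans h2.symm)
  obtain ⟨hF, hF0, hF1, hFE, hFH⟩ := Cfsg.Agent.H03.PR.exists_field_of_action (Y := Ω) (Γ := Γ) R F o e hoe
    hRab hRreg hRuniq (fun h hh => hFle hh) hFab hHreg hHuniq (fun h _ u hu => hRn.conj_mem u hu h)
  letI := hF
  have hadd : ∀ g : Γ, g • o = o → ∀ x y : Ω, g • (x + y) = g • x + g • y := by
    intro g hg x y
    obtain ⟨u, hu, rfl⟩ := hRreg x
    have h1 := hFE u hu y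
    rw [← h1]
    have h2 := hFE (g * u * g⁻¹) (hRn.conj_mem u hu g) (g • y)
    have h4 : g⁻¹ • o = o := inv_smul_eq_iff.2 hg.symm
    have h5 : (g * u * g⁻¹) • o = g • (u • o) := by
      rw [mul_smul, mul_smul, h4]
    rw [h5] at h2
    rw [← h2, mul_smul, mul_smul, inv_smul_smul]
  have hmul : ∀ g : Γ, g • o = o → g • e = e → ∀ x y : Ω, g • (x * y) = g • x * g • y := by
    intro g hg1 hg2 x y
    by_cases hx : x = o
    · rw [hx, ← hF0, zero_mul, hF0, hg1, ← hF0, zero_mul]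
    obtain ⟨h, hh, rfl⟩ := hHreg x hx
    have h1 := hFH h hh y
    rw [← h1]
    have h2 := hFH (g * h * g⁻¹) (hFn g hg1 h hh) (g • y)
    have h4 : g⁻¹ • e = e := inv_smul_eq_iff.2 hg2.symm
    have h5 : (g * h * g⁻¹) • e = g • (h • e) := by
      rw [mul_smul, mul_smul, h4]
    rw [h5] at h2
    rw [← h2, mul_smul, mul_smul, inv_smul_smul]
  let mk : (g : Γ) → g • o = o → g • e = e → (Ω ≃+* Ω) := fun g h1 h2 =>
    { MulAction.toPerm g with
      map_mul' := hmul g h1 h2
      map_add' := hadd g h1 }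
  have hmk : ∀ (g : Γ) (h1 : g • o = o) (h2 : g • e = e) (x : Ω), mk g h1 h2 x = g • x := fun _ _ _ _ => rfl
  refine ⟨hF, ?_, ?_⟩
  · intro g
    obtain ⟨u, hu, hu2⟩ := hRreg (g • o)
    have hg1 : (u⁻¹ * g) • o = o := by
      rw [mul_smul, inv_smul_eq_iff, hu2]
    have hc : (u⁻¹ * g) • e ≠ o := by
      intro h
      apply hoe
      exact MulAction.injective _ (hg1.trans h.symm)
    obtain ⟨h, hh, hh2⟩ := hHreg _ hc
    have hho : h • o = o := hFle hh
    have hg2 : (h⁻¹ * (u⁻¹ * g)) • o = o := by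
      rw [mul_smul, hg1, inv_smul_eq_iff, hho]
    have hg3 : (h⁻¹ * (u⁻¹ * g)) • e = e := by
      rw [mul_smul, ← hh2, inv_smul_smul]
    refine ⟨Units.mk0 ((u⁻¹ * g) • e) (by rw [← hF0] at hc; exact hc), g • o, mk _ hg2 hg3, fun x => ?_⟩
    rw [hmk _ hg2 hg3, Units.val_mk0, ← hh2, ← hFH h hh, add_comm, ← hu2, ← hFE u hu, ← mul_smul, ← mul_smul]
    have h7 : u * h * (h⁻¹ * (u⁻¹ * g)) = g := by group
    rw [h7]
  · refine ⟨MonoidHom.mk' (fun h => mk h.1 h.2.1 h.2.2) ?_, fun h x => rfl⟩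
    intro a b
    ext x
    exact mul_smul _ _ _

end Sylow

theorem card_ringAut' {K : Type*} [Field K] [Fintype K] {p f : ℕ} (hp : p.Prime)
    (hq : Fintype.card K = p ^ f) (hf : 1 ≤ f) : Nat.card (K ≃+* K) = f := by
  haveI : Fact p.Prime := ⟨hp⟩
  haveI : CharP K p := by
    obtain ⟨r, hr⟩ := CharP.exists K
    haveI := hr
    obtain ⟨n, hr1, hr2⟩ := FiniteField.card K r
    haveI : Fact r.Prime := ⟨hr1⟩
    have h1 : r ∣ p ^ f := by
      rw [← hq, hr2]
      exact dvd_pow_self r n.ne_zero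
    have h2 := (Nat.prime_dvd_prime_iff_eq hr1 hp).mp (hr1.dvd_of_dvd_pow h1)
    subst h2
    exact hr
  letI : Algebra (ZMod p) K := ZMod.algebra K p
  have hfr : Module.finrank (ZMod p) K = f := by
    have h1 := Module.card_eq_pow_finrank (K := ZMod p) (V := K)
    rw [ZMod.card, hq] at h1
    exact (Nat.pow_right_injective hp.two_le h1).symm
  haveI : IsGalois (ZMod p) K := inferInstance
  have hcard : Nat.card (K ≃ₐ[ZMod p] K) = f := by
    rw [IsGalois.card_aut_eq_finrank, hfr]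
  have hfix : ∀ (σ : K ≃+* K) (r : ZMod p), σ (algebraMap (ZMod p) K r) = algebraMap (ZMod p) K r := by
    intro σ r
    have := RingHom.ext_zmod (((σ : K →+* K)).comp (algebraMap (ZMod p) K)) (algebraMap (ZMod p) K)
    exact congrArg (fun φ : ZMod p →+* K => φ r) this
  let e1 : (K ≃+* K) ≃ (K ≃ₐ[ZMod p] K) :=
    { toFun := fun σ => AlgEquiv.ofRingEquiv (f := σ) (hfix σ)
      invFun := fun τ => τ.toRingEquiv
      left_inv := fun σ => by ext x; rfl
      right_inv := fun τ => by ext x; rfl }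
  rw [Nat.card_congr e1, hcard]

/-- The only group of order six on three points is `PGL(2, 2)`. -/
theorem pgl_two {α : Type*} [Fintype α] (hα : Fintype.card α = 3) (G : Subgroup (Equiv.Perm α))
    (hG : Nat.card G = 6) : Nonempty (G ≃* Matrix.ProjGenLinGroup (Fin 2) (ZMod 2)) := by
  classical
  have hGtop : G = ⊤ := by
    apply Subgroup.eq_top_of_card_eq
    rw [hG, Nat.card_eq_fintype_card, Fintype.card_perm, hα]
    rfl
  have hcard : Fintype.card α = Fintype.card (OnePoint (ZMod 2)) := by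
    rw [hα]
    rfl
  let e : α ≃ OnePoint (ZMod 2) := Fintype.equivOfCardEq hcard
  let t : Equiv.Perm (OnePoint (ZMod 2)) := Equiv.swap OnePoint.infty (((0 : ZMod 2) : OnePoint (ZMod 2)))
  have hne1 : (((1 : ZMod 2) : OnePoint (ZMod 2))) ≠ OnePoint.infty := OnePoint.coe_ne_infty _
  have hne0 : (((1 : ZMod 2) : OnePoint (ZMod 2))) ≠ ((0 : ZMod 2) : OnePoint (ZMod 2)) := by
    intro h
    exact absurd (OnePoint.coe_injective h) (by decide)
  obtain ⟨Φ⟩ := Cfsg.Agent.H03.PR.pgl_of (K := ZMod 2) (⊤ : Subgroup (Equiv.Perm (OnePoint (ZMod 2))))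
    (by
      intro g hg
      refine ⟨fun _ => ?_, fun _ => Subgroup.mem_top _⟩
      have hne : ∀ x : ZMod 2, g ((x : ZMod 2) : OnePoint (ZMod 2)) ≠ OnePoint.infty := by
        intro x h
        exact OnePoint.coe_ne_infty x (g.injective (h.trans hg.symm))
      have hex : ∀ x : ZMod 2, ∃ y : ZMod 2, g (x : OnePoint (ZMod 2)) = (y : OnePoint (ZMod 2)) := by
        intro x
        exact OnePoint.ne_infty_iff_exists.1 (hne x) |>.imp fun y hy => hy.symm
      choose f hf using hex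
      have hfinj : f 0 ≠ f 1 := by
        intro h
        have h1 : g ((0 : ZMod 2) : OnePoint (ZMod 2)) = g ((1 : ZMod 2) : OnePoint (ZMod 2)) := by
          rw [hf, hf, h]
        exact hne0 (g.injective h1).symm
      refine ⟨1, f 0, one_ne_zero, fun x => ?_⟩
      rw [hf]
      congr 1
      have hall : ∀ a b : ZMod 2, a ≠ b → b = 1 + a := by decide
      have hx01 : ∀ x : ZMod 2, x = 0 ∨ x = 1 := by decide
      rcases hx01 x with rfl | rfl
      · rw [mul_zero, zero_add]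
      · rw [mul_one]
        exact hall _ _ hfinj)
    t (Subgroup.mem_top _) (Equiv.swap_apply_left _ _) (Equiv.swap_apply_right _ _)
    (by
      intro x hx
      have hx1 : x = 1 := by
        revert x
        decide
      subst hx1
      rw [inv_one]
      exact Equiv.swap_apply_of_ne_of_ne hne1 hne0)
  subst hGtop
  exact ⟨(Subgroup.topEquiv.trans (Equiv.permCongrHom e)).trans (Subgroup.topEquiv.symm.trans Φ)⟩

end Cfsg.Agent.H03.ZP
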