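import Mathlib
import Cfsg.Agent.Lib.H03.KT5
import Cfsg.Agent.Lib.H03.ZS1
import Cfsg.Agent.S0741
import Cfsg.Agent.S0742

/-! Simple Zassenhaus groups with two-point stabilisers of even order. -/

set_option autoImplicit false

namespace Cfsg.Agent.H03.ZS

open Cfsg.Agent.H03.PR MulAction

universe u v

variable {G : Type u} {Ω : Type v} [Group G] [MulAction G Ω]

/-- If the two-point stabiliser has order `|Ω| - 2` then the action is sharply 3-transitive. -/
theorem sharp3_of_card_eq [Finite G] [Fintype Ω]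
    (h2 : ∀ a b c d : Ω, a ≠ b → c ≠ d → ∃ g : G, g • a = c ∧ g • b = d)
    (h3 : ∀ (g : G) (x y z : Ω), x ≠ y → y ≠ z → x ≠ z → g • x = x → g • y = y → g • z = z → g = 1)
    {a b : Ω} (hab : a ≠ b)
    (hcard : Nat.card (stabilizer G a ⊓ stabilizer G b : Subgroup G) = Fintype.card Ω - 2) :
    Sharp3 G Ω := by
  classical
  set H := (stabilizer G a ⊓ stabilizer G b : Subgroup G) with hH
  have hreg : ∀ x y : Ω, x ≠ a → x ≠ b → y ≠ a → y ≠ b → ∃ h ∈ H, h • x = y := by
    intro x y hxa hxb hya hyb
    have hmem : ∀ h : H, (h : G) • x ≠ a ∧ (h : G) • x ≠ b := by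
      rintro ⟨h, hha, hhb⟩
      constructor
      · intro he
        apply hxa
        have h1 : h • x = h • a := he.trans (by rw [show h • a = a from hha])
        exact MulAction.injective h h1
      · intro he
        apply hxb
        have h1 : h • x = h • b := he.trans (by rw [show h • b = b from hhb])
        exact MulAction.injective h h1
    let f : H → {z : Ω // z ≠ a ∧ z ≠ b} := fun h => ⟨(h : G) • x, hmem h⟩
    have hf : Function.Injective f := by
      rintro ⟨h, hha, hhb⟩ ⟨k, hka, hkb⟩ he
      have he' : h • x = k • x := congrArg Subtype.val he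
      have : k⁻¹ * h = 1 := by
        apply h3 _ a b x hab (Ne.symm hxb) (Ne.symm hxa)
        · rw [mul_smul, show h • a = a from hha, inv_smul_eq_iff]; exact (show k • a = a from hka).symm
        · rw [mul_smul, show h • b = b from hhb, inv_smul_eq_iff]; exact (show k • b = b from hkb).symm
        · rw [mul_smul, he', inv_smul_smul]
      have hk : h = k := by
        rw [inv_mul_eq_one] at this
        exact this.symm
      exact Subtype.ext hk
    have hc : Nat.card {z : Ω // z ≠ a ∧ z ≠ b} = Fintype.card Ω - 2 := by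
      have h5 : ({z : Ω | z ≠ a ∧ z ≠ b}) = (Set.univ \ {a}) \ {b} := by
        ext x
        simp only [Set.mem_ofPred_eq, Set.mem_sdiff, Set.mem_univ, true_and, Set.mem_singleton_iff]
      have h6 : Nat.card {z : Ω // z ≠ a ∧ z ≠ b} = ({z : Ω | z ≠ a ∧ z ≠ b}).ncard := rfl
      rw [h6, h5, Set.ncard_sdiff_singleton_of_mem (by simp [hab.symm]),
        Set.ncard_sdiff_singleton_of_mem (Set.mem_univ _), Set.ncard_univ,
        Nat.card_eq_fintype_card]
      omega
    have hbij : Function.Bijective f :=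
      (Nat.bijective_iff_injective_and_card f).2 ⟨hf, by rw [hc, hcard]⟩
    obtain ⟨h, hh⟩ := hbij.2 ⟨y, hya, hyb⟩
    exact ⟨h, h.2, congrArg Subtype.val hh⟩
  refine ⟨?_, ?_⟩
  · intro a1 b1 c1 a2 b2 c2 hab1 hac1 hbc1 hab2 hac2 hbc2
    obtain ⟨g1, hg1a, hg1b⟩ := h2 a1 b1 a b hab1 hab
    obtain ⟨g2, hg2a, hg2b⟩ := h2 a2 b2 a b hab2 hab
    have hx1 : g1 • c1 ≠ a := by
      intro he
      exact hac1 (MulAction.injective g1 (hg1a.trans he.symm))
    have hx2 : g1 • c1 ≠ b := by
      intro he
      exact hbc1 (MulAction.injective g1 (hg1b.trans he.symm))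
    have hy1 : g2 • c2 ≠ a := by
      intro he
      exact hac2 (MulAction.injective g2 (hg2a.trans he.symm))
    have hy2 : g2 • c2 ≠ b := by
      intro he
      exact hbc2 (MulAction.injective g2 (hg2b.trans he.symm))
    obtain ⟨h, ⟨hha, hhb⟩, hc⟩ := hreg _ _ hx1 hx2 hy1 hy2
    refine ⟨g2⁻¹ * h * g1, ?_, ?_, ?_⟩
    · rw [mul_smul, mul_smul, hg1a, show h • a = a from hha, ← hg2a, inv_smul_smul]
    · rw [mul_smul, mul_smul, hg1b, show h • b = b from hhb, ← hg2b, inv_smul_smul]
    · rw [mul_smul, mul_smul, hc, inv_smul_smul]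
  · intro g x y z hxy hxz hyz hx hy hz
    exact h3 g x y z hxy hyz hxz hx hy hz

/-- In a simple Zassenhaus group with two-point stabilisers of even order `d`, one has
`|Ω| - 2 = 2 d`. -/
theorem card_eq_two_mul [Finite G] [Fintype Ω] [IsSimpleGroup G]
    (hZ : Cfsg.IsZassenhausGroup G Ω) {a b : Ω} (hab : a ≠ b)
    (heven : Even (Nat.card (stabilizer G a ⊓ stabilizer G b : Subgroup G))) :
    Fintype.card Ω - 2 = 2 * Nat.card (stabilizer G a ⊓ stabilizer G b : Subgroup G) := by
  classical
  obtain ⟨hfaith, h2, h3, hne⟩ := zass_facts hZ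
  have h1 := Cfsg.Agent.S0741.result hZ hab heven
  have hdvd := card_dvd_sub_two (G := G) h3 hab
  set d := Nat.card (stabilizer G a ⊓ stabilizer G b : Subgroup G) with hd
  have hdpos : 0 < d := Nat.card_pos
  obtain ⟨k, hk⟩ := hdvd
  have hk2 : k ≤ 2 := by
    by_contra hc
    have : d * 3 ≤ d * k := Nat.mul_le_mul_left d (by omega)
    omega
  have hdeven : 2 ≤ d := by
    obtain ⟨e, he⟩ := heven
    omega
  -- there is a third point because of the two-point stabiliser
  have hΩ : Fintype.card Ω - 2 = d * k := hk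
  interval_cases k
  · -- k = 0: then |Ω| ≤ 2, so the stabiliser has order 1
    exfalso
    have hle : Fintype.card Ω ≤ 2 := by omega
    haveI : Nontrivial (stabilizer G a ⊓ stabilizer G b : Subgroup G) :=
      Finite.one_lt_card_iff_nontrivial.1 (by omega)
    obtain ⟨z, hz⟩ := exists_ne (1 : (stabilizer G a ⊓ stabilizer G b : Subgroup G))
    apply hz
    apply Subtype.ext
    apply hfaith
    intro x
    by_cases hxa : x = a
    · rw [hxa]; exact z.2.1
    by_cases hxb : x = b
    · rw [hxb]; exact z.2.2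
    exfalso
    have := Fintype.two_lt_card_iff.2 ⟨a, b, x, hab, Ne.symm hxa, Ne.symm hxb⟩
    omega
  · -- k = 1: sharply 3-transitive group of even degree
    exfalso
    have hs : Sharp3 G Ω := sharp3_of_card_eq h2 h3 hab (by omega)
    refine Cfsg.Agent.H03.KT.no_sharp3_simple hs ?_ ?_
    · have : Fintype.card Ω = d + 2 := by omega
      rw [this]
      exact heven.add even_two
    · omega
  · omega

end Cfsg.Agent.H03.ZS
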