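import Mathlib
import Cfsg.Agent.Lib.H03.PR9
import Cfsg.Agent.S0741
import Cfsg.Agent.S0738

/-! Zassenhaus groups with two-point stabilisers of even order `d` and `2 d ≤ |Ω| - 2`:
the stabiliser is cyclic and inverted by an involution. -/

set_option autoImplicit false

namespace Cfsg.Agent.H03.ZS

open Cfsg.Agent.H03.PR MulAction

set_option maxHeartbeats 2000000 in
/-- The two-point stabiliser is cyclic and inverted by an involution, in the even case. -/
theorem even_cyclic_invert {G Ω : Type*} [Group G] [Finite G] [MulAction G Ω] [Fintype Ω]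
    (hZ : Cfsg.IsZassenhausGroup G Ω) {a b : Ω} (hab : a ≠ b)
    (heven : Even (Nat.card ↥(MulAction.stabilizer G a ⊓ MulAction.stabilizer G b)))
    (hd : 2 * Nat.card ↥(MulAction.stabilizer G a ⊓ MulAction.stabilizer G b) ≤ Fintype.card Ω - 2) :
    IsCyclic ↥(MulAction.stabilizer G a ⊓ MulAction.stabilizer G b) ∧
      ∃ v : G, orderOf v = 2 ∧ v • a = b ∧ v • b = a ∧
        ∀ h ∈ MulAction.stabilizer G a ⊓ MulAction.stabilizer G b, v * h * v⁻¹ = h⁻¹ := by
  classical
  obtain ⟨hfs, h2', h3, ⟨g₀, hg₀1, a₀, b₀, hab₀, hg₀a, hg₀b⟩, -⟩ := id hZ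
  have hfaith : ∀ g : G, (∀ x : Ω, g • x = x) → g = 1 := by
    intro g hg
    apply hfs.eq_of_smul_eq_smul
    intro x
    rw [one_smul]
    exact hg x
  have h2 : ∀ a b c d : Ω, a ≠ b → c ≠ d → ∃ g : G, g • a = c ∧ g • b = d := by
    intro a b c d hab hcd
    exact (MulAction.is_two_pretransitive_iff.1 h2') hab hcd
  have he1 := Cfsg.Agent.S0741.result hZ hab heven
  set D := MulAction.stabilizer G a ⊓ MulAction.stabilizer G b with hD
  have hdpos : 0 < Nat.card D := Nat.card_pos
  have h2d : 2 ∣ Nat.card D := heven.two_dvd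
  haveI hp2F : Fact (Nat.Prime 2) := ⟨Nat.prime_two⟩
  obtain ⟨zD, hzD⟩ := exists_prime_orderOf_dvd_card' 2 h2d
  have hz2D : zD ^ 2 = 1 := by
    have := pow_orderOf_eq_one zD
    rwa [hzD] at this
  have hz1D : zD ≠ 1 := by
    intro h
    rw [h, orderOf_one] at hzD
    omega
  let z : G := zD.1
  have hzz : z * z = 1 := by
    have := congrArg Subtype.val hz2D
    rw [pow_two] at this
    exact this
  have hz1 : z ≠ 1 := fun h => hz1D (Subtype.ext h)
  have hza : z • a = a := zD.2.1
  have hzb : z • b = b := zD.2.2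
  have hzinv : z⁻¹ = z := inv_eq_of_mul_eq_one_left hzz
  obtain ⟨F, hFle, hFn, hreg⟩ := zass_kernel hfaith h2 h3 hab ⟨z, hz1, hza, hzb⟩
  obtain ⟨hFab, p, f, hp, hFp, hcard⟩ := Cfsg.Agent.S0738.result hZ hab he1 F hFle hFn hreg
  haveI hpF : Fact p.Prime := ⟨hp⟩
  have hq : 2 * Nat.card D + 1 = p ^ f := by omega
  have hf : f ≠ 0 := by
    rintro rfl
    rw [pow_zero] at hq
    omega
  have hp2 : p ≠ 2 := by
    rintro rfl
    have h4 : 2 ∣ 2 ^ f := dvd_pow_self 2 hf
    omega
  have hFconj : ∀ g : G, g • a = a → ∀ u ∈ F, g * u * g⁻¹ ∈ F := by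
    intro g hg u hu
    have h4 := hFn.conj_mem ⟨u, hFle hu⟩ hu ⟨g, hg⟩
    exact h4
  have hFa : ∀ u ∈ F, u • a = a := fun u hu => hFle hu
  have hFb : ∀ u ∈ F, u • b = b → u = 1 := by
    intro u hu h4
    obtain ⟨w, -, hw⟩ := hreg b b hab.symm hab.symm
    have h5 := hw ⟨u, hu⟩ h4
    have h6 := hw 1 (one_smul _ _)
    exact congrArg Subtype.val (h5.trans h6.symm)
  have hzF : ∀ u ∈ F, z * u * z⁻¹ = u⁻¹ := by
    apply inv_of_fpf F z hzz (fun u hu => hFconj z hza u hu)
    intro u hu h4
    apply hFb u hu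
    by_contra hne
    apply hz1
    have hua : u • b ≠ a := by
      intro h5
      apply hab
      have h6 : u • b = u • a := h5.trans (hFa u hu).symm
      exact (MulAction.injective u h6).symm
    have h5 : z • (u • b) = u • b := by
      have h6 : z • (u • b) = (z * u * z⁻¹) • (z • b) := by
        rw [mul_smul, mul_smul, inv_smul_smul]
      rw [h6, h4, hzb]
    exact h3 z a b (u • b) hab (Ne.symm hne) hua.symm hza hzb h5
  -- involutions swapping `a` and `b`
  have hSw : ∀ x : Ω, x ≠ a → x ≠ b → ∃ g : G, g • x = x ∧ g • a = b ∧ g • b = a ∧ g * g = 1 := by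
    intro x hxa hxb
    obtain ⟨r, hr1, hr2⟩ := h2 a b x a hab hxa
    have hrb : r⁻¹ • b ≠ a := by
      intro h
      apply hxb
      rw [inv_smul_eq_iff] at h
      rw [← hr1, h]
    have hr3 : r⁻¹ • a = b := by rw [inv_smul_eq_iff, hr2]
    have hr4 : r⁻¹ • x = a := by rw [inv_smul_eq_iff, hr1]
    obtain ⟨⟨u, huF⟩, hu, -⟩ := hreg b (r⁻¹ • b) hab.symm hrb
    have hu' : u • b = r⁻¹ • b := hu
    have hww : (u * z) * (u * z) = 1 := by
      have h4 : z * u = u⁻¹ * z := by
        have h5 := hzF u huF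
        rw [← h5, hzinv, mul_assoc, hzz, mul_one]
      calc (u * z) * (u * z) = u * (z * u) * z := by group
        _ = u * (u⁻¹ * z) * z := by rw [h4]
        _ = z * z := by group
        _ = 1 := hzz
    have hg2 : (r * (u * z) * r⁻¹) * (r * (u * z) * r⁻¹) = 1 := by
      calc (r * (u * z) * r⁻¹) * (r * (u * z) * r⁻¹) = r * ((u * z) * (u * z)) * r⁻¹ := by group
        _ = 1 := by rw [hww]; group
    have hg3 : (r * (u * z) * r⁻¹) • a = b := by
      rw [mul_smul, mul_smul, hr3, mul_smul, hzb, hu', smul_inv_smul]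
    refine ⟨r * (u * z) * r⁻¹, ?_, hg3, ?_, hg2⟩
    · rw [mul_smul, mul_smul, hr4, mul_smul, hza, hFa u huF, hr1]
    · rw [← hg3, ← mul_smul, hg2, one_smul]
  choose! i hi using hSw
  letI : Fintype G := Fintype.ofFinite G
  let Sw : Finset G := Finset.univ.filter (fun g => g • a = b ∧ g • b = a)
  let X : Finset Ω := (Finset.univ.erase a).erase b
  have hX : X.card + 2 = Fintype.card Ω := by
    have h4 : b ∈ Finset.univ.erase a := Finset.mem_erase.2 ⟨hab.symm, Finset.mem_univ _⟩
    have h5 := Finset.card_erase_add_one h4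
    have h6 := Finset.card_erase_add_one (Finset.mem_univ a)
    rw [Finset.card_univ] at h6
    show ((Finset.univ.erase a).erase b).card + 2 = _
    omega
  obtain ⟨s₀, hs01, hs02⟩ := h2 a b b a hab hab.symm
  have hSwcard : Sw.card ≤ Nat.card D := by
    rw [Nat.card_eq_fintype_card, ← Finset.card_univ]
    apply Finset.card_le_card_of_injOn (fun g => if hg : s₀⁻¹ * g ∈ D then (⟨s₀⁻¹ * g, hg⟩ : D) else 1)
    · intro _ _
      exact Finset.mem_coe.2 (Finset.mem_univ _)
    · intro g hg g' hg' hgg
      have hg1 : g • a = b ∧ g • b = a := by simpa [Sw] using hg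
      have hg1' : g' • a = b ∧ g' • b = a := by simpa [Sw] using hg'
      have hmem : ∀ w : G, (w • a = b ∧ w • b = a) → s₀⁻¹ * w ∈ D := by
        intro w hw
        constructor
        · show (s₀⁻¹ * w) • a = a
          rw [mul_smul, hw.1, inv_smul_eq_iff, hs01]
        · show (s₀⁻¹ * w) • b = b
          rw [mul_smul, hw.2, inv_smul_eq_iff, hs02]
      have h4 : (if hg : s₀⁻¹ * g ∈ D then (⟨s₀⁻¹ * g, hg⟩ : D) else 1) =
          (if hg : s₀⁻¹ * g' ∈ D then (⟨s₀⁻¹ * g', hg⟩ : D) else 1) := hgg
      rw [dif_pos (hmem g hg1), dif_pos (hmem g' hg1')] at h4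
      have h5 : s₀⁻¹ * g = s₀⁻¹ * g' := congrArg Subtype.val h4
      exact mul_left_cancel h5
  have hinvol : ∀ g : G, g • a = b → g • b = a → g * g = 1 := by
    have himg : X.image i ⊆ Sw := by
      intro g hg
      obtain ⟨x, hx, rfl⟩ := Finset.mem_image.1 hg
      have hx1 : x ≠ b := (Finset.mem_erase.1 hx).1
      have hx2 : x ≠ a := (Finset.mem_erase.1 (Finset.mem_erase.1 hx).2).1
      obtain ⟨-, h5, h6, -⟩ := hi x hx2 hx1
      exact Finset.mem_filter.2 ⟨Finset.mem_univ _, h5, h6⟩
    have hle := Finset.card_le_mul_card_image (f := i) X 2 (by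
      intro g hg
      by_contra hcon
      push Not at hcon
      obtain ⟨x, hx, y, hy, w, hw, hxy, hxw, hyw⟩ := Finset.two_lt_card.1 hcon
      have hmemX : ∀ v, v ∈ X.filter (fun x => i x = g) → g • v = v := by
        intro v hv
        have hv1 := Finset.mem_filter.1 hv
        have hv2 := hv1.1
        have h5 : v ≠ b := (Finset.mem_erase.1 hv2).1
        have h6 : v ≠ a := (Finset.mem_erase.1 (Finset.mem_erase.1 hv2).2).1
        rw [← hv1.2]
        exact (hi v h6 h5).1
      have h7 := h3 g x y w hxy hyw hxw (hmemX x hx) (hmemX y hy) (hmemX w hw)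
      obtain ⟨x', hx', rfl⟩ := Finset.mem_image.1 hg
      have h5 : x' ≠ b := (Finset.mem_erase.1 hx').1
      have h6 : x' ≠ a := (Finset.mem_erase.1 (Finset.mem_erase.1 hx').2).1
      have h8 := (hi x' h6 h5).2.1
      rw [h7, one_smul] at h8
      exact hab h8)
    have hcardimg : Sw.card ≤ (X.image i).card := by
      have h4 := Finset.card_le_card himg
      omega
    have heq : X.image i = Sw := Finset.eq_of_subset_of_card_le himg hcardimg
    intro g hg1 hg2
    have h4 : g ∈ X.image i := by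
      rw [heq]
      exact Finset.mem_filter.2 ⟨Finset.mem_univ _, hg1, hg2⟩
    obtain ⟨x, hx, rfl⟩ := Finset.mem_image.1 h4
    have h5 : x ≠ b := (Finset.mem_erase.1 hx).1
    have h6 : x ≠ a := (Finset.mem_erase.1 (Finset.mem_erase.1 hx).2).1
    exact (hi x h6 h5).2.2.2
  -- the two point stabiliser is abelian
  have hs0s0 : s₀ * s₀ = 1 := hinvol s₀ hs01 hs02
  have hs0inv : s₀⁻¹ = s₀ := inv_eq_of_mul_eq_one_left hs0s0
  have hDinv : ∀ h ∈ D, s₀ * h * s₀⁻¹ = h⁻¹ := by
    intro h hh
    have h1 : h • a = a := hh.1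
    have h4 : h • b = b := hh.2
    have h5 := hinvol (s₀ * h) (by rw [mul_smul, h1, hs01]) (by rw [mul_smul, h4, hs02])
    rw [hs0inv, eq_inv_iff_mul_eq_one]
    calc s₀ * h * s₀ * h = (s₀ * h) * (s₀ * h) := by group
      _ = 1 := h5
  have hDcomm : ∀ x ∈ D, ∀ y ∈ D, x * y = y * x := by
    intro x hx y hy
    have h4 := hDinv _ (mul_mem hx hy)
    have h5 : s₀ * (x * y) * s₀⁻¹ = (s₀ * x * s₀⁻¹) * (s₀ * y * s₀⁻¹) := by group
    rw [h5, hDinv x hx, hDinv y hy] at h4
    have h6 : (x * y)⁻¹ = (y * x)⁻¹ := by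
      rw [← h4]
      group
    exact inv_injective h6
  -- the vector space
  letI : CommGroup F := { (inferInstance : Group F) with
    mul_comm := fun a b => hFab.is_comm.comm a b }
  let pt : Additive F → Ω := fun v => (Additive.toMul v).1 • b
  have hptinj : Function.Injective pt := by
    intro x y hxy
    obtain ⟨w, -, hw⟩ := hreg b (pt y) hab.symm (by
      intro h
      apply hab
      have h4 : (Additive.toMul y).1 • b = (Additive.toMul y).1 • a :=
        h.trans (hFa _ (Additive.toMul y).2).symm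
      exact (MulAction.injective _ h4).symm)
    have h4 := hw (Additive.toMul x) hxy
    have h5 := hw (Additive.toMul y) rfl
    exact Additive.toMul.injective (h4.trans h5.symm)
  have hptne : ∀ v, pt v ≠ a := by
    intro v h
    apply hab
    have h4 : (Additive.toMul v).1 • b = (Additive.toMul v).1 • a :=
      h.trans (hFa _ (Additive.toMul v).2).symm
    exact (MulAction.injective _ h4).symm
  have hptsurj : ∀ y, y ≠ a → ∃ v, pt v = y := by
    intro y hy
    obtain ⟨w, hw, -⟩ := hreg b y hab.symm hy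
    exact ⟨Additive.ofMul w, hw⟩
  have hpt0 : pt 0 = b := one_smul _ _
  have hptadd : ∀ v w, pt (v + w) = (Additive.toMul v).1 • pt w := by
    intro v w
    exact mul_smul _ _ _
  haveI hVfin : Finite (Additive F) := inferInstance
  have hcV : Nat.card (Additive F) = p ^ f := by
    let e : Additive F → {y : Ω // y ≠ a} := fun v => ⟨pt v, hptne v⟩
    have he : Function.Bijective e := by
      constructor
      · intro x y hxy
        exact hptinj (congrArg Subtype.val hxy)
      · rintro ⟨y, hy⟩
        obtain ⟨v, hv⟩ := hptsurj y hy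
        exact ⟨v, Subtype.ext hv⟩
    rw [Nat.card_congr (Equiv.ofBijective e he), Nat.card_eq_fintype_card,
      Fintype.card_subtype_compl, Fintype.card_subtype_eq, hcard]
    omega
  let conjV : D → Additive F → Additive F := fun h v => Additive.ofMul ⟨h.1 * (Additive.toMul v).1 * h.1⁻¹,
    hFconj _ h.2.1 _ (Additive.toMul v).2⟩
  have hconjpt : ∀ (h : D) (v : Additive F), pt (conjV h v) = h.1 • pt v := by
    intro h v
    show (h.1 * (Additive.toMul v).1 * h.1⁻¹) • b = h.1 • (Additive.toMul v).1 • b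
    have h4 : h.1⁻¹ • b = b := inv_smul_eq_iff.2 h.2.2.symm
    rw [mul_smul, mul_smul, h4]
  let ρ : D →* AddMonoid.End (Additive F) :=
    { toFun := fun h =>
        { toFun := conjV h
          map_zero' := by
            apply hptinj
            rw [hconjpt, hpt0]
            exact h.2.2
          map_add' := fun x y => by
            apply Additive.toMul.injective
            apply Subtype.ext
            show h.1 * ((Additive.toMul x).1 * (Additive.toMul y).1) * h.1⁻¹ =
              (h.1 * (Additive.toMul x).1 * h.1⁻¹) * (h.1 * (Additive.toMul y).1 * h.1⁻¹)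
            group }
      map_one' := by
        apply AddMonoidHom.ext
        intro v
        apply hptinj
        show pt (conjV 1 v) = _
        rw [hconjpt]
        exact one_smul _ _
      map_mul' := fun x y => by
        apply AddMonoidHom.ext
        intro v
        apply hptinj
        show pt (conjV (x * y) v) = pt (conjV x (conjV y v))
        rw [hconjpt, hconjpt, hconjpt]
        exact mul_smul _ _ _ }
  have hρ : ∀ (h : D) (v : Additive F), ρ h v = conjV h v := fun _ _ => rfl
  have hfree : ∀ (x : D) (v : Additive F), v ≠ 0 → ρ x v = v → x = 1 := by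
    intro x v hv h4
    have h5 : x.1 • pt v = pt v := by
      rw [← hconjpt, ← hρ, h4]
    have h6 : pt v ≠ b := by
      intro h7
      apply hv
      apply hptinj
      rw [h7, hpt0]
    apply Subtype.ext
    exact h3 x.1 a b (pt v) hab h6.symm (hptne v).symm x.2.1 x.2.2 h5
  have hp0 : ∀ v : Additive F, p • v = 0 := by
    intro v
    apply Additive.toMul.injective
    apply Subtype.ext
    show (Additive.toMul v).1 ^ p = 1
    exact hFp _ (Additive.toMul v).2
  have hVne : Nontrivial (Additive F) := by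
    rw [← Finite.one_lt_card_iff_nontrivial, hcV]
    exact Nat.one_lt_pow hf hp.one_lt
  obtain ⟨v₀, hv₀⟩ := exists_ne (0 : Additive F)
  letI hDC : CommGroup D := { (inferInstance : Group D) with
    mul_comm := fun x y => Subtype.ext (hDcomm x.1 x.2 y.1 y.2) }
  obtain ⟨β, ι, hβadd, hβ1, hβρ, hιsq, hιsurj⟩ := field_of_half p f hp2 hf hp0 hcV ρ hfree hq v₀ hv₀
  have hιval : ∀ x : D, β (ρ x v₀) = ι x := by
    intro x
    rw [hβρ, hβ1, mul_one]
  have hιmul : ∀ x y : D, ι (x * y) = ι x * ι y := by
    intro x y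
    rw [← hιval, map_mul]
    show β (ρ x (ρ y v₀)) = _
    rw [hβρ, hιval]
  have hιone : ι 1 = 1 := by
    rw [← hιval, map_one]
    exact hβ1
  let ιh : D →* GaloisField p f :=
    { toFun := ι
      map_one' := hιone
      map_mul' := hιmul }
  have hιinj : Function.Injective ιh := by
    intro x y hxy
    have h4 : ι x = ι y := hxy
    rw [← hιval, ← hιval] at h4
    have h5 := β.injective h4
    have h6 : ρ (y⁻¹ * x) v₀ = v₀ := by
      rw [map_mul]
      show ρ y⁻¹ (ρ x v₀) = v₀
      rw [h5]
      show (ρ y⁻¹ * ρ y) v₀ = v₀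
      rw [← map_mul, inv_mul_cancel, map_one]
      rfl
    have h7 := hfree _ v₀ hv₀ h6
    exact (inv_mul_eq_one.1 h7).symm
  have hcyc : IsCyclic D := isCyclic_of_injective_ringHom ιh hιinj
  refine ⟨hcyc, s₀, ?_, hs01, hs02, hDinv⟩
  apply orderOf_eq_prime
  · rw [pow_two]; exact hs0s0
  · rintro rfl
    rw [one_smul] at hs01
    exact hab hs01

end Cfsg.Agent.H03.ZS
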